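import Cfsg.Agent.Lib.H35.TCMHeD.Chk
set_option autoImplicit false
set_option maxRecDepth 100000
set_option linter.all false
namespace H35.TCMHeD
open H35.TC
section
variable {G : Type} [Group G] {g : Lt → G} {H : Subgroup G}
/-- hypotheses -/
abbrev Hy (g : Lt → G) (H : Subgroup G) : Prop := (∀ x, g (inv x) = (g x)⁻¹) ∧ (∀ r ∈ rels, (r.map g).prod = 1) ∧ ∀ r ∈ subs, (r.map g).prod ∈ H
theorem hM0 : 0 < M := by decide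
theorem hat {r W : List Lt} {x : Lt} (hr : (r.map g).prod = 1) (k : ℕ) (h : r.drop k ++ r.take k = W ++ [x]) (z : G ⧸ H) : fa g x (act (fa g) W z) = z := hole_at hr k h z
theorem pat (hy : Hy g H) {r W1 W2 : List Lt} (hr : (r.map g).prod = 1) (k : ℕ) (h : r.drop k ++ r.take k = W1 ++ (W2.map inv).reverse) (z : G ⧸ H) : act (fa g) W1 z = act (fa g) W2 z := pair_at hy.1 hr k h z
theorem ivt (hy : Hy g H) (x x' : Lt) (hx : inv x = x') (z : G ⧸ H) : fa g x (fa g x' z) = z := inv_rel hy.1 x x' hx z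
theorem rf_0 (hy : Hy g H) : (([.b, .b] : List Lt).map g).prod = 1 := hy.2.1 _ (by decide +kernel)
theorem rb_0 (hy : Hy g H) : (([.b, .b] : List Lt).map g).prod = 1 := inv_at hy.1 (rf_0 hy)
theorem rf_1 (hy : Hy g H) : (([.d, .d] : List Lt).map g).prod = 1 := hy.2.1 _ (by decide +kernel)
theorem rb_1 (hy : Hy g H) : (([.d, .d] : List Lt).map g).prod = 1 := inv_at hy.1 (rf_1 hy)
theorem rf_2 (hy : Hy g H) : (([.d, .c, .ai, .ci, .ci, .d, .c, .c, .a, .ci] : List Lt).map g).prod = 1 := hy.2.1 _ (by decide +kernel)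
theorem rb_2 (hy : Hy g H) : (([.c, .ai, .ci, .ci, .d, .c, .c, .a, .ci, .d] : List Lt).map g).prod = 1 := inv_at hy.1 (rf_2 hy)
theorem rf_3 (hy : Hy g H) : (([.a, .c, .d, .ci, .ai, .d, .a, .c, .d, .ci, .ai, .d] : List Lt).map g).prod = 1 := hy.2.1 _ (by decide +kernel)
theorem rb_3 (hy : Hy g H) : (([.d, .a, .c, .d, .ci, .ai, .d, .a, .c, .d, .ci, .ai] : List Lt).map g).prod = 1 := inv_at hy.1 (rf_3 hy)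
theorem rf_4 (hy : Hy g H) : (([.b, .c, .ai, .c, .c, .d, .ci, .ci, .a, .ci, .b, .d] : List Lt).map g).prod = 1 := hy.2.1 _ (by decide +kernel)
theorem rb_4 (hy : Hy g H) : (([.d, .b, .c, .ai, .c, .c, .d, .ci, .ci, .a, .ci, .b] : List Lt).map g).prod = 1 := inv_at hy.1 (rf_4 hy)
theorem rf_5 (hy : Hy g H) : (([.d, .b, .d, .b, .d, .c, .c, .a, .c, .a, .ci, .b] : List Lt).map g).prod = 1 := hy.2.1 _ (by decide +kernel)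
theorem rb_5 (hy : Hy g H) : (([.b, .c, .ai, .ci, .ai, .ci, .ci, .d, .b, .d, .b, .d] : List Lt).map g).prod = 1 := inv_at hy.1 (rf_5 hy)
theorem rf_6 (hy : Hy g H) : (([.d, .a, .ci, .b, .c, .ai, .d, .c, .a, .ci, .b, .c, .ai, .c] : List Lt).map g).prod = 1 := hy.2.1 _ (by decide +kernel)
theorem rb_6 (hy : Hy g H) : (([.ci, .a, .ci, .b, .c, .ai, .ci, .d, .a, .ci, .b, .c, .ai, .d] : List Lt).map g).prod = 1 := inv_at hy.1 (rf_6 hy)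
theorem rf_7 (hy : Hy g H) : (([.a, .a, .b, .ai, .b, .ai, .b, .a, .b, .ci, .b, .c, .b, .c] : List Lt).map g).prod = 1 := hy.2.1 _ (by decide +kernel)
theorem rb_7 (hy : Hy g H) : (([.ci, .b, .ci, .b, .c, .b, .ai, .b, .a, .b, .a, .b, .ai, .ai] : List Lt).map g).prod = 1 := inv_at hy.1 (rf_7 hy)
theorem rf_8 (hy : Hy g H) : (([.a, .a, .a, .a, .b, .a, .b, .ai, .ci, .b, .ci, .b, .c, .a, .b] : List Lt).map g).prod = 1 := hy.2.1 _ (by decide +kernel)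
theorem rb_8 (hy : Hy g H) : (([.b, .ai, .ci, .b, .c, .b, .c, .a, .b, .ai, .b, .ai, .ai, .ai, .ai] : List Lt).map g).prod = 1 := inv_at hy.1 (rf_8 hy)
theorem rf_9 (hy : Hy g H) : (([.a, .a, .b, .a, .b, .ai, .b, .ci, .ci, .b, .c, .c, .b, .ai, .b] : List Lt).map g).prod = 1 := hy.2.1 _ (by decide +kernel)
theorem rb_9 (hy : Hy g H) : (([.b, .a, .b, .ci, .ci, .b, .c, .c, .b, .a, .b, .ai, .b, .ai, .ai] : List Lt).map g).prod = 1 := inv_at hy.1 (rf_9 hy)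
theorem rf_10 (hy : Hy g H) : (([.a, .a, .b, .a, .b, .a, .c, .ai, .ai, .b, .c, .b, .a, .a, .ci] : List Lt).map g).prod = 1 := hy.2.1 _ (by decide +kernel)
theorem rb_10 (hy : Hy g H) : (([.c, .ai, .ai, .b, .ci, .b, .a, .a, .ci, .ai, .b, .ai, .b, .ai, .ai] : List Lt).map g).prod = 1 := inv_at hy.1 (rf_10 hy)
theorem rf_11 (hy : Hy g H) : (([.d, .ci, .ci, .b, .c, .c, .d, .a, .c, .a, .ci, .b, .c, .ai, .ci, .ai] : List Lt).map g).prod = 1 := hy.2.1 _ (by decide +kernel)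
theorem rb_11 (hy : Hy g H) : (([.a, .c, .a, .ci, .b, .c, .ai, .ci, .ai, .d, .ci, .ci, .b, .c, .c, .d] : List Lt).map g).prod = 1 := inv_at hy.1 (rf_11 hy)
theorem rf_12 (hy : Hy g H) : (([.a, .a, .b, .ai, .c, .c, .a, .ci, .ai, .ci, .ci, .b, .ai, .b, .a, .b] : List Lt).map g).prod = 1 := hy.2.1 _ (by decide +kernel)
theorem rb_12 (hy : Hy g H) : (([.b, .ai, .b, .a, .b, .c, .c, .a, .c, .ai, .ci, .ci, .a, .b, .ai, .ai] : List Lt).map g).prod = 1 := inv_at hy.1 (rf_12 hy)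
theorem rf_13 (hy : Hy g H) : (([.a, .a, .a, .ci, .b, .a, .ci, .b, .c, .ai, .b, .c, .ai, .ai, .ai, .b] : List Lt).map g).prod = 1 := hy.2.1 _ (by decide +kernel)
theorem rb_13 (hy : Hy g H) : (([.b, .a, .a, .a, .ci, .b, .a, .ci, .b, .c, .ai, .b, .c, .ai, .ai, .ai] : List Lt).map g).prod = 1 := inv_at hy.1 (rf_13 hy)
theorem rf_14 (hy : Hy g H) : (([.a, .a, .b, .a, .b, .ai, .ai, .b, .a, .a, .b, .a, .b, .ai, .ai, .b] : List Lt).map g).prod = 1 := hy.2.1 _ (by decide +kernel)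
theorem rb_14 (hy : Hy g H) : (([.b, .a, .a, .b, .ai, .b, .ai, .ai, .b, .a, .a, .b, .ai, .b, .ai, .ai] : List Lt).map g).prod = 1 := inv_at hy.1 (rf_14 hy)
theorem rf_15 (hy : Hy g H) : (([.d, .a, .a, .d, .b, .d, .ai, .ai, .d, .c, .a, .a, .b, .ai, .c, .a, .ci] : List Lt).map g).prod = 1 := hy.2.1 _ (by decide +kernel)
theorem rb_15 (hy : Hy g H) : (([.c, .ai, .ci, .a, .b, .ai, .ai, .ci, .d, .a, .a, .d, .b, .d, .ai, .ai, .d] : List Lt).map g).prod = 1 := inv_at hy.1 (rf_15 hy)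
theorem rf_16 (hy : Hy g H) : (([.c, .c, .c, .c, .c, .c, .c, .c, .c, .c, .c, .c, .c, .c, .c, .c, .c] : List Lt).map g).prod = 1 := hy.2.1 _ (by decide +kernel)
theorem rb_16 (hy : Hy g H) : (([.ci, .ci, .ci, .ci, .ci, .ci, .ci, .ci, .ci, .ci, .ci, .ci, .ci, .ci, .ci, .ci, .ci] : List Lt).map g).prod = 1 := inv_at hy.1 (rf_16 hy)
theorem rf_17 (hy : Hy g H) : (([.a, .a, .a, .ci, .b, .ci, .b, .c, .ai, .ai, .b, .a, .b, .ai, .b, .ai, .b] : List Lt).map g).prod = 1 := hy.2.1 _ (by decide +kernel)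
theorem rb_17 (hy : Hy g H) : (([.b, .a, .b, .a, .b, .ai, .b, .a, .a, .ci, .b, .c, .b, .c, .ai, .ai, .ai] : List Lt).map g).prod = 1 := inv_at hy.1 (rf_17 hy)
theorem rf_18 (hy : Hy g H) : (([.a, .a, .a, .a, .a, .a, .a, .a, .ci, .b, .ci, .ci, .b, .c, .ai, .ai, .b] : List Lt).map g).prod = 1 := hy.2.1 _ (by decide +kernel)
theorem rb_18 (hy : Hy g H) : (([.b, .a, .a, .ci, .b, .c, .c, .b, .c, .ai, .ai, .ai, .ai, .ai, .ai, .ai, .ai] : List Lt).map g).prod = 1 := inv_at hy.1 (rf_18 hy)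
theorem rf_19 (hy : Hy g H) : (([.d, .a, .ci, .b, .c, .ai, .d, .c, .a, .a, .b, .a, .a, .a, .ci, .ci, .ai, .ci] : List Lt).map g).prod = 1 := hy.2.1 _ (by decide +kernel)
theorem rb_19 (hy : Hy g H) : (([.c, .a, .c, .c, .ai, .ai, .ai, .b, .ai, .ai, .ci, .d, .a, .ci, .b, .c, .ai, .d] : List Lt).map g).prod = 1 := inv_at hy.1 (rf_19 hy)
theorem rf_20 (hy : Hy g H) : (([.a, .a, .b, .ai, .b, .ai, .b, .a, .a, .b, .ai, .b, .ci, .b, .c, .b, .c, .b] : List Lt).map g).prod = 1 := hy.2.1 _ (by decide +kernel)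
theorem rb_20 (hy : Hy g H) : (([.b, .ci, .b, .ci, .b, .c, .b, .a, .b, .ai, .ai, .b, .a, .b, .a, .b, .ai, .ai] : List Lt).map g).prod = 1 := inv_at hy.1 (rf_20 hy)
theorem rf_21 (hy : Hy g H) : (([.a, .a, .a, .a, .b, .ai, .b, .a, .b, .ai, .ai, .ai, .ai, .b, .a, .b, .ai, .b] : List Lt).map g).prod = 1 := hy.2.1 _ (by decide +kernel)
theorem rb_21 (hy : Hy g H) : (([.b, .a, .b, .ai, .b, .a, .a, .a, .a, .b, .ai, .b, .a, .b, .ai, .ai, .ai, .ai] : List Lt).map g).prod = 1 := inv_at hy.1 (rf_21 hy)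
theorem rf_22 (hy : Hy g H) : (([.a, .ai] : List Lt).map g).prod = 1 := hy.2.1 _ (by decide +kernel)
theorem rb_22 (hy : Hy g H) : (([.a, .ai] : List Lt).map g).prod = 1 := inv_at hy.1 (rf_22 hy)
theorem rf_23 (hy : Hy g H) : (([.ai, .a] : List Lt).map g).prod = 1 := hy.2.1 _ (by decide +kernel)
theorem rb_23 (hy : Hy g H) : (([.ai, .a] : List Lt).map g).prod = 1 := inv_at hy.1 (rf_23 hy)
theorem rf_24 (hy : Hy g H) : (([.c, .ci] : List Lt).map g).prod = 1 := hy.2.1 _ (by decide +kernel)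
theorem rb_24 (hy : Hy g H) : (([.c, .ci] : List Lt).map g).prod = 1 := inv_at hy.1 (rf_24 hy)
theorem rf_25 (hy : Hy g H) : (([.ci, .c] : List Lt).map g).prod = 1 := hy.2.1 _ (by decide +kernel)
theorem rb_25 (hy : Hy g H) : (([.ci, .c] : List Lt).map g).prod = 1 := inv_at hy.1 (rf_25 hy)
/-- the points of the nodes -/
noncomputable def cP (g : Lt → G) (H : Subgroup G) : ℕ → G ⧸ H := cc (fa g) lt P ((1 : G) : G ⧸ H)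
/-- soundness of an entry -/
abbrev Gd (g : Lt → G) (H : Subgroup G) (x : Lt) (u : ℕ) : Prop := Good (fa g) T MG M (cP g H) x u
/-- soundness of a merge -/
abbrev GdM (g : Lt → G) (H : Subgroup G) (u : ℕ) : Prop := GoodM (fa g) T MG M (cP g H) u
theorem dp_a_0_s (hy : Hy g H)
    (j u : ℕ) (hu : u < M) (h : dp_a_0 j u = true) : Gd g H Lt.a u := by
  unfold dp_a_0 at h
  rcases brec_true h with h | h
  · exact lF1_good (T := T) (x := Lt.a) hM0 .ai (hat (rf_22 hy) 1 rfl) h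
  · exact lS_good (T := T) (x := Lt.a) hM0 hu [Lt.ci, Lt.d, Lt.c, Lt.ai, Lt.ci, Lt.ci, Lt.d, Lt.c, Lt.c] (hat (rf_2 hy) 9 rfl) h
theorem dp_a_1_s (hy : Hy g H)
    (j u : ℕ) (hu : u < M) (h : dp_a_1 j u = true) : Gd g H Lt.a u := by
  unfold dp_a_1 at h
  rcases brec_true h with h | h
  · exact lS_good (T := T) (x := Lt.a) hM0 hu [Lt.d, Lt.b, Lt.d, Lt.ai, Lt.ai, Lt.d, Lt.c, Lt.a, Lt.a, Lt.b, Lt.ai, Lt.c, Lt.a, Lt.ci, Lt.d, Lt.a] (hat (rf_15 hy) 3 rfl) h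
  · exact lS_good (T := T) (x := Lt.a) hM0 hu [Lt.c, Lt.d, Lt.ci, Lt.ai, Lt.d, Lt.a, Lt.c, Lt.d, Lt.ci, Lt.ai, Lt.d] (hat (rf_3 hy) 1 rfl) h
theorem dp_a_2_s (hy : Hy g H)
    (j u : ℕ) (hu : u < M) (h : dp_a_2 j u = true) : Gd g H Lt.a u := by
  unfold dp_a_2 at h
  rcases brec_true h with h | h
  · exact lS_good (T := T) (x := Lt.a) hM0 hu [Lt.ci, Lt.b, Lt.d, Lt.b, Lt.c, Lt.ai, Lt.c, Lt.c, Lt.d, Lt.ci, Lt.ci] (hat (rf_4 hy) 9 rfl) h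
  · exact lS_good (T := T) (x := Lt.a) hM0 hu [Lt.a, Lt.d, Lt.b, Lt.d, Lt.ai, Lt.ai, Lt.d, Lt.c, Lt.a, Lt.a, Lt.b, Lt.ai, Lt.c, Lt.a, Lt.ci, Lt.d] (hat (rf_15 hy) 2 rfl) h
theorem dp_a_3_s (hy : Hy g H)
    (j u : ℕ) (hu : u < M) (h : dp_a_3 j u = true) : Gd g H Lt.a u := by
  unfold dp_a_3 at h
  rcases brec_true h with h | h
  · exact lS_good (T := T) (x := Lt.a) hM0 hu [Lt.d, Lt.b, Lt.d, Lt.ai, Lt.ai, Lt.d, Lt.c, Lt.ai, Lt.ci, Lt.a, Lt.b, Lt.ai, Lt.ai, Lt.ci, Lt.d, Lt.a] (hat (rb_15 hy) 11 rfl) h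
  · exact lS_good (T := T) (x := Lt.a) hM0 hu [Lt.b, Lt.ai, Lt.b, Lt.ai, Lt.b, Lt.a, Lt.b, Lt.ci, Lt.b, Lt.c, Lt.b, Lt.c, Lt.a] (hat (rf_7 hy) 2 rfl) h
theorem dp_a_4_s (hy : Hy g H)
    (j u : ℕ) (hu : u < M) (h : dp_a_4 j u = true) : Gd g H Lt.a u := by
  unfold dp_a_4 at h
  rcases brec_true h with h | h
  · exact lS_good (T := T) (x := Lt.a) hM0 hu [Lt.a, Lt.b, Lt.ai, Lt.b, Lt.ai, Lt.b, Lt.a, Lt.b, Lt.ci, Lt.b, Lt.c, Lt.b, Lt.c] (hat (rf_7 hy) 1 rfl) h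
  · exact dp_a_3_s hy j u hu h
theorem dp_a_5_s (hy : Hy g H)
    (j u : ℕ) (hu : u < M) (h : dp_a_5 j u = true) : Gd g H Lt.a u := by
  unfold dp_a_5 at h
  rcases brec_true h with h | h
  · exact dp_a_2_s hy j u hu h
  · exact dp_a_4_s hy j u hu h
theorem dp_a_6_s (hy : Hy g H)
    (j u : ℕ) (hu : u < M) (h : dp_a_6 j u = true) : Gd g H Lt.a u := by
  unfold dp_a_6 at h
  rcases brec_true h with h | h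
  · exact dp_a_1_s hy j u hu h
  · exact dp_a_5_s hy j u hu h
theorem dp_a_7_s (hy : Hy g H)
    (j u : ℕ) (hu : u < M) (h : dp_a_7 j u = true) : Gd g H Lt.a u := by
  unfold dp_a_7 at h
  rcases brec_true h with h | h
  · exact lS_good (T := T) (x := Lt.a) hM0 hu [Lt.b, Lt.a, Lt.b, Lt.ai, Lt.ai, Lt.ci, Lt.b, Lt.ci, Lt.b, Lt.c, Lt.b, Lt.ai, Lt.b] (hat (rb_7 hy) 9 rfl) h
  · exact lS_good (T := T) (x := Lt.a) hM0 hu [Lt.ci, Lt.ai, Lt.b, Lt.ai, Lt.b, Lt.ai, Lt.ai, Lt.c, Lt.ai, Lt.ai, Lt.b, Lt.ci, Lt.b, Lt.a] (hat (rb_10 hy) 8 rfl) h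
theorem dp_a_8_s (hy : Hy g H)
    (j u : ℕ) (hu : u < M) (h : dp_a_8 j u = true) : Gd g H Lt.a u := by
  unfold dp_a_8 at h
  rcases brec_true h with h | h
  · exact lS_good (T := T) (x := Lt.a) hM0 hu [Lt.c, Lt.a, Lt.ci, Lt.b, Lt.d, Lt.b, Lt.d, Lt.b, Lt.d, Lt.c, Lt.c] (hat (rf_5 hy) 8 rfl) h
  · exact lS_good (T := T) (x := Lt.a) hM0 hu [Lt.b, Lt.ci, Lt.b, Lt.c, Lt.b, Lt.c, Lt.a, Lt.a, Lt.b, Lt.ai, Lt.b, Lt.ai, Lt.b] (hat (rf_7 hy) 8 rfl) h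
theorem dp_a_9_s (hy : Hy g H)
    (j u : ℕ) (hu : u < M) (h : dp_a_9 j u = true) : Gd g H Lt.a u := by
  unfold dp_a_9 at h
  rcases brec_true h with h | h
  · exact lS_good (T := T) (x := Lt.a) hM0 hu [Lt.b, Lt.ai, Lt.ai, Lt.ci, Lt.b, Lt.ci, Lt.b, Lt.c, Lt.b, Lt.ai, Lt.b, Lt.a, Lt.b] (hat (rb_7 hy) 11 rfl) h
  · exact dp_a_8_s hy j u hu h
theorem dp_a_10_s (hy : Hy g H)
    (j u : ℕ) (hu : u < M) (h : dp_a_10 j u = true) : Gd g H Lt.a u := by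
  unfold dp_a_10 at h
  rcases brec_true h with h | h
  · exact dp_a_7_s hy j u hu h
  · exact dp_a_9_s hy j u hu h
theorem dp_a_11_s (hy : Hy g H)
    (j u : ℕ) (hu : u < M) (h : dp_a_11 j u = true) : Gd g H Lt.a u := by
  unfold dp_a_11 at h
  rcases brec_true h with h | h
  · exact lS_good (T := T) (x := Lt.a) hM0 hu [Lt.a, Lt.d, Lt.b, Lt.d, Lt.ai, Lt.ai, Lt.d, Lt.c, Lt.ai, Lt.ci, Lt.a, Lt.b, Lt.ai, Lt.ai, Lt.ci, Lt.d] (hat (rb_15 hy) 10 rfl) h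
  · exact lS_good (T := T) (x := Lt.a) hM0 hu [Lt.ci, Lt.b, Lt.d, Lt.b, Lt.d, Lt.b, Lt.d, Lt.c, Lt.c, Lt.a, Lt.c] (hat (rf_5 hy) 10 rfl) h
theorem dp_a_12_s (hy : Hy g H)
    (j u : ℕ) (hu : u < M) (h : dp_a_12 j u = true) : Gd g H Lt.a u := by
  unfold dp_a_12 at h
  rcases brec_true h with h | h
  · exact lS_good (T := T) (x := Lt.a) hM0 hu [Lt.ci, Lt.a, Lt.a, Lt.b, Lt.a, Lt.b, Lt.a, Lt.c, Lt.ai, Lt.ai, Lt.b, Lt.c, Lt.b, Lt.a] (hat (rf_10 hy) 14 rfl) h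
  · exact lS_good (T := T) (x := Lt.a) hM0 hu [Lt.a, Lt.ci, Lt.ai, Lt.b, Lt.ai, Lt.b, Lt.ai, Lt.ai, Lt.c, Lt.ai, Lt.ai, Lt.b, Lt.ci, Lt.b] (hat (rb_10 hy) 7 rfl) h
theorem dp_a_13_s (hy : Hy g H)
    (j u : ℕ) (hu : u < M) (h : dp_a_13 j u = true) : Gd g H Lt.a u := by
  unfold dp_a_13 at h
  rcases brec_true h with h | h
  · exact lS_good (T := T) (x := Lt.a) hM0 hu [Lt.a, Lt.a, Lt.b, Lt.a, Lt.b, Lt.ai, Lt.ci, Lt.b, Lt.ci, Lt.b, Lt.c, Lt.a, Lt.b, Lt.a] (hat (rf_8 hy) 2 rfl) h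
  · exact lS_good (T := T) (x := Lt.a) hM0 hu [Lt.a, Lt.ci, Lt.a, Lt.a, Lt.b, Lt.a, Lt.b, Lt.a, Lt.c, Lt.ai, Lt.ai, Lt.b, Lt.c, Lt.b] (hat (rf_10 hy) 13 rfl) h
theorem dp_a_14_s (hy : Hy g H)
    (j u : ℕ) (hu : u < M) (h : dp_a_14 j u = true) : Gd g H Lt.a u := by
  unfold dp_a_14 at h
  rcases brec_true h with h | h
  · exact dp_a_12_s hy j u hu h
  · exact dp_a_13_s hy j u hu h
theorem dp_a_15_s (hy : Hy g H)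
    (j u : ℕ) (hu : u < M) (h : dp_a_15 j u = true) : Gd g H Lt.a u := by
  unfold dp_a_15 at h
  rcases brec_true h with h | h
  · exact dp_a_11_s hy j u hu h
  · exact dp_a_14_s hy j u hu h
theorem dp_a_16_s (hy : Hy g H)
    (j u : ℕ) (hu : u < M) (h : dp_a_16 j u = true) : Gd g H Lt.a u := by
  unfold dp_a_16 at h
  rcases brec_true h with h | h
  · exact dp_a_10_s hy j u hu h
  · exact dp_a_15_s hy j u hu h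
theorem dp_a_17_s (hy : Hy g H)
    (j u : ℕ) (hu : u < M) (h : dp_a_17 j u = true) : Gd g H Lt.a u := by
  unfold dp_a_17 at h
  rcases brec_true h with h | h
  · exact lF_good (T := T) (x := Lt.a) hM0 [Lt.ci, Lt.b, Lt.d, Lt.b, Lt.c, Lt.ai, Lt.c, Lt.c, Lt.d, Lt.ci, Lt.ci] (hat (rf_4 hy) 9 rfl) h
  · exact lS_good (T := T) (x := Lt.a) hM0 hu [Lt.c, Lt.ai, Lt.ai, Lt.b, Lt.c, Lt.b, Lt.a, Lt.a, Lt.ci, Lt.a, Lt.a, Lt.b, Lt.a, Lt.b] (hat (rf_10 hy) 6 rfl) h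
theorem dp_a_18_s (hy : Hy g H)
    (j u : ℕ) (hu : u < M) (h : dp_a_18 j u = true) : Gd g H Lt.a u := by
  unfold dp_a_18 at h
  rcases brec_true h with h | h
  · exact lS_good (T := T) (x := Lt.a) hM0 hu [Lt.a, Lt.b, Lt.a, Lt.b, Lt.ai, Lt.b, Lt.ci, Lt.ci, Lt.b, Lt.c, Lt.c, Lt.b, Lt.ai, Lt.b] (hat (rf_9 hy) 1 rfl) h
  · exact dp_a_17_s hy j u hu h
theorem dp_a_19_s (hy : Hy g H)
    (j u : ℕ) (hu : u < M) (h : dp_a_19 j u = true) : Gd g H Lt.a u := by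
  unfold dp_a_19 at h
  rcases brec_true h with h | h
  · exact lS_good (T := T) (x := Lt.a) hM0 hu [Lt.a, Lt.a, Lt.a, Lt.b, Lt.a, Lt.b, Lt.ai, Lt.ci, Lt.b, Lt.ci, Lt.b, Lt.c, Lt.a, Lt.b] (hat (rf_8 hy) 1 rfl) h
  · exact lS_good (T := T) (x := Lt.a) hM0 hu [Lt.b, Lt.a, Lt.b, Lt.ai, Lt.ci, Lt.b, Lt.ci, Lt.b, Lt.c, Lt.a, Lt.b, Lt.a, Lt.a, Lt.a] (hat (rf_8 hy) 4 rfl) h
theorem dp_a_20_s (hy : Hy g H)
    (j u : ℕ) (hu : u < M) (h : dp_a_20 j u = true) : Gd g H Lt.a u := by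
  unfold dp_a_20 at h
  rcases brec_true h with h | h
  · exact lS_good (T := T) (x := Lt.a) hM0 hu [Lt.a, Lt.b, Lt.a, Lt.b, Lt.ai, Lt.ci, Lt.b, Lt.ci, Lt.b, Lt.c, Lt.a, Lt.b, Lt.a, Lt.a] (hat (rf_8 hy) 3 rfl) h
  · exact dp_a_19_s hy j u hu h
theorem dp_a_21_s (hy : Hy g H)
    (j u : ℕ) (hu : u < M) (h : dp_a_21 j u = true) : Gd g H Lt.a u := by
  unfold dp_a_21 at h
  rcases brec_true h with h | h
  · exact dp_a_18_s hy j u hu h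
  · exact dp_a_20_s hy j u hu h
theorem dp_a_22_s (hy : Hy g H)
    (j u : ℕ) (hu : u < M) (h : dp_a_22 j u = true) : Gd g H Lt.a u := by
  unfold dp_a_22 at h
  rcases brec_true h with h | h
  · exact lF_good (T := T) (x := Lt.a) hM0 [Lt.c, Lt.a, Lt.ci, Lt.b, Lt.d, Lt.b, Lt.d, Lt.b, Lt.d, Lt.c, Lt.c] (hat (rf_5 hy) 8 rfl) h
  · exact lF_good (T := T) (x := Lt.a) hM0 [Lt.ci, Lt.b, Lt.d, Lt.b, Lt.d, Lt.b, Lt.d, Lt.c, Lt.c, Lt.a, Lt.c] (hat (rf_5 hy) 10 rfl) h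
theorem dp_a_23_s (hy : Hy g H)
    (j u : ℕ) (hu : u < M) (h : dp_a_23 j u = true) : Gd g H Lt.a u := by
  unfold dp_a_23 at h
  rcases brec_true h with h | h
  · exact lS_good (T := T) (x := Lt.a) hM0 hu [Lt.b, Lt.a, Lt.a, Lt.a, Lt.a, Lt.b, Lt.a, Lt.b, Lt.ai, Lt.ci, Lt.b, Lt.ci, Lt.b, Lt.c] (hat (rf_8 hy) 14 rfl) h
  · exact lS_good (T := T) (x := Lt.a) hM0 hu [Lt.b, Lt.a, Lt.b, Lt.a, Lt.c, Lt.ai, Lt.ai, Lt.b, Lt.c, Lt.b, Lt.a, Lt.a, Lt.ci, Lt.a] (hat (rf_10 hy) 2 rfl) h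
theorem dp_a_24_s (hy : Hy g H)
    (j u : ℕ) (hu : u < M) (h : dp_a_24 j u = true) : Gd g H Lt.a u := by
  unfold dp_a_24 at h
  rcases brec_true h with h | h
  · exact dp_a_22_s hy j u hu h
  · exact dp_a_23_s hy j u hu h
theorem dp_a_25_s (hy : Hy g H)
    (j u : ℕ) (hu : u < M) (h : dp_a_25 j u = true) : Gd g H Lt.a u := by
  unfold dp_a_25 at h
  rcases brec_true h with h | h
  · exact lS_good (T := T) (x := Lt.a) hM0 hu [Lt.b, Lt.a, Lt.c, Lt.ai, Lt.ai, Lt.b, Lt.c, Lt.b, Lt.a, Lt.a, Lt.ci, Lt.a, Lt.a, Lt.b] (hat (rf_10 hy) 4 rfl) h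
  · exact lS_good (T := T) (x := Lt.a) hM0 hu [Lt.ci, Lt.b, Lt.c, Lt.ai, Lt.c, Lt.d, Lt.a, Lt.ci, Lt.b, Lt.c, Lt.ai, Lt.d, Lt.c] (hat (rf_6 hy) 9 rfl) h
theorem dp_a_26_s (hy : Hy g H)
    (j u : ℕ) (hu : u < M) (h : dp_a_26 j u = true) : Gd g H Lt.a u := by
  unfold dp_a_26 at h
  rcases brec_true h with h | h
  · exact lS_good (T := T) (x := Lt.a) hM0 hu [Lt.ci, Lt.b, Lt.c, Lt.ai, Lt.d, Lt.c, Lt.a, Lt.ci, Lt.b, Lt.c, Lt.ai, Lt.c, Lt.d] (hat (rf_6 hy) 2 rfl) h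
  · exact lS_good (T := T) (x := Lt.a) hM0 hu [Lt.b, Lt.ai, Lt.ci, Lt.b, Lt.ci, Lt.b, Lt.c, Lt.a, Lt.b, Lt.a, Lt.a, Lt.a, Lt.a, Lt.b] (hat (rf_8 hy) 6 rfl) h
theorem dp_a_27_s (hy : Hy g H)
    (j u : ℕ) (hu : u < M) (h : dp_a_27 j u = true) : Gd g H Lt.a u := by
  unfold dp_a_27 at h
  rcases brec_true h with h | h
  · exact lF_good (T := T) (x := Lt.a) hM0 [Lt.a, Lt.ci, Lt.ci, Lt.ai, Lt.ci, Lt.d, Lt.a, Lt.ci, Lt.b, Lt.c, Lt.ai, Lt.d, Lt.c, Lt.a, Lt.a, Lt.b, Lt.a] (hat (rf_19 hy) 13 rfl) h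
  · exact dp_a_26_s hy j u hu h
theorem dp_a_28_s (hy : Hy g H)
    (j u : ℕ) (hu : u < M) (h : dp_a_28 j u = true) : Gd g H Lt.a u := by
  unfold dp_a_28 at h
  rcases brec_true h with h | h
  · exact dp_a_25_s hy j u hu h
  · exact dp_a_27_s hy j u hu h
theorem dp_a_29_s (hy : Hy g H)
    (j u : ℕ) (hu : u < M) (h : dp_a_29 j u = true) : Gd g H Lt.a u := by
  unfold dp_a_29 at h
  rcases brec_true h with h | h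
  · exact dp_a_24_s hy j u hu h
  · exact dp_a_28_s hy j u hu h
theorem dp_a_30_s (hy : Hy g H)
    (j u : ℕ) (hu : u < M) (h : dp_a_30 j u = true) : Gd g H Lt.a u := by
  unfold dp_a_30 at h
  rcases brec_true h with h | h
  · exact dp_a_21_s hy j u hu h
  · exact dp_a_29_s hy j u hu h
theorem dp_a_31_s (hy : Hy g H)
    (j u : ℕ) (hu : u < M) (h : dp_a_31 j u = true) : Gd g H Lt.a u := by
  unfold dp_a_31 at h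
  rcases brec_true h with h | h
  · exact lS_good (T := T) (x := Lt.a) hM0 hu [Lt.b, Lt.ai, Lt.b, Lt.ai, Lt.ai, Lt.ai, Lt.ai, Lt.b, Lt.ai, Lt.ci, Lt.b, Lt.c, Lt.b, Lt.c] (hat (rb_8 hy) 8 rfl) h
  · exact lF_good (T := T) (x := Lt.a) hM0 [Lt.b, Lt.ai, Lt.ci, Lt.b, Lt.ci, Lt.b, Lt.c, Lt.a, Lt.b, Lt.a, Lt.a, Lt.a, Lt.a, Lt.b] (hat (rf_8 hy) 6 rfl) h
theorem dp_a_32_s (hy : Hy g H)
    (j u : ℕ) (hu : u < M) (h : dp_a_32 j u = true) : Gd g H Lt.a u := by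
  unfold dp_a_32 at h
  rcases brec_true h with h | h
  · exact lF_good (T := T) (x := Lt.a) hM0 [Lt.b, Lt.ai, Lt.ai, Lt.ci, Lt.b, Lt.ci, Lt.b, Lt.c, Lt.b, Lt.ai, Lt.b, Lt.a, Lt.b] (hat (rb_7 hy) 11 rfl) h
  · exact dp_a_31_s hy j u hu h
theorem dp_a_33_s (hy : Hy g H)
    (j u : ℕ) (hu : u < M) (h : dp_a_33 j u = true) : Gd g H Lt.a u := by
  unfold dp_a_33 at h
  rcases brec_true h with h | h
  · exact lS_good (T := T) (x := Lt.a) hM0 hu [Lt.a, Lt.b, Lt.a, Lt.b, Lt.a, Lt.c, Lt.ai, Lt.ai, Lt.b, Lt.c, Lt.b, Lt.a, Lt.a, Lt.ci] (hat (rf_10 hy) 1 rfl) h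
  · exact lS_good (T := T) (x := Lt.a) hM0 hu [Lt.ci, Lt.b, Lt.c, Lt.ai, Lt.ci, Lt.d, Lt.a, Lt.ci, Lt.b, Lt.c, Lt.ai, Lt.d, Lt.ci] (hat (rb_6 hy) 2 rfl) h
theorem dp_a_34_s (hy : Hy g H)
    (j u : ℕ) (hu : u < M) (h : dp_a_34 j u = true) : Gd g H Lt.a u := by
  unfold dp_a_34 at h
  rcases brec_true h with h | h
  · exact lS_good (T := T) (x := Lt.a) hM0 hu [Lt.b, Lt.ci, Lt.ci, Lt.b, Lt.c, Lt.c, Lt.b, Lt.a, Lt.b, Lt.ai, Lt.b, Lt.ai, Lt.ai, Lt.b] (hat (rb_9 hy) 2 rfl) h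
  · exact lS_good (T := T) (x := Lt.a) hM0 hu [Lt.b, Lt.ai, Lt.b, Lt.ci, Lt.ci, Lt.b, Lt.c, Lt.c, Lt.b, Lt.ai, Lt.b, Lt.a, Lt.a, Lt.b] (hat (rf_9 hy) 4 rfl) h
theorem dp_a_35_s (hy : Hy g H)
    (j u : ℕ) (hu : u < M) (h : dp_a_35 j u = true) : Gd g H Lt.a u := by
  unfold dp_a_35 at h
  rcases brec_true h with h | h
  · exact dp_a_33_s hy j u hu h
  · exact dp_a_34_s hy j u hu h
theorem dp_a_36_s (hy : Hy g H)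
    (j u : ℕ) (hu : u < M) (h : dp_a_36 j u = true) : Gd g H Lt.a u := by
  unfold dp_a_36 at h
  rcases brec_true h with h | h
  · exact dp_a_32_s hy j u hu h
  · exact dp_a_35_s hy j u hu h
theorem dp_a_37_s (hy : Hy g H)
    (j u : ℕ) (hu : u < M) (h : dp_a_37 j u = true) : Gd g H Lt.a u := by
  unfold dp_a_37 at h
  rcases brec_true h with h | h
  · exact lS_good (T := T) (x := Lt.a) hM0 hu [Lt.b, Lt.ai, Lt.b, Lt.ai, Lt.ai, Lt.b, Lt.a, Lt.b, Lt.ci, Lt.ci, Lt.b, Lt.c, Lt.c, Lt.b] (hat (rb_9 hy) 10 rfl) h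
  · exact lF_good (T := T) (x := Lt.a) hM0 [Lt.c, Lt.d, Lt.ci, Lt.ai, Lt.d, Lt.a, Lt.c, Lt.d, Lt.ci, Lt.ai, Lt.d] (hat (rf_3 hy) 1 rfl) h
theorem dp_a_38_s (hy : Hy g H)
    (j u : ℕ) (hu : u < M) (h : dp_a_38 j u = true) : Gd g H Lt.a u := by
  unfold dp_a_38 at h
  rcases brec_true h with h | h
  · exact lF_good (T := T) (x := Lt.a) hM0 [Lt.a, Lt.a, Lt.ci, Lt.b, Lt.ci, Lt.ci, Lt.b, Lt.c, Lt.ai, Lt.ai, Lt.b, Lt.a, Lt.a, Lt.a, Lt.a, Lt.a] (hat (rf_18 hy) 6 rfl) h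
  · exact lS_good (T := T) (x := Lt.a) hM0 hu [Lt.b, Lt.ai, Lt.ai, Lt.ci, Lt.d, Lt.a, Lt.a, Lt.d, Lt.b, Lt.d, Lt.ai, Lt.ai, Lt.d, Lt.c, Lt.ai, Lt.ci] (hat (rb_15 hy) 4 rfl) h
theorem dp_a_39_s (hy : Hy g H)
    (j u : ℕ) (hu : u < M) (h : dp_a_39 j u = true) : Gd g H Lt.a u := by
  unfold dp_a_39 at h
  rcases brec_true h with h | h
  · exact lF_good (T := T) (x := Lt.a) hM0 [Lt.b, Lt.a, Lt.b, Lt.ai, Lt.b, Lt.ci, Lt.ci, Lt.b, Lt.c, Lt.c, Lt.b, Lt.ai, Lt.b, Lt.a] (hat (rf_9 hy) 2 rfl) h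
  · exact dp_a_38_s hy j u hu h
theorem dp_a_40_s (hy : Hy g H)
    (j u : ℕ) (hu : u < M) (h : dp_a_40 j u = true) : Gd g H Lt.a u := by
  unfold dp_a_40 at h
  rcases brec_true h with h | h
  · exact dp_a_37_s hy j u hu h
  · exact dp_a_39_s hy j u hu h
theorem dp_a_41_s (hy : Hy g H)
    (j u : ℕ) (hu : u < M) (h : dp_a_41 j u = true) : Gd g H Lt.a u := by
  unfold dp_a_41 at h
  rcases brec_true h with h | h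
  · exact lS_good (T := T) (x := Lt.a) hM0 hu [Lt.b, Lt.a, Lt.b, Lt.ai, Lt.b, Lt.ci, Lt.ci, Lt.b, Lt.c, Lt.c, Lt.b, Lt.ai, Lt.b, Lt.a] (hat (rf_9 hy) 2 rfl) h
  · exact lF_good (T := T) (x := Lt.a) hM0 [Lt.ci, Lt.ci, Lt.ai, Lt.ci, Lt.d, Lt.a, Lt.ci, Lt.b, Lt.c, Lt.ai, Lt.d, Lt.c, Lt.a, Lt.a, Lt.b, Lt.a, Lt.a] (hat (rf_19 hy) 14 rfl) h
theorem dp_a_42_s (hy : Hy g H)
    (j u : ℕ) (hu : u < M) (h : dp_a_42 j u = true) : Gd g H Lt.a u := by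
  unfold dp_a_42 at h
  rcases brec_true h with h | h
  · exact lS_good (T := T) (x := Lt.a) hM0 hu [Lt.ci, Lt.ai, Lt.ci, Lt.ci, Lt.b, Lt.ai, Lt.b, Lt.a, Lt.b, Lt.a, Lt.a, Lt.b, Lt.ai, Lt.c, Lt.c] (hat (rf_12 hy) 7 rfl) h
  · exact lF_good (T := T) (x := Lt.a) hM0 [Lt.b, Lt.ci, Lt.b, Lt.c, Lt.b, Lt.c, Lt.a, Lt.a, Lt.b, Lt.ai, Lt.b, Lt.ai, Lt.b] (hat (rf_7 hy) 8 rfl) h
theorem dp_a_43_s (hy : Hy g H)
    (j u : ℕ) (hu : u < M) (h : dp_a_43 j u = true) : Gd g H Lt.a u := by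
  unfold dp_a_43 at h
  rcases brec_true h with h | h
  · exact lF_good (T := T) (x := Lt.a) hM0 [Lt.b, Lt.ai, Lt.b, Lt.ai, Lt.ai, Lt.b, Lt.a, Lt.a, Lt.b, Lt.ai, Lt.b, Lt.ai, Lt.ai, Lt.b, Lt.a] (hat (rb_14 hy) 3 rfl) h
  · exact dp_a_42_s hy j u hu h
theorem dp_a_44_s (hy : Hy g H)
    (j u : ℕ) (hu : u < M) (h : dp_a_44 j u = true) : Gd g H Lt.a u := by
  unfold dp_a_44 at h
  rcases brec_true h with h | h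
  · exact dp_a_41_s hy j u hu h
  · exact dp_a_43_s hy j u hu h
theorem dp_a_45_s (hy : Hy g H)
    (j u : ℕ) (hu : u < M) (h : dp_a_45 j u = true) : Gd g H Lt.a u := by
  unfold dp_a_45 at h
  rcases brec_true h with h | h
  · exact dp_a_40_s hy j u hu h
  · exact dp_a_44_s hy j u hu h
theorem dp_a_46_s (hy : Hy g H)
    (j u : ℕ) (hu : u < M) (h : dp_a_46 j u = true) : Gd g H Lt.a u := by
  unfold dp_a_46 at h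
  rcases brec_true h with h | h
  · exact dp_a_36_s hy j u hu h
  · exact dp_a_45_s hy j u hu h
theorem dp_a_47_s (hy : Hy g H)
    (j u : ℕ) (hu : u < M) (h : dp_a_47 j u = true) : Gd g H Lt.a u := by
  unfold dp_a_47 at h
  rcases brec_true h with h | h
  · exact lF_good (T := T) (x := Lt.a) hM0 [Lt.ci, Lt.d, Lt.c, Lt.ai, Lt.ci, Lt.ci, Lt.d, Lt.c, Lt.c] (hat (rf_2 hy) 9 rfl) h
  · exact lF_good (T := T) (x := Lt.a) hM0 [Lt.b, Lt.a, Lt.b, Lt.ai, Lt.ai, Lt.ci, Lt.b, Lt.ci, Lt.b, Lt.c, Lt.b, Lt.ai, Lt.b] (hat (rb_7 hy) 9 rfl) h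
theorem dp_a_48_s (hy : Hy g H)
    (j u : ℕ) (hu : u < M) (h : dp_a_48 j u = true) : Gd g H Lt.a u := by
  unfold dp_a_48 at h
  rcases brec_true h with h | h
  · exact lS_good (T := T) (x := Lt.a) hM0 hu [Lt.a, Lt.b, Lt.ai, Lt.b, Lt.ai, Lt.ai, Lt.b, Lt.a, Lt.a, Lt.b, Lt.ai, Lt.b, Lt.ai, Lt.ai, Lt.b] (hat (rb_14 hy) 2 rfl) h
  · exact dp_a_47_s hy j u hu h
theorem dp_a_49_s (hy : Hy g H)
    (j u : ℕ) (hu : u < M) (h : dp_a_49 j u = true) : Gd g H Lt.a u := by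
  unfold dp_a_49 at h
  rcases brec_true h with h | h
  · exact lF_good (T := T) (x := Lt.a) hM0 [Lt.a, Lt.ci, Lt.a, Lt.a, Lt.b, Lt.a, Lt.b, Lt.a, Lt.c, Lt.ai, Lt.ai, Lt.b, Lt.c, Lt.b] (hat (rf_10 hy) 13 rfl) h
  · exact lH_good (T := T) (x := Lt.a) hM0 [] [] (by rw [show cP g H 0 = _ from cc_zero]; exact sub_rel hy.1 (hy.2.2 _ (by decide))) h
theorem dp_a_50_s (hy : Hy g H)
    (j u : ℕ) (hu : u < M) (h : dp_a_50 j u = true) : Gd g H Lt.a u := by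
  unfold dp_a_50 at h
  rcases brec_true h with h | h
  · exact lS_good (T := T) (x := Lt.a) hM0 hu [Lt.b, Lt.ai, Lt.c, Lt.a, Lt.ci, Lt.d, Lt.a, Lt.a, Lt.d, Lt.b, Lt.d, Lt.ai, Lt.ai, Lt.d, Lt.c, Lt.a] (hat (rf_15 hy) 12 rfl) h
  · exact dp_a_49_s hy j u hu h
theorem dp_a_51_s (hy : Hy g H)
    (j u : ℕ) (hu : u < M) (h : dp_a_51 j u = true) : Gd g H Lt.a u := by
  unfold dp_a_51 at h
  rcases brec_true h with h | h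
  · exact dp_a_48_s hy j u hu h
  · exact dp_a_50_s hy j u hu h
theorem dp_a_52_s (hy : Hy g H)
    (j u : ℕ) (hu : u < M) (h : dp_a_52 j u = true) : Gd g H Lt.a u := by
  unfold dp_a_52 at h
  rcases brec_true h with h | h
  · exact lF_good (T := T) (x := Lt.a) hM0 [Lt.a, Lt.b, Lt.ai, Lt.c, Lt.a, Lt.ci, Lt.d, Lt.a, Lt.a, Lt.d, Lt.b, Lt.d, Lt.ai, Lt.ai, Lt.d, Lt.c] (hat (rf_15 hy) 11 rfl) h
  · exact lF_good (T := T) (x := Lt.a) hM0 [Lt.a, Lt.a, Lt.ci, Lt.b, Lt.a, Lt.ci, Lt.b, Lt.c, Lt.ai, Lt.b, Lt.c, Lt.ai, Lt.ai, Lt.ai, Lt.b] (hat (rf_13 hy) 1 rfl) h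
theorem dp_a_53_s (hy : Hy g H)
    (j u : ℕ) (hu : u < M) (h : dp_a_53 j u = true) : Gd g H Lt.a u := by
  unfold dp_a_53 at h
  rcases brec_true h with h | h
  · exact lF_good (T := T) (x := Lt.a) hM0 [Lt.b, Lt.a, Lt.b, Lt.ai, Lt.b, Lt.a, Lt.a, Lt.ci, Lt.b, Lt.c, Lt.b, Lt.c, Lt.ai, Lt.ai, Lt.ai, Lt.b] (hat (rb_17 hy) 2 rfl) h
  · exact lF_good (T := T) (x := Lt.a) hM0 [Lt.a, Lt.b, Lt.a, Lt.b, Lt.ai, Lt.ai, Lt.b, Lt.a, Lt.a, Lt.b, Lt.a, Lt.b, Lt.ai, Lt.ai, Lt.b] (hat (rf_14 hy) 1 rfl) h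
theorem dp_a_54_s (hy : Hy g H)
    (j u : ℕ) (hu : u < M) (h : dp_a_54 j u = true) : Gd g H Lt.a u := by
  unfold dp_a_54 at h
  rcases brec_true h with h | h
  · exact lF_good (T := T) (x := Lt.a) hM0 [Lt.a, Lt.ci, Lt.ai, Lt.b, Lt.ai, Lt.b, Lt.ai, Lt.ai, Lt.c, Lt.ai, Lt.ai, Lt.b, Lt.ci, Lt.b] (hat (rb_10 hy) 7 rfl) h
  · exact dp_a_53_s hy j u hu h
theorem dp_a_55_s (hy : Hy g H)
    (j u : ℕ) (hu : u < M) (h : dp_a_55 j u = true) : Gd g H Lt.a u := by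
  unfold dp_a_55 at h
  rcases brec_true h with h | h
  · exact dp_a_52_s hy j u hu h
  · exact dp_a_54_s hy j u hu h
theorem dp_a_56_s (hy : Hy g H)
    (j u : ℕ) (hu : u < M) (h : dp_a_56 j u = true) : Gd g H Lt.a u := by
  unfold dp_a_56 at h
  rcases brec_true h with h | h
  · exact lF_good (T := T) (x := Lt.a) hM0 [Lt.b, Lt.a, Lt.a, Lt.a, Lt.a, Lt.b, Lt.a, Lt.b, Lt.ai, Lt.ci, Lt.b, Lt.ci, Lt.b, Lt.c] (hat (rf_8 hy) 14 rfl) h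
  · exact lS_good (T := T) (x := Lt.a) hM0 hu [Lt.b, Lt.a, Lt.b, Lt.ai, Lt.ai, Lt.b, Lt.a, Lt.a, Lt.b, Lt.a, Lt.b, Lt.ai, Lt.ai, Lt.b, Lt.a] (hat (rf_14 hy) 2 rfl) h
theorem dp_a_57_s (hy : Hy g H)
    (j u : ℕ) (hu : u < M) (h : dp_a_57 j u = true) : Gd g H Lt.a u := by
  unfold dp_a_57 at h
  rcases brec_true h with h | h
  · exact lS_good (T := T) (x := Lt.a) hM0 hu [Lt.b, Lt.ai, Lt.ai, Lt.b, Lt.a, Lt.a, Lt.b, Lt.a, Lt.b, Lt.ai, Lt.ai, Lt.b, Lt.a, Lt.a, Lt.b] (hat (rf_14 hy) 4 rfl) h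
  · exact dp_a_56_s hy j u hu h
theorem dp_a_58_s (hy : Hy g H)
    (j u : ℕ) (hu : u < M) (h : dp_a_58 j u = true) : Gd g H Lt.a u := by
  unfold dp_a_58 at h
  rcases brec_true h with h | h
  · exact lS_good (T := T) (x := Lt.a) hM0 hu [Lt.c, Lt.ai, Lt.ci, Lt.ci, Lt.a, Lt.b, Lt.ai, Lt.ai, Lt.b, Lt.ai, Lt.b, Lt.a, Lt.b, Lt.c, Lt.c] (hat (rb_12 hy) 8 rfl) h
  · exact lS_good (T := T) (x := Lt.a) hM0 hu [Lt.a, Lt.b, Lt.ai, Lt.b, Lt.a, Lt.b, Lt.ai, Lt.ai, Lt.ai, Lt.ai, Lt.b, Lt.a, Lt.b, Lt.ai, Lt.b, Lt.a, Lt.a] (hat (rf_21 hy) 3 rfl) h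
theorem dp_a_59_s (hy : Hy g H)
    (j u : ℕ) (hu : u < M) (h : dp_a_59 j u = true) : Gd g H Lt.a u := by
  unfold dp_a_59 at h
  rcases brec_true h with h | h
  · exact lF_good (T := T) (x := Lt.a) hM0 [Lt.b, Lt.ai, Lt.b, Lt.ai, Lt.b, Lt.a, Lt.a, Lt.a, Lt.ci, Lt.b, Lt.ci, Lt.b, Lt.c, Lt.ai, Lt.ai, Lt.b] (hat (rf_17 hy) 12 rfl) h
  · exact dp_a_58_s hy j u hu h
theorem dp_a_60_s (hy : Hy g H)
    (j u : ℕ) (hu : u < M) (h : dp_a_60 j u = true) : Gd g H Lt.a u := by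
  unfold dp_a_60 at h
  rcases brec_true h with h | h
  · exact dp_a_57_s hy j u hu h
  · exact dp_a_59_s hy j u hu h
theorem dp_a_61_s (hy : Hy g H)
    (j u : ℕ) (hu : u < M) (h : dp_a_61 j u = true) : Gd g H Lt.a u := by
  unfold dp_a_61 at h
  rcases brec_true h with h | h
  · exact dp_a_55_s hy j u hu h
  · exact dp_a_60_s hy j u hu h
theorem dp_a_62_s (hy : Hy g H)
    (j u : ℕ) (hu : u < M) (h : dp_a_62 j u = true) : Gd g H Lt.a u := by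
  unfold dp_a_62 at h
  rcases brec_true h with h | h
  · exact dp_a_51_s hy j u hu h
  · exact dp_a_61_s hy j u hu h
theorem dp_a_63_s (hy : Hy g H)
    (j u : ℕ) (hu : u < M) (h : dp_a_63 j u = true) : Gd g H Lt.a u := by
  unfold dp_a_63 at h
  rcases brec_true h with h | h
  · exact lF_good (T := T) (x := Lt.a) hM0 [Lt.b, Lt.ai, Lt.ai, Lt.ai, Lt.ai, Lt.b, Lt.a, Lt.b, Lt.ai, Lt.b, Lt.a, Lt.a, Lt.a, Lt.a, Lt.b, Lt.ai, Lt.b] (hat (rf_21 hy) 8 rfl) h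
  · exact lF_good (T := T) (x := Lt.a) hM0 [Lt.c, Lt.ai, Lt.ci, Lt.ci, Lt.a, Lt.b, Lt.ai, Lt.ai, Lt.b, Lt.ai, Lt.b, Lt.a, Lt.b, Lt.c, Lt.c] (hat (rb_12 hy) 8 rfl) h
theorem dp_a_64_s (hy : Hy g H)
    (j u : ℕ) (hu : u < M) (h : dp_a_64 j u = true) : Gd g H Lt.a u := by
  unfold dp_a_64 at h
  rcases brec_true h with h | h
  · exact lS_good (T := T) (x := Lt.a) hM0 hu [Lt.a, Lt.b, Lt.ai, Lt.b, Lt.ai, Lt.b, Lt.a, Lt.a, Lt.b, Lt.ai, Lt.b, Lt.ci, Lt.b, Lt.c, Lt.b, Lt.c, Lt.b] (hat (rf_20 hy) 1 rfl) h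
  · exact lF_good (T := T) (x := Lt.a) hM0 [Lt.ci, Lt.a, Lt.a, Lt.b, Lt.a, Lt.b, Lt.a, Lt.c, Lt.ai, Lt.ai, Lt.b, Lt.c, Lt.b, Lt.a] (hat (rf_10 hy) 14 rfl) h
theorem dp_a_65_s (hy : Hy g H)
    (j u : ℕ) (hu : u < M) (h : dp_a_65 j u = true) : Gd g H Lt.a u := by
  unfold dp_a_65 at h
  rcases brec_true h with h | h
  · exact lS_good (T := T) (x := Lt.a) hM0 hu [Lt.a, Lt.a, Lt.ci, Lt.b, Lt.a, Lt.ci, Lt.b, Lt.c, Lt.ai, Lt.b, Lt.c, Lt.ai, Lt.ai, Lt.ai, Lt.b] (hat (rf_13 hy) 1 rfl) h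
  · exact dp_a_64_s hy j u hu h
theorem dp_a_66_s (hy : Hy g H)
    (j u : ℕ) (hu : u < M) (h : dp_a_66 j u = true) : Gd g H Lt.a u := by
  unfold dp_a_66 at h
  rcases brec_true h with h | h
  · exact dp_a_63_s hy j u hu h
  · exact dp_a_65_s hy j u hu h
theorem dp_a_67_s (hy : Hy g H)
    (j u : ℕ) (hu : u < M) (h : dp_a_67 j u = true) : Gd g H Lt.a u := by
  unfold dp_a_67 at h
  rcases brec_true h with h | h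
  · exact lS_good (T := T) (x := Lt.a) hM0 hu [Lt.a, Lt.a, Lt.b, Lt.ai, Lt.b, Lt.a, Lt.b, Lt.ai, Lt.ai, Lt.ai, Lt.ai, Lt.b, Lt.a, Lt.b, Lt.ai, Lt.b, Lt.a] (hat (rf_21 hy) 2 rfl) h
  · exact lS_good (T := T) (x := Lt.a) hM0 hu [Lt.a, Lt.a, Lt.ci, Lt.b, Lt.ci, Lt.b, Lt.c, Lt.ai, Lt.ai, Lt.b, Lt.a, Lt.b, Lt.ai, Lt.b, Lt.ai, Lt.b] (hat (rf_17 hy) 1 rfl) h
theorem dp_a_68_s (hy : Hy g H)
    (j u : ℕ) (hu : u < M) (h : dp_a_68 j u = true) : Gd g H Lt.a u := by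
  unfold dp_a_68 at h
  rcases brec_true h with h | h
  · exact lF_good (T := T) (x := Lt.a) hM0 [Lt.a, Lt.a, Lt.b, Lt.a, Lt.b, Lt.ai, Lt.ci, Lt.b, Lt.ci, Lt.b, Lt.c, Lt.a, Lt.b, Lt.a] (hat (rf_8 hy) 2 rfl) h
  · exact dp_a_67_s hy j u hu h
theorem dp_a_69_s (hy : Hy g H)
    (j u : ℕ) (hu : u < M) (h : dp_a_69 j u = true) : Gd g H Lt.a u := by
  unfold dp_a_69 at h
  rcases brec_true h with h | h
  · exact lS_good (T := T) (x := Lt.a) hM0 hu [Lt.a, Lt.ci, Lt.b, Lt.c, Lt.c, Lt.b, Lt.c, Lt.ai, Lt.ai, Lt.ai, Lt.ai, Lt.ai, Lt.ai, Lt.ai, Lt.ai, Lt.b] (hat (rb_18 hy) 2 rfl) h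
  · exact lS_good (T := T) (x := Lt.a) hM0 hu [Lt.b, Lt.a, Lt.a, Lt.b, Lt.ai, Lt.c, Lt.c, Lt.a, Lt.ci, Lt.ai, Lt.ci, Lt.ci, Lt.b, Lt.ai, Lt.b] (hat (rf_12 hy) 15 rfl) h
theorem dp_a_70_s (hy : Hy g H)
    (j u : ℕ) (hu : u < M) (h : dp_a_70 j u = true) : Gd g H Lt.a u := by
  unfold dp_a_70 at h
  rcases brec_true h with h | h
  · exact lF_good (T := T) (x := Lt.a) hM0 [Lt.b, Lt.a, Lt.a, Lt.a, Lt.ci, Lt.ci, Lt.ai, Lt.ci, Lt.d, Lt.a, Lt.ci, Lt.b, Lt.c, Lt.ai, Lt.d, Lt.c, Lt.a] (hat (rf_19 hy) 10 rfl) h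
  · exact dp_a_69_s hy j u hu h
theorem dp_a_71_s (hy : Hy g H)
    (j u : ℕ) (hu : u < M) (h : dp_a_71 j u = true) : Gd g H Lt.a u := by
  unfold dp_a_71 at h
  rcases brec_true h with h | h
  · exact dp_a_68_s hy j u hu h
  · exact dp_a_70_s hy j u hu h
theorem dp_a_72_s (hy : Hy g H)
    (j u : ℕ) (hu : u < M) (h : dp_a_72 j u = true) : Gd g H Lt.a u := by
  unfold dp_a_72 at h
  rcases brec_true h with h | h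
  · exact dp_a_66_s hy j u hu h
  · exact dp_a_71_s hy j u hu h
theorem dp_a_73_s (hy : Hy g H)
    (j u : ℕ) (hu : u < M) (h : dp_a_73 j u = true) : Gd g H Lt.a u := by
  unfold dp_a_73 at h
  rcases brec_true h with h | h
  · exact lF_good (T := T) (x := Lt.a) hM0 [Lt.a, Lt.a, Lt.a, Lt.a, Lt.a, Lt.a, Lt.a, Lt.ci, Lt.b, Lt.ci, Lt.ci, Lt.b, Lt.c, Lt.ai, Lt.ai, Lt.b] (hat (rf_18 hy) 1 rfl) h
  · exact lS_good (T := T) (x := Lt.a) hM0 hu [Lt.b, Lt.ai, Lt.b, Lt.ai, Lt.ai, Lt.b, Lt.a, Lt.a, Lt.b, Lt.ai, Lt.b, Lt.ai, Lt.ai, Lt.b, Lt.a] (hat (rb_14 hy) 3 rfl) h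
theorem dp_a_74_s (hy : Hy g H)
    (j u : ℕ) (hu : u < M) (h : dp_a_74 j u = true) : Gd g H Lt.a u := by
  unfold dp_a_74 at h
  rcases brec_true h with h | h
  · exact lF_good (T := T) (x := Lt.a) hM0 [Lt.c, Lt.ai, Lt.ai, Lt.b, Lt.c, Lt.b, Lt.a, Lt.a, Lt.ci, Lt.a, Lt.a, Lt.b, Lt.a, Lt.b] (hat (rf_10 hy) 6 rfl) h
  · exact lF_good (T := T) (x := Lt.a) hM0 [Lt.b, Lt.ai, Lt.b, Lt.ai, Lt.ai, Lt.ai, Lt.ai, Lt.b, Lt.ai, Lt.ci, Lt.b, Lt.c, Lt.b, Lt.c] (hat (rb_8 hy) 8 rfl) h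
theorem dp_a_75_s (hy : Hy g H)
    (j u : ℕ) (hu : u < M) (h : dp_a_75 j u = true) : Gd g H Lt.a u := by
  unfold dp_a_75 at h
  rcases brec_true h with h | h
  · exact lS_good (T := T) (x := Lt.a) hM0 hu [Lt.a, Lt.a, Lt.a, Lt.ci, Lt.b, Lt.ci, Lt.ci, Lt.b, Lt.c, Lt.ai, Lt.ai, Lt.b, Lt.a, Lt.a, Lt.a, Lt.a] (hat (rf_18 hy) 5 rfl) h
  · exact dp_a_74_s hy j u hu h
theorem dp_a_76_s (hy : Hy g H)
    (j u : ℕ) (hu : u < M) (h : dp_a_76 j u = true) : Gd g H Lt.a u := by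
  unfold dp_a_76 at h
  rcases brec_true h with h | h
  · exact dp_a_73_s hy j u hu h
  · exact dp_a_75_s hy j u hu h
theorem dp_a_77_s (hy : Hy g H)
    (j u : ℕ) (hu : u < M) (h : dp_a_77 j u = true) : Gd g H Lt.a u := by
  unfold dp_a_77 at h
  rcases brec_true h with h | h
  · exact lS_good (T := T) (x := Lt.a) hM0 hu [Lt.a, Lt.ci, Lt.b, Lt.ci, Lt.ci, Lt.b, Lt.c, Lt.ai, Lt.ai, Lt.b, Lt.a, Lt.a, Lt.a, Lt.a, Lt.a, Lt.a] (hat (rf_18 hy) 7 rfl) h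
  · exact lF_good (T := T) (x := Lt.a) hM0 [Lt.b, Lt.ai, Lt.b, Lt.ai, Lt.b, Lt.a, Lt.b, Lt.ci, Lt.b, Lt.c, Lt.b, Lt.c, Lt.a] (hat (rf_7 hy) 2 rfl) h
theorem dp_a_78_s (hy : Hy g H)
    (j u : ℕ) (hu : u < M) (h : dp_a_78 j u = true) : Gd g H Lt.a u := by
  unfold dp_a_78 at h
  rcases brec_true h with h | h
  · exact lF_good (T := T) (x := Lt.a) hM0 [Lt.a, Lt.a, Lt.a, Lt.b, Lt.a, Lt.b, Lt.ai, Lt.ci, Lt.b, Lt.ci, Lt.b, Lt.c, Lt.a, Lt.b] (hat (rf_8 hy) 1 rfl) h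
  · exact dp_a_77_s hy j u hu h
theorem dp_a_79_s (hy : Hy g H)
    (j u : ℕ) (hu : u < M) (h : dp_a_79 j u = true) : Gd g H Lt.a u := by
  unfold dp_a_79 at h
  rcases brec_true h with h | h
  · exact lS_good (T := T) (x := Lt.a) hM0 hu [Lt.a, Lt.ci, Lt.b, Lt.a, Lt.ci, Lt.b, Lt.c, Lt.ai, Lt.b, Lt.c, Lt.ai, Lt.ai, Lt.ai, Lt.b, Lt.a] (hat (rf_13 hy) 2 rfl) h
  · exact lS_good (T := T) (x := Lt.a) hM0 hu [Lt.ci, Lt.b, Lt.c, Lt.ai, Lt.b, Lt.c, Lt.ai, Lt.ai, Lt.ai, Lt.b, Lt.a, Lt.a, Lt.a, Lt.ci, Lt.b] (hat (rf_13 hy) 6 rfl) h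
theorem dp_a_80_s (hy : Hy g H)
    (j u : ℕ) (hu : u < M) (h : dp_a_80 j u = true) : Gd g H Lt.a u := by
  unfold dp_a_80 at h
  rcases brec_true h with h | h
  · exact lF_good (T := T) (x := Lt.a) hM0 [Lt.ci, Lt.b, Lt.c, Lt.ai, Lt.d, Lt.ci, Lt.a, Lt.ci, Lt.b, Lt.c, Lt.ai, Lt.ci, Lt.d] (hat (rb_6 hy) 9 rfl) h
  · exact dp_a_79_s hy j u hu h
theorem dp_a_81_s (hy : Hy g H)
    (j u : ℕ) (hu : u < M) (h : dp_a_81 j u = true) : Gd g H Lt.a u := by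
  unfold dp_a_81 at h
  rcases brec_true h with h | h
  · exact dp_a_78_s hy j u hu h
  · exact dp_a_80_s hy j u hu h
theorem dp_a_82_s (hy : Hy g H)
    (j u : ℕ) (hu : u < M) (h : dp_a_82 j u = true) : Gd g H Lt.a u := by
  unfold dp_a_82 at h
  rcases brec_true h with h | h
  · exact dp_a_76_s hy j u hu h
  · exact dp_a_81_s hy j u hu h
theorem dp_a_83_s (hy : Hy g H)
    (j u : ℕ) (hu : u < M) (h : dp_a_83 j u = true) : Gd g H Lt.a u := by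
  unfold dp_a_83 at h
  rcases brec_true h with h | h
  · exact dp_a_72_s hy j u hu h
  · exact dp_a_82_s hy j u hu h
theorem dp_a_84_s (hy : Hy g H)
    (j u : ℕ) (hu : u < M) (h : dp_a_84 j u = true) : Gd g H Lt.a u := by
  unfold dp_a_84 at h
  rcases brec_true h with h | h
  · exact dp_a_62_s hy j u hu h
  · exact dp_a_83_s hy j u hu h
theorem dp_a_85_s (hy : Hy g H)
    (j u : ℕ) (hu : u < M) (h : dp_a_85 j u = true) : Gd g H Lt.a u := by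
  unfold dp_a_85 at h
  rcases brec_true h with h | h
  · exact dp_a_46_s hy j u hu h
  · exact dp_a_84_s hy j u hu h
theorem dp_a_86_s (hy : Hy g H)
    (j u : ℕ) (hu : u < M) (h : dp_a_86 j u = true) : Gd g H Lt.a u := by
  unfold dp_a_86 at h
  rcases brec_true h with h | h
  · exact dp_a_30_s hy j u hu h
  · exact dp_a_85_s hy j u hu h
theorem dp_a_87_s (hy : Hy g H)
    (j u : ℕ) (hu : u < M) (h : dp_a_87 j u = true) : Gd g H Lt.a u := by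
  unfold dp_a_87 at h
  rcases brec_true h with h | h
  · exact dp_a_16_s hy j u hu h
  · exact dp_a_86_s hy j u hu h
theorem dp_a_88_s (hy : Hy g H)
    (j u : ℕ) (hu : u < M) (h : dp_a_88 j u = true) : Gd g H Lt.a u := by
  unfold dp_a_88 at h
  rcases brec_true h with h | h
  · exact dp_a_6_s hy j u hu h
  · exact dp_a_87_s hy j u hu h
theorem dp_a_89_s (hy : Hy g H)
    (j u : ℕ) (hu : u < M) (h : dp_a_89 j u = true) : Gd g H Lt.a u := by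
  unfold dp_a_89 at h
  rcases brec_true h with h | h
  · exact dp_a_0_s hy j u hu h
  · exact dp_a_88_s hy j u hu h
theorem dp_a_90_s (hy : Hy g H)
    (j u : ℕ) (hu : u < M) (h : dp_a_90 j u = true) : Gd g H Lt.a u := by
  unfold dp_a_90 at h
  rcases brec_true h with h | h
  · exact lS_good (T := T) (x := Lt.a) hM0 hu [Lt.ai] (hat (rf_22 hy) 1 rfl) h
  · exact dp_a_89_s hy j u hu h
theorem snd_a (hy : Hy g H)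
    (j u : ℕ) (hu : u < M) (h : disp_a j u = true) : Gd g H Lt.a u := by
  unfold disp_a at h
  rcases brec_true h with h | h
  · exact lDef_good (T := T) (x := Lt.a) (by decide) rfl h
  · rcases brec_true h with h | h
    · exact lPar_good (T := T) (x := Lt.a) (x' := Lt.ai) (by decide) rfl (ivt hy _ _ rfl) h
    · exact dp_a_90_s hy j u hu h
theorem snc_a (hy : Hy g H)
    (j u : ℕ) (hu : u < M) (h : chk_a j u = true) : (T Lt.a u < A ∧ Gd g H Lt.a u) ∨ (A ≤ T Lt.a u ∧ MG u < A) := by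
  unfold chk_a at h
  cases hb : Nat.ble A (T_a u) with
  | true => rw [hb] at h; exact Or.inr ⟨le_of_ble hb, le_of_ble h⟩
  | false => rw [hb] at h; exact Or.inl ⟨lt_of_ble_false hb, snd_a hy j u hu h⟩
theorem dp_ai_0_s (hy : Hy g H)
    (j u : ℕ) (hu : u < M) (h : dp_ai_0 j u = true) : Gd g H Lt.ai u := by
  unfold dp_ai_0 at h
  rcases brec_true h with h | h
  · exact lF1_good (T := T) (x := Lt.ai) hM0 .a (hat (rf_22 hy) 0 rfl) h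
  · exact lS_good (T := T) (x := Lt.ai) hM0 hu [Lt.ci, Lt.ci, Lt.d, Lt.c, Lt.c, Lt.a, Lt.ci, Lt.d, Lt.c] (hat (rf_2 hy) 3 rfl) h
theorem dp_ai_1_s (hy : Hy g H)
    (j u : ℕ) (hu : u < M) (h : dp_ai_1 j u = true) : Gd g H Lt.ai u := by
  unfold dp_ai_1 at h
  rcases brec_true h with h | h
  · exact lS_good (T := T) (x := Lt.ai) hM0 hu [Lt.ai, Lt.d, Lt.c, Lt.a, Lt.a, Lt.b, Lt.ai, Lt.c, Lt.a, Lt.ci, Lt.d, Lt.a, Lt.a, Lt.d, Lt.b, Lt.d] (hat (rf_15 hy) 7 rfl) h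
  · exact lS_good (T := T) (x := Lt.ai) hM0 hu [Lt.c, Lt.c, Lt.d, Lt.ci, Lt.ci, Lt.a, Lt.ci, Lt.b, Lt.d, Lt.b, Lt.c] (hat (rf_4 hy) 3 rfl) h
theorem dp_ai_2_s (hy : Hy g H)
    (j u : ℕ) (hu : u < M) (h : dp_ai_2 j u = true) : Gd g H Lt.ai u := by
  unfold dp_ai_2 at h
  rcases brec_true h with h | h
  · exact lS_good (T := T) (x := Lt.ai) hM0 hu [Lt.d, Lt.a, Lt.c, Lt.d, Lt.ci, Lt.ai, Lt.d, Lt.a, Lt.c, Lt.d, Lt.ci] (hat (rf_3 hy) 5 rfl) h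
  · exact lS_good (T := T) (x := Lt.ai) hM0 hu [Lt.d, Lt.c, Lt.a, Lt.a, Lt.b, Lt.ai, Lt.c, Lt.a, Lt.ci, Lt.d, Lt.a, Lt.a, Lt.d, Lt.b, Lt.d, Lt.ai] (hat (rf_15 hy) 8 rfl) h
theorem dp_ai_3_s (hy : Hy g H)
    (j u : ℕ) (hu : u < M) (h : dp_ai_3 j u = true) : Gd g H Lt.ai u := by
  unfold dp_ai_3 at h
  rcases brec_true h with h | h
  · exact lS_good (T := T) (x := Lt.ai) hM0 hu [Lt.b, Lt.a, Lt.b, Lt.ci, Lt.b, Lt.c, Lt.b, Lt.c, Lt.a, Lt.a, Lt.b, Lt.ai, Lt.b] (hat (rf_7 hy) 6 rfl) h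
  · exact lS_good (T := T) (x := Lt.ai) hM0 hu [Lt.ci, Lt.b, Lt.ci, Lt.b, Lt.c, Lt.b, Lt.ai, Lt.b, Lt.a, Lt.b, Lt.a, Lt.b, Lt.ai] (hat (rb_7 hy) 0 rfl) h
theorem dp_ai_4_s (hy : Hy g H)
    (j u : ℕ) (hu : u < M) (h : dp_ai_4 j u = true) : Gd g H Lt.ai u := by
  unfold dp_ai_4 at h
  rcases brec_true h with h | h
  · exact lS_good (T := T) (x := Lt.ai) hM0 hu [Lt.ci, Lt.ci, Lt.d, Lt.b, Lt.d, Lt.b, Lt.d, Lt.b, Lt.c, Lt.ai, Lt.ci] (hat (rb_5 hy) 5 rfl) h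
  · exact dp_ai_3_s hy j u hu h
theorem dp_ai_5_s (hy : Hy g H)
    (j u : ℕ) (hu : u < M) (h : dp_ai_5 j u = true) : Gd g H Lt.ai u := by
  unfold dp_ai_5 at h
  rcases brec_true h with h | h
  · exact dp_ai_2_s hy j u hu h
  · exact dp_ai_4_s hy j u hu h
theorem dp_ai_6_s (hy : Hy g H)
    (j u : ℕ) (hu : u < M) (h : dp_ai_6 j u = true) : Gd g H Lt.ai u := by
  unfold dp_ai_6 at h
  rcases brec_true h with h | h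
  · exact dp_ai_1_s hy j u hu h
  · exact dp_ai_5_s hy j u hu h
theorem dp_ai_7_s (hy : Hy g H)
    (j u : ℕ) (hu : u < M) (h : dp_ai_7 j u = true) : Gd g H Lt.ai u := by
  unfold dp_ai_7 at h
  rcases brec_true h with h | h
  · exact lS_good (T := T) (x := Lt.ai) hM0 hu [Lt.ai, Lt.ci, Lt.b, Lt.ci, Lt.b, Lt.c, Lt.b, Lt.ai, Lt.b, Lt.a, Lt.b, Lt.a, Lt.b] (hat (rb_7 hy) 13 rfl) h
  · exact lS_good (T := T) (x := Lt.ai) hM0 hu [Lt.b, Lt.a, Lt.b, Lt.a, Lt.b, Lt.ai, Lt.ai, Lt.ci, Lt.b, Lt.ci, Lt.b, Lt.c, Lt.b] (hat (rb_7 hy) 7 rfl) h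
theorem dp_ai_8_s (hy : Hy g H)
    (j u : ℕ) (hu : u < M) (h : dp_ai_8 j u = true) : Gd g H Lt.ai u := by
  unfold dp_ai_8 at h
  rcases brec_true h with h | h
  · exact lS_good (T := T) (x := Lt.ai) hM0 hu [Lt.b, Lt.ai, Lt.b, Lt.a, Lt.b, Lt.ci, Lt.b, Lt.c, Lt.b, Lt.c, Lt.a, Lt.a, Lt.b] (hat (rf_7 hy) 4 rfl) h
  · exact lS_good (T := T) (x := Lt.ai) hM0 hu [Lt.ai, Lt.d, Lt.c, Lt.ai, Lt.ci, Lt.a, Lt.b, Lt.ai, Lt.ai, Lt.ci, Lt.d, Lt.a, Lt.a, Lt.d, Lt.b, Lt.d] (hat (rb_15 hy) 15 rfl) h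
theorem dp_ai_9_s (hy : Hy g H)
    (j u : ℕ) (hu : u < M) (h : dp_ai_9 j u = true) : Gd g H Lt.ai u := by
  unfold dp_ai_9 at h
  rcases brec_true h with h | h
  · exact dp_ai_7_s hy j u hu h
  · exact dp_ai_8_s hy j u hu h
theorem dp_ai_10_s (hy : Hy g H)
    (j u : ℕ) (hu : u < M) (h : dp_ai_10 j u = true) : Gd g H Lt.ai u := by
  unfold dp_ai_10 at h
  rcases brec_true h with h | h
  · exact lF_good (T := T) (x := Lt.ai) hM0 [Lt.ci, Lt.ci, Lt.d, Lt.c, Lt.c, Lt.a, Lt.ci, Lt.d, Lt.c] (hat (rf_2 hy) 3 rfl) h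
  · exact lS_good (T := T) (x := Lt.ai) hM0 hu [Lt.ai, Lt.b, Lt.c, Lt.b, Lt.a, Lt.a, Lt.ci, Lt.a, Lt.a, Lt.b, Lt.a, Lt.b, Lt.a, Lt.c] (hat (rf_10 hy) 8 rfl) h
theorem dp_ai_11_s (hy : Hy g H)
    (j u : ℕ) (hu : u < M) (h : dp_ai_11 j u = true) : Gd g H Lt.ai u := by
  unfold dp_ai_11 at h
  rcases brec_true h with h | h
  · exact lS_good (T := T) (x := Lt.ai) hM0 hu [Lt.d, Lt.c, Lt.ai, Lt.ci, Lt.a, Lt.b, Lt.ai, Lt.ai, Lt.ci, Lt.d, Lt.a, Lt.a, Lt.d, Lt.b, Lt.d, Lt.ai] (hat (rb_15 hy) 16 rfl) h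
  · exact dp_ai_10_s hy j u hu h
theorem dp_ai_12_s (hy : Hy g H)
    (j u : ℕ) (hu : u < M) (h : dp_ai_12 j u = true) : Gd g H Lt.ai u := by
  unfold dp_ai_12 at h
  rcases brec_true h with h | h
  · exact lS_good (T := T) (x := Lt.ai) hM0 hu [Lt.b, Lt.ai, Lt.b, Lt.ai, Lt.ai, Lt.c, Lt.ai, Lt.ai, Lt.b, Lt.ci, Lt.b, Lt.a, Lt.a, Lt.ci] (hat (rb_10 hy) 10 rfl) h
  · exact lS_good (T := T) (x := Lt.ai) hM0 hu [Lt.b, Lt.c, Lt.b, Lt.a, Lt.a, Lt.ci, Lt.a, Lt.a, Lt.b, Lt.a, Lt.b, Lt.a, Lt.c, Lt.ai] (hat (rf_10 hy) 9 rfl) h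
theorem dp_ai_13_s (hy : Hy g H)
    (j u : ℕ) (hu : u < M) (h : dp_ai_13 j u = true) : Gd g H Lt.ai u := by
  unfold dp_ai_13 at h
  rcases brec_true h with h | h
  · exact lS_good (T := T) (x := Lt.ai) hM0 hu [Lt.b, Lt.a, Lt.b, Lt.ci, Lt.ci, Lt.b, Lt.c, Lt.c, Lt.b, Lt.a, Lt.b, Lt.ai, Lt.b, Lt.ai] (hat (rb_9 hy) 0 rfl) h
  · exact lS_good (T := T) (x := Lt.ai) hM0 hu [Lt.ai, Lt.b, Lt.ci, Lt.b, Lt.a, Lt.a, Lt.ci, Lt.ai, Lt.b, Lt.ai, Lt.b, Lt.ai, Lt.ai, Lt.c] (hat (rb_10 hy) 2 rfl) h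
theorem dp_ai_14_s (hy : Hy g H)
    (j u : ℕ) (hu : u < M) (h : dp_ai_14 j u = true) : Gd g H Lt.ai u := by
  unfold dp_ai_14 at h
  rcases brec_true h with h | h
  · exact dp_ai_12_s hy j u hu h
  · exact dp_ai_13_s hy j u hu h
theorem dp_ai_15_s (hy : Hy g H)
    (j u : ℕ) (hu : u < M) (h : dp_ai_15 j u = true) : Gd g H Lt.ai u := by
  unfold dp_ai_15 at h
  rcases brec_true h with h | h
  · exact dp_ai_11_s hy j u hu h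
  · exact dp_ai_14_s hy j u hu h
theorem dp_ai_16_s (hy : Hy g H)
    (j u : ℕ) (hu : u < M) (h : dp_ai_16 j u = true) : Gd g H Lt.ai u := by
  unfold dp_ai_16 at h
  rcases brec_true h with h | h
  · exact dp_ai_9_s hy j u hu h
  · exact dp_ai_15_s hy j u hu h
theorem dp_ai_17_s (hy : Hy g H)
    (j u : ℕ) (hu : u < M) (h : dp_ai_17 j u = true) : Gd g H Lt.ai u := by
  unfold dp_ai_17 at h
  rcases brec_true h with h | h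
  · exact lS_good (T := T) (x := Lt.ai) hM0 hu [Lt.b, Lt.ai, Lt.ai, Lt.ai, Lt.ai, Lt.b, Lt.ai, Lt.ci, Lt.b, Lt.c, Lt.b, Lt.c, Lt.a, Lt.b] (hat (rb_8 hy) 10 rfl) h
  · exact lS_good (T := T) (x := Lt.ai) hM0 hu [Lt.ai, Lt.b, Lt.ai, Lt.ci, Lt.b, Lt.c, Lt.b, Lt.c, Lt.a, Lt.b, Lt.ai, Lt.b, Lt.ai, Lt.ai] (hat (rb_8 hy) 14 rfl) h
theorem dp_ai_18_s (hy : Hy g H)
    (j u : ℕ) (hu : u < M) (h : dp_ai_18 j u = true) : Gd g H Lt.ai u := by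
  unfold dp_ai_18 at h
  rcases brec_true h with h | h
  · exact lS_good (T := T) (x := Lt.ai) hM0 hu [Lt.b, Lt.ci, Lt.ci, Lt.b, Lt.c, Lt.c, Lt.b, Lt.ai, Lt.b, Lt.a, Lt.a, Lt.b, Lt.a, Lt.b] (hat (rf_9 hy) 6 rfl) h
  · exact dp_ai_17_s hy j u hu h
theorem dp_ai_19_s (hy : Hy g H)
    (j u : ℕ) (hu : u < M) (h : dp_ai_19 j u = true) : Gd g H Lt.ai u := by
  unfold dp_ai_19 at h
  rcases brec_true h with h | h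
  · exact lS_good (T := T) (x := Lt.ai) hM0 hu [Lt.ci, Lt.ai, Lt.ci, Lt.ci, Lt.d, Lt.b, Lt.d, Lt.b, Lt.d, Lt.b, Lt.c] (hat (rb_5 hy) 3 rfl) h
  · exact lS_good (T := T) (x := Lt.ai) hM0 hu [Lt.ci, Lt.b, Lt.ci, Lt.b, Lt.c, Lt.a, Lt.b, Lt.a, Lt.a, Lt.a, Lt.a, Lt.b, Lt.a, Lt.b] (hat (rf_8 hy) 8 rfl) h
theorem dp_ai_20_s (hy : Hy g H)
    (j u : ℕ) (hu : u < M) (h : dp_ai_20 j u = true) : Gd g H Lt.ai u := by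
  unfold dp_ai_20 at h
  rcases brec_true h with h | h
  · exact lS_good (T := T) (x := Lt.ai) hM0 hu [Lt.b, Lt.ai, Lt.ai, Lt.c, Lt.ai, Lt.ai, Lt.b, Lt.ci, Lt.b, Lt.a, Lt.a, Lt.ci, Lt.ai, Lt.b] (hat (rb_10 hy) 12 rfl) h
  · exact dp_ai_19_s hy j u hu h
theorem dp_ai_21_s (hy : Hy g H)
    (j u : ℕ) (hu : u < M) (h : dp_ai_21 j u = true) : Gd g H Lt.ai u := by
  unfold dp_ai_21 at h
  rcases brec_true h with h | h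
  · exact dp_ai_18_s hy j u hu h
  · exact dp_ai_20_s hy j u hu h
theorem dp_ai_22_s (hy : Hy g H)
    (j u : ℕ) (hu : u < M) (h : dp_ai_22 j u = true) : Gd g H Lt.ai u := by
  unfold dp_ai_22 at h
  rcases brec_true h with h | h
  · exact lF_good (T := T) (x := Lt.ai) hM0 [Lt.ci, Lt.ai, Lt.ci, Lt.ci, Lt.d, Lt.b, Lt.d, Lt.b, Lt.d, Lt.b, Lt.c] (hat (rb_5 hy) 3 rfl) h
  · exact lS_good (T := T) (x := Lt.ai) hM0 hu [Lt.ai, Lt.ai, Lt.ai, Lt.b, Lt.ai, Lt.ci, Lt.b, Lt.c, Lt.b, Lt.c, Lt.a, Lt.b, Lt.ai, Lt.b] (hat (rb_8 hy) 12 rfl) h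
theorem dp_ai_23_s (hy : Hy g H)
    (j u : ℕ) (hu : u < M) (h : dp_ai_23 j u = true) : Gd g H Lt.ai u := by
  unfold dp_ai_23 at h
  rcases brec_true h with h | h
  · exact lS_good (T := T) (x := Lt.ai) hM0 hu [Lt.b, Lt.ai, Lt.ci, Lt.b, Lt.c, Lt.b, Lt.c, Lt.a, Lt.b, Lt.ai, Lt.b, Lt.ai, Lt.ai, Lt.ai] (hat (rb_8 hy) 0 rfl) h
  · exact lS_good (T := T) (x := Lt.ai) hM0 hu [Lt.b, Lt.ai, Lt.ai, Lt.b, Lt.a, Lt.b, Lt.ci, Lt.ci, Lt.b, Lt.c, Lt.c, Lt.b, Lt.a, Lt.b] (hat (rb_9 hy) 12 rfl) h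
theorem dp_ai_24_s (hy : Hy g H)
    (j u : ℕ) (hu : u < M) (h : dp_ai_24 j u = true) : Gd g H Lt.ai u := by
  unfold dp_ai_24 at h
  rcases brec_true h with h | h
  · exact dp_ai_22_s hy j u hu h
  · exact dp_ai_23_s hy j u hu h
theorem dp_ai_25_s (hy : Hy g H)
    (j u : ℕ) (hu : u < M) (h : dp_ai_25 j u = true) : Gd g H Lt.ai u := by
  unfold dp_ai_25 at h
  rcases brec_true h with h | h
  · exact lS_good (T := T) (x := Lt.ai) hM0 hu [Lt.ai, Lt.c, Lt.ai, Lt.ai, Lt.b, Lt.ci, Lt.b, Lt.a, Lt.a, Lt.ci, Lt.ai, Lt.b, Lt.ai, Lt.b] (hat (rb_10 hy) 14 rfl) h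
  · exact lS_good (T := T) (x := Lt.ai) hM0 hu [Lt.ai, Lt.b, Lt.a, Lt.b, Lt.ci, Lt.ci, Lt.b, Lt.c, Lt.c, Lt.b, Lt.a, Lt.b, Lt.ai, Lt.b] (hat (rb_9 hy) 14 rfl) h
theorem dp_ai_26_s (hy : Hy g H)
    (j u : ℕ) (hu : u < M) (h : dp_ai_26 j u = true) : Gd g H Lt.ai u := by
  unfold dp_ai_26 at h
  rcases brec_true h with h | h
  · exact lS_good (T := T) (x := Lt.ai) hM0 hu [Lt.b, Lt.a, Lt.a, Lt.b, Lt.a, Lt.b, Lt.ai, Lt.ai, Lt.b, Lt.a, Lt.a, Lt.b, Lt.a, Lt.b, Lt.ai] (hat (rf_14 hy) 7 rfl) h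
  · exact lS_good (T := T) (x := Lt.ai) hM0 hu [Lt.ci, Lt.ci, Lt.a, Lt.b, Lt.ai, Lt.ai, Lt.b, Lt.ai, Lt.b, Lt.a, Lt.b, Lt.c, Lt.c, Lt.a, Lt.c] (hat (rb_12 hy) 10 rfl) h
theorem dp_ai_27_s (hy : Hy g H)
    (j u : ℕ) (hu : u < M) (h : dp_ai_27 j u = true) : Gd g H Lt.ai u := by
  unfold dp_ai_27 at h
  rcases brec_true h with h | h
  · exact lS_good (T := T) (x := Lt.ai) hM0 hu [Lt.b, Lt.a, Lt.a, Lt.b, Lt.a, Lt.b, Lt.ai, Lt.b, Lt.ci, Lt.ci, Lt.b, Lt.c, Lt.c, Lt.b] (hat (rf_9 hy) 14 rfl) h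
  · exact dp_ai_26_s hy j u hu h
theorem dp_ai_28_s (hy : Hy g H)
    (j u : ℕ) (hu : u < M) (h : dp_ai_28 j u = true) : Gd g H Lt.ai u := by
  unfold dp_ai_28 at h
  rcases brec_true h with h | h
  · exact dp_ai_25_s hy j u hu h
  · exact dp_ai_27_s hy j u hu h
theorem dp_ai_29_s (hy : Hy g H)
    (j u : ℕ) (hu : u < M) (h : dp_ai_29 j u = true) : Gd g H Lt.ai u := by
  unfold dp_ai_29 at h
  rcases brec_true h with h | h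
  · exact dp_ai_24_s hy j u hu h
  · exact dp_ai_28_s hy j u hu h
theorem dp_ai_30_s (hy : Hy g H)
    (j u : ℕ) (hu : u < M) (h : dp_ai_30 j u = true) : Gd g H Lt.ai u := by
  unfold dp_ai_30 at h
  rcases brec_true h with h | h
  · exact dp_ai_21_s hy j u hu h
  · exact dp_ai_29_s hy j u hu h
theorem dp_ai_31_s (hy : Hy g H)
    (j u : ℕ) (hu : u < M) (h : dp_ai_31 j u = true) : Gd g H Lt.ai u := by
  unfold dp_ai_31 at h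
  rcases brec_true h with h | h
  · exact lS_good (T := T) (x := Lt.ai) hM0 hu [Lt.b, Lt.ci, Lt.b, Lt.a, Lt.a, Lt.ci, Lt.ai, Lt.b, Lt.ai, Lt.b, Lt.ai, Lt.ai, Lt.c, Lt.ai] (hat (rb_10 hy) 3 rfl) h
  · exact lF_good (T := T) (x := Lt.ai) hM0 [Lt.c, Lt.c, Lt.d, Lt.ci, Lt.ci, Lt.a, Lt.ci, Lt.b, Lt.d, Lt.b, Lt.c] (hat (rf_4 hy) 3 rfl) h
theorem dp_ai_32_s (hy : Hy g H)
    (j u : ℕ) (hu : u < M) (h : dp_ai_32 j u = true) : Gd g H Lt.ai u := by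
  unfold dp_ai_32 at h
  rcases brec_true h with h | h
  · exact lS_good (T := T) (x := Lt.ai) hM0 hu [Lt.ai, Lt.b, Lt.a, Lt.a, Lt.b, Lt.a, Lt.b, Lt.ai, Lt.ai, Lt.b, Lt.a, Lt.a, Lt.b, Lt.a, Lt.b] (hat (rf_14 hy) 6 rfl) h
  · exact dp_ai_31_s hy j u hu h
theorem dp_ai_33_s (hy : Hy g H)
    (j u : ℕ) (hu : u < M) (h : dp_ai_33 j u = true) : Gd g H Lt.ai u := by
  unfold dp_ai_33 at h
  rcases brec_true h with h | h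
  · exact lF_good (T := T) (x := Lt.ai) hM0 [Lt.ai, Lt.ci, Lt.b, Lt.ci, Lt.b, Lt.c, Lt.b, Lt.ai, Lt.b, Lt.a, Lt.b, Lt.a, Lt.b] (hat (rb_7 hy) 13 rfl) h
  · exact lF_good (T := T) (x := Lt.ai) hM0 [Lt.ci, Lt.ci, Lt.d, Lt.b, Lt.d, Lt.b, Lt.d, Lt.b, Lt.c, Lt.ai, Lt.ci] (hat (rb_5 hy) 5 rfl) h
theorem dp_ai_34_s (hy : Hy g H)
    (j u : ℕ) (hu : u < M) (h : dp_ai_34 j u = true) : Gd g H Lt.ai u := by
  unfold dp_ai_34 at h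
  rcases brec_true h with h | h
  · exact lF_good (T := T) (x := Lt.ai) hM0 [Lt.b, Lt.ai, Lt.b, Lt.a, Lt.b, Lt.ci, Lt.b, Lt.c, Lt.b, Lt.c, Lt.a, Lt.a, Lt.b] (hat (rf_7 hy) 4 rfl) h
  · exact dp_ai_33_s hy j u hu h
theorem dp_ai_35_s (hy : Hy g H)
    (j u : ℕ) (hu : u < M) (h : dp_ai_35 j u = true) : Gd g H Lt.ai u := by
  unfold dp_ai_35 at h
  rcases brec_true h with h | h
  · exact dp_ai_32_s hy j u hu h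
  · exact dp_ai_34_s hy j u hu h
theorem dp_ai_36_s (hy : Hy g H)
    (j u : ℕ) (hu : u < M) (h : dp_ai_36 j u = true) : Gd g H Lt.ai u := by
  unfold dp_ai_36 at h
  rcases brec_true h with h | h
  · exact lS_good (T := T) (x := Lt.ai) hM0 hu [Lt.ai, Lt.ai, Lt.b, Lt.a, Lt.b, Lt.ai, Lt.b, Lt.a, Lt.a, Lt.a, Lt.a, Lt.b, Lt.ai, Lt.b, Lt.a, Lt.b, Lt.ai] (hat (rf_21 hy) 11 rfl) h
  · exact lS_good (T := T) (x := Lt.ai) hM0 hu [Lt.ci, Lt.b, Lt.c, Lt.b, Lt.c, Lt.a, Lt.b, Lt.ai, Lt.b, Lt.ai, Lt.ai, Lt.ai, Lt.ai, Lt.b] (hat (rb_8 hy) 2 rfl) h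
theorem dp_ai_37_s (hy : Hy g H)
    (j u : ℕ) (hu : u < M) (h : dp_ai_37 j u = true) : Gd g H Lt.ai u := by
  unfold dp_ai_37 at h
  rcases brec_true h with h | h
  · exact lF_good (T := T) (x := Lt.ai) hM0 [Lt.ai, Lt.b, Lt.c, Lt.b, Lt.a, Lt.a, Lt.ci, Lt.a, Lt.a, Lt.b, Lt.a, Lt.b, Lt.a, Lt.c] (hat (rf_10 hy) 8 rfl) h
  · exact lF_good (T := T) (x := Lt.ai) hM0 [Lt.ai, Lt.ai, Lt.b, Lt.a, Lt.a, Lt.a, Lt.ci, Lt.b, Lt.a, Lt.ci, Lt.b, Lt.c, Lt.ai, Lt.b, Lt.c] (hat (rf_13 hy) 13 rfl) h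
theorem dp_ai_38_s (hy : Hy g H)
    (j u : ℕ) (hu : u < M) (h : dp_ai_38 j u = true) : Gd g H Lt.ai u := by
  unfold dp_ai_38 at h
  rcases brec_true h with h | h
  · exact dp_ai_36_s hy j u hu h
  · exact dp_ai_37_s hy j u hu h
theorem dp_ai_39_s (hy : Hy g H)
    (j u : ℕ) (hu : u < M) (h : dp_ai_39 j u = true) : Gd g H Lt.ai u := by
  unfold dp_ai_39 at h
  rcases brec_true h with h | h
  · exact lF_good (T := T) (x := Lt.ai) hM0 [Lt.d, Lt.a, Lt.c, Lt.d, Lt.ci, Lt.ai, Lt.d, Lt.a, Lt.c, Lt.d, Lt.ci] (hat (rf_3 hy) 5 rfl) h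
  · exact lS_good (T := T) (x := Lt.ai) hM0 hu [Lt.c, Lt.ai, Lt.ai, Lt.b, Lt.ci, Lt.b, Lt.a, Lt.a, Lt.ci, Lt.ai, Lt.b, Lt.ai, Lt.b, Lt.ai] (hat (rb_10 hy) 0 rfl) h
theorem dp_ai_40_s (hy : Hy g H)
    (j u : ℕ) (hu : u < M) (h : dp_ai_40 j u = true) : Gd g H Lt.ai u := by
  unfold dp_ai_40 at h
  rcases brec_true h with h | h
  · exact lF_good (T := T) (x := Lt.ai) hM0 [Lt.c, Lt.ai, Lt.ai, Lt.b, Lt.ci, Lt.b, Lt.a, Lt.a, Lt.ci, Lt.ai, Lt.b, Lt.ai, Lt.b, Lt.ai] (hat (rb_10 hy) 0 rfl) h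
  · exact lF_good (T := T) (x := Lt.ai) hM0 [Lt.b, Lt.ai, Lt.ai, Lt.ci, Lt.d, Lt.a, Lt.ci, Lt.b, Lt.c, Lt.ai, Lt.d, Lt.c, Lt.a, Lt.c, Lt.c, Lt.ai, Lt.ai] (hat (rb_19 hy) 7 rfl) h
theorem dp_ai_41_s (hy : Hy g H)
    (j u : ℕ) (hu : u < M) (h : dp_ai_41 j u = true) : Gd g H Lt.ai u := by
  unfold dp_ai_41 at h
  rcases brec_true h with h | h
  · exact lS_good (T := T) (x := Lt.ai) hM0 hu [Lt.c, Lt.d, Lt.a, Lt.ci, Lt.b, Lt.c, Lt.ai, Lt.d, Lt.c, Lt.a, Lt.ci, Lt.b, Lt.c] (hat (rf_6 hy) 13 rfl) h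
  · exact dp_ai_40_s hy j u hu h
theorem dp_ai_42_s (hy : Hy g H)
    (j u : ℕ) (hu : u < M) (h : dp_ai_42 j u = true) : Gd g H Lt.ai u := by
  unfold dp_ai_42 at h
  rcases brec_true h with h | h
  · exact dp_ai_39_s hy j u hu h
  · exact dp_ai_41_s hy j u hu h
theorem dp_ai_43_s (hy : Hy g H)
    (j u : ℕ) (hu : u < M) (h : dp_ai_43 j u = true) : Gd g H Lt.ai u := by
  unfold dp_ai_43 at h
  rcases brec_true h with h | h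
  · exact dp_ai_38_s hy j u hu h
  · exact dp_ai_42_s hy j u hu h
theorem dp_ai_44_s (hy : Hy g H)
    (j u : ℕ) (hu : u < M) (h : dp_ai_44 j u = true) : Gd g H Lt.ai u := by
  unfold dp_ai_44 at h
  rcases brec_true h with h | h
  · exact dp_ai_35_s hy j u hu h
  · exact dp_ai_43_s hy j u hu h
theorem dp_ai_45_s (hy : Hy g H)
    (j u : ℕ) (hu : u < M) (h : dp_ai_45 j u = true) : Gd g H Lt.ai u := by
  unfold dp_ai_45 at h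
  rcases brec_true h with h | h
  · exact lF_good (T := T) (x := Lt.ai) hM0 [Lt.b, Lt.ai, Lt.ai, Lt.ai, Lt.ai, Lt.b, Lt.ai, Lt.ci, Lt.b, Lt.c, Lt.b, Lt.c, Lt.a, Lt.b] (hat (rb_8 hy) 10 rfl) h
  · exact lS_good (T := T) (x := Lt.ai) hM0 hu [Lt.ai, Lt.ai, Lt.b, Lt.ai, Lt.ci, Lt.b, Lt.c, Lt.b, Lt.c, Lt.a, Lt.b, Lt.ai, Lt.b, Lt.ai] (hat (rb_8 hy) 13 rfl) h
theorem dp_ai_46_s (hy : Hy g H)
    (j u : ℕ) (hu : u < M) (h : dp_ai_46 j u = true) : Gd g H Lt.ai u := by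
  unfold dp_ai_46 at h
  rcases brec_true h with h | h
  · exact lS_good (T := T) (x := Lt.ai) hM0 hu [Lt.ci, Lt.d, Lt.a, Lt.ci, Lt.b, Lt.c, Lt.ai, Lt.d, Lt.ci, Lt.a, Lt.ci, Lt.b, Lt.c] (hat (rb_6 hy) 6 rfl) h
  · exact lF_good (T := T) (x := Lt.ai) hM0 [Lt.b, Lt.a, Lt.b, Lt.a, Lt.b, Lt.ai, Lt.ai, Lt.ci, Lt.b, Lt.ci, Lt.b, Lt.c, Lt.b] (hat (rb_7 hy) 7 rfl) h
theorem dp_ai_47_s (hy : Hy g H)
    (j u : ℕ) (hu : u < M) (h : dp_ai_47 j u = true) : Gd g H Lt.ai u := by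
  unfold dp_ai_47 at h
  rcases brec_true h with h | h
  · exact lS_good (T := T) (x := Lt.ai) hM0 hu [Lt.ci, Lt.d, Lt.a, Lt.a, Lt.d, Lt.b, Lt.d, Lt.ai, Lt.ai, Lt.d, Lt.c, Lt.ai, Lt.ci, Lt.a, Lt.b, Lt.ai] (hat (rb_15 hy) 7 rfl) h
  · exact dp_ai_46_s hy j u hu h
theorem dp_ai_48_s (hy : Hy g H)
    (j u : ℕ) (hu : u < M) (h : dp_ai_48 j u = true) : Gd g H Lt.ai u := by
  unfold dp_ai_48 at h
  rcases brec_true h with h | h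
  · exact dp_ai_45_s hy j u hu h
  · exact dp_ai_47_s hy j u hu h
theorem dp_ai_49_s (hy : Hy g H)
    (j u : ℕ) (hu : u < M) (h : dp_ai_49 j u = true) : Gd g H Lt.ai u := by
  unfold dp_ai_49 at h
  rcases brec_true h with h | h
  · exact lF_good (T := T) (x := Lt.ai) hM0 [Lt.ai, Lt.b, Lt.ai, Lt.ai, Lt.ci, Lt.d, Lt.a, Lt.ci, Lt.b, Lt.c, Lt.ai, Lt.d, Lt.c, Lt.a, Lt.c, Lt.c, Lt.ai] (hat (rb_19 hy) 6 rfl) h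
  · exact lF_good (T := T) (x := Lt.ai) hM0 [Lt.b, Lt.a, Lt.b, Lt.ai, Lt.b, Lt.ai, Lt.b, Lt.a, Lt.a, Lt.a, Lt.ci, Lt.b, Lt.ci, Lt.b, Lt.c, Lt.ai] (hat (rf_17 hy) 10 rfl) h
theorem dp_ai_50_s (hy : Hy g H)
    (j u : ℕ) (hu : u < M) (h : dp_ai_50 j u = true) : Gd g H Lt.ai u := by
  unfold dp_ai_50 at h
  rcases brec_true h with h | h
  · exact lF_good (T := T) (x := Lt.ai) hM0 [Lt.ci, Lt.ci, Lt.b, Lt.ai, Lt.b, Lt.a, Lt.b, Lt.a, Lt.a, Lt.b, Lt.ai, Lt.c, Lt.c, Lt.a, Lt.ci] (hat (rf_12 hy) 9 rfl) h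
  · exact lF_good (T := T) (x := Lt.ai) hM0 [Lt.b, Lt.a, Lt.a, Lt.b, Lt.a, Lt.b, Lt.ai, Lt.b, Lt.ci, Lt.ci, Lt.b, Lt.c, Lt.c, Lt.b] (hat (rf_9 hy) 14 rfl) h
theorem dp_ai_51_s (hy : Hy g H)
    (j u : ℕ) (hu : u < M) (h : dp_ai_51 j u = true) : Gd g H Lt.ai u := by
  unfold dp_ai_51 at h
  rcases brec_true h with h | h
  · exact lF_good (T := T) (x := Lt.ai) hM0 [Lt.b, Lt.ai, Lt.ci, Lt.b, Lt.c, Lt.b, Lt.c, Lt.a, Lt.b, Lt.ai, Lt.b, Lt.ai, Lt.ai, Lt.ai] (hat (rb_8 hy) 0 rfl) h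
  · exact dp_ai_50_s hy j u hu h
theorem dp_ai_52_s (hy : Hy g H)
    (j u : ℕ) (hu : u < M) (h : dp_ai_52 j u = true) : Gd g H Lt.ai u := by
  unfold dp_ai_52 at h
  rcases brec_true h with h | h
  · exact dp_ai_49_s hy j u hu h
  · exact dp_ai_51_s hy j u hu h
theorem dp_ai_53_s (hy : Hy g H)
    (j u : ℕ) (hu : u < M) (h : dp_ai_53 j u = true) : Gd g H Lt.ai u := by
  unfold dp_ai_53 at h
  rcases brec_true h with h | h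
  · exact lS_good (T := T) (x := Lt.ai) hM0 hu [Lt.b, Lt.c, Lt.ai, Lt.ai, Lt.ai, Lt.b, Lt.a, Lt.a, Lt.a, Lt.ci, Lt.b, Lt.a, Lt.ci, Lt.b, Lt.c] (hat (rf_13 hy) 10 rfl) h
  · exact lS_good (T := T) (x := Lt.ai) hM0 hu [Lt.b, Lt.ai, Lt.b, Lt.a, Lt.a, Lt.b, Lt.ai, Lt.b, Lt.ci, Lt.b, Lt.c, Lt.b, Lt.c, Lt.b, Lt.a, Lt.a, Lt.b] (hat (rf_20 hy) 4 rfl) h
theorem dp_ai_54_s (hy : Hy g H)
    (j u : ℕ) (hu : u < M) (h : dp_ai_54 j u = true) : Gd g H Lt.ai u := by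
  unfold dp_ai_54 at h
  rcases brec_true h with h | h
  · exact lF_good (T := T) (x := Lt.ai) hM0 [Lt.ai, Lt.ai, Lt.b, Lt.a, Lt.a, Lt.ci, Lt.b, Lt.c, Lt.c, Lt.b, Lt.c, Lt.ai, Lt.ai, Lt.ai, Lt.ai, Lt.ai] (hat (rb_18 hy) 15 rfl) h
  · exact lF_good (T := T) (x := Lt.ai) hM0 [Lt.b, Lt.ai, Lt.b, Lt.a, Lt.a, Lt.a, Lt.ci, Lt.b, Lt.ci, Lt.b, Lt.c, Lt.ai, Lt.ai, Lt.b, Lt.a, Lt.b] (hat (rf_17 hy) 14 rfl) h
theorem dp_ai_55_s (hy : Hy g H)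
    (j u : ℕ) (hu : u < M) (h : dp_ai_55 j u = true) : Gd g H Lt.ai u := by
  unfold dp_ai_55 at h
  rcases brec_true h with h | h
  · exact lF_good (T := T) (x := Lt.ai) hM0 [Lt.ci, Lt.b, Lt.ci, Lt.b, Lt.c, Lt.b, Lt.ai, Lt.b, Lt.a, Lt.b, Lt.a, Lt.b, Lt.ai] (hat (rb_7 hy) 0 rfl) h
  · exact dp_ai_54_s hy j u hu h
theorem dp_ai_56_s (hy : Hy g H)
    (j u : ℕ) (hu : u < M) (h : dp_ai_56 j u = true) : Gd g H Lt.ai u := by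
  unfold dp_ai_56 at h
  rcases brec_true h with h | h
  · exact dp_ai_53_s hy j u hu h
  · exact dp_ai_55_s hy j u hu h
theorem dp_ai_57_s (hy : Hy g H)
    (j u : ℕ) (hu : u < M) (h : dp_ai_57 j u = true) : Gd g H Lt.ai u := by
  unfold dp_ai_57 at h
  rcases brec_true h with h | h
  · exact dp_ai_52_s hy j u hu h
  · exact dp_ai_56_s hy j u hu h
theorem dp_ai_58_s (hy : Hy g H)
    (j u : ℕ) (hu : u < M) (h : dp_ai_58 j u = true) : Gd g H Lt.ai u := by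
  unfold dp_ai_58 at h
  rcases brec_true h with h | h
  · exact dp_ai_48_s hy j u hu h
  · exact dp_ai_57_s hy j u hu h
theorem dp_ai_59_s (hy : Hy g H)
    (j u : ℕ) (hu : u < M) (h : dp_ai_59 j u = true) : Gd g H Lt.ai u := by
  unfold dp_ai_59 at h
  rcases brec_true h with h | h
  · exact lF_good (T := T) (x := Lt.ai) hM0 [Lt.ai, Lt.b, Lt.a, Lt.b, Lt.a, Lt.b, Lt.ai, Lt.b, Lt.a, Lt.a, Lt.ci, Lt.b, Lt.c, Lt.b, Lt.c, Lt.ai] (hat (rb_17 hy) 16 rfl) h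
  · exact lS_good (T := T) (x := Lt.ai) hM0 hu [Lt.ai, Lt.b, Lt.a, Lt.a, Lt.a, Lt.ci, Lt.b, Lt.a, Lt.ci, Lt.b, Lt.c, Lt.ai, Lt.b, Lt.c, Lt.ai] (hat (rf_13 hy) 14 rfl) h
theorem dp_ai_60_s (hy : Hy g H)
    (j u : ℕ) (hu : u < M) (h : dp_ai_60 j u = true) : Gd g H Lt.ai u := by
  unfold dp_ai_60 at h
  rcases brec_true h with h | h
  · exact lF_good (T := T) (x := Lt.ai) hM0 [Lt.b, Lt.c, Lt.b, Lt.a, Lt.a, Lt.ci, Lt.a, Lt.a, Lt.b, Lt.a, Lt.b, Lt.a, Lt.c, Lt.ai] (hat (rf_10 hy) 9 rfl) h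
  · exact lF_good (T := T) (x := Lt.ai) hM0 [Lt.ai, Lt.ai, Lt.b, Lt.ai, Lt.ci, Lt.b, Lt.c, Lt.b, Lt.c, Lt.a, Lt.b, Lt.ai, Lt.b, Lt.ai] (hat (rb_8 hy) 13 rfl) h
theorem dp_ai_61_s (hy : Hy g H)
    (j u : ℕ) (hu : u < M) (h : dp_ai_61 j u = true) : Gd g H Lt.ai u := by
  unfold dp_ai_61 at h
  rcases brec_true h with h | h
  · exact lF_good (T := T) (x := Lt.ai) hM0 [Lt.ci, Lt.d, Lt.a, Lt.ci, Lt.b, Lt.c, Lt.ai, Lt.d, Lt.c, Lt.a, Lt.a, Lt.b, Lt.a, Lt.a, Lt.a, Lt.ci, Lt.ci] (hat (rf_19 hy) 17 rfl) h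
  · exact dp_ai_60_s hy j u hu h
theorem dp_ai_62_s (hy : Hy g H)
    (j u : ℕ) (hu : u < M) (h : dp_ai_62 j u = true) : Gd g H Lt.ai u := by
  unfold dp_ai_62 at h
  rcases brec_true h with h | h
  · exact dp_ai_59_s hy j u hu h
  · exact dp_ai_61_s hy j u hu h
theorem dp_ai_63_s (hy : Hy g H)
    (j u : ℕ) (hu : u < M) (h : dp_ai_63 j u = true) : Gd g H Lt.ai u := by
  unfold dp_ai_63 at h
  rcases brec_true h with h | h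
  · exact lF_good (T := T) (x := Lt.ai) hM0 [Lt.ai, Lt.b, Lt.a, Lt.b, Lt.ci, Lt.ci, Lt.b, Lt.c, Lt.c, Lt.b, Lt.a, Lt.b, Lt.ai, Lt.b] (hat (rb_9 hy) 14 rfl) h
  · exact lF_good (T := T) (x := Lt.ai) hM0 [Lt.ai, Lt.ai, Lt.ai, Lt.ai, Lt.b, Lt.a, Lt.a, Lt.ci, Lt.b, Lt.c, Lt.c, Lt.b, Lt.c, Lt.ai, Lt.ai, Lt.ai] (hat (rb_18 hy) 13 rfl) h
theorem dp_ai_64_s (hy : Hy g H)
    (j u : ℕ) (hu : u < M) (h : dp_ai_64 j u = true) : Gd g H Lt.ai u := by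
  unfold dp_ai_64 at h
  rcases brec_true h with h | h
  · exact lF_good (T := T) (x := Lt.ai) hM0 [Lt.b, Lt.ai, Lt.b, Lt.ai, Lt.ai, Lt.c, Lt.ai, Lt.ai, Lt.b, Lt.ci, Lt.b, Lt.a, Lt.a, Lt.ci] (hat (rb_10 hy) 10 rfl) h
  · exact lS_good (T := T) (x := Lt.ai) hM0 hu [Lt.b, Lt.a, Lt.b, Lt.c, Lt.c, Lt.a, Lt.c, Lt.ai, Lt.ci, Lt.ci, Lt.a, Lt.b, Lt.ai, Lt.ai, Lt.b] (hat (rb_12 hy) 2 rfl) h
theorem dp_ai_65_s (hy : Hy g H)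
    (j u : ℕ) (hu : u < M) (h : dp_ai_65 j u = true) : Gd g H Lt.ai u := by
  unfold dp_ai_65 at h
  rcases brec_true h with h | h
  · exact lS_good (T := T) (x := Lt.ai) hM0 hu [Lt.ai, Lt.b, Lt.a, Lt.b, Lt.a, Lt.b, Lt.ai, Lt.b, Lt.a, Lt.a, Lt.ci, Lt.b, Lt.c, Lt.b, Lt.c, Lt.ai] (hat (rb_17 hy) 16 rfl) h
  · exact dp_ai_64_s hy j u hu h
theorem dp_ai_66_s (hy : Hy g H)
    (j u : ℕ) (hu : u < M) (h : dp_ai_66 j u = true) : Gd g H Lt.ai u := by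
  unfold dp_ai_66 at h
  rcases brec_true h with h | h
  · exact dp_ai_63_s hy j u hu h
  · exact dp_ai_65_s hy j u hu h
theorem dp_ai_67_s (hy : Hy g H)
    (j u : ℕ) (hu : u < M) (h : dp_ai_67 j u = true) : Gd g H Lt.ai u := by
  unfold dp_ai_67 at h
  rcases brec_true h with h | h
  · exact dp_ai_62_s hy j u hu h
  · exact dp_ai_66_s hy j u hu h
theorem dp_ai_68_s (hy : Hy g H)
    (j u : ℕ) (hu : u < M) (h : dp_ai_68 j u = true) : Gd g H Lt.ai u := by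
  unfold dp_ai_68 at h
  rcases brec_true h with h | h
  · exact lS_good (T := T) (x := Lt.ai) hM0 hu [Lt.b, Lt.a, Lt.b, Lt.a, Lt.b, Lt.ai, Lt.b, Lt.a, Lt.a, Lt.ci, Lt.b, Lt.c, Lt.b, Lt.c, Lt.ai, Lt.ai] (hat (rb_17 hy) 0 rfl) h
  · exact lS_good (T := T) (x := Lt.ai) hM0 hu [Lt.d, Lt.ci, Lt.a, Lt.ci, Lt.b, Lt.c, Lt.ai, Lt.ci, Lt.d, Lt.a, Lt.ci, Lt.b, Lt.c] (hat (rb_6 hy) 13 rfl) h
theorem dp_ai_69_s (hy : Hy g H)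
    (j u : ℕ) (hu : u < M) (h : dp_ai_69 j u = true) : Gd g H Lt.ai u := by
  unfold dp_ai_69 at h
  rcases brec_true h with h | h
  · exact lS_good (T := T) (x := Lt.ai) hM0 hu [Lt.ai, Lt.ai, Lt.ai, Lt.ai, Lt.b, Lt.a, Lt.a, Lt.ci, Lt.b, Lt.c, Lt.c, Lt.b, Lt.c, Lt.ai, Lt.ai, Lt.ai] (hat (rb_18 hy) 13 rfl) h
  · exact lF_good (T := T) (x := Lt.ai) hM0 [Lt.c, Lt.d, Lt.a, Lt.ci, Lt.b, Lt.c, Lt.ai, Lt.d, Lt.c, Lt.a, Lt.ci, Lt.b, Lt.c] (hat (rf_6 hy) 13 rfl) h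
theorem dp_ai_70_s (hy : Hy g H)
    (j u : ℕ) (hu : u < M) (h : dp_ai_70 j u = true) : Gd g H Lt.ai u := by
  unfold dp_ai_70 at h
  rcases brec_true h with h | h
  · exact lS_good (T := T) (x := Lt.ai) hM0 hu [Lt.ci, Lt.ci, Lt.b, Lt.ai, Lt.b, Lt.a, Lt.b, Lt.a, Lt.a, Lt.b, Lt.ai, Lt.c, Lt.c, Lt.a, Lt.ci] (hat (rf_12 hy) 9 rfl) h
  · exact dp_ai_69_s hy j u hu h
theorem dp_ai_71_s (hy : Hy g H)
    (j u : ℕ) (hu : u < M) (h : dp_ai_71 j u = true) : Gd g H Lt.ai u := by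
  unfold dp_ai_71 at h
  rcases brec_true h with h | h
  · exact dp_ai_68_s hy j u hu h
  · exact dp_ai_70_s hy j u hu h
theorem dp_ai_72_s (hy : Hy g H)
    (j u : ℕ) (hu : u < M) (h : dp_ai_72 j u = true) : Gd g H Lt.ai u := by
  unfold dp_ai_72 at h
  rcases brec_true h with h | h
  · exact lF_good (T := T) (x := Lt.ai) hM0 [Lt.b, Lt.c, Lt.ai, Lt.ai, Lt.ai, Lt.b, Lt.a, Lt.a, Lt.a, Lt.ci, Lt.b, Lt.a, Lt.ci, Lt.b, Lt.c] (hat (rf_13 hy) 10 rfl) h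
  · exact lS_good (T := T) (x := Lt.ai) hM0 hu [Lt.b, Lt.a, Lt.a, Lt.a, Lt.ci, Lt.b, Lt.a, Lt.ci, Lt.b, Lt.c, Lt.ai, Lt.b, Lt.c, Lt.ai, Lt.ai] (hat (rf_13 hy) 15 rfl) h
theorem dp_ai_73_s (hy : Hy g H)
    (j u : ℕ) (hu : u < M) (h : dp_ai_73 j u = true) : Gd g H Lt.ai u := by
  unfold dp_ai_73 at h
  rcases brec_true h with h | h
  · exact lS_good (T := T) (x := Lt.ai) hM0 hu [Lt.b, Lt.a, Lt.a, Lt.a, Lt.ci, Lt.b, Lt.ci, Lt.b, Lt.c, Lt.ai, Lt.ai, Lt.b, Lt.a, Lt.b, Lt.ai, Lt.b] (hat (rf_17 hy) 16 rfl) h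
  · exact lF_good (T := T) (x := Lt.ai) hM0 [Lt.d, Lt.ci, Lt.a, Lt.ci, Lt.b, Lt.c, Lt.ai, Lt.ci, Lt.d, Lt.a, Lt.ci, Lt.b, Lt.c] (hat (rb_6 hy) 13 rfl) h
theorem dp_ai_74_s (hy : Hy g H)
    (j u : ℕ) (hu : u < M) (h : dp_ai_74 j u = true) : Gd g H Lt.ai u := by
  unfold dp_ai_74 at h
  rcases brec_true h with h | h
  · exact lF_good (T := T) (x := Lt.ai) hM0 [Lt.d, Lt.c, Lt.a, Lt.ci, Lt.b, Lt.c, Lt.ai, Lt.c, Lt.d, Lt.a, Lt.ci, Lt.b, Lt.c] (hat (rf_6 hy) 6 rfl) h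
  · exact dp_ai_73_s hy j u hu h
theorem dp_ai_75_s (hy : Hy g H)
    (j u : ℕ) (hu : u < M) (h : dp_ai_75 j u = true) : Gd g H Lt.ai u := by
  unfold dp_ai_75 at h
  rcases brec_true h with h | h
  · exact dp_ai_72_s hy j u hu h
  · exact dp_ai_74_s hy j u hu h
theorem dp_ai_76_s (hy : Hy g H)
    (j u : ℕ) (hu : u < M) (h : dp_ai_76 j u = true) : Gd g H Lt.ai u := by
  unfold dp_ai_76 at h
  rcases brec_true h with h | h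
  · exact dp_ai_71_s hy j u hu h
  · exact dp_ai_75_s hy j u hu h
theorem dp_ai_77_s (hy : Hy g H)
    (j u : ℕ) (hu : u < M) (h : dp_ai_77 j u = true) : Gd g H Lt.ai u := by
  unfold dp_ai_77 at h
  rcases brec_true h with h | h
  · exact dp_ai_67_s hy j u hu h
  · exact dp_ai_76_s hy j u hu h
theorem dp_ai_78_s (hy : Hy g H)
    (j u : ℕ) (hu : u < M) (h : dp_ai_78 j u = true) : Gd g H Lt.ai u := by
  unfold dp_ai_78 at h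
  rcases brec_true h with h | h
  · exact dp_ai_58_s hy j u hu h
  · exact dp_ai_77_s hy j u hu h
theorem dp_ai_79_s (hy : Hy g H)
    (j u : ℕ) (hu : u < M) (h : dp_ai_79 j u = true) : Gd g H Lt.ai u := by
  unfold dp_ai_79 at h
  rcases brec_true h with h | h
  · exact dp_ai_44_s hy j u hu h
  · exact dp_ai_78_s hy j u hu h
theorem dp_ai_80_s (hy : Hy g H)
    (j u : ℕ) (hu : u < M) (h : dp_ai_80 j u = true) : Gd g H Lt.ai u := by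
  unfold dp_ai_80 at h
  rcases brec_true h with h | h
  · exact dp_ai_30_s hy j u hu h
  · exact dp_ai_79_s hy j u hu h
theorem dp_ai_81_s (hy : Hy g H)
    (j u : ℕ) (hu : u < M) (h : dp_ai_81 j u = true) : Gd g H Lt.ai u := by
  unfold dp_ai_81 at h
  rcases brec_true h with h | h
  · exact dp_ai_16_s hy j u hu h
  · exact dp_ai_80_s hy j u hu h
theorem dp_ai_82_s (hy : Hy g H)
    (j u : ℕ) (hu : u < M) (h : dp_ai_82 j u = true) : Gd g H Lt.ai u := by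
  unfold dp_ai_82 at h
  rcases brec_true h with h | h
  · exact dp_ai_6_s hy j u hu h
  · exact dp_ai_81_s hy j u hu h
theorem dp_ai_83_s (hy : Hy g H)
    (j u : ℕ) (hu : u < M) (h : dp_ai_83 j u = true) : Gd g H Lt.ai u := by
  unfold dp_ai_83 at h
  rcases brec_true h with h | h
  · exact dp_ai_0_s hy j u hu h
  · exact dp_ai_82_s hy j u hu h
theorem dp_ai_84_s (hy : Hy g H)
    (j u : ℕ) (hu : u < M) (h : dp_ai_84 j u = true) : Gd g H Lt.ai u := by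
  unfold dp_ai_84 at h
  rcases brec_true h with h | h
  · exact lS_good (T := T) (x := Lt.ai) hM0 hu [Lt.a] (hat (rf_22 hy) 0 rfl) h
  · exact dp_ai_83_s hy j u hu h
theorem snd_ai (hy : Hy g H)
    (j u : ℕ) (hu : u < M) (h : disp_ai j u = true) : Gd g H Lt.ai u := by
  unfold disp_ai at h
  rcases brec_true h with h | h
  · exact lPar_good (T := T) (x := Lt.ai) (x' := Lt.a) (by decide) rfl (ivt hy _ _ rfl) h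
  · rcases brec_true h with h | h
    · exact lDef_good (T := T) (x := Lt.ai) (by decide) rfl h
    · exact dp_ai_84_s hy j u hu h
theorem snc_ai (hy : Hy g H)
    (j u : ℕ) (hu : u < M) (h : chk_ai j u = true) : (T Lt.ai u < A ∧ Gd g H Lt.ai u) ∨ (A ≤ T Lt.ai u ∧ MG u < A) := by
  unfold chk_ai at h
  cases hb : Nat.ble A (T_ai u) with
  | true => rw [hb] at h; exact Or.inr ⟨le_of_ble hb, le_of_ble h⟩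
  | false => rw [hb] at h; exact Or.inl ⟨lt_of_ble_false hb, snd_ai hy j u hu h⟩
theorem dp_b_0_s (hy : Hy g H)
    (j u : ℕ) (hu : u < M) (h : dp_b_0 j u = true) : Gd g H Lt.b u := by
  unfold dp_b_0 at h
  rcases brec_true h with h | h
  · exact lF1_good (T := T) (x := Lt.b) hM0 .b (hat (rf_0 hy) 0 rfl) h
  · exact lS_good (T := T) (x := Lt.b) hM0 hu [Lt.d, Lt.b, Lt.d, Lt.c, Lt.c, Lt.a, Lt.c, Lt.a, Lt.ci, Lt.b, Lt.d] (hat (rf_5 hy) 2 rfl) h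
theorem dp_b_1_s (hy : Hy g H)
    (j u : ℕ) (hu : u < M) (h : dp_b_1 j u = true) : Gd g H Lt.b u := by
  unfold dp_b_1 at h
  rcases brec_true h with h | h
  · exact lS_good (T := T) (x := Lt.b) hM0 hu [Lt.d, Lt.c, Lt.c, Lt.a, Lt.c, Lt.a, Lt.ci, Lt.b, Lt.d, Lt.b, Lt.d] (hat (rf_5 hy) 4 rfl) h
  · exact lS_good (T := T) (x := Lt.b) hM0 hu [Lt.d, Lt.b, Lt.d, Lt.b, Lt.c, Lt.ai, Lt.ci, Lt.ai, Lt.ci, Lt.ci, Lt.d] (hat (rb_5 hy) 9 rfl) h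
theorem dp_b_2_s (hy : Hy g H)
    (j u : ℕ) (hu : u < M) (h : dp_b_2 j u = true) : Gd g H Lt.b u := by
  unfold dp_b_2 at h
  rcases brec_true h with h | h
  · exact lS_good (T := T) (x := Lt.b) hM0 hu [Lt.d, Lt.b, Lt.c, Lt.ai, Lt.ci, Lt.ai, Lt.ci, Lt.ci, Lt.d, Lt.b, Lt.d] (hat (rb_5 hy) 11 rfl) h
  · exact lS_good (T := T) (x := Lt.b) hM0 hu [Lt.ci, Lt.b, Lt.c, Lt.b, Lt.ai, Lt.b, Lt.a, Lt.b, Lt.a, Lt.b, Lt.ai, Lt.ai, Lt.ci] (hat (rb_7 hy) 2 rfl) h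
theorem dp_b_3_s (hy : Hy g H)
    (j u : ℕ) (hu : u < M) (h : dp_b_3 j u = true) : Gd g H Lt.b u := by
  unfold dp_b_3 at h
  rcases brec_true h with h | h
  · exact dp_b_1_s hy j u hu h
  · exact dp_b_2_s hy j u hu h
theorem dp_b_4_s (hy : Hy g H)
    (j u : ℕ) (hu : u < M) (h : dp_b_4 j u = true) : Gd g H Lt.b u := by
  unfold dp_b_4 at h
  rcases brec_true h with h | h
  · exact lS_good (T := T) (x := Lt.b) hM0 hu [Lt.c, Lt.a, Lt.a, Lt.b, Lt.ai, Lt.b, Lt.ai, Lt.b, Lt.a, Lt.b, Lt.ci, Lt.b, Lt.c] (hat (rf_7 hy) 13 rfl) h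
  · exact lS_good (T := T) (x := Lt.b) hM0 hu [Lt.ai, Lt.b, Lt.a, Lt.b, Lt.ci, Lt.b, Lt.c, Lt.b, Lt.c, Lt.a, Lt.a, Lt.b, Lt.ai] (hat (rf_7 hy) 5 rfl) h
theorem dp_b_5_s (hy : Hy g H)
    (j u : ℕ) (hu : u < M) (h : dp_b_5 j u = true) : Gd g H Lt.b u := by
  unfold dp_b_5 at h
  rcases brec_true h with h | h
  · exact lS_good (T := T) (x := Lt.b) hM0 hu [Lt.ai, Lt.ai, Lt.ci, Lt.b, Lt.ci, Lt.b, Lt.c, Lt.b, Lt.ai, Lt.b, Lt.a, Lt.b, Lt.a] (hat (rb_7 hy) 12 rfl) h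
  · exact lS_good (T := T) (x := Lt.b) hM0 hu [Lt.c, Lt.ai, Lt.c, Lt.c, Lt.d, Lt.ci, Lt.ci, Lt.a, Lt.ci, Lt.b, Lt.d] (hat (rf_4 hy) 1 rfl) h
theorem dp_b_6_s (hy : Hy g H)
    (j u : ℕ) (hu : u < M) (h : dp_b_6 j u = true) : Gd g H Lt.b u := by
  unfold dp_b_6 at h
  rcases brec_true h with h | h
  · exact dp_b_4_s hy j u hu h
  · exact dp_b_5_s hy j u hu h
theorem dp_b_7_s (hy : Hy g H)
    (j u : ℕ) (hu : u < M) (h : dp_b_7 j u = true) : Gd g H Lt.b u := by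
  unfold dp_b_7 at h
  rcases brec_true h with h | h
  · exact lS_good (T := T) (x := Lt.b) hM0 hu [Lt.c, Lt.b, Lt.c, Lt.a, Lt.a, Lt.b, Lt.ai, Lt.b, Lt.ai, Lt.b, Lt.a, Lt.b, Lt.ci] (hat (rf_7 hy) 11 rfl) h
  · exact lS_good (T := T) (x := Lt.b) hM0 hu [Lt.c, Lt.ai, Lt.d, Lt.c, Lt.a, Lt.ci, Lt.b, Lt.c, Lt.ai, Lt.c, Lt.d, Lt.a, Lt.ci] (hat (rf_6 hy) 4 rfl) h
theorem dp_b_8_s (hy : Hy g H)
    (j u : ℕ) (hu : u < M) (h : dp_b_8 j u = true) : Gd g H Lt.b u := by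
  unfold dp_b_8 at h
  rcases brec_true h with h | h
  · exact lS_good (T := T) (x := Lt.b) hM0 hu [Lt.c, Lt.b, Lt.ai, Lt.b, Lt.a, Lt.b, Lt.a, Lt.b, Lt.ai, Lt.ai, Lt.ci, Lt.b, Lt.ci] (hat (rb_7 hy) 4 rfl) h
  · exact lS_good (T := T) (x := Lt.b) hM0 hu [Lt.a, Lt.b, Lt.ci, Lt.b, Lt.c, Lt.b, Lt.c, Lt.a, Lt.a, Lt.b, Lt.ai, Lt.b, Lt.ai] (hat (rf_7 hy) 7 rfl) h
theorem dp_b_9_s (hy : Hy g H)
    (j u : ℕ) (hu : u < M) (h : dp_b_9 j u = true) : Gd g H Lt.b u := by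
  unfold dp_b_9 at h
  rcases brec_true h with h | h
  · exact dp_b_7_s hy j u hu h
  · exact dp_b_8_s hy j u hu h
theorem dp_b_10_s (hy : Hy g H)
    (j u : ℕ) (hu : u < M) (h : dp_b_10 j u = true) : Gd g H Lt.b u := by
  unfold dp_b_10 at h
  rcases brec_true h with h | h
  · exact dp_b_6_s hy j u hu h
  · exact dp_b_9_s hy j u hu h
theorem dp_b_11_s (hy : Hy g H)
    (j u : ℕ) (hu : u < M) (h : dp_b_11 j u = true) : Gd g H Lt.b u := by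
  unfold dp_b_11 at h
  rcases brec_true h with h | h
  · exact dp_b_3_s hy j u hu h
  · exact dp_b_10_s hy j u hu h
theorem dp_b_12_s (hy : Hy g H)
    (j u : ℕ) (hu : u < M) (h : dp_b_12 j u = true) : Gd g H Lt.b u := by
  unfold dp_b_12 at h
  rcases brec_true h with h | h
  · exact lS_good (T := T) (x := Lt.b) hM0 hu [Lt.a, Lt.b, Lt.ai, Lt.ai, Lt.ci, Lt.b, Lt.ci, Lt.b, Lt.c, Lt.b, Lt.ai, Lt.b, Lt.a] (hat (rb_7 hy) 10 rfl) h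
  · exact lS_good (T := T) (x := Lt.b) hM0 hu [Lt.c, Lt.c, Lt.b, Lt.ai, Lt.b, Lt.a, Lt.a, Lt.b, Lt.a, Lt.b, Lt.ai, Lt.b, Lt.ci, Lt.ci] (hat (rf_9 hy) 10 rfl) h
theorem dp_b_13_s (hy : Hy g H)
    (j u : ℕ) (hu : u < M) (h : dp_b_13 j u = true) : Gd g H Lt.b u := by
  unfold dp_b_13 at h
  rcases brec_true h with h | h
  · exact lS_good (T := T) (x := Lt.b) hM0 hu [Lt.c, Lt.c, Lt.d, Lt.a, Lt.c, Lt.a, Lt.ci, Lt.b, Lt.c, Lt.ai, Lt.ci, Lt.ai, Lt.d, Lt.ci, Lt.ci] (hat (rf_11 hy) 4 rfl) h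
  · exact dp_b_12_s hy j u hu h
theorem dp_b_14_s (hy : Hy g H)
    (j u : ℕ) (hu : u < M) (h : dp_b_14 j u = true) : Gd g H Lt.b u := by
  unfold dp_b_14 at h
  rcases brec_true h with h | h
  · exact lS_good (T := T) (x := Lt.b) hM0 hu [Lt.d, Lt.b, Lt.d, Lt.b, Lt.d, Lt.c, Lt.c, Lt.a, Lt.c, Lt.a, Lt.ci] (hat (rf_5 hy) 0 rfl) h
  · exact lS_good (T := T) (x := Lt.b) hM0 hu [Lt.ai, Lt.b, Lt.ai, Lt.b, Lt.a, Lt.b, Lt.ci, Lt.b, Lt.c, Lt.b, Lt.c, Lt.a, Lt.a] (hat (rf_7 hy) 3 rfl) h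
theorem dp_b_15_s (hy : Hy g H)
    (j u : ℕ) (hu : u < M) (h : dp_b_15 j u = true) : Gd g H Lt.b u := by
  unfold dp_b_15 at h
  rcases brec_true h with h | h
  · exact lS_good (T := T) (x := Lt.b) hM0 hu [Lt.a, Lt.b, Lt.a, Lt.b, Lt.ai, Lt.ai, Lt.ci, Lt.b, Lt.ci, Lt.b, Lt.c, Lt.b, Lt.ai] (hat (rb_7 hy) 8 rfl) h
  · exact dp_b_14_s hy j u hu h
theorem dp_b_16_s (hy : Hy g H)
    (j u : ℕ) (hu : u < M) (h : dp_b_16 j u = true) : Gd g H Lt.b u := by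
  unfold dp_b_16 at h
  rcases brec_true h with h | h
  · exact dp_b_13_s hy j u hu h
  · exact dp_b_15_s hy j u hu h
theorem dp_b_17_s (hy : Hy g H)
    (j u : ℕ) (hu : u < M) (h : dp_b_17 j u = true) : Gd g H Lt.b u := by
  unfold dp_b_17 at h
  rcases brec_true h with h | h
  · exact lS_good (T := T) (x := Lt.b) hM0 hu [Lt.d, Lt.b, Lt.c, Lt.ai, Lt.c, Lt.c, Lt.d, Lt.ci, Lt.ci, Lt.a, Lt.ci] (hat (rf_4 hy) 11 rfl) h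
  · exact lS_good (T := T) (x := Lt.b) hM0 hu [Lt.c, Lt.ai, Lt.ci, Lt.ai, Lt.ci, Lt.ci, Lt.d, Lt.b, Lt.d, Lt.b, Lt.d] (hat (rb_5 hy) 1 rfl) h
theorem dp_b_18_s (hy : Hy g H)
    (j u : ℕ) (hu : u < M) (h : dp_b_18 j u = true) : Gd g H Lt.b u := by
  unfold dp_b_18 at h
  rcases brec_true h with h | h
  · exact lS_good (T := T) (x := Lt.b) hM0 hu [Lt.ai, Lt.b, Lt.ai, Lt.ai, Lt.c, Lt.ai, Lt.ai, Lt.b, Lt.ci, Lt.b, Lt.a, Lt.a, Lt.ci, Lt.ai] (hat (rb_10 hy) 11 rfl) h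
  · exact lS_good (T := T) (x := Lt.b) hM0 hu [Lt.ai, Lt.b, Lt.a, Lt.b, Lt.a, Lt.b, Lt.ai, Lt.ai, Lt.ci, Lt.b, Lt.ci, Lt.b, Lt.c] (hat (rb_7 hy) 6 rfl) h
theorem dp_b_19_s (hy : Hy g H)
    (j u : ℕ) (hu : u < M) (h : dp_b_19 j u = true) : Gd g H Lt.b u := by
  unfold dp_b_19 at h
  rcases brec_true h with h | h
  · exact lS_good (T := T) (x := Lt.b) hM0 hu [Lt.c, Lt.ai, Lt.d, Lt.ci, Lt.a, Lt.ci, Lt.b, Lt.c, Lt.ai, Lt.ci, Lt.d, Lt.a, Lt.ci] (hat (rb_6 hy) 11 rfl) h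
  · exact dp_b_18_s hy j u hu h
theorem dp_b_20_s (hy : Hy g H)
    (j u : ℕ) (hu : u < M) (h : dp_b_20 j u = true) : Gd g H Lt.b u := by
  unfold dp_b_20 at h
  rcases brec_true h with h | h
  · exact dp_b_17_s hy j u hu h
  · exact dp_b_19_s hy j u hu h
theorem dp_b_21_s (hy : Hy g H)
    (j u : ℕ) (hu : u < M) (h : dp_b_21 j u = true) : Gd g H Lt.b u := by
  unfold dp_b_21 at h
  rcases brec_true h with h | h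
  · exact lS_good (T := T) (x := Lt.b) hM0 hu [Lt.c, Lt.c, Lt.b, Lt.a, Lt.b, Lt.ai, Lt.b, Lt.ai, Lt.ai, Lt.b, Lt.a, Lt.b, Lt.ci, Lt.ci] (hat (rb_9 hy) 6 rfl) h
  · exact lF_good (T := T) (x := Lt.b) hM0 [Lt.c, Lt.c, Lt.d, Lt.a, Lt.c, Lt.a, Lt.ci, Lt.b, Lt.c, Lt.ai, Lt.ci, Lt.ai, Lt.d, Lt.ci, Lt.ci] (hat (rf_11 hy) 4 rfl) h
theorem dp_b_22_s (hy : Hy g H)
    (j u : ℕ) (hu : u < M) (h : dp_b_22 j u = true) : Gd g H Lt.b u := by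
  unfold dp_b_22 at h
  rcases brec_true h with h | h
  · exact lS_good (T := T) (x := Lt.b) hM0 hu [Lt.c, Lt.a, Lt.b, Lt.ai, Lt.b, Lt.ai, Lt.ai, Lt.ai, Lt.ai, Lt.b, Lt.ai, Lt.ci, Lt.b, Lt.c] (hat (rb_8 hy) 6 rfl) h
  · exact dp_b_21_s hy j u hu h
theorem dp_b_23_s (hy : Hy g H)
    (j u : ℕ) (hu : u < M) (h : dp_b_23 j u = true) : Gd g H Lt.b u := by
  unfold dp_b_23 at h
  rcases brec_true h with h | h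
  · exact lF_good (T := T) (x := Lt.b) hM0 [Lt.c, Lt.ai, Lt.c, Lt.d, Lt.a, Lt.ci, Lt.b, Lt.c, Lt.ai, Lt.d, Lt.c, Lt.a, Lt.ci] (hat (rf_6 hy) 11 rfl) h
  · exact lS_good (T := T) (x := Lt.b) hM0 hu [Lt.a, Lt.b, Lt.ai, Lt.b, Lt.ci, Lt.ci, Lt.b, Lt.c, Lt.c, Lt.b, Lt.ai, Lt.b, Lt.a, Lt.a] (hat (rf_9 hy) 3 rfl) h
theorem dp_b_24_s (hy : Hy g H)
    (j u : ℕ) (hu : u < M) (h : dp_b_24 j u = true) : Gd g H Lt.b u := by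
  unfold dp_b_24 at h
  rcases brec_true h with h | h
  · exact lS_good (T := T) (x := Lt.b) hM0 hu [Lt.ci, Lt.b, Lt.c, Lt.b, Lt.c, Lt.a, Lt.a, Lt.b, Lt.ai, Lt.b, Lt.ai, Lt.b, Lt.a] (hat (rf_7 hy) 9 rfl) h
  · exact lF_good (T := T) (x := Lt.b) hM0 [Lt.c, Lt.ai, Lt.d, Lt.c, Lt.a, Lt.ci, Lt.b, Lt.c, Lt.ai, Lt.c, Lt.d, Lt.a, Lt.ci] (hat (rf_6 hy) 4 rfl) h
theorem dp_b_25_s (hy : Hy g H)
    (j u : ℕ) (hu : u < M) (h : dp_b_25 j u = true) : Gd g H Lt.b u := by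
  unfold dp_b_25 at h
  rcases brec_true h with h | h
  · exact dp_b_23_s hy j u hu h
  · exact dp_b_24_s hy j u hu h
theorem dp_b_26_s (hy : Hy g H)
    (j u : ℕ) (hu : u < M) (h : dp_b_26 j u = true) : Gd g H Lt.b u := by
  unfold dp_b_26 at h
  rcases brec_true h with h | h
  · exact dp_b_22_s hy j u hu h
  · exact dp_b_25_s hy j u hu h
theorem dp_b_27_s (hy : Hy g H)
    (j u : ℕ) (hu : u < M) (h : dp_b_27 j u = true) : Gd g H Lt.b u := by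
  unfold dp_b_27 at h
  rcases brec_true h with h | h
  · exact dp_b_20_s hy j u hu h
  · exact dp_b_26_s hy j u hu h
theorem dp_b_28_s (hy : Hy g H)
    (j u : ℕ) (hu : u < M) (h : dp_b_28 j u = true) : Gd g H Lt.b u := by
  unfold dp_b_28 at h
  rcases brec_true h with h | h
  · exact dp_b_16_s hy j u hu h
  · exact dp_b_27_s hy j u hu h
theorem dp_b_29_s (hy : Hy g H)
    (j u : ℕ) (hu : u < M) (h : dp_b_29 j u = true) : Gd g H Lt.b u := by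
  unfold dp_b_29 at h
  rcases brec_true h with h | h
  · exact lS_good (T := T) (x := Lt.b) hM0 hu [Lt.ai, Lt.ai, Lt.b, Lt.a, Lt.b, Lt.ci, Lt.ci, Lt.b, Lt.c, Lt.c, Lt.b, Lt.a, Lt.b, Lt.ai] (hat (rb_9 hy) 13 rfl) h
  · exact lS_good (T := T) (x := Lt.b) hM0 hu [Lt.a, Lt.b, Lt.ai, Lt.ci, Lt.b, Lt.ci, Lt.b, Lt.c, Lt.a, Lt.b, Lt.a, Lt.a, Lt.a, Lt.a] (hat (rf_8 hy) 5 rfl) h
theorem dp_b_30_s (hy : Hy g H)
    (j u : ℕ) (hu : u < M) (h : dp_b_30 j u = true) : Gd g H Lt.b u := by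
  unfold dp_b_30 at h
  rcases brec_true h with h | h
  · exact lS_good (T := T) (x := Lt.b) hM0 hu [Lt.ai, Lt.b, Lt.ai, Lt.ai, Lt.b, Lt.a, Lt.b, Lt.ci, Lt.ci, Lt.b, Lt.c, Lt.c, Lt.b, Lt.a] (hat (rb_9 hy) 11 rfl) h
  · exact lS_good (T := T) (x := Lt.b) hM0 hu [Lt.a, Lt.a, Lt.b, Lt.a, Lt.b, Lt.ai, Lt.b, Lt.ci, Lt.ci, Lt.b, Lt.c, Lt.c, Lt.b, Lt.ai] (hat (rf_9 hy) 0 rfl) h
theorem dp_b_31_s (hy : Hy g H)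
    (j u : ℕ) (hu : u < M) (h : dp_b_31 j u = true) : Gd g H Lt.b u := by
  unfold dp_b_31 at h
  rcases brec_true h with h | h
  · exact lS_good (T := T) (x := Lt.b) hM0 hu [Lt.a, Lt.a, Lt.ci, Lt.ai, Lt.b, Lt.ai, Lt.b, Lt.ai, Lt.ai, Lt.c, Lt.ai, Lt.ai, Lt.b, Lt.ci] (hat (rb_10 hy) 6 rfl) h
  · exact dp_b_30_s hy j u hu h
theorem dp_b_32_s (hy : Hy g H)
    (j u : ℕ) (hu : u < M) (h : dp_b_32 j u = true) : Gd g H Lt.b u := by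
  unfold dp_b_32 at h
  rcases brec_true h with h | h
  · exact dp_b_29_s hy j u hu h
  · exact dp_b_31_s hy j u hu h
theorem dp_b_33_s (hy : Hy g H)
    (j u : ℕ) (hu : u < M) (h : dp_b_33 j u = true) : Gd g H Lt.b u := by
  unfold dp_b_33 at h
  rcases brec_true h with h | h
  · exact lF_good (T := T) (x := Lt.b) hM0 [Lt.c, Lt.b, Lt.c, Lt.a, Lt.a, Lt.b, Lt.ai, Lt.b, Lt.ai, Lt.b, Lt.a, Lt.b, Lt.ci] (hat (rf_7 hy) 11 rfl) h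
  · exact lF_good (T := T) (x := Lt.b) hM0 [Lt.d, Lt.b, Lt.d, Lt.b, Lt.d, Lt.c, Lt.c, Lt.a, Lt.c, Lt.a, Lt.ci] (hat (rf_5 hy) 0 rfl) h
theorem dp_b_34_s (hy : Hy g H)
    (j u : ℕ) (hu : u < M) (h : dp_b_34 j u = true) : Gd g H Lt.b u := by
  unfold dp_b_34 at h
  rcases brec_true h with h | h
  · exact lF_good (T := T) (x := Lt.b) hM0 [Lt.c, Lt.ai, Lt.ci, Lt.d, Lt.a, Lt.ci, Lt.b, Lt.c, Lt.ai, Lt.d, Lt.ci, Lt.a, Lt.ci] (hat (rb_6 hy) 4 rfl) h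
  · exact lF_good (T := T) (x := Lt.b) hM0 [Lt.d, Lt.b, Lt.d, Lt.b, Lt.c, Lt.ai, Lt.ci, Lt.ai, Lt.ci, Lt.ci, Lt.d] (hat (rb_5 hy) 9 rfl) h
theorem dp_b_35_s (hy : Hy g H)
    (j u : ℕ) (hu : u < M) (h : dp_b_35 j u = true) : Gd g H Lt.b u := by
  unfold dp_b_35 at h
  rcases brec_true h with h | h
  · exact lF_good (T := T) (x := Lt.b) hM0 [Lt.c, Lt.ai, Lt.d, Lt.ci, Lt.a, Lt.ci, Lt.b, Lt.c, Lt.ai, Lt.ci, Lt.d, Lt.a, Lt.ci] (hat (rb_6 hy) 11 rfl) h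
  · exact dp_b_34_s hy j u hu h
theorem dp_b_36_s (hy : Hy g H)
    (j u : ℕ) (hu : u < M) (h : dp_b_36 j u = true) : Gd g H Lt.b u := by
  unfold dp_b_36 at h
  rcases brec_true h with h | h
  · exact dp_b_33_s hy j u hu h
  · exact dp_b_35_s hy j u hu h
theorem dp_b_37_s (hy : Hy g H)
    (j u : ℕ) (hu : u < M) (h : dp_b_37 j u = true) : Gd g H Lt.b u := by
  unfold dp_b_37 at h
  rcases brec_true h with h | h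
  · exact dp_b_32_s hy j u hu h
  · exact dp_b_36_s hy j u hu h
theorem dp_b_38_s (hy : Hy g H)
    (j u : ℕ) (hu : u < M) (h : dp_b_38 j u = true) : Gd g H Lt.b u := by
  unfold dp_b_38 at h
  rcases brec_true h with h | h
  · exact lS_good (T := T) (x := Lt.b) hM0 hu [Lt.ci, Lt.ci, Lt.b, Lt.c, Lt.c, Lt.b, Lt.ai, Lt.b, Lt.a, Lt.a, Lt.b, Lt.a, Lt.b, Lt.ai] (hat (rf_9 hy) 7 rfl) h
  · exact lS_good (T := T) (x := Lt.b) hM0 hu [Lt.ai, Lt.ci, Lt.b, Lt.c, Lt.b, Lt.c, Lt.a, Lt.b, Lt.ai, Lt.b, Lt.ai, Lt.ai, Lt.ai, Lt.ai] (hat (rb_8 hy) 1 rfl) h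
theorem dp_b_39_s (hy : Hy g H)
    (j u : ℕ) (hu : u < M) (h : dp_b_39 j u = true) : Gd g H Lt.b u := by
  unfold dp_b_39 at h
  rcases brec_true h with h | h
  · exact lS_good (T := T) (x := Lt.b) hM0 hu [Lt.a, Lt.b, Lt.ci, Lt.ci, Lt.b, Lt.c, Lt.c, Lt.b, Lt.a, Lt.b, Lt.ai, Lt.b, Lt.ai, Lt.ai] (hat (rb_9 hy) 1 rfl) h
  · exact dp_b_38_s hy j u hu h
theorem dp_b_40_s (hy : Hy g H)
    (j u : ℕ) (hu : u < M) (h : dp_b_40 j u = true) : Gd g H Lt.b u := by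
  unfold dp_b_40 at h
  rcases brec_true h with h | h
  · exact lS_good (T := T) (x := Lt.b) hM0 hu [Lt.a, Lt.b, Lt.a, Lt.c, Lt.ai, Lt.ai, Lt.b, Lt.c, Lt.b, Lt.a, Lt.a, Lt.ci, Lt.a, Lt.a] (hat (rf_10 hy) 3 rfl) h
  · exact lS_good (T := T) (x := Lt.b) hM0 hu [Lt.ai, Lt.ai, Lt.ai, Lt.ai, Lt.b, Lt.ai, Lt.ci, Lt.b, Lt.c, Lt.b, Lt.c, Lt.a, Lt.b, Lt.ai] (hat (rb_8 hy) 11 rfl) h
theorem dp_b_41_s (hy : Hy g H)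
    (j u : ℕ) (hu : u < M) (h : dp_b_41 j u = true) : Gd g H Lt.b u := by
  unfold dp_b_41 at h
  rcases brec_true h with h | h
  · exact lS_good (T := T) (x := Lt.b) hM0 hu [Lt.c, Lt.b, Lt.a, Lt.a, Lt.ci, Lt.a, Lt.a, Lt.b, Lt.a, Lt.b, Lt.a, Lt.c, Lt.ai, Lt.ai] (hat (rf_10 hy) 10 rfl) h
  · exact dp_b_40_s hy j u hu h
theorem dp_b_42_s (hy : Hy g H)
    (j u : ℕ) (hu : u < M) (h : dp_b_42 j u = true) : Gd g H Lt.b u := by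
  unfold dp_b_42 at h
  rcases brec_true h with h | h
  · exact dp_b_39_s hy j u hu h
  · exact dp_b_41_s hy j u hu h
theorem dp_b_43_s (hy : Hy g H)
    (j u : ℕ) (hu : u < M) (h : dp_b_43 j u = true) : Gd g H Lt.b u := by
  unfold dp_b_43 at h
  rcases brec_true h with h | h
  · exact lS_good (T := T) (x := Lt.b) hM0 hu [Lt.a, Lt.a, Lt.ci, Lt.a, Lt.a, Lt.b, Lt.a, Lt.b, Lt.a, Lt.c, Lt.ai, Lt.ai, Lt.b, Lt.c] (hat (rf_10 hy) 12 rfl) h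
  · exact lF_good (T := T) (x := Lt.b) hM0 [Lt.a, Lt.a, Lt.a, Lt.ci, Lt.b, Lt.a, Lt.ci, Lt.b, Lt.c, Lt.ai, Lt.b, Lt.c, Lt.ai, Lt.ai, Lt.ai] (hat (rf_13 hy) 0 rfl) h
theorem dp_b_44_s (hy : Hy g H)
    (j u : ℕ) (hu : u < M) (h : dp_b_44 j u = true) : Gd g H Lt.b u := by
  unfold dp_b_44 at h
  rcases brec_true h with h | h
  · exact lF_good (T := T) (x := Lt.b) hM0 [Lt.d, Lt.c, Lt.c, Lt.a, Lt.c, Lt.a, Lt.ci, Lt.b, Lt.d, Lt.b, Lt.d] (hat (rf_5 hy) 4 rfl) h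
  · exact lF_good (T := T) (x := Lt.b) hM0 [Lt.ci, Lt.b, Lt.c, Lt.b, Lt.ai, Lt.b, Lt.a, Lt.b, Lt.a, Lt.b, Lt.ai, Lt.ai, Lt.ci] (hat (rb_7 hy) 2 rfl) h
theorem dp_b_45_s (hy : Hy g H)
    (j u : ℕ) (hu : u < M) (h : dp_b_45 j u = true) : Gd g H Lt.b u := by
  unfold dp_b_45 at h
  rcases brec_true h with h | h
  · exact dp_b_43_s hy j u hu h
  · exact dp_b_44_s hy j u hu h
theorem dp_b_46_s (hy : Hy g H)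
    (j u : ℕ) (hu : u < M) (h : dp_b_46 j u = true) : Gd g H Lt.b u := by
  unfold dp_b_46 at h
  rcases brec_true h with h | h
  · exact lS_good (T := T) (x := Lt.b) hM0 hu [Lt.ai, Lt.ci, Lt.b, Lt.ci, Lt.b, Lt.c, Lt.a, Lt.b, Lt.a, Lt.a, Lt.a, Lt.a, Lt.b, Lt.a] (hat (rf_8 hy) 7 rfl) h
  · exact lS_good (T := T) (x := Lt.b) hM0 hu [Lt.c, Lt.ai, Lt.ai, Lt.b, Lt.a, Lt.b, Lt.ai, Lt.b, Lt.ai, Lt.b, Lt.a, Lt.a, Lt.a, Lt.ci, Lt.b, Lt.ci] (hat (rf_17 hy) 7 rfl) h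
theorem dp_b_47_s (hy : Hy g H)
    (j u : ℕ) (hu : u < M) (h : dp_b_47 j u = true) : Gd g H Lt.b u := by
  unfold dp_b_47 at h
  rcases brec_true h with h | h
  · exact lS_good (T := T) (x := Lt.b) hM0 hu [Lt.a, Lt.a, Lt.a, Lt.a, Lt.b, Lt.a, Lt.b, Lt.ai, Lt.ci, Lt.b, Lt.ci, Lt.b, Lt.c, Lt.a] (hat (rf_8 hy) 0 rfl) h
  · exact lS_good (T := T) (x := Lt.b) hM0 hu [Lt.c, Lt.ai, Lt.ai, Lt.ai, Lt.b, Lt.a, Lt.a, Lt.a, Lt.ci, Lt.b, Lt.a, Lt.ci, Lt.b, Lt.c, Lt.ai] (hat (rf_13 hy) 11 rfl) h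
theorem dp_b_48_s (hy : Hy g H)
    (j u : ℕ) (hu : u < M) (h : dp_b_48 j u = true) : Gd g H Lt.b u := by
  unfold dp_b_48 at h
  rcases brec_true h with h | h
  · exact dp_b_46_s hy j u hu h
  · exact dp_b_47_s hy j u hu h
theorem dp_b_49_s (hy : Hy g H)
    (j u : ℕ) (hu : u < M) (h : dp_b_49 j u = true) : Gd g H Lt.b u := by
  unfold dp_b_49 at h
  rcases brec_true h with h | h
  · exact dp_b_45_s hy j u hu h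
  · exact dp_b_48_s hy j u hu h
theorem dp_b_50_s (hy : Hy g H)
    (j u : ℕ) (hu : u < M) (h : dp_b_50 j u = true) : Gd g H Lt.b u := by
  unfold dp_b_50 at h
  rcases brec_true h with h | h
  · exact dp_b_42_s hy j u hu h
  · exact dp_b_49_s hy j u hu h
theorem dp_b_51_s (hy : Hy g H)
    (j u : ℕ) (hu : u < M) (h : dp_b_51 j u = true) : Gd g H Lt.b u := by
  unfold dp_b_51 at h
  rcases brec_true h with h | h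
  · exact dp_b_37_s hy j u hu h
  · exact dp_b_50_s hy j u hu h
theorem dp_b_52_s (hy : Hy g H)
    (j u : ℕ) (hu : u < M) (h : dp_b_52 j u = true) : Gd g H Lt.b u := by
  unfold dp_b_52 at h
  rcases brec_true h with h | h
  · exact lS_good (T := T) (x := Lt.b) hM0 hu [Lt.a, Lt.b, Lt.ai, Lt.b, Lt.ai, Lt.ai, Lt.b, Lt.a, Lt.b, Lt.ci, Lt.ci, Lt.b, Lt.c, Lt.c] (hat (rb_9 hy) 9 rfl) h
  · exact lF_good (T := T) (x := Lt.b) hM0 [Lt.d, Lt.b, Lt.d, Lt.c, Lt.c, Lt.a, Lt.c, Lt.a, Lt.ci, Lt.b, Lt.d] (hat (rf_5 hy) 2 rfl) h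
theorem dp_b_53_s (hy : Hy g H)
    (j u : ℕ) (hu : u < M) (h : dp_b_53 j u = true) : Gd g H Lt.b u := by
  unfold dp_b_53 at h
  rcases brec_true h with h | h
  · exact lF_good (T := T) (x := Lt.b) hM0 [Lt.d, Lt.b, Lt.c, Lt.ai, Lt.c, Lt.c, Lt.d, Lt.ci, Lt.ci, Lt.a, Lt.ci] (hat (rf_4 hy) 11 rfl) h
  · exact lS_good (T := T) (x := Lt.b) hM0 hu [Lt.ai, Lt.b, Lt.ai, Lt.ai, Lt.ai, Lt.ai, Lt.b, Lt.ai, Lt.ci, Lt.b, Lt.c, Lt.b, Lt.c, Lt.a] (hat (rb_8 hy) 9 rfl) h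
theorem dp_b_54_s (hy : Hy g H)
    (j u : ℕ) (hu : u < M) (h : dp_b_54 j u = true) : Gd g H Lt.b u := by
  unfold dp_b_54 at h
  rcases brec_true h with h | h
  · exact dp_b_52_s hy j u hu h
  · exact dp_b_53_s hy j u hu h
theorem dp_b_55_s (hy : Hy g H)
    (j u : ℕ) (hu : u < M) (h : dp_b_55 j u = true) : Gd g H Lt.b u := by
  unfold dp_b_55 at h
  rcases brec_true h with h | h
  · exact lS_good (T := T) (x := Lt.b) hM0 hu [Lt.c, Lt.ai, Lt.c, Lt.d, Lt.a, Lt.ci, Lt.b, Lt.c, Lt.ai, Lt.d, Lt.c, Lt.a, Lt.ci] (hat (rf_6 hy) 11 rfl) h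
  · exact lS_good (T := T) (x := Lt.b) hM0 hu [Lt.c, Lt.a, Lt.b, Lt.a, Lt.a, Lt.a, Lt.a, Lt.b, Lt.a, Lt.b, Lt.ai, Lt.ci, Lt.b, Lt.ci] (hat (rf_8 hy) 12 rfl) h
theorem dp_b_56_s (hy : Hy g H)
    (j u : ℕ) (hu : u < M) (h : dp_b_56 j u = true) : Gd g H Lt.b u := by
  unfold dp_b_56 at h
  rcases brec_true h with h | h
  · exact lF_good (T := T) (x := Lt.b) hM0 [Lt.c, Lt.ai, Lt.ci, Lt.ai, Lt.ci, Lt.ci, Lt.d, Lt.b, Lt.d, Lt.b, Lt.d] (hat (rb_5 hy) 1 rfl) h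
  · exact lS_good (T := T) (x := Lt.b) hM0 hu [Lt.ai, Lt.b, Lt.a, Lt.a, Lt.b, Lt.a, Lt.b, Lt.ai, Lt.b, Lt.ci, Lt.ci, Lt.b, Lt.c, Lt.c] (hat (rf_9 hy) 13 rfl) h
theorem dp_b_57_s (hy : Hy g H)
    (j u : ℕ) (hu : u < M) (h : dp_b_57 j u = true) : Gd g H Lt.b u := by
  unfold dp_b_57 at h
  rcases brec_true h with h | h
  · exact lF_good (T := T) (x := Lt.b) hM0 [Lt.ai, Lt.b, Lt.ai, Lt.ai, Lt.ai, Lt.ai, Lt.b, Lt.ai, Lt.ci, Lt.b, Lt.c, Lt.b, Lt.c, Lt.a] (hat (rb_8 hy) 9 rfl) h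
  · exact dp_b_56_s hy j u hu h
theorem dp_b_58_s (hy : Hy g H)
    (j u : ℕ) (hu : u < M) (h : dp_b_58 j u = true) : Gd g H Lt.b u := by
  unfold dp_b_58 at h
  rcases brec_true h with h | h
  · exact dp_b_55_s hy j u hu h
  · exact dp_b_57_s hy j u hu h
theorem dp_b_59_s (hy : Hy g H)
    (j u : ℕ) (hu : u < M) (h : dp_b_59 j u = true) : Gd g H Lt.b u := by
  unfold dp_b_59 at h
  rcases brec_true h with h | h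
  · exact dp_b_54_s hy j u hu h
  · exact dp_b_58_s hy j u hu h
theorem dp_b_60_s (hy : Hy g H)
    (j u : ℕ) (hu : u < M) (h : dp_b_60 j u = true) : Gd g H Lt.b u := by
  unfold dp_b_60 at h
  rcases brec_true h with h | h
  · exact lF_good (T := T) (x := Lt.b) hM0 [Lt.c, Lt.a, Lt.b, Lt.a, Lt.a, Lt.a, Lt.a, Lt.b, Lt.a, Lt.b, Lt.ai, Lt.ci, Lt.b, Lt.ci] (hat (rf_8 hy) 12 rfl) h
  · exact lF_good (T := T) (x := Lt.b) hM0 [Lt.c, Lt.a, Lt.a, Lt.b, Lt.ai, Lt.b, Lt.ai, Lt.b, Lt.a, Lt.b, Lt.ci, Lt.b, Lt.c] (hat (rf_7 hy) 13 rfl) h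
theorem dp_b_61_s (hy : Hy g H)
    (j u : ℕ) (hu : u < M) (h : dp_b_61 j u = true) : Gd g H Lt.b u := by
  unfold dp_b_61 at h
  rcases brec_true h with h | h
  · exact lS_good (T := T) (x := Lt.b) hM0 hu [Lt.ci, Lt.b, Lt.c, Lt.b, Lt.a, Lt.b, Lt.ai, Lt.ai, Lt.b, Lt.a, Lt.b, Lt.a, Lt.b, Lt.ai, Lt.ai, Lt.b, Lt.ci] (hat (rb_20 hy) 3 rfl) h
  · exact dp_b_60_s hy j u hu h
theorem dp_b_62_s (hy : Hy g H)
    (j u : ℕ) (hu : u < M) (h : dp_b_62 j u = true) : Gd g H Lt.b u := by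
  unfold dp_b_62 at h
  rcases brec_true h with h | h
  · exact lS_good (T := T) (x := Lt.b) hM0 hu [Lt.a, Lt.a, Lt.a, Lt.ci, Lt.b, Lt.ci, Lt.b, Lt.c, Lt.ai, Lt.ai, Lt.b, Lt.a, Lt.b, Lt.ai, Lt.b, Lt.ai] (hat (rf_17 hy) 0 rfl) h
  · exact lS_good (T := T) (x := Lt.b) hM0 hu [Lt.c, Lt.b, Lt.c, Lt.a, Lt.b, Lt.ai, Lt.b, Lt.ai, Lt.ai, Lt.ai, Lt.ai, Lt.b, Lt.ai, Lt.ci] (hat (rb_8 hy) 4 rfl) h
theorem dp_b_63_s (hy : Hy g H)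
    (j u : ℕ) (hu : u < M) (h : dp_b_63 j u = true) : Gd g H Lt.b u := by
  unfold dp_b_63 at h
  rcases brec_true h with h | h
  · exact lS_good (T := T) (x := Lt.b) hM0 hu [Lt.ai, Lt.ai, Lt.c, Lt.ai, Lt.ai, Lt.b, Lt.ci, Lt.b, Lt.a, Lt.a, Lt.ci, Lt.ai, Lt.b, Lt.ai] (hat (rb_10 hy) 13 rfl) h
  · exact dp_b_62_s hy j u hu h
theorem dp_b_64_s (hy : Hy g H)
    (j u : ℕ) (hu : u < M) (h : dp_b_64 j u = true) : Gd g H Lt.b u := by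
  unfold dp_b_64 at h
  rcases brec_true h with h | h
  · exact dp_b_61_s hy j u hu h
  · exact dp_b_63_s hy j u hu h
theorem dp_b_65_s (hy : Hy g H)
    (j u : ℕ) (hu : u < M) (h : dp_b_65 j u = true) : Gd g H Lt.b u := by
  unfold dp_b_65 at h
  rcases brec_true h with h | h
  · exact lS_good (T := T) (x := Lt.b) hM0 hu [Lt.ci, Lt.b, Lt.ci, Lt.b, Lt.c, Lt.b, Lt.a, Lt.b, Lt.ai, Lt.ai, Lt.b, Lt.a, Lt.b, Lt.a, Lt.b, Lt.ai, Lt.ai] (hat (rb_20 hy) 1 rfl) h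
  · exact lS_good (T := T) (x := Lt.b) hM0 hu [Lt.d, Lt.ai, Lt.ai, Lt.d, Lt.c, Lt.ai, Lt.ci, Lt.a, Lt.b, Lt.ai, Lt.ai, Lt.ci, Lt.d, Lt.a, Lt.a, Lt.d] (hat (rb_15 hy) 13 rfl) h
theorem dp_b_66_s (hy : Hy g H)
    (j u : ℕ) (hu : u < M) (h : dp_b_66 j u = true) : Gd g H Lt.b u := by
  unfold dp_b_66 at h
  rcases brec_true h with h | h
  · exact lS_good (T := T) (x := Lt.b) hM0 hu [Lt.ci, Lt.b, Lt.c, Lt.a, Lt.b, Lt.a, Lt.a, Lt.a, Lt.a, Lt.b, Lt.a, Lt.b, Lt.ai, Lt.ci] (hat (rf_8 hy) 10 rfl) h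
  · exact dp_b_65_s hy j u hu h
theorem dp_b_67_s (hy : Hy g H)
    (j u : ℕ) (hu : u < M) (h : dp_b_67 j u = true) : Gd g H Lt.b u := by
  unfold dp_b_67 at h
  rcases brec_true h with h | h
  · exact lF_good (T := T) (x := Lt.b) hM0 [Lt.c, Lt.b, Lt.c, Lt.a, Lt.b, Lt.ai, Lt.b, Lt.ai, Lt.ai, Lt.ai, Lt.ai, Lt.b, Lt.ai, Lt.ci] (hat (rb_8 hy) 4 rfl) h
  · exact lS_good (T := T) (x := Lt.b) hM0 hu [Lt.c, Lt.ai, Lt.ci, Lt.d, Lt.a, Lt.ci, Lt.b, Lt.c, Lt.ai, Lt.d, Lt.ci, Lt.a, Lt.ci] (hat (rb_6 hy) 4 rfl) h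
theorem dp_b_68_s (hy : Hy g H)
    (j u : ℕ) (hu : u < M) (h : dp_b_68 j u = true) : Gd g H Lt.b u := by
  unfold dp_b_68 at h
  rcases brec_true h with h | h
  · exact lF_good (T := T) (x := Lt.b) hM0 [Lt.c, Lt.b, Lt.ai, Lt.b, Lt.a, Lt.b, Lt.a, Lt.b, Lt.ai, Lt.ai, Lt.ci, Lt.b, Lt.ci] (hat (rb_7 hy) 4 rfl) h
  · exact dp_b_67_s hy j u hu h
theorem dp_b_69_s (hy : Hy g H)
    (j u : ℕ) (hu : u < M) (h : dp_b_69 j u = true) : Gd g H Lt.b u := by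
  unfold dp_b_69 at h
  rcases brec_true h with h | h
  · exact dp_b_66_s hy j u hu h
  · exact dp_b_68_s hy j u hu h
theorem dp_b_70_s (hy : Hy g H)
    (j u : ℕ) (hu : u < M) (h : dp_b_70 j u = true) : Gd g H Lt.b u := by
  unfold dp_b_70 at h
  rcases brec_true h with h | h
  · exact dp_b_64_s hy j u hu h
  · exact dp_b_69_s hy j u hu h
theorem dp_b_71_s (hy : Hy g H)
    (j u : ℕ) (hu : u < M) (h : dp_b_71 j u = true) : Gd g H Lt.b u := by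
  unfold dp_b_71 at h
  rcases brec_true h with h | h
  · exact dp_b_59_s hy j u hu h
  · exact dp_b_70_s hy j u hu h
theorem dp_b_72_s (hy : Hy g H)
    (j u : ℕ) (hu : u < M) (h : dp_b_72 j u = true) : Gd g H Lt.b u := by
  unfold dp_b_72 at h
  rcases brec_true h with h | h
  · exact lS_good (T := T) (x := Lt.b) hM0 hu [Lt.a, Lt.a, Lt.b, Lt.a, Lt.b, Lt.ai, Lt.ai, Lt.b, Lt.a, Lt.a, Lt.b, Lt.a, Lt.b, Lt.ai, Lt.ai] (hat (rf_14 hy) 0 rfl) h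
  · exact lH_good (T := T) (x := Lt.b) hM0 [] [] (by rw [show cP g H 0 = _ from cc_zero]; exact sub_rel hy.1 (hy.2.2 _ (by decide))) h
theorem dp_b_73_s (hy : Hy g H)
    (j u : ℕ) (hu : u < M) (h : dp_b_73 j u = true) : Gd g H Lt.b u := by
  unfold dp_b_73 at h
  rcases brec_true h with h | h
  · exact lF_good (T := T) (x := Lt.b) hM0 [Lt.a, Lt.b, Lt.c, Lt.c, Lt.a, Lt.c, Lt.ai, Lt.ci, Lt.ci, Lt.a, Lt.b, Lt.ai, Lt.ai, Lt.b, Lt.ai] (hat (rb_12 hy) 3 rfl) h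
  · exact lF_good (T := T) (x := Lt.b) hM0 [Lt.ai, Lt.ai, Lt.b, Lt.a, Lt.a, Lt.b, Lt.a, Lt.b, Lt.ai, Lt.ai, Lt.b, Lt.a, Lt.a, Lt.b, Lt.a] (hat (rf_14 hy) 5 rfl) h
theorem dp_b_74_s (hy : Hy g H)
    (j u : ℕ) (hu : u < M) (h : dp_b_74 j u = true) : Gd g H Lt.b u := by
  unfold dp_b_74 at h
  rcases brec_true h with h | h
  · exact lF_good (T := T) (x := Lt.b) hM0 [Lt.d, Lt.ai, Lt.ai, Lt.d, Lt.c, Lt.a, Lt.a, Lt.b, Lt.ai, Lt.c, Lt.a, Lt.ci, Lt.d, Lt.a, Lt.a, Lt.d] (hat (rf_15 hy) 5 rfl) h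
  · exact dp_b_73_s hy j u hu h
theorem dp_b_75_s (hy : Hy g H)
    (j u : ℕ) (hu : u < M) (h : dp_b_75 j u = true) : Gd g H Lt.b u := by
  unfold dp_b_75 at h
  rcases brec_true h with h | h
  · exact dp_b_72_s hy j u hu h
  · exact dp_b_74_s hy j u hu h
theorem dp_b_76_s (hy : Hy g H)
    (j u : ℕ) (hu : u < M) (h : dp_b_76 j u = true) : Gd g H Lt.b u := by
  unfold dp_b_76 at h
  rcases brec_true h with h | h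
  · exact lS_good (T := T) (x := Lt.b) hM0 hu [Lt.a, Lt.a, Lt.a, Lt.ci, Lt.b, Lt.a, Lt.ci, Lt.b, Lt.c, Lt.ai, Lt.b, Lt.c, Lt.ai, Lt.ai, Lt.ai] (hat (rf_13 hy) 0 rfl) h
  · exact lS_good (T := T) (x := Lt.b) hM0 hu [Lt.ci, Lt.ci, Lt.b, Lt.c, Lt.ai, Lt.ai, Lt.b, Lt.a, Lt.a, Lt.a, Lt.a, Lt.a, Lt.a, Lt.a, Lt.a, Lt.ci] (hat (rf_18 hy) 10 rfl) h
theorem dp_b_77_s (hy : Hy g H)
    (j u : ℕ) (hu : u < M) (h : dp_b_77 j u = true) : Gd g H Lt.b u := by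
  unfold dp_b_77 at h
  rcases brec_true h with h | h
  · exact lS_good (T := T) (x := Lt.b) hM0 hu [Lt.c, Lt.ai, Lt.ai, Lt.b, Lt.a, Lt.a, Lt.a, Lt.a, Lt.a, Lt.a, Lt.a, Lt.a, Lt.ci, Lt.b, Lt.ci, Lt.ci] (hat (rf_18 hy) 13 rfl) h
  · exact dp_b_76_s hy j u hu h
theorem dp_b_78_s (hy : Hy g H)
    (j u : ℕ) (hu : u < M) (h : dp_b_78 j u = true) : Gd g H Lt.b u := by
  unfold dp_b_78 at h
  rcases brec_true h with h | h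
  · exact lS_good (T := T) (x := Lt.b) hM0 hu [Lt.a, Lt.b, Lt.a, Lt.b, Lt.ai, Lt.b, Lt.a, Lt.a, Lt.ci, Lt.b, Lt.c, Lt.b, Lt.c, Lt.ai, Lt.ai, Lt.ai] (hat (rb_17 hy) 1 rfl) h
  · exact lS_good (T := T) (x := Lt.b) hM0 hu [Lt.c, Lt.ai, Lt.b, Lt.c, Lt.ai, Lt.ai, Lt.ai, Lt.b, Lt.a, Lt.a, Lt.a, Lt.ci, Lt.b, Lt.a, Lt.ci] (hat (rf_13 hy) 8 rfl) h
theorem dp_b_79_s (hy : Hy g H)
    (j u : ℕ) (hu : u < M) (h : dp_b_79 j u = true) : Gd g H Lt.b u := by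
  unfold dp_b_79 at h
  rcases brec_true h with h | h
  · exact lS_good (T := T) (x := Lt.b) hM0 hu [Lt.ai, Lt.b, Lt.a, Lt.b, Lt.c, Lt.c, Lt.a, Lt.c, Lt.ai, Lt.ci, Lt.ci, Lt.a, Lt.b, Lt.ai, Lt.ai] (hat (rb_12 hy) 1 rfl) h
  · exact dp_b_78_s hy j u hu h
theorem dp_b_80_s (hy : Hy g H)
    (j u : ℕ) (hu : u < M) (h : dp_b_80 j u = true) : Gd g H Lt.b u := by
  unfold dp_b_80 at h
  rcases brec_true h with h | h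
  · exact dp_b_77_s hy j u hu h
  · exact dp_b_79_s hy j u hu h
theorem dp_b_81_s (hy : Hy g H)
    (j u : ℕ) (hu : u < M) (h : dp_b_81 j u = true) : Gd g H Lt.b u := by
  unfold dp_b_81 at h
  rcases brec_true h with h | h
  · exact dp_b_75_s hy j u hu h
  · exact dp_b_80_s hy j u hu h
theorem dp_b_82_s (hy : Hy g H)
    (j u : ℕ) (hu : u < M) (h : dp_b_82 j u = true) : Gd g H Lt.b u := by
  unfold dp_b_82 at h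
  rcases brec_true h with h | h
  · exact lF_good (T := T) (x := Lt.b) hM0 [Lt.ai, Lt.ai, Lt.b, Lt.ai, Lt.b, Lt.a, Lt.b, Lt.c, Lt.c, Lt.a, Lt.c, Lt.ai, Lt.ci, Lt.ci, Lt.a] (hat (rb_12 hy) 14 rfl) h
  · exact lS_good (T := T) (x := Lt.b) hM0 hu [Lt.c, Lt.b, Lt.c, Lt.ai, Lt.ai, Lt.ai, Lt.b, Lt.a, Lt.b, Lt.a, Lt.b, Lt.ai, Lt.b, Lt.a, Lt.a, Lt.ci] (hat (rb_17 hy) 11 rfl) h
theorem dp_b_83_s (hy : Hy g H)
    (j u : ℕ) (hu : u < M) (h : dp_b_83 j u = true) : Gd g H Lt.b u := by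
  unfold dp_b_83 at h
  rcases brec_true h with h | h
  · exact lF_good (T := T) (x := Lt.b) hM0 [Lt.a, Lt.a, Lt.a, Lt.a, Lt.b, Lt.a, Lt.b, Lt.ai, Lt.ci, Lt.b, Lt.ci, Lt.b, Lt.c, Lt.a] (hat (rf_8 hy) 0 rfl) h
  · exact dp_b_82_s hy j u hu h
theorem dp_b_84_s (hy : Hy g H)
    (j u : ℕ) (hu : u < M) (h : dp_b_84 j u = true) : Gd g H Lt.b u := by
  unfold dp_b_84 at h
  rcases brec_true h with h | h
  · exact lF_good (T := T) (x := Lt.b) hM0 [Lt.ai, Lt.ai, Lt.ci, Lt.b, Lt.ci, Lt.b, Lt.c, Lt.b, Lt.ai, Lt.b, Lt.a, Lt.b, Lt.a] (hat (rb_7 hy) 12 rfl) h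
  · exact lF_good (T := T) (x := Lt.b) hM0 [Lt.a, Lt.b, Lt.ai, Lt.ci, Lt.b, Lt.ci, Lt.b, Lt.c, Lt.a, Lt.b, Lt.a, Lt.a, Lt.a, Lt.a] (hat (rf_8 hy) 5 rfl) h
theorem dp_b_85_s (hy : Hy g H)
    (j u : ℕ) (hu : u < M) (h : dp_b_85 j u = true) : Gd g H Lt.b u := by
  unfold dp_b_85 at h
  rcases brec_true h with h | h
  · exact lS_good (T := T) (x := Lt.b) hM0 hu [Lt.a, Lt.a, Lt.ci, Lt.b, Lt.c, Lt.b, Lt.c, Lt.ai, Lt.ai, Lt.ai, Lt.b, Lt.a, Lt.b, Lt.a, Lt.b, Lt.ai] (hat (rb_17 hy) 7 rfl) h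
  · exact dp_b_84_s hy j u hu h
theorem dp_b_86_s (hy : Hy g H)
    (j u : ℕ) (hu : u < M) (h : dp_b_86 j u = true) : Gd g H Lt.b u := by
  unfold dp_b_86 at h
  rcases brec_true h with h | h
  · exact dp_b_83_s hy j u hu h
  · exact dp_b_85_s hy j u hu h
theorem dp_b_87_s (hy : Hy g H)
    (j u : ℕ) (hu : u < M) (h : dp_b_87 j u = true) : Gd g H Lt.b u := by
  unfold dp_b_87 at h
  rcases brec_true h with h | h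
  · exact lF_good (T := T) (x := Lt.b) hM0 [Lt.a, Lt.a, Lt.b, Lt.ai, Lt.b, Lt.ai, Lt.ai, Lt.b, Lt.a, Lt.a, Lt.b, Lt.ai, Lt.b, Lt.ai, Lt.ai] (hat (rb_14 hy) 1 rfl) h
  · exact lF_good (T := T) (x := Lt.b) hM0 [Lt.ai, Lt.ai, Lt.ai, Lt.ai, Lt.b, Lt.a, Lt.b, Lt.ai, Lt.b, Lt.a, Lt.a, Lt.a, Lt.a, Lt.b, Lt.ai, Lt.b, Lt.a] (hat (rf_21 hy) 9 rfl) h
theorem dp_b_88_s (hy : Hy g H)
    (j u : ℕ) (hu : u < M) (h : dp_b_88 j u = true) : Gd g H Lt.b u := by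
  unfold dp_b_88 at h
  rcases brec_true h with h | h
  · exact lS_good (T := T) (x := Lt.b) hM0 hu [Lt.a, Lt.a, Lt.b, Lt.ai, Lt.b, Lt.ai, Lt.ai, Lt.b, Lt.a, Lt.a, Lt.b, Lt.ai, Lt.b, Lt.ai, Lt.ai] (hat (rb_14 hy) 1 rfl) h
  · exact dp_b_87_s hy j u hu h
theorem dp_b_89_s (hy : Hy g H)
    (j u : ℕ) (hu : u < M) (h : dp_b_89 j u = true) : Gd g H Lt.b u := by
  unfold dp_b_89 at h
  rcases brec_true h with h | h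
  · exact lF_good (T := T) (x := Lt.b) hM0 [Lt.a, Lt.b, Lt.ci, Lt.b, Lt.c, Lt.b, Lt.c, Lt.a, Lt.a, Lt.b, Lt.ai, Lt.b, Lt.ai] (hat (rf_7 hy) 7 rfl) h
  · exact lF_good (T := T) (x := Lt.b) hM0 [Lt.ci, Lt.b, Lt.c, Lt.a, Lt.b, Lt.a, Lt.a, Lt.a, Lt.a, Lt.b, Lt.a, Lt.b, Lt.ai, Lt.ci] (hat (rf_8 hy) 10 rfl) h
theorem dp_b_90_s (hy : Hy g H)
    (j u : ℕ) (hu : u < M) (h : dp_b_90 j u = true) : Gd g H Lt.b u := by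
  unfold dp_b_90 at h
  rcases brec_true h with h | h
  · exact lS_good (T := T) (x := Lt.b) hM0 hu [Lt.a, Lt.b, Lt.ai, Lt.ai, Lt.b, Lt.ci, Lt.b, Lt.ci, Lt.b, Lt.c, Lt.b, Lt.a, Lt.b, Lt.ai, Lt.ai, Lt.b, Lt.a] (hat (rb_20 hy) 14 rfl) h
  · exact lF_good (T := T) (x := Lt.b) hM0 [Lt.ai, Lt.ai, Lt.ci, Lt.d, Lt.a, Lt.ci, Lt.b, Lt.c, Lt.ai, Lt.d, Lt.c, Lt.a, Lt.c, Lt.c, Lt.ai, Lt.ai, Lt.ai] (hat (rb_19 hy) 8 rfl) h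
theorem dp_b_91_s (hy : Hy g H)
    (j u : ℕ) (hu : u < M) (h : dp_b_91 j u = true) : Gd g H Lt.b u := by
  unfold dp_b_91 at h
  rcases brec_true h with h | h
  · exact dp_b_89_s hy j u hu h
  · exact dp_b_90_s hy j u hu h
theorem dp_b_92_s (hy : Hy g H)
    (j u : ℕ) (hu : u < M) (h : dp_b_92 j u = true) : Gd g H Lt.b u := by
  unfold dp_b_92 at h
  rcases brec_true h with h | h
  · exact dp_b_88_s hy j u hu h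
  · exact dp_b_91_s hy j u hu h
theorem dp_b_93_s (hy : Hy g H)
    (j u : ℕ) (hu : u < M) (h : dp_b_93 j u = true) : Gd g H Lt.b u := by
  unfold dp_b_93 at h
  rcases brec_true h with h | h
  · exact dp_b_86_s hy j u hu h
  · exact dp_b_92_s hy j u hu h
theorem dp_b_94_s (hy : Hy g H)
    (j u : ℕ) (hu : u < M) (h : dp_b_94 j u = true) : Gd g H Lt.b u := by
  unfold dp_b_94 at h
  rcases brec_true h with h | h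
  · exact dp_b_81_s hy j u hu h
  · exact dp_b_93_s hy j u hu h
theorem dp_b_95_s (hy : Hy g H)
    (j u : ℕ) (hu : u < M) (h : dp_b_95 j u = true) : Gd g H Lt.b u := by
  unfold dp_b_95 at h
  rcases brec_true h with h | h
  · exact lF_good (T := T) (x := Lt.b) hM0 [Lt.ai, Lt.b, Lt.a, Lt.a, Lt.b, Lt.a, Lt.b, Lt.ai, Lt.b, Lt.ci, Lt.ci, Lt.b, Lt.c, Lt.c] (hat (rf_9 hy) 13 rfl) h
  · exact lF_good (T := T) (x := Lt.b) hM0 [Lt.a, Lt.a, Lt.b, Lt.a, Lt.b, Lt.ai, Lt.ai, Lt.b, Lt.a, Lt.a, Lt.b, Lt.a, Lt.b, Lt.ai, Lt.ai] (hat (rf_14 hy) 0 rfl) h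
theorem dp_b_96_s (hy : Hy g H)
    (j u : ℕ) (hu : u < M) (h : dp_b_96 j u = true) : Gd g H Lt.b u := by
  unfold dp_b_96 at h
  rcases brec_true h with h | h
  · exact lS_good (T := T) (x := Lt.b) hM0 hu [Lt.ai, Lt.b, Lt.ci, Lt.ci, Lt.b, Lt.c, Lt.c, Lt.b, Lt.ai, Lt.b, Lt.a, Lt.a, Lt.b, Lt.a] (hat (rf_9 hy) 5 rfl) h
  · exact dp_b_95_s hy j u hu h
theorem dp_b_97_s (hy : Hy g H)
    (j u : ℕ) (hu : u < M) (h : dp_b_97 j u = true) : Gd g H Lt.b u := by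
  unfold dp_b_97 at h
  rcases brec_true h with h | h
  · exact lF_good (T := T) (x := Lt.b) hM0 [Lt.ci, Lt.b, Lt.c, Lt.b, Lt.c, Lt.a, Lt.a, Lt.b, Lt.ai, Lt.b, Lt.ai, Lt.b, Lt.a] (hat (rf_7 hy) 9 rfl) h
  · exact lF_good (T := T) (x := Lt.b) hM0 [Lt.c, Lt.c, Lt.b, Lt.ai, Lt.b, Lt.a, Lt.a, Lt.b, Lt.a, Lt.b, Lt.ai, Lt.b, Lt.ci, Lt.ci] (hat (rf_9 hy) 10 rfl) h
theorem dp_b_98_s (hy : Hy g H)
    (j u : ℕ) (hu : u < M) (h : dp_b_98 j u = true) : Gd g H Lt.b u := by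
  unfold dp_b_98 at h
  rcases brec_true h with h | h
  · exact lS_good (T := T) (x := Lt.b) hM0 hu [Lt.c, Lt.c, Lt.b, Lt.c, Lt.ai, Lt.ai, Lt.ai, Lt.ai, Lt.ai, Lt.ai, Lt.ai, Lt.ai, Lt.b, Lt.a, Lt.a, Lt.ci] (hat (rb_18 hy) 5 rfl) h
  · exact dp_b_97_s hy j u hu h
theorem dp_b_99_s (hy : Hy g H)
    (j u : ℕ) (hu : u < M) (h : dp_b_99 j u = true) : Gd g H Lt.b u := by
  unfold dp_b_99 at h
  rcases brec_true h with h | h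
  · exact dp_b_96_s hy j u hu h
  · exact dp_b_98_s hy j u hu h
theorem dp_b_100_s (hy : Hy g H)
    (j u : ℕ) (hu : u < M) (h : dp_b_100 j u = true) : Gd g H Lt.b u := by
  unfold dp_b_100 at h
  rcases brec_true h with h | h
  · exact lF_good (T := T) (x := Lt.b) hM0 [Lt.a, Lt.b, Lt.ai, Lt.ai, Lt.b, Lt.a, Lt.a, Lt.b, Lt.a, Lt.b, Lt.ai, Lt.ai, Lt.b, Lt.a, Lt.a] (hat (rf_14 hy) 3 rfl) h
  · exact lS_good (T := T) (x := Lt.b) hM0 hu [Lt.ai, Lt.ai, Lt.b, Lt.a, Lt.a, Lt.b, Lt.a, Lt.b, Lt.ai, Lt.ai, Lt.b, Lt.a, Lt.a, Lt.b, Lt.a] (hat (rf_14 hy) 5 rfl) h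
theorem dp_b_101_s (hy : Hy g H)
    (j u : ℕ) (hu : u < M) (h : dp_b_101 j u = true) : Gd g H Lt.b u := by
  unfold dp_b_101 at h
  rcases brec_true h with h | h
  · exact lF_good (T := T) (x := Lt.b) hM0 [Lt.ai, Lt.b, Lt.ai, Lt.b, Lt.a, Lt.a, Lt.a, Lt.ci, Lt.b, Lt.ci, Lt.b, Lt.c, Lt.ai, Lt.ai, Lt.b, Lt.a] (hat (rf_17 hy) 13 rfl) h
  · exact dp_b_100_s hy j u hu h
theorem dp_b_102_s (hy : Hy g H)
    (j u : ℕ) (hu : u < M) (h : dp_b_102 j u = true) : Gd g H Lt.b u := by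
  unfold dp_b_102 at h
  rcases brec_true h with h | h
  · exact lS_good (T := T) (x := Lt.b) hM0 hu [Lt.ai, Lt.ai, Lt.ci, Lt.d, Lt.a, Lt.a, Lt.d, Lt.b, Lt.d, Lt.ai, Lt.ai, Lt.d, Lt.c, Lt.ai, Lt.ci, Lt.a] (hat (rb_15 hy) 5 rfl) h
  · exact lF_good (T := T) (x := Lt.b) hM0 [Lt.c, Lt.ai, Lt.c, Lt.c, Lt.d, Lt.ci, Lt.ci, Lt.a, Lt.ci, Lt.b, Lt.d] (hat (rf_4 hy) 1 rfl) h
theorem dp_b_103_s (hy : Hy g H)
    (j u : ℕ) (hu : u < M) (h : dp_b_103 j u = true) : Gd g H Lt.b u := by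
  unfold dp_b_103 at h
  rcases brec_true h with h | h
  · exact lS_good (T := T) (x := Lt.b) hM0 hu [Lt.a, Lt.c, Lt.ai, Lt.ai, Lt.b, Lt.c, Lt.b, Lt.a, Lt.a, Lt.ci, Lt.a, Lt.a, Lt.b, Lt.a] (hat (rf_10 hy) 5 rfl) h
  · exact dp_b_102_s hy j u hu h
theorem dp_b_104_s (hy : Hy g H)
    (j u : ℕ) (hu : u < M) (h : dp_b_104 j u = true) : Gd g H Lt.b u := by
  unfold dp_b_104 at h
  rcases brec_true h with h | h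
  · exact dp_b_101_s hy j u hu h
  · exact dp_b_103_s hy j u hu h
theorem dp_b_105_s (hy : Hy g H)
    (j u : ℕ) (hu : u < M) (h : dp_b_105 j u = true) : Gd g H Lt.b u := by
  unfold dp_b_105 at h
  rcases brec_true h with h | h
  · exact dp_b_99_s hy j u hu h
  · exact dp_b_104_s hy j u hu h
theorem dp_b_106_s (hy : Hy g H)
    (j u : ℕ) (hu : u < M) (h : dp_b_106 j u = true) : Gd g H Lt.b u := by
  unfold dp_b_106 at h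
  rcases brec_true h with h | h
  · exact lS_good (T := T) (x := Lt.b) hM0 hu [Lt.c, Lt.ai, Lt.ai, Lt.ai, Lt.ai, Lt.ai, Lt.ai, Lt.ai, Lt.ai, Lt.b, Lt.a, Lt.a, Lt.ci, Lt.b, Lt.c, Lt.c] (hat (rb_18 hy) 8 rfl) h
  · exact lF_good (T := T) (x := Lt.b) hM0 [Lt.ai, Lt.b, Lt.ai, Lt.b, Lt.a, Lt.b, Lt.ci, Lt.b, Lt.c, Lt.b, Lt.c, Lt.a, Lt.a] (hat (rf_7 hy) 3 rfl) h
theorem dp_b_107_s (hy : Hy g H)
    (j u : ℕ) (hu : u < M) (h : dp_b_107 j u = true) : Gd g H Lt.b u := by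
  unfold dp_b_107 at h
  rcases brec_true h with h | h
  · exact lS_good (T := T) (x := Lt.b) hM0 hu [Lt.a, Lt.b, Lt.ai, Lt.ai, Lt.b, Lt.a, Lt.a, Lt.b, Lt.a, Lt.b, Lt.ai, Lt.ai, Lt.b, Lt.a, Lt.a] (hat (rf_14 hy) 3 rfl) h
  · exact dp_b_106_s hy j u hu h
theorem dp_b_108_s (hy : Hy g H)
    (j u : ℕ) (hu : u < M) (h : dp_b_108 j u = true) : Gd g H Lt.b u := by
  unfold dp_b_108 at h
  rcases brec_true h with h | h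
  · exact lS_good (T := T) (x := Lt.b) hM0 hu [Lt.ci, Lt.ci, Lt.b, Lt.c, Lt.c, Lt.b, Lt.a, Lt.b, Lt.ai, Lt.b, Lt.ai, Lt.ai, Lt.b, Lt.a] (hat (rb_9 hy) 3 rfl) h
  · exact lF_good (T := T) (x := Lt.b) hM0 [Lt.ai, Lt.b, Lt.a, Lt.b, Lt.a, Lt.b, Lt.ai, Lt.ai, Lt.ci, Lt.b, Lt.ci, Lt.b, Lt.c] (hat (rb_7 hy) 6 rfl) h
theorem dp_b_109_s (hy : Hy g H)
    (j u : ℕ) (hu : u < M) (h : dp_b_109 j u = true) : Gd g H Lt.b u := by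
  unfold dp_b_109 at h
  rcases brec_true h with h | h
  · exact lS_good (T := T) (x := Lt.b) hM0 hu [Lt.a, Lt.b, Lt.a, Lt.b, Lt.ai, Lt.ai, Lt.b, Lt.ci, Lt.b, Lt.ci, Lt.b, Lt.c, Lt.b, Lt.a, Lt.b, Lt.ai, Lt.ai] (hat (rb_20 hy) 12 rfl) h
  · exact dp_b_108_s hy j u hu h
theorem dp_b_110_s (hy : Hy g H)
    (j u : ℕ) (hu : u < M) (h : dp_b_110 j u = true) : Gd g H Lt.b u := by
  unfold dp_b_110 at h
  rcases brec_true h with h | h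
  · exact dp_b_107_s hy j u hu h
  · exact dp_b_109_s hy j u hu h
theorem dp_b_111_s (hy : Hy g H)
    (j u : ℕ) (hu : u < M) (h : dp_b_111 j u = true) : Gd g H Lt.b u := by
  unfold dp_b_111 at h
  rcases brec_true h with h | h
  · exact lF_good (T := T) (x := Lt.b) hM0 [Lt.a, Lt.b, Lt.a, Lt.b, Lt.ai, Lt.ai, Lt.ci, Lt.b, Lt.ci, Lt.b, Lt.c, Lt.b, Lt.ai] (hat (rb_7 hy) 8 rfl) h
  · exact lS_good (T := T) (x := Lt.b) hM0 hu [Lt.ai, Lt.b, Lt.ai, Lt.ai, Lt.b, Lt.a, Lt.a, Lt.b, Lt.ai, Lt.b, Lt.ai, Lt.ai, Lt.b, Lt.a, Lt.a] (hat (rb_14 hy) 4 rfl) h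
theorem dp_b_112_s (hy : Hy g H)
    (j u : ℕ) (hu : u < M) (h : dp_b_112 j u = true) : Gd g H Lt.b u := by
  unfold dp_b_112 at h
  rcases brec_true h with h | h
  · exact lF_good (T := T) (x := Lt.b) hM0 [Lt.d, Lt.b, Lt.c, Lt.ai, Lt.ci, Lt.ai, Lt.ci, Lt.ci, Lt.d, Lt.b, Lt.d] (hat (rb_5 hy) 11 rfl) h
  · exact dp_b_111_s hy j u hu h
theorem dp_b_113_s (hy : Hy g H)
    (j u : ℕ) (hu : u < M) (h : dp_b_113 j u = true) : Gd g H Lt.b u := by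
  unfold dp_b_113 at h
  rcases brec_true h with h | h
  · exact lF_good (T := T) (x := Lt.b) hM0 [Lt.c, Lt.a, Lt.b, Lt.ai, Lt.b, Lt.ai, Lt.ai, Lt.ai, Lt.ai, Lt.b, Lt.ai, Lt.ci, Lt.b, Lt.c] (hat (rb_8 hy) 6 rfl) h
  · exact lS_good (T := T) (x := Lt.b) hM0 hu [Lt.ci, Lt.b, Lt.a, Lt.a, Lt.ci, Lt.ai, Lt.b, Lt.ai, Lt.b, Lt.ai, Lt.ai, Lt.c, Lt.ai, Lt.ai] (hat (rb_10 hy) 4 rfl) h
theorem dp_b_114_s (hy : Hy g H)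
    (j u : ℕ) (hu : u < M) (h : dp_b_114 j u = true) : Gd g H Lt.b u := by
  unfold dp_b_114 at h
  rcases brec_true h with h | h
  · exact lS_good (T := T) (x := Lt.b) hM0 hu [Lt.ai, Lt.ai, Lt.b, Lt.a, Lt.a, Lt.b, Lt.ai, Lt.b, Lt.ai, Lt.ai, Lt.b, Lt.a, Lt.a, Lt.b, Lt.ai] (hat (rb_14 hy) 6 rfl) h
  · exact lS_good (T := T) (x := Lt.b) hM0 hu [Lt.d, Lt.ai, Lt.ai, Lt.d, Lt.c, Lt.a, Lt.a, Lt.b, Lt.ai, Lt.c, Lt.a, Lt.ci, Lt.d, Lt.a, Lt.a, Lt.d] (hat (rf_15 hy) 5 rfl) h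
theorem dp_b_115_s (hy : Hy g H)
    (j u : ℕ) (hu : u < M) (h : dp_b_115 j u = true) : Gd g H Lt.b u := by
  unfold dp_b_115 at h
  rcases brec_true h with h | h
  · exact dp_b_113_s hy j u hu h
  · exact dp_b_114_s hy j u hu h
theorem dp_b_116_s (hy : Hy g H)
    (j u : ℕ) (hu : u < M) (h : dp_b_116 j u = true) : Gd g H Lt.b u := by
  unfold dp_b_116 at h
  rcases brec_true h with h | h
  · exact dp_b_112_s hy j u hu h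
  · exact dp_b_115_s hy j u hu h
theorem dp_b_117_s (hy : Hy g H)
    (j u : ℕ) (hu : u < M) (h : dp_b_117 j u = true) : Gd g H Lt.b u := by
  unfold dp_b_117 at h
  rcases brec_true h with h | h
  · exact dp_b_110_s hy j u hu h
  · exact dp_b_116_s hy j u hu h
theorem dp_b_118_s (hy : Hy g H)
    (j u : ℕ) (hu : u < M) (h : dp_b_118 j u = true) : Gd g H Lt.b u := by
  unfold dp_b_118 at h
  rcases brec_true h with h | h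
  · exact dp_b_105_s hy j u hu h
  · exact dp_b_117_s hy j u hu h
theorem dp_b_119_s (hy : Hy g H)
    (j u : ℕ) (hu : u < M) (h : dp_b_119 j u = true) : Gd g H Lt.b u := by
  unfold dp_b_119 at h
  rcases brec_true h with h | h
  · exact dp_b_94_s hy j u hu h
  · exact dp_b_118_s hy j u hu h
theorem dp_b_120_s (hy : Hy g H)
    (j u : ℕ) (hu : u < M) (h : dp_b_120 j u = true) : Gd g H Lt.b u := by
  unfold dp_b_120 at h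
  rcases brec_true h with h | h
  · exact dp_b_71_s hy j u hu h
  · exact dp_b_119_s hy j u hu h
theorem dp_b_121_s (hy : Hy g H)
    (j u : ℕ) (hu : u < M) (h : dp_b_121 j u = true) : Gd g H Lt.b u := by
  unfold dp_b_121 at h
  rcases brec_true h with h | h
  · exact dp_b_51_s hy j u hu h
  · exact dp_b_120_s hy j u hu h
theorem dp_b_122_s (hy : Hy g H)
    (j u : ℕ) (hu : u < M) (h : dp_b_122 j u = true) : Gd g H Lt.b u := by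
  unfold dp_b_122 at h
  rcases brec_true h with h | h
  · exact dp_b_28_s hy j u hu h
  · exact dp_b_121_s hy j u hu h
theorem dp_b_123_s (hy : Hy g H)
    (j u : ℕ) (hu : u < M) (h : dp_b_123 j u = true) : Gd g H Lt.b u := by
  unfold dp_b_123 at h
  rcases brec_true h with h | h
  · exact dp_b_11_s hy j u hu h
  · exact dp_b_122_s hy j u hu h
theorem dp_b_124_s (hy : Hy g H)
    (j u : ℕ) (hu : u < M) (h : dp_b_124 j u = true) : Gd g H Lt.b u := by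
  unfold dp_b_124 at h
  rcases brec_true h with h | h
  · exact dp_b_0_s hy j u hu h
  · exact dp_b_123_s hy j u hu h
theorem dp_b_125_s (hy : Hy g H)
    (j u : ℕ) (hu : u < M) (h : dp_b_125 j u = true) : Gd g H Lt.b u := by
  unfold dp_b_125 at h
  rcases brec_true h with h | h
  · exact lS_good (T := T) (x := Lt.b) hM0 hu [Lt.b] (hat (rf_0 hy) 0 rfl) h
  · exact dp_b_124_s hy j u hu h
theorem snd_b (hy : Hy g H)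
    (j u : ℕ) (hu : u < M) (h : disp_b j u = true) : Gd g H Lt.b u := by
  unfold disp_b at h
  rcases brec_true h with h | h
  · exact lDef_good (T := T) (x := Lt.b) (by decide) rfl h
  · rcases brec_true h with h | h
    · exact lPar_good (T := T) (x := Lt.b) (x' := Lt.b) (by decide) rfl (ivt hy _ _ rfl) h
    · exact dp_b_125_s hy j u hu h
theorem snc_b (hy : Hy g H)
    (j u : ℕ) (hu : u < M) (h : chk_b j u = true) : (T Lt.b u < A ∧ Gd g H Lt.b u) ∨ (A ≤ T Lt.b u ∧ MG u < A) := by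
  unfold chk_b at h
  cases hb : Nat.ble A (T_b u) with
  | true => rw [hb] at h; exact Or.inr ⟨le_of_ble hb, le_of_ble h⟩
  | false => rw [hb] at h; exact Or.inl ⟨lt_of_ble_false hb, snd_b hy j u hu h⟩
theorem dp_c_0_s (hy : Hy g H)
    (j u : ℕ) (hu : u < M) (h : dp_c_0 j u = true) : Gd g H Lt.c u := by
  unfold dp_c_0 at h
  rcases brec_true h with h | h
  · exact lF1_good (T := T) (x := Lt.c) hM0 .ci (hat (rf_24 hy) 1 rfl) h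
  · exact lS_good (T := T) (x := Lt.c) hM0 hu [Lt.a, Lt.ci, Lt.d, Lt.c, Lt.ai, Lt.ci, Lt.ci, Lt.d, Lt.c] (hat (rf_2 hy) 8 rfl) h
theorem dp_c_1_s (hy : Hy g H)
    (j u : ℕ) (hu : u < M) (h : dp_c_1 j u = true) : Gd g H Lt.c u := by
  unfold dp_c_1 at h
  rcases brec_true h with h | h
  · exact lS_good (T := T) (x := Lt.c) hM0 hu [Lt.ai, Lt.ci, Lt.ci, Lt.d, Lt.c, Lt.c, Lt.a, Lt.ci, Lt.d] (hat (rf_2 hy) 2 rfl) h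
  · exact lS_good (T := T) (x := Lt.c) hM0 hu [Lt.c, Lt.d, Lt.ci, Lt.ci, Lt.a, Lt.ci, Lt.b, Lt.d, Lt.b, Lt.c, Lt.ai] (hat (rf_4 hy) 4 rfl) h
theorem dp_c_2_s (hy : Hy g H)
    (j u : ℕ) (hu : u < M) (h : dp_c_2 j u = true) : Gd g H Lt.c u := by
  unfold dp_c_2 at h
  rcases brec_true h with h | h
  · exact lS_good (T := T) (x := Lt.c) hM0 hu [Lt.d, Lt.ci, Lt.ai, Lt.d, Lt.a, Lt.c, Lt.d, Lt.ci, Lt.ai, Lt.d, Lt.a] (hat (rf_3 hy) 2 rfl) h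
  · exact dp_c_1_s hy j u hu h
theorem dp_c_3_s (hy : Hy g H)
    (j u : ℕ) (hu : u < M) (h : dp_c_3 j u = true) : Gd g H Lt.c u := by
  unfold dp_c_3 at h
  rcases brec_true h with h | h
  · exact lS_good (T := T) (x := Lt.c) hM0 hu [Lt.c, Lt.a, Lt.ci, Lt.d, Lt.c, Lt.ai, Lt.ci, Lt.ci, Lt.d] (hat (rf_2 hy) 7 rfl) h
  · exact lS_good (T := T) (x := Lt.c) hM0 hu [Lt.a, Lt.a, Lt.b, Lt.ai, Lt.b, Lt.ai, Lt.b, Lt.a, Lt.b, Lt.ci, Lt.b, Lt.c, Lt.b] (hat (rf_7 hy) 0 rfl) h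
theorem dp_c_4_s (hy : Hy g H)
    (j u : ℕ) (hu : u < M) (h : dp_c_4 j u = true) : Gd g H Lt.c u := by
  unfold dp_c_4 at h
  rcases brec_true h with h | h
  · exact lS_good (T := T) (x := Lt.c) hM0 hu [Lt.b, Lt.c, Lt.a, Lt.a, Lt.b, Lt.ai, Lt.b, Lt.ai, Lt.b, Lt.a, Lt.b, Lt.ci, Lt.b] (hat (rf_7 hy) 12 rfl) h
  · exact lS_good (T := T) (x := Lt.c) hM0 hu [Lt.d, Lt.ci, Lt.ci, Lt.a, Lt.ci, Lt.b, Lt.d, Lt.b, Lt.c, Lt.ai, Lt.c] (hat (rf_4 hy) 5 rfl) h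
theorem dp_c_5_s (hy : Hy g H)
    (j u : ℕ) (hu : u < M) (h : dp_c_5 j u = true) : Gd g H Lt.c u := by
  unfold dp_c_5 at h
  rcases brec_true h with h | h
  · exact dp_c_3_s hy j u hu h
  · exact dp_c_4_s hy j u hu h
theorem dp_c_6_s (hy : Hy g H)
    (j u : ℕ) (hu : u < M) (h : dp_c_6 j u = true) : Gd g H Lt.c u := by
  unfold dp_c_6 at h
  rcases brec_true h with h | h
  · exact dp_c_2_s hy j u hu h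
  · exact dp_c_5_s hy j u hu h
theorem dp_c_7_s (hy : Hy g H)
    (j u : ℕ) (hu : u < M) (h : dp_c_7 j u = true) : Gd g H Lt.c u := by
  unfold dp_c_7 at h
  rcases brec_true h with h | h
  · exact lS_good (T := T) (x := Lt.c) hM0 hu [Lt.b, Lt.ai, Lt.b, Lt.a, Lt.b, Lt.a, Lt.b, Lt.ai, Lt.ai, Lt.ci, Lt.b, Lt.ci, Lt.b] (hat (rb_7 hy) 5 rfl) h
  · exact lS_good (T := T) (x := Lt.c) hM0 hu [Lt.ai, Lt.d, Lt.c, Lt.a, Lt.ci, Lt.b, Lt.c, Lt.ai, Lt.c, Lt.d, Lt.a, Lt.ci, Lt.b] (hat (rf_6 hy) 5 rfl) h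
theorem dp_c_8_s (hy : Hy g H)
    (j u : ℕ) (hu : u < M) (h : dp_c_8 j u = true) : Gd g H Lt.c u := by
  unfold dp_c_8 at h
  rcases brec_true h with h | h
  · exact lS_good (T := T) (x := Lt.c) hM0 hu [Lt.ai, Lt.c, Lt.c, Lt.d, Lt.ci, Lt.ci, Lt.a, Lt.ci, Lt.b, Lt.d, Lt.b] (hat (rf_4 hy) 2 rfl) h
  · exact dp_c_7_s hy j u hu h
theorem dp_c_9_s (hy : Hy g H)
    (j u : ℕ) (hu : u < M) (h : dp_c_9 j u = true) : Gd g H Lt.c u := by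
  unfold dp_c_9 at h
  rcases brec_true h with h | h
  · exact lF_good (T := T) (x := Lt.c) hM0 [Lt.a, Lt.ci, Lt.d, Lt.c, Lt.ai, Lt.ci, Lt.ci, Lt.d, Lt.c] (hat (rf_2 hy) 8 rfl) h
  · exact lS_good (T := T) (x := Lt.c) hM0 hu [Lt.a, Lt.c, Lt.a, Lt.ci, Lt.b, Lt.d, Lt.b, Lt.d, Lt.b, Lt.d, Lt.c] (hat (rf_5 hy) 7 rfl) h
theorem dp_c_10_s (hy : Hy g H)
    (j u : ℕ) (hu : u < M) (h : dp_c_10 j u = true) : Gd g H Lt.c u := by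
  unfold dp_c_10 at h
  rcases brec_true h with h | h
  · exact lS_good (T := T) (x := Lt.c) hM0 hu [Lt.a, Lt.ci, Lt.b, Lt.d, Lt.b, Lt.d, Lt.b, Lt.d, Lt.c, Lt.c, Lt.a] (hat (rf_5 hy) 9 rfl) h
  · exact dp_c_9_s hy j u hu h
theorem dp_c_11_s (hy : Hy g H)
    (j u : ℕ) (hu : u < M) (h : dp_c_11 j u = true) : Gd g H Lt.c u := by
  unfold dp_c_11 at h
  rcases brec_true h with h | h
  · exact lS_good (T := T) (x := Lt.c) hM0 hu [Lt.c, Lt.b, Lt.ai, Lt.b, Lt.a, Lt.a, Lt.b, Lt.a, Lt.b, Lt.ai, Lt.b, Lt.ci, Lt.ci, Lt.b] (hat (rf_9 hy) 11 rfl) h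
  · exact lF_good (T := T) (x := Lt.c) hM0 [Lt.c, Lt.a, Lt.ci, Lt.d, Lt.c, Lt.ai, Lt.ci, Lt.ci, Lt.d] (hat (rf_2 hy) 7 rfl) h
theorem dp_c_12_s (hy : Hy g H)
    (j u : ℕ) (hu : u < M) (h : dp_c_12 j u = true) : Gd g H Lt.c u := by
  unfold dp_c_12 at h
  rcases brec_true h with h | h
  · exact lS_good (T := T) (x := Lt.c) hM0 hu [Lt.ai, Lt.ai, Lt.b, Lt.c, Lt.b, Lt.a, Lt.a, Lt.ci, Lt.a, Lt.a, Lt.b, Lt.a, Lt.b, Lt.a] (hat (rf_10 hy) 7 rfl) h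
  · exact dp_c_11_s hy j u hu h
theorem dp_c_13_s (hy : Hy g H)
    (j u : ℕ) (hu : u < M) (h : dp_c_13 j u = true) : Gd g H Lt.c u := by
  unfold dp_c_13 at h
  rcases brec_true h with h | h
  · exact dp_c_10_s hy j u hu h
  · exact dp_c_12_s hy j u hu h
theorem dp_c_14_s (hy : Hy g H)
    (j u : ℕ) (hu : u < M) (h : dp_c_14 j u = true) : Gd g H Lt.c u := by
  unfold dp_c_14 at h
  rcases brec_true h with h | h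
  · exact dp_c_8_s hy j u hu h
  · exact dp_c_13_s hy j u hu h
theorem dp_c_15_s (hy : Hy g H)
    (j u : ℕ) (hu : u < M) (h : dp_c_15 j u = true) : Gd g H Lt.c u := by
  unfold dp_c_15 at h
  rcases brec_true h with h | h
  · exact lS_good (T := T) (x := Lt.c) hM0 hu [Lt.b, Lt.ai, Lt.b, Lt.a, Lt.a, Lt.b, Lt.a, Lt.b, Lt.ai, Lt.b, Lt.ci, Lt.ci, Lt.b, Lt.c] (hat (rf_9 hy) 12 rfl) h
  · exact lS_good (T := T) (x := Lt.c) hM0 hu [Lt.b, Lt.c, Lt.a, Lt.b, Lt.ai, Lt.b, Lt.ai, Lt.ai, Lt.ai, Lt.ai, Lt.b, Lt.ai, Lt.ci, Lt.b] (hat (rb_8 hy) 5 rfl) h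
theorem dp_c_16_s (hy : Hy g H)
    (j u : ℕ) (hu : u < M) (h : dp_c_16 j u = true) : Gd g H Lt.c u := by
  unfold dp_c_16 at h
  rcases brec_true h with h | h
  · exact lS_good (T := T) (x := Lt.c) hM0 hu [Lt.b, Lt.a, Lt.b, Lt.ai, Lt.b, Lt.ai, Lt.ai, Lt.b, Lt.a, Lt.b, Lt.ci, Lt.ci, Lt.b, Lt.c] (hat (rb_9 hy) 8 rfl) h
  · exact lS_good (T := T) (x := Lt.c) hM0 hu [Lt.c, Lt.b, Lt.a, Lt.b, Lt.ai, Lt.b, Lt.ai, Lt.ai, Lt.b, Lt.a, Lt.b, Lt.ci, Lt.ci, Lt.b] (hat (rb_9 hy) 7 rfl) h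
theorem dp_c_17_s (hy : Hy g H)
    (j u : ℕ) (hu : u < M) (h : dp_c_17 j u = true) : Gd g H Lt.c u := by
  unfold dp_c_17 at h
  rcases brec_true h with h | h
  · exact dp_c_15_s hy j u hu h
  · exact dp_c_16_s hy j u hu h
theorem dp_c_18_s (hy : Hy g H)
    (j u : ℕ) (hu : u < M) (h : dp_c_18 j u = true) : Gd g H Lt.c u := by
  unfold dp_c_18 at h
  rcases brec_true h with h | h
  · exact lS_good (T := T) (x := Lt.c) hM0 hu [Lt.ai, Lt.ci, Lt.d, Lt.a, Lt.ci, Lt.b, Lt.c, Lt.ai, Lt.d, Lt.ci, Lt.a, Lt.ci, Lt.b] (hat (rb_6 hy) 5 rfl) h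
  · exact lS_good (T := T) (x := Lt.c) hM0 hu [Lt.c, Lt.d, Lt.a, Lt.c, Lt.a, Lt.ci, Lt.b, Lt.c, Lt.ai, Lt.ci, Lt.ai, Lt.d, Lt.ci, Lt.ci, Lt.b] (hat (rf_11 hy) 5 rfl) h
theorem dp_c_19_s (hy : Hy g H)
    (j u : ℕ) (hu : u < M) (h : dp_c_19 j u = true) : Gd g H Lt.c u := by
  unfold dp_c_19 at h
  rcases brec_true h with h | h
  · exact lF_good (T := T) (x := Lt.c) hM0 [Lt.ai, Lt.ci, Lt.ci, Lt.d, Lt.c, Lt.c, Lt.a, Lt.ci, Lt.d] (hat (rf_2 hy) 2 rfl) h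
  · exact dp_c_18_s hy j u hu h
theorem dp_c_20_s (hy : Hy g H)
    (j u : ℕ) (hu : u < M) (h : dp_c_20 j u = true) : Gd g H Lt.c u := by
  unfold dp_c_20 at h
  rcases brec_true h with h | h
  · exact lF_good (T := T) (x := Lt.c) hM0 [Lt.ai, Lt.ci, Lt.d, Lt.a, Lt.ci, Lt.b, Lt.c, Lt.ai, Lt.d, Lt.ci, Lt.a, Lt.ci, Lt.b] (hat (rb_6 hy) 5 rfl) h
  · exact lS_good (T := T) (x := Lt.c) hM0 hu [Lt.d, Lt.a, Lt.c, Lt.a, Lt.ci, Lt.b, Lt.c, Lt.ai, Lt.ci, Lt.ai, Lt.d, Lt.ci, Lt.ci, Lt.b, Lt.c] (hat (rf_11 hy) 6 rfl) h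
theorem dp_c_21_s (hy : Hy g H)
    (j u : ℕ) (hu : u < M) (h : dp_c_21 j u = true) : Gd g H Lt.c u := by
  unfold dp_c_21 at h
  rcases brec_true h with h | h
  · exact lS_good (T := T) (x := Lt.c) hM0 hu [Lt.a, Lt.b, Lt.ai, Lt.b, Lt.ai, Lt.ai, Lt.ai, Lt.ai, Lt.b, Lt.ai, Lt.ci, Lt.b, Lt.c, Lt.b] (hat (rb_8 hy) 7 rfl) h
  · exact dp_c_20_s hy j u hu h
theorem dp_c_22_s (hy : Hy g H)
    (j u : ℕ) (hu : u < M) (h : dp_c_22 j u = true) : Gd g H Lt.c u := by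
  unfold dp_c_22 at h
  rcases brec_true h with h | h
  · exact dp_c_19_s hy j u hu h
  · exact dp_c_21_s hy j u hu h
theorem dp_c_23_s (hy : Hy g H)
    (j u : ℕ) (hu : u < M) (h : dp_c_23 j u = true) : Gd g H Lt.c u := by
  unfold dp_c_23 at h
  rcases brec_true h with h | h
  · exact dp_c_17_s hy j u hu h
  · exact dp_c_22_s hy j u hu h
theorem dp_c_24_s (hy : Hy g H)
    (j u : ℕ) (hu : u < M) (h : dp_c_24 j u = true) : Gd g H Lt.c u := by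
  unfold dp_c_24 at h
  rcases brec_true h with h | h
  · exact lS_good (T := T) (x := Lt.c) hM0 hu [Lt.a, Lt.ci, Lt.ai, Lt.ci, Lt.ci, Lt.b, Lt.ai, Lt.b, Lt.a, Lt.b, Lt.a, Lt.a, Lt.b, Lt.ai, Lt.c] (hat (rf_12 hy) 6 rfl) h
  · exact lS_good (T := T) (x := Lt.c) hM0 hu [Lt.c, Lt.a, Lt.c, Lt.a, Lt.ci, Lt.b, Lt.d, Lt.b, Lt.d, Lt.b, Lt.d] (hat (rf_5 hy) 6 rfl) h
theorem dp_c_25_s (hy : Hy g H)
    (j u : ℕ) (hu : u < M) (h : dp_c_25 j u = true) : Gd g H Lt.c u := by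
  unfold dp_c_25 at h
  rcases brec_true h with h | h
  · exact lF_good (T := T) (x := Lt.c) hM0 [Lt.a, Lt.ci, Lt.b, Lt.d, Lt.b, Lt.d, Lt.b, Lt.d, Lt.c, Lt.c, Lt.a] (hat (rf_5 hy) 9 rfl) h
  · exact lS_good (T := T) (x := Lt.c) hM0 hu [Lt.ai, Lt.ai, Lt.b, Lt.ci, Lt.b, Lt.a, Lt.a, Lt.ci, Lt.ai, Lt.b, Lt.ai, Lt.b, Lt.ai, Lt.ai] (hat (rb_10 hy) 1 rfl) h
theorem dp_c_26_s (hy : Hy g H)
    (j u : ℕ) (hu : u < M) (h : dp_c_26 j u = true) : Gd g H Lt.c u := by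
  unfold dp_c_26 at h
  rcases brec_true h with h | h
  · exact dp_c_24_s hy j u hu h
  · exact dp_c_25_s hy j u hu h
theorem dp_c_27_s (hy : Hy g H)
    (j u : ℕ) (hu : u < M) (h : dp_c_27 j u = true) : Gd g H Lt.c u := by
  unfold dp_c_27 at h
  rcases brec_true h with h | h
  · exact lS_good (T := T) (x := Lt.c) hM0 hu [Lt.a, Lt.b, Lt.a, Lt.a, Lt.a, Lt.a, Lt.b, Lt.a, Lt.b, Lt.ai, Lt.ci, Lt.b, Lt.ci, Lt.b] (hat (rf_8 hy) 13 rfl) h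
  · exact lS_good (T := T) (x := Lt.c) hM0 hu [Lt.b, Lt.a, Lt.a, Lt.ci, Lt.a, Lt.a, Lt.b, Lt.a, Lt.b, Lt.a, Lt.c, Lt.ai, Lt.ai, Lt.b] (hat (rf_10 hy) 11 rfl) h
theorem dp_c_28_s (hy : Hy g H)
    (j u : ℕ) (hu : u < M) (h : dp_c_28 j u = true) : Gd g H Lt.c u := by
  unfold dp_c_28 at h
  rcases brec_true h with h | h
  · exact lS_good (T := T) (x := Lt.c) hM0 hu [Lt.ai, Lt.ci, Lt.ai, Lt.ci, Lt.ci, Lt.d, Lt.b, Lt.d, Lt.b, Lt.d, Lt.b] (hat (rb_5 hy) 2 rfl) h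
  · exact lF_good (T := T) (x := Lt.c) hM0 [Lt.ai, Lt.ci, Lt.ai, Lt.ci, Lt.ci, Lt.d, Lt.b, Lt.d, Lt.b, Lt.d, Lt.b] (hat (rb_5 hy) 2 rfl) h
theorem dp_c_29_s (hy : Hy g H)
    (j u : ℕ) (hu : u < M) (h : dp_c_29 j u = true) : Gd g H Lt.c u := by
  unfold dp_c_29 at h
  rcases brec_true h with h | h
  · exact lS_good (T := T) (x := Lt.c) hM0 hu [Lt.a, Lt.ci, Lt.b, Lt.c, Lt.ai, Lt.c, Lt.d, Lt.a, Lt.ci, Lt.b, Lt.c, Lt.ai, Lt.d] (hat (rf_6 hy) 8 rfl) h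
  · exact lF_good (T := T) (x := Lt.c) hM0 [Lt.a, Lt.b, Lt.ai, Lt.b, Lt.ai, Lt.ai, Lt.ai, Lt.ai, Lt.b, Lt.ai, Lt.ci, Lt.b, Lt.c, Lt.b] (hat (rb_8 hy) 7 rfl) h
theorem dp_c_30_s (hy : Hy g H)
    (j u : ℕ) (hu : u < M) (h : dp_c_30 j u = true) : Gd g H Lt.c u := by
  unfold dp_c_30 at h
  rcases brec_true h with h | h
  · exact lF_good (T := T) (x := Lt.c) hM0 [Lt.b, Lt.c, Lt.ai, Lt.ai, Lt.ai, Lt.ai, Lt.ai, Lt.ai, Lt.ai, Lt.ai, Lt.b, Lt.a, Lt.a, Lt.ci, Lt.b, Lt.c] (hat (rb_18 hy) 7 rfl) h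
  · exact dp_c_29_s hy j u hu h
theorem dp_c_31_s (hy : Hy g H)
    (j u : ℕ) (hu : u < M) (h : dp_c_31 j u = true) : Gd g H Lt.c u := by
  unfold dp_c_31 at h
  rcases brec_true h with h | h
  · exact dp_c_28_s hy j u hu h
  · exact dp_c_30_s hy j u hu h
theorem dp_c_32_s (hy : Hy g H)
    (j u : ℕ) (hu : u < M) (h : dp_c_32 j u = true) : Gd g H Lt.c u := by
  unfold dp_c_32 at h
  rcases brec_true h with h | h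
  · exact dp_c_27_s hy j u hu h
  · exact dp_c_31_s hy j u hu h
theorem dp_c_33_s (hy : Hy g H)
    (j u : ℕ) (hu : u < M) (h : dp_c_33 j u = true) : Gd g H Lt.c u := by
  unfold dp_c_33 at h
  rcases brec_true h with h | h
  · exact dp_c_26_s hy j u hu h
  · exact dp_c_32_s hy j u hu h
theorem dp_c_34_s (hy : Hy g H)
    (j u : ℕ) (hu : u < M) (h : dp_c_34 j u = true) : Gd g H Lt.c u := by
  unfold dp_c_34 at h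
  rcases brec_true h with h | h
  · exact lS_good (T := T) (x := Lt.c) hM0 hu [Lt.a, Lt.c, Lt.ai, Lt.ci, Lt.ci, Lt.a, Lt.b, Lt.ai, Lt.ai, Lt.b, Lt.ai, Lt.b, Lt.a, Lt.b, Lt.c] (hat (rb_12 hy) 7 rfl) h
  · exact lF_good (T := T) (x := Lt.c) hM0 [Lt.a, Lt.c, Lt.a, Lt.ci, Lt.b, Lt.d, Lt.b, Lt.d, Lt.b, Lt.d, Lt.c] (hat (rf_5 hy) 7 rfl) h
theorem dp_c_35_s (hy : Hy g H)
    (j u : ℕ) (hu : u < M) (h : dp_c_35 j u = true) : Gd g H Lt.c u := by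
  unfold dp_c_35 at h
  rcases brec_true h with h | h
  · exact lS_good (T := T) (x := Lt.c) hM0 hu [Lt.b, Lt.c, Lt.ai, Lt.ai, Lt.ai, Lt.ai, Lt.ai, Lt.ai, Lt.ai, Lt.ai, Lt.b, Lt.a, Lt.a, Lt.ci, Lt.b, Lt.c] (hat (rb_18 hy) 7 rfl) h
  · exact lF_good (T := T) (x := Lt.c) hM0 [Lt.d, Lt.ci, Lt.ci, Lt.a, Lt.ci, Lt.b, Lt.d, Lt.b, Lt.c, Lt.ai, Lt.c] (hat (rf_4 hy) 5 rfl) h
theorem dp_c_36_s (hy : Hy g H)
    (j u : ℕ) (hu : u < M) (h : dp_c_36 j u = true) : Gd g H Lt.c u := by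
  unfold dp_c_36 at h
  rcases brec_true h with h | h
  · exact lF_good (T := T) (x := Lt.c) hM0 [Lt.b, Lt.c, Lt.a, Lt.a, Lt.b, Lt.ai, Lt.b, Lt.ai, Lt.b, Lt.a, Lt.b, Lt.ci, Lt.b] (hat (rf_7 hy) 12 rfl) h
  · exact dp_c_35_s hy j u hu h
theorem dp_c_37_s (hy : Hy g H)
    (j u : ℕ) (hu : u < M) (h : dp_c_37 j u = true) : Gd g H Lt.c u := by
  unfold dp_c_37 at h
  rcases brec_true h with h | h
  · exact dp_c_34_s hy j u hu h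
  · exact dp_c_36_s hy j u hu h
theorem dp_c_38_s (hy : Hy g H)
    (j u : ℕ) (hu : u < M) (h : dp_c_38 j u = true) : Gd g H Lt.c u := by
  unfold dp_c_38 at h
  rcases brec_true h with h | h
  · exact lF_good (T := T) (x := Lt.c) hM0 [Lt.c, Lt.a, Lt.c, Lt.a, Lt.ci, Lt.b, Lt.d, Lt.b, Lt.d, Lt.b, Lt.d] (hat (rf_5 hy) 6 rfl) h
  · exact lS_good (T := T) (x := Lt.c) hM0 hu [Lt.ai, Lt.b, Lt.c, Lt.ai, Lt.ai, Lt.ai, Lt.b, Lt.a, Lt.a, Lt.a, Lt.ci, Lt.b, Lt.a, Lt.ci, Lt.b] (hat (rf_13 hy) 9 rfl) h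
theorem dp_c_39_s (hy : Hy g H)
    (j u : ℕ) (hu : u < M) (h : dp_c_39 j u = true) : Gd g H Lt.c u := by
  unfold dp_c_39 at h
  rcases brec_true h with h | h
  · exact lF_good (T := T) (x := Lt.c) hM0 [Lt.c, Lt.d, Lt.ci, Lt.ci, Lt.a, Lt.ci, Lt.b, Lt.d, Lt.b, Lt.c, Lt.ai] (hat (rf_4 hy) 4 rfl) h
  · exact lH_good (T := T) (x := Lt.c) hM0 [] [] (by rw [show cP g H 0 = _ from cc_zero]; exact sub_rel hy.1 (hy.2.2 _ (by decide))) h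
theorem dp_c_40_s (hy : Hy g H)
    (j u : ℕ) (hu : u < M) (h : dp_c_40 j u = true) : Gd g H Lt.c u := by
  unfold dp_c_40 at h
  rcases brec_true h with h | h
  · exact lS_good (T := T) (x := Lt.c) hM0 hu [Lt.ai, Lt.ai, Lt.ai, Lt.ai, Lt.ai, Lt.ai, Lt.ai, Lt.ai, Lt.b, Lt.a, Lt.a, Lt.ci, Lt.b, Lt.c, Lt.c, Lt.b] (hat (rb_18 hy) 9 rfl) h
  · exact dp_c_39_s hy j u hu h
theorem dp_c_41_s (hy : Hy g H)
    (j u : ℕ) (hu : u < M) (h : dp_c_41 j u = true) : Gd g H Lt.c u := by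
  unfold dp_c_41 at h
  rcases brec_true h with h | h
  · exact dp_c_38_s hy j u hu h
  · exact dp_c_40_s hy j u hu h
theorem dp_c_42_s (hy : Hy g H)
    (j u : ℕ) (hu : u < M) (h : dp_c_42 j u = true) : Gd g H Lt.c u := by
  unfold dp_c_42 at h
  rcases brec_true h with h | h
  · exact dp_c_37_s hy j u hu h
  · exact dp_c_41_s hy j u hu h
theorem dp_c_43_s (hy : Hy g H)
    (j u : ℕ) (hu : u < M) (h : dp_c_43 j u = true) : Gd g H Lt.c u := by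
  unfold dp_c_43 at h
  rcases brec_true h with h | h
  · exact lF_good (T := T) (x := Lt.c) hM0 [Lt.c, Lt.d, Lt.a, Lt.c, Lt.a, Lt.ci, Lt.b, Lt.c, Lt.ai, Lt.ci, Lt.ai, Lt.d, Lt.ci, Lt.ci, Lt.b] (hat (rf_11 hy) 5 rfl) h
  · exact lS_good (T := T) (x := Lt.c) hM0 hu [Lt.c, Lt.a, Lt.c, Lt.ai, Lt.ci, Lt.ci, Lt.a, Lt.b, Lt.ai, Lt.ai, Lt.b, Lt.ai, Lt.b, Lt.a, Lt.b] (hat (rb_12 hy) 6 rfl) h
theorem dp_c_44_s (hy : Hy g H)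
    (j u : ℕ) (hu : u < M) (h : dp_c_44 j u = true) : Gd g H Lt.c u := by
  unfold dp_c_44 at h
  rcases brec_true h with h | h
  · exact lF_good (T := T) (x := Lt.c) hM0 [Lt.ai, Lt.c, Lt.d, Lt.a, Lt.ci, Lt.b, Lt.c, Lt.ai, Lt.d, Lt.c, Lt.a, Lt.ci, Lt.b] (hat (rf_6 hy) 12 rfl) h
  · exact lF_good (T := T) (x := Lt.c) hM0 [Lt.b, Lt.a, Lt.b, Lt.ai, Lt.b, Lt.ai, Lt.ai, Lt.b, Lt.a, Lt.b, Lt.ci, Lt.ci, Lt.b, Lt.c] (hat (rb_9 hy) 8 rfl) h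
theorem dp_c_45_s (hy : Hy g H)
    (j u : ℕ) (hu : u < M) (h : dp_c_45 j u = true) : Gd g H Lt.c u := by
  unfold dp_c_45 at h
  rcases brec_true h with h | h
  · exact lF_good (T := T) (x := Lt.c) hM0 [Lt.a, Lt.a, Lt.b, Lt.ai, Lt.b, Lt.ai, Lt.b, Lt.a, Lt.b, Lt.ci, Lt.b, Lt.c, Lt.b] (hat (rf_7 hy) 0 rfl) h
  · exact dp_c_44_s hy j u hu h
theorem dp_c_46_s (hy : Hy g H)
    (j u : ℕ) (hu : u < M) (h : dp_c_46 j u = true) : Gd g H Lt.c u := by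
  unfold dp_c_46 at h
  rcases brec_true h with h | h
  · exact dp_c_43_s hy j u hu h
  · exact dp_c_45_s hy j u hu h
theorem dp_c_47_s (hy : Hy g H)
    (j u : ℕ) (hu : u < M) (h : dp_c_47 j u = true) : Gd g H Lt.c u := by
  unfold dp_c_47 at h
  rcases brec_true h with h | h
  · exact lS_good (T := T) (x := Lt.c) hM0 hu [Lt.ai, Lt.ai, Lt.b, Lt.a, Lt.a, Lt.a, Lt.a, Lt.a, Lt.a, Lt.a, Lt.a, Lt.ci, Lt.b, Lt.ci, Lt.ci, Lt.b] (hat (rf_18 hy) 14 rfl) h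
  · exact lS_good (T := T) (x := Lt.c) hM0 hu [Lt.ai, Lt.ai, Lt.ai, Lt.b, Lt.a, Lt.a, Lt.a, Lt.ci, Lt.b, Lt.a, Lt.ci, Lt.b, Lt.c, Lt.ai, Lt.b] (hat (rf_13 hy) 12 rfl) h
theorem dp_c_48_s (hy : Hy g H)
    (j u : ℕ) (hu : u < M) (h : dp_c_48 j u = true) : Gd g H Lt.c u := by
  unfold dp_c_48 at h
  rcases brec_true h with h | h
  · exact lS_good (T := T) (x := Lt.c) hM0 hu [Lt.c, Lt.b, Lt.c, Lt.ai, Lt.ai, Lt.ai, Lt.ai, Lt.ai, Lt.ai, Lt.ai, Lt.ai, Lt.b, Lt.a, Lt.a, Lt.ci, Lt.b] (hat (rb_18 hy) 6 rfl) h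
  · exact lF_good (T := T) (x := Lt.c) hM0 [Lt.c, Lt.a, Lt.ci, Lt.ai, Lt.ci, Lt.ci, Lt.b, Lt.ai, Lt.b, Lt.a, Lt.b, Lt.a, Lt.a, Lt.b, Lt.ai] (hat (rf_12 hy) 5 rfl) h
theorem dp_c_49_s (hy : Hy g H)
    (j u : ℕ) (hu : u < M) (h : dp_c_49 j u = true) : Gd g H Lt.c u := by
  unfold dp_c_49 at h
  rcases brec_true h with h | h
  · exact lS_good (T := T) (x := Lt.c) hM0 hu [Lt.b, Lt.c, Lt.ai, Lt.ai, Lt.ai, Lt.b, Lt.a, Lt.b, Lt.a, Lt.b, Lt.ai, Lt.b, Lt.a, Lt.a, Lt.ci, Lt.b] (hat (rb_17 hy) 12 rfl) h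
  · exact dp_c_48_s hy j u hu h
theorem dp_c_50_s (hy : Hy g H)
    (j u : ℕ) (hu : u < M) (h : dp_c_50 j u = true) : Gd g H Lt.c u := by
  unfold dp_c_50 at h
  rcases brec_true h with h | h
  · exact dp_c_47_s hy j u hu h
  · exact dp_c_49_s hy j u hu h
theorem dp_c_51_s (hy : Hy g H)
    (j u : ℕ) (hu : u < M) (h : dp_c_51 j u = true) : Gd g H Lt.c u := by
  unfold dp_c_51 at h
  rcases brec_true h with h | h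
  · exact dp_c_46_s hy j u hu h
  · exact dp_c_50_s hy j u hu h
theorem dp_c_52_s (hy : Hy g H)
    (j u : ℕ) (hu : u < M) (h : dp_c_52 j u = true) : Gd g H Lt.c u := by
  unfold dp_c_52 at h
  rcases brec_true h with h | h
  · exact lF_good (T := T) (x := Lt.c) hM0 [Lt.a, Lt.c, Lt.ai, Lt.ci, Lt.ci, Lt.a, Lt.b, Lt.ai, Lt.ai, Lt.b, Lt.ai, Lt.b, Lt.a, Lt.b, Lt.c] (hat (rb_12 hy) 7 rfl) h
  · exact lS_good (T := T) (x := Lt.c) hM0 hu [Lt.ai, Lt.d, Lt.ci, Lt.a, Lt.ci, Lt.b, Lt.c, Lt.ai, Lt.ci, Lt.d, Lt.a, Lt.ci, Lt.b] (hat (rb_6 hy) 12 rfl) h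
theorem dp_c_53_s (hy : Hy g H)
    (j u : ℕ) (hu : u < M) (h : dp_c_53 j u = true) : Gd g H Lt.c u := by
  unfold dp_c_53 at h
  rcases brec_true h with h | h
  · exact lS_good (T := T) (x := Lt.c) hM0 hu [Lt.ai, Lt.ai, Lt.b, Lt.a, Lt.b, Lt.ai, Lt.b, Lt.ai, Lt.b, Lt.a, Lt.a, Lt.a, Lt.ci, Lt.b, Lt.ci, Lt.b] (hat (rf_17 hy) 8 rfl) h
  · exact lF_good (T := T) (x := Lt.c) hM0 [Lt.b, Lt.ai, Lt.b, Lt.a, Lt.b, Lt.a, Lt.b, Lt.ai, Lt.ai, Lt.ci, Lt.b, Lt.ci, Lt.b] (hat (rb_7 hy) 5 rfl) h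
theorem dp_c_54_s (hy : Hy g H)
    (j u : ℕ) (hu : u < M) (h : dp_c_54 j u = true) : Gd g H Lt.c u := by
  unfold dp_c_54 at h
  rcases brec_true h with h | h
  · exact lS_good (T := T) (x := Lt.c) hM0 hu [Lt.d, Lt.a, Lt.ci, Lt.b, Lt.c, Lt.ai, Lt.d, Lt.c, Lt.a, Lt.ci, Lt.b, Lt.c, Lt.ai] (hat (rf_6 hy) 0 rfl) h
  · exact dp_c_53_s hy j u hu h
theorem dp_c_55_s (hy : Hy g H)
    (j u : ℕ) (hu : u < M) (h : dp_c_55 j u = true) : Gd g H Lt.c u := by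
  unfold dp_c_55 at h
  rcases brec_true h with h | h
  · exact dp_c_52_s hy j u hu h
  · exact dp_c_54_s hy j u hu h
theorem dp_c_56_s (hy : Hy g H)
    (j u : ℕ) (hu : u < M) (h : dp_c_56 j u = true) : Gd g H Lt.c u := by
  unfold dp_c_56 at h
  rcases brec_true h with h | h
  · exact lF_good (T := T) (x := Lt.c) hM0 [Lt.ai, Lt.d, Lt.c, Lt.a, Lt.ci, Lt.b, Lt.c, Lt.ai, Lt.c, Lt.d, Lt.a, Lt.ci, Lt.b] (hat (rf_6 hy) 5 rfl) h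
  · exact lF_good (T := T) (x := Lt.c) hM0 [Lt.ai, Lt.d, Lt.ci, Lt.a, Lt.ci, Lt.b, Lt.c, Lt.ai, Lt.ci, Lt.d, Lt.a, Lt.ci, Lt.b] (hat (rb_6 hy) 12 rfl) h
theorem dp_c_57_s (hy : Hy g H)
    (j u : ℕ) (hu : u < M) (h : dp_c_57 j u = true) : Gd g H Lt.c u := by
  unfold dp_c_57 at h
  rcases brec_true h with h | h
  · exact lF_good (T := T) (x := Lt.c) hM0 [Lt.ai, Lt.c, Lt.c, Lt.d, Lt.ci, Lt.ci, Lt.a, Lt.ci, Lt.b, Lt.d, Lt.b] (hat (rf_4 hy) 2 rfl) h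
  · exact lF_good (T := T) (x := Lt.c) hM0 [Lt.c, Lt.b, Lt.ai, Lt.b, Lt.a, Lt.a, Lt.b, Lt.a, Lt.b, Lt.ai, Lt.b, Lt.ci, Lt.ci, Lt.b] (hat (rf_9 hy) 11 rfl) h
theorem dp_c_58_s (hy : Hy g H)
    (j u : ℕ) (hu : u < M) (h : dp_c_58 j u = true) : Gd g H Lt.c u := by
  unfold dp_c_58 at h
  rcases brec_true h with h | h
  · exact lS_good (T := T) (x := Lt.c) hM0 hu [Lt.ai, Lt.ci, Lt.ci, Lt.a, Lt.b, Lt.ai, Lt.ai, Lt.b, Lt.ai, Lt.b, Lt.a, Lt.b, Lt.c, Lt.c, Lt.a] (hat (rb_12 hy) 9 rfl) h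
  · exact dp_c_57_s hy j u hu h
theorem dp_c_59_s (hy : Hy g H)
    (j u : ℕ) (hu : u < M) (h : dp_c_59 j u = true) : Gd g H Lt.c u := by
  unfold dp_c_59 at h
  rcases brec_true h with h | h
  · exact dp_c_56_s hy j u hu h
  · exact dp_c_58_s hy j u hu h
theorem dp_c_60_s (hy : Hy g H)
    (j u : ℕ) (hu : u < M) (h : dp_c_60 j u = true) : Gd g H Lt.c u := by
  unfold dp_c_60 at h
  rcases brec_true h with h | h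
  · exact dp_c_55_s hy j u hu h
  · exact dp_c_59_s hy j u hu h
theorem dp_c_61_s (hy : Hy g H)
    (j u : ℕ) (hu : u < M) (h : dp_c_61 j u = true) : Gd g H Lt.c u := by
  unfold dp_c_61 at h
  rcases brec_true h with h | h
  · exact dp_c_51_s hy j u hu h
  · exact dp_c_60_s hy j u hu h
theorem dp_c_62_s (hy : Hy g H)
    (j u : ℕ) (hu : u < M) (h : dp_c_62 j u = true) : Gd g H Lt.c u := by
  unfold dp_c_62 at h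
  rcases brec_true h with h | h
  · exact dp_c_42_s hy j u hu h
  · exact dp_c_61_s hy j u hu h
theorem dp_c_63_s (hy : Hy g H)
    (j u : ℕ) (hu : u < M) (h : dp_c_63 j u = true) : Gd g H Lt.c u := by
  unfold dp_c_63 at h
  rcases brec_true h with h | h
  · exact dp_c_33_s hy j u hu h
  · exact dp_c_62_s hy j u hu h
theorem dp_c_64_s (hy : Hy g H)
    (j u : ℕ) (hu : u < M) (h : dp_c_64 j u = true) : Gd g H Lt.c u := by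
  unfold dp_c_64 at h
  rcases brec_true h with h | h
  · exact dp_c_23_s hy j u hu h
  · exact dp_c_63_s hy j u hu h
theorem dp_c_65_s (hy : Hy g H)
    (j u : ℕ) (hu : u < M) (h : dp_c_65 j u = true) : Gd g H Lt.c u := by
  unfold dp_c_65 at h
  rcases brec_true h with h | h
  · exact dp_c_14_s hy j u hu h
  · exact dp_c_64_s hy j u hu h
theorem dp_c_66_s (hy : Hy g H)
    (j u : ℕ) (hu : u < M) (h : dp_c_66 j u = true) : Gd g H Lt.c u := by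
  unfold dp_c_66 at h
  rcases brec_true h with h | h
  · exact dp_c_6_s hy j u hu h
  · exact dp_c_65_s hy j u hu h
theorem dp_c_67_s (hy : Hy g H)
    (j u : ℕ) (hu : u < M) (h : dp_c_67 j u = true) : Gd g H Lt.c u := by
  unfold dp_c_67 at h
  rcases brec_true h with h | h
  · exact dp_c_0_s hy j u hu h
  · exact dp_c_66_s hy j u hu h
theorem dp_c_68_s (hy : Hy g H)
    (j u : ℕ) (hu : u < M) (h : dp_c_68 j u = true) : Gd g H Lt.c u := by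
  unfold dp_c_68 at h
  rcases brec_true h with h | h
  · exact lS_good (T := T) (x := Lt.c) hM0 hu [Lt.ci] (hat (rf_24 hy) 1 rfl) h
  · exact dp_c_67_s hy j u hu h
theorem snd_c (hy : Hy g H)
    (j u : ℕ) (hu : u < M) (h : disp_c j u = true) : Gd g H Lt.c u := by
  unfold disp_c at h
  rcases brec_true h with h | h
  · exact lDef_good (T := T) (x := Lt.c) (by decide) rfl h
  · rcases brec_true h with h | h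
    · exact lPar_good (T := T) (x := Lt.c) (x' := Lt.ci) (by decide) rfl (ivt hy _ _ rfl) h
    · exact dp_c_68_s hy j u hu h
theorem snc_c (hy : Hy g H)
    (j u : ℕ) (hu : u < M) (h : chk_c j u = true) : (T Lt.c u < A ∧ Gd g H Lt.c u) ∨ (A ≤ T Lt.c u ∧ MG u < A) := by
  unfold chk_c at h
  cases hb : Nat.ble A (T_c u) with
  | true => rw [hb] at h; exact Or.inr ⟨le_of_ble hb, le_of_ble h⟩
  | false => rw [hb] at h; exact Or.inl ⟨lt_of_ble_false hb, snd_c hy j u hu h⟩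
theorem dp_ci_0_s (hy : Hy g H)
    (j u : ℕ) (hu : u < M) (h : dp_ci_0 j u = true) : Gd g H Lt.ci u := by
  unfold dp_ci_0 at h
  rcases brec_true h with h | h
  · exact lF1_good (T := T) (x := Lt.ci) hM0 .c (hat (rf_24 hy) 0 rfl) h
  · exact lS_good (T := T) (x := Lt.ci) hM0 hu [Lt.ci, Lt.d, Lt.c, Lt.c, Lt.a, Lt.ci, Lt.d, Lt.c, Lt.ai] (hat (rf_2 hy) 4 rfl) h
theorem dp_ci_1_s (hy : Hy g H)
    (j u : ℕ) (hu : u < M) (h : dp_ci_1 j u = true) : Gd g H Lt.ci u := by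
  unfold dp_ci_1 at h
  rcases brec_true h with h | h
  · exact lS_good (T := T) (x := Lt.ci) hM0 hu [Lt.ai, Lt.d, Lt.a, Lt.c, Lt.d, Lt.ci, Lt.ai, Lt.d, Lt.a, Lt.c, Lt.d] (hat (rf_3 hy) 4 rfl) h
  · exact lS_good (T := T) (x := Lt.ci) hM0 hu [Lt.d, Lt.c, Lt.ai, Lt.ci, Lt.ci, Lt.d, Lt.c, Lt.c, Lt.a] (hat (rf_2 hy) 0 rfl) h
theorem dp_ci_2_s (hy : Hy g H)
    (j u : ℕ) (hu : u < M) (h : dp_ci_2 j u = true) : Gd g H Lt.ci u := by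
  unfold dp_ci_2 at h
  rcases brec_true h with h | h
  · exact lS_good (T := T) (x := Lt.ci) hM0 hu [Lt.a, Lt.ci, Lt.b, Lt.d, Lt.b, Lt.c, Lt.ai, Lt.c, Lt.c, Lt.d, Lt.ci] (hat (rf_4 hy) 8 rfl) h
  · exact lS_good (T := T) (x := Lt.ci) hM0 hu [Lt.b, Lt.ci, Lt.b, Lt.c, Lt.b, Lt.ai, Lt.b, Lt.a, Lt.b, Lt.a, Lt.b, Lt.ai, Lt.ai] (hat (rb_7 hy) 1 rfl) h
theorem dp_ci_3_s (hy : Hy g H)
    (j u : ℕ) (hu : u < M) (h : dp_ci_3 j u = true) : Gd g H Lt.ci u := by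
  unfold dp_ci_3 at h
  rcases brec_true h with h | h
  · exact lS_good (T := T) (x := Lt.ci) hM0 hu [Lt.d, Lt.c, Lt.c, Lt.a, Lt.ci, Lt.d, Lt.c, Lt.ai, Lt.ci] (hat (rf_2 hy) 5 rfl) h
  · exact lS_good (T := T) (x := Lt.ci) hM0 hu [Lt.b, Lt.c, Lt.b, Lt.ai, Lt.b, Lt.a, Lt.b, Lt.a, Lt.b, Lt.ai, Lt.ai, Lt.ci, Lt.b] (hat (rb_7 hy) 3 rfl) h
theorem dp_ci_4_s (hy : Hy g H)
    (j u : ℕ) (hu : u < M) (h : dp_ci_4 j u = true) : Gd g H Lt.ci u := by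
  unfold dp_ci_4 at h
  rcases brec_true h with h | h
  · exact dp_ci_2_s hy j u hu h
  · exact dp_ci_3_s hy j u hu h
theorem dp_ci_5_s (hy : Hy g H)
    (j u : ℕ) (hu : u < M) (h : dp_ci_5 j u = true) : Gd g H Lt.ci u := by
  unfold dp_ci_5 at h
  rcases brec_true h with h | h
  · exact dp_ci_1_s hy j u hu h
  · exact dp_ci_4_s hy j u hu h
theorem dp_ci_6_s (hy : Hy g H)
    (j u : ℕ) (hu : u < M) (h : dp_ci_6 j u = true) : Gd g H Lt.ci u := by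
  unfold dp_ci_6 at h
  rcases brec_true h with h | h
  · exact lS_good (T := T) (x := Lt.ci) hM0 hu [Lt.b, Lt.d, Lt.b, Lt.c, Lt.ai, Lt.c, Lt.c, Lt.d, Lt.ci, Lt.ci, Lt.a] (hat (rf_4 hy) 10 rfl) h
  · exact lS_good (T := T) (x := Lt.ci) hM0 hu [Lt.ai, Lt.ci, Lt.ci, Lt.d, Lt.b, Lt.d, Lt.b, Lt.d, Lt.b, Lt.c, Lt.ai] (hat (rb_5 hy) 4 rfl) h
theorem dp_ci_7_s (hy : Hy g H)
    (j u : ℕ) (hu : u < M) (h : dp_ci_7 j u = true) : Gd g H Lt.ci u := by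
  unfold dp_ci_7 at h
  rcases brec_true h with h | h
  · exact lS_good (T := T) (x := Lt.ci) hM0 hu [Lt.ci, Lt.a, Lt.ci, Lt.b, Lt.d, Lt.b, Lt.c, Lt.ai, Lt.c, Lt.c, Lt.d] (hat (rf_4 hy) 7 rfl) h
  · exact dp_ci_6_s hy j u hu h
theorem dp_ci_8_s (hy : Hy g H)
    (j u : ℕ) (hu : u < M) (h : dp_ci_8 j u = true) : Gd g H Lt.ci u := by
  unfold dp_ci_8 at h
  rcases brec_true h with h | h
  · exact lS_good (T := T) (x := Lt.ci) hM0 hu [Lt.b, Lt.c, Lt.b, Lt.c, Lt.a, Lt.a, Lt.b, Lt.ai, Lt.b, Lt.ai, Lt.b, Lt.a, Lt.b] (hat (rf_7 hy) 10 rfl) h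
  · exact lF_good (T := T) (x := Lt.ci) hM0 [Lt.ci, Lt.d, Lt.c, Lt.c, Lt.a, Lt.ci, Lt.d, Lt.c, Lt.ai] (hat (rf_2 hy) 4 rfl) h
theorem dp_ci_9_s (hy : Hy g H)
    (j u : ℕ) (hu : u < M) (h : dp_ci_9 j u = true) : Gd g H Lt.ci u := by
  unfold dp_ci_9 at h
  rcases brec_true h with h | h
  · exact lS_good (T := T) (x := Lt.ci) hM0 hu [Lt.b, Lt.c, Lt.c, Lt.b, Lt.ai, Lt.b, Lt.a, Lt.a, Lt.b, Lt.a, Lt.b, Lt.ai, Lt.b, Lt.ci] (hat (rf_9 hy) 9 rfl) h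
  · exact dp_ci_8_s hy j u hu h
theorem dp_ci_10_s (hy : Hy g H)
    (j u : ℕ) (hu : u < M) (h : dp_ci_10 j u = true) : Gd g H Lt.ci u := by
  unfold dp_ci_10 at h
  rcases brec_true h with h | h
  · exact lS_good (T := T) (x := Lt.ci) hM0 hu [Lt.b, Lt.ci, Lt.b, Lt.c, Lt.a, Lt.b, Lt.a, Lt.a, Lt.a, Lt.a, Lt.b, Lt.a, Lt.b, Lt.ai] (hat (rf_8 hy) 9 rfl) h
  · exact lS_good (T := T) (x := Lt.ci) hM0 hu [Lt.b, Lt.c, Lt.ai, Lt.c, Lt.d, Lt.a, Lt.ci, Lt.b, Lt.c, Lt.ai, Lt.d, Lt.c, Lt.a] (hat (rf_6 hy) 10 rfl) h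
theorem dp_ci_11_s (hy : Hy g H)
    (j u : ℕ) (hu : u < M) (h : dp_ci_11 j u = true) : Gd g H Lt.ci u := by
  unfold dp_ci_11 at h
  rcases brec_true h with h | h
  · exact lS_good (T := T) (x := Lt.ci) hM0 hu [Lt.b, Lt.c, Lt.ai, Lt.d, Lt.c, Lt.a, Lt.ci, Lt.b, Lt.c, Lt.ai, Lt.c, Lt.d, Lt.a] (hat (rf_6 hy) 3 rfl) h
  · exact dp_ci_10_s hy j u hu h
theorem dp_ci_12_s (hy : Hy g H)
    (j u : ℕ) (hu : u < M) (h : dp_ci_12 j u = true) : Gd g H Lt.ci u := by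
  unfold dp_ci_12 at h
  rcases brec_true h with h | h
  · exact dp_ci_9_s hy j u hu h
  · exact dp_ci_11_s hy j u hu h
theorem dp_ci_13_s (hy : Hy g H)
    (j u : ℕ) (hu : u < M) (h : dp_ci_13 j u = true) : Gd g H Lt.ci u := by
  unfold dp_ci_13 at h
  rcases brec_true h with h | h
  · exact dp_ci_7_s hy j u hu h
  · exact dp_ci_12_s hy j u hu h
theorem dp_ci_14_s (hy : Hy g H)
    (j u : ℕ) (hu : u < M) (h : dp_ci_14 j u = true) : Gd g H Lt.ci u := by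
  unfold dp_ci_14 at h
  rcases brec_true h with h | h
  · exact lS_good (T := T) (x := Lt.ci) hM0 hu [Lt.ci, Lt.d, Lt.b, Lt.d, Lt.b, Lt.d, Lt.b, Lt.c, Lt.ai, Lt.ci, Lt.ai] (hat (rb_5 hy) 6 rfl) h
  · exact lS_good (T := T) (x := Lt.ci) hM0 hu [Lt.d, Lt.b, Lt.d, Lt.b, Lt.d, Lt.b, Lt.c, Lt.ai, Lt.ci, Lt.ai, Lt.ci] (hat (rb_5 hy) 7 rfl) h
theorem dp_ci_15_s (hy : Hy g H)
    (j u : ℕ) (hu : u < M) (h : dp_ci_15 j u = true) : Gd g H Lt.ci u := by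
  unfold dp_ci_15 at h
  rcases brec_true h with h | h
  · exact lS_good (T := T) (x := Lt.ci) hM0 hu [Lt.a, Lt.a, Lt.b, Lt.a, Lt.b, Lt.a, Lt.c, Lt.ai, Lt.ai, Lt.b, Lt.c, Lt.b, Lt.a, Lt.a] (hat (rf_10 hy) 0 rfl) h
  · exact lS_good (T := T) (x := Lt.ci) hM0 hu [Lt.b, Lt.c, Lt.ai, Lt.d, Lt.ci, Lt.a, Lt.ci, Lt.b, Lt.c, Lt.ai, Lt.ci, Lt.d, Lt.a] (hat (rb_6 hy) 10 rfl) h
theorem dp_ci_16_s (hy : Hy g H)
    (j u : ℕ) (hu : u < M) (h : dp_ci_16 j u = true) : Gd g H Lt.ci u := by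
  unfold dp_ci_16 at h
  rcases brec_true h with h | h
  · exact dp_ci_14_s hy j u hu h
  · exact dp_ci_15_s hy j u hu h
theorem dp_ci_17_s (hy : Hy g H)
    (j u : ℕ) (hu : u < M) (h : dp_ci_17 j u = true) : Gd g H Lt.ci u := by
  unfold dp_ci_17 at h
  rcases brec_true h with h | h
  · exact lS_good (T := T) (x := Lt.ci) hM0 hu [Lt.b, Lt.c, Lt.c, Lt.b, Lt.a, Lt.b, Lt.ai, Lt.b, Lt.ai, Lt.ai, Lt.b, Lt.a, Lt.b, Lt.ci] (hat (rb_9 hy) 5 rfl) h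
  · exact lS_good (T := T) (x := Lt.ci) hM0 hu [Lt.ai, Lt.b, Lt.ai, Lt.b, Lt.ai, Lt.ai, Lt.c, Lt.ai, Lt.ai, Lt.b, Lt.ci, Lt.b, Lt.a, Lt.a] (hat (rb_10 hy) 9 rfl) h
theorem dp_ci_18_s (hy : Hy g H)
    (j u : ℕ) (hu : u < M) (h : dp_ci_18 j u = true) : Gd g H Lt.ci u := by
  unfold dp_ci_18 at h
  rcases brec_true h with h | h
  · exact lS_good (T := T) (x := Lt.ci) hM0 hu [Lt.b, Lt.c, Lt.c, Lt.d, Lt.a, Lt.c, Lt.a, Lt.ci, Lt.b, Lt.c, Lt.ai, Lt.ci, Lt.ai, Lt.d, Lt.ci] (hat (rf_11 hy) 3 rfl) h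
  · exact dp_ci_17_s hy j u hu h
theorem dp_ci_19_s (hy : Hy g H)
    (j u : ℕ) (hu : u < M) (h : dp_ci_19 j u = true) : Gd g H Lt.ci u := by
  unfold dp_ci_19 at h
  rcases brec_true h with h | h
  · exact lS_good (T := T) (x := Lt.ci) hM0 hu [Lt.b, Lt.a, Lt.a, Lt.ci, Lt.ai, Lt.b, Lt.ai, Lt.b, Lt.ai, Lt.ai, Lt.c, Lt.ai, Lt.ai, Lt.b] (hat (rb_10 hy) 5 rfl) h
  · exact lF_good (T := T) (x := Lt.ci) hM0 [Lt.b, Lt.c, Lt.b, Lt.ai, Lt.b, Lt.a, Lt.b, Lt.a, Lt.b, Lt.ai, Lt.ai, Lt.ci, Lt.b] (hat (rb_7 hy) 3 rfl) h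
theorem dp_ci_20_s (hy : Hy g H)
    (j u : ℕ) (hu : u < M) (h : dp_ci_20 j u = true) : Gd g H Lt.ci u := by
  unfold dp_ci_20 at h
  rcases brec_true h with h | h
  · exact lS_good (T := T) (x := Lt.ci) hM0 hu [Lt.ci, Lt.b, Lt.c, Lt.c, Lt.b, Lt.ai, Lt.b, Lt.a, Lt.a, Lt.b, Lt.a, Lt.b, Lt.ai, Lt.b] (hat (rf_9 hy) 8 rfl) h
  · exact dp_ci_19_s hy j u hu h
theorem dp_ci_21_s (hy : Hy g H)
    (j u : ℕ) (hu : u < M) (h : dp_ci_21 j u = true) : Gd g H Lt.ci u := by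
  unfold dp_ci_21 at h
  rcases brec_true h with h | h
  · exact dp_ci_18_s hy j u hu h
  · exact dp_ci_20_s hy j u hu h
theorem dp_ci_22_s (hy : Hy g H)
    (j u : ℕ) (hu : u < M) (h : dp_ci_22 j u = true) : Gd g H Lt.ci u := by
  unfold dp_ci_22 at h
  rcases brec_true h with h | h
  · exact dp_ci_16_s hy j u hu h
  · exact dp_ci_21_s hy j u hu h
theorem dp_ci_23_s (hy : Hy g H)
    (j u : ℕ) (hu : u < M) (h : dp_ci_23 j u = true) : Gd g H Lt.ci u := by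
  unfold dp_ci_23 at h
  rcases brec_true h with h | h
  · exact lS_good (T := T) (x := Lt.ci) hM0 hu [Lt.b, Lt.c, Lt.a, Lt.b, Lt.a, Lt.a, Lt.a, Lt.a, Lt.b, Lt.a, Lt.b, Lt.ai, Lt.ci, Lt.b] (hat (rf_8 hy) 11 rfl) h
  · exact lS_good (T := T) (x := Lt.ci) hM0 hu [Lt.b, Lt.d, Lt.b, Lt.d, Lt.b, Lt.d, Lt.c, Lt.c, Lt.a, Lt.c, Lt.a] (hat (rf_5 hy) 11 rfl) h
theorem dp_ci_24_s (hy : Hy g H)
    (j u : ℕ) (hu : u < M) (h : dp_ci_24 j u = true) : Gd g H Lt.ci u := by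
  unfold dp_ci_24 at h
  rcases brec_true h with h | h
  · exact lS_good (T := T) (x := Lt.ci) hM0 hu [Lt.ai, Lt.ci, Lt.ci, Lt.b, Lt.ai, Lt.b, Lt.a, Lt.b, Lt.a, Lt.a, Lt.b, Lt.ai, Lt.c, Lt.c, Lt.a] (hat (rf_12 hy) 8 rfl) h
  · exact lF_good (T := T) (x := Lt.ci) hM0 [Lt.ci, Lt.a, Lt.ci, Lt.b, Lt.d, Lt.b, Lt.c, Lt.ai, Lt.c, Lt.c, Lt.d] (hat (rf_4 hy) 7 rfl) h
theorem dp_ci_25_s (hy : Hy g H)
    (j u : ℕ) (hu : u < M) (h : dp_ci_25 j u = true) : Gd g H Lt.ci u := by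
  unfold dp_ci_25 at h
  rcases brec_true h with h | h
  · exact lS_good (T := T) (x := Lt.ci) hM0 hu [Lt.ci, Lt.b, Lt.c, Lt.c, Lt.b, Lt.a, Lt.b, Lt.ai, Lt.b, Lt.ai, Lt.ai, Lt.b, Lt.a, Lt.b] (hat (rb_9 hy) 4 rfl) h
  · exact dp_ci_24_s hy j u hu h
theorem dp_ci_26_s (hy : Hy g H)
    (j u : ℕ) (hu : u < M) (h : dp_ci_26 j u = true) : Gd g H Lt.ci u := by
  unfold dp_ci_26 at h
  rcases brec_true h with h | h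
  · exact dp_ci_23_s hy j u hu h
  · exact dp_ci_25_s hy j u hu h
theorem dp_ci_27_s (hy : Hy g H)
    (j u : ℕ) (hu : u < M) (h : dp_ci_27 j u = true) : Gd g H Lt.ci u := by
  unfold dp_ci_27 at h
  rcases brec_true h with h | h
  · exact lF_good (T := T) (x := Lt.ci) hM0 [Lt.b, Lt.c, Lt.ai, Lt.d, Lt.c, Lt.a, Lt.ci, Lt.b, Lt.c, Lt.ai, Lt.c, Lt.d, Lt.a] (hat (rf_6 hy) 3 rfl) h
  · exact lS_good (T := T) (x := Lt.ci) hM0 hu [Lt.b, Lt.c, Lt.b, Lt.c, Lt.a, Lt.b, Lt.ai, Lt.b, Lt.ai, Lt.ai, Lt.ai, Lt.ai, Lt.b, Lt.ai] (hat (rb_8 hy) 3 rfl) h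
theorem dp_ci_28_s (hy : Hy g H)
    (j u : ℕ) (hu : u < M) (h : dp_ci_28 j u = true) : Gd g H Lt.ci u := by
  unfold dp_ci_28 at h
  rcases brec_true h with h | h
  · exact lS_good (T := T) (x := Lt.ci) hM0 hu [Lt.b, Lt.c, Lt.ai, Lt.b, Lt.c, Lt.ai, Lt.ai, Lt.ai, Lt.b, Lt.a, Lt.a, Lt.a, Lt.ci, Lt.b, Lt.a] (hat (rf_13 hy) 7 rfl) h
  · exact lF_good (T := T) (x := Lt.ci) hM0 [Lt.b, Lt.ci, Lt.b, Lt.c, Lt.a, Lt.b, Lt.a, Lt.a, Lt.a, Lt.a, Lt.b, Lt.a, Lt.b, Lt.ai] (hat (rf_8 hy) 9 rfl) h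
theorem dp_ci_29_s (hy : Hy g H)
    (j u : ℕ) (hu : u < M) (h : dp_ci_29 j u = true) : Gd g H Lt.ci u := by
  unfold dp_ci_29 at h
  rcases brec_true h with h | h
  · exact dp_ci_27_s hy j u hu h
  · exact dp_ci_28_s hy j u hu h
theorem dp_ci_30_s (hy : Hy g H)
    (j u : ℕ) (hu : u < M) (h : dp_ci_30 j u = true) : Gd g H Lt.ci u := by
  unfold dp_ci_30 at h
  rcases brec_true h with h | h
  · exact lS_good (T := T) (x := Lt.ci) hM0 hu [Lt.a, Lt.b, Lt.ai, Lt.ai, Lt.b, Lt.ai, Lt.b, Lt.a, Lt.b, Lt.c, Lt.c, Lt.a, Lt.c, Lt.ai, Lt.ci] (hat (rb_12 hy) 12 rfl) h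
  · exact lF_good (T := T) (x := Lt.ci) hM0 [Lt.ai, Lt.ci, Lt.ci, Lt.d, Lt.b, Lt.d, Lt.b, Lt.d, Lt.b, Lt.c, Lt.ai] (hat (rb_5 hy) 4 rfl) h
theorem dp_ci_31_s (hy : Hy g H)
    (j u : ℕ) (hu : u < M) (h : dp_ci_31 j u = true) : Gd g H Lt.ci u := by
  unfold dp_ci_31 at h
  rcases brec_true h with h | h
  · exact lF_good (T := T) (x := Lt.ci) hM0 [Lt.d, Lt.c, Lt.ai, Lt.ci, Lt.ci, Lt.d, Lt.c, Lt.c, Lt.a] (hat (rf_2 hy) 0 rfl) h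
  · exact lF_good (T := T) (x := Lt.ci) hM0 [Lt.b, Lt.d, Lt.b, Lt.c, Lt.ai, Lt.c, Lt.c, Lt.d, Lt.ci, Lt.ci, Lt.a] (hat (rf_4 hy) 10 rfl) h
theorem dp_ci_32_s (hy : Hy g H)
    (j u : ℕ) (hu : u < M) (h : dp_ci_32 j u = true) : Gd g H Lt.ci u := by
  unfold dp_ci_32 at h
  rcases brec_true h with h | h
  · exact dp_ci_30_s hy j u hu h
  · exact dp_ci_31_s hy j u hu h
theorem dp_ci_33_s (hy : Hy g H)
    (j u : ℕ) (hu : u < M) (h : dp_ci_33 j u = true) : Gd g H Lt.ci u := by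
  unfold dp_ci_33 at h
  rcases brec_true h with h | h
  · exact dp_ci_29_s hy j u hu h
  · exact dp_ci_32_s hy j u hu h
theorem dp_ci_34_s (hy : Hy g H)
    (j u : ℕ) (hu : u < M) (h : dp_ci_34 j u = true) : Gd g H Lt.ci u := by
  unfold dp_ci_34 at h
  rcases brec_true h with h | h
  · exact dp_ci_26_s hy j u hu h
  · exact dp_ci_33_s hy j u hu h
theorem dp_ci_35_s (hy : Hy g H)
    (j u : ℕ) (hu : u < M) (h : dp_ci_35 j u = true) : Gd g H Lt.ci u := by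
  unfold dp_ci_35 at h
  rcases brec_true h with h | h
  · exact lS_good (T := T) (x := Lt.ci) hM0 hu [Lt.b, Lt.c, Lt.ai, Lt.ai, Lt.b, Lt.a, Lt.a, Lt.a, Lt.a, Lt.a, Lt.a, Lt.a, Lt.a, Lt.ci, Lt.b, Lt.ci] (hat (rf_18 hy) 12 rfl) h
  · exact lS_good (T := T) (x := Lt.ci) hM0 hu [Lt.b, Lt.c, Lt.ai, Lt.ci, Lt.d, Lt.a, Lt.ci, Lt.b, Lt.c, Lt.ai, Lt.d, Lt.ci, Lt.a] (hat (rb_6 hy) 3 rfl) h
theorem dp_ci_36_s (hy : Hy g H)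
    (j u : ℕ) (hu : u < M) (h : dp_ci_36 j u = true) : Gd g H Lt.ci u := by
  unfold dp_ci_36 at h
  rcases brec_true h with h | h
  · exact lS_good (T := T) (x := Lt.ci) hM0 hu [Lt.b, Lt.a, Lt.ci, Lt.b, Lt.c, Lt.ai, Lt.b, Lt.c, Lt.ai, Lt.ai, Lt.ai, Lt.b, Lt.a, Lt.a, Lt.a] (hat (rf_13 hy) 4 rfl) h
  · exact lS_good (T := T) (x := Lt.ci) hM0 hu [Lt.ci, Lt.b, Lt.c, Lt.c, Lt.d, Lt.a, Lt.c, Lt.a, Lt.ci, Lt.b, Lt.c, Lt.ai, Lt.ci, Lt.ai, Lt.d] (hat (rf_11 hy) 2 rfl) h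
theorem dp_ci_37_s (hy : Hy g H)
    (j u : ℕ) (hu : u < M) (h : dp_ci_37 j u = true) : Gd g H Lt.ci u := by
  unfold dp_ci_37 at h
  rcases brec_true h with h | h
  · exact lS_good (T := T) (x := Lt.ci) hM0 hu [Lt.a, Lt.ci, Lt.b, Lt.c, Lt.ai, Lt.ci, Lt.d, Lt.a, Lt.ci, Lt.b, Lt.c, Lt.ai, Lt.d] (hat (rb_6 hy) 1 rfl) h
  · exact dp_ci_36_s hy j u hu h
theorem dp_ci_38_s (hy : Hy g H)
    (j u : ℕ) (hu : u < M) (h : dp_ci_38 j u = true) : Gd g H Lt.ci u := by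
  unfold dp_ci_38 at h
  rcases brec_true h with h | h
  · exact dp_ci_35_s hy j u hu h
  · exact dp_ci_37_s hy j u hu h
theorem dp_ci_39_s (hy : Hy g H)
    (j u : ℕ) (hu : u < M) (h : dp_ci_39 j u = true) : Gd g H Lt.ci u := by
  unfold dp_ci_39 at h
  rcases brec_true h with h | h
  · exact lF_good (T := T) (x := Lt.ci) hM0 [Lt.ci, Lt.d, Lt.b, Lt.d, Lt.b, Lt.d, Lt.b, Lt.c, Lt.ai, Lt.ci, Lt.ai] (hat (rb_5 hy) 6 rfl) h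
  · exact lF_good (T := T) (x := Lt.ci) hM0 [Lt.ci, Lt.ai, Lt.ci, Lt.d, Lt.a, Lt.ci, Lt.b, Lt.c, Lt.ai, Lt.d, Lt.c, Lt.a, Lt.a, Lt.b, Lt.a, Lt.a, Lt.a] (hat (rf_19 hy) 15 rfl) h
theorem dp_ci_40_s (hy : Hy g H)
    (j u : ℕ) (hu : u < M) (h : dp_ci_40 j u = true) : Gd g H Lt.ci u := by
  unfold dp_ci_40 at h
  rcases brec_true h with h | h
  · exact lF_good (T := T) (x := Lt.ci) hM0 [Lt.b, Lt.d, Lt.b, Lt.d, Lt.b, Lt.d, Lt.c, Lt.c, Lt.a, Lt.c, Lt.a] (hat (rf_5 hy) 11 rfl) h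
  · exact lS_good (T := T) (x := Lt.ci) hM0 hu [Lt.ci, Lt.b, Lt.ai, Lt.b, Lt.a, Lt.b, Lt.a, Lt.a, Lt.b, Lt.ai, Lt.c, Lt.c, Lt.a, Lt.ci, Lt.ai] (hat (rf_12 hy) 10 rfl) h
theorem dp_ci_41_s (hy : Hy g H)
    (j u : ℕ) (hu : u < M) (h : dp_ci_41 j u = true) : Gd g H Lt.ci u := by
  unfold dp_ci_41 at h
  rcases brec_true h with h | h
  · exact lF_good (T := T) (x := Lt.ci) hM0 [Lt.b, Lt.c, Lt.c, Lt.b, Lt.ai, Lt.b, Lt.a, Lt.a, Lt.b, Lt.a, Lt.b, Lt.ai, Lt.b, Lt.ci] (hat (rf_9 hy) 9 rfl) h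
  · exact dp_ci_40_s hy j u hu h
theorem dp_ci_42_s (hy : Hy g H)
    (j u : ℕ) (hu : u < M) (h : dp_ci_42 j u = true) : Gd g H Lt.ci u := by
  unfold dp_ci_42 at h
  rcases brec_true h with h | h
  · exact dp_ci_39_s hy j u hu h
  · exact dp_ci_41_s hy j u hu h
theorem dp_ci_43_s (hy : Hy g H)
    (j u : ℕ) (hu : u < M) (h : dp_ci_43 j u = true) : Gd g H Lt.ci u := by
  unfold dp_ci_43 at h
  rcases brec_true h with h | h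
  · exact dp_ci_38_s hy j u hu h
  · exact dp_ci_42_s hy j u hu h
theorem dp_ci_44_s (hy : Hy g H)
    (j u : ℕ) (hu : u < M) (h : dp_ci_44 j u = true) : Gd g H Lt.ci u := by
  unfold dp_ci_44 at h
  rcases brec_true h with h | h
  · exact lF_good (T := T) (x := Lt.ci) hM0 [Lt.d, Lt.b, Lt.d, Lt.b, Lt.d, Lt.b, Lt.c, Lt.ai, Lt.ci, Lt.ai, Lt.ci] (hat (rb_5 hy) 7 rfl) h
  · exact lF_good (T := T) (x := Lt.ci) hM0 [Lt.ai, Lt.d, Lt.a, Lt.c, Lt.d, Lt.ci, Lt.ai, Lt.d, Lt.a, Lt.c, Lt.d] (hat (rf_3 hy) 4 rfl) h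
theorem dp_ci_45_s (hy : Hy g H)
    (j u : ℕ) (hu : u < M) (h : dp_ci_45 j u = true) : Gd g H Lt.ci u := by
  unfold dp_ci_45 at h
  rcases brec_true h with h | h
  · exact lF_good (T := T) (x := Lt.ci) hM0 [Lt.b, Lt.ci, Lt.b, Lt.c, Lt.b, Lt.ai, Lt.b, Lt.a, Lt.b, Lt.a, Lt.b, Lt.ai, Lt.ai] (hat (rb_7 hy) 1 rfl) h
  · exact dp_ci_44_s hy j u hu h
theorem dp_ci_46_s (hy : Hy g H)
    (j u : ℕ) (hu : u < M) (h : dp_ci_46 j u = true) : Gd g H Lt.ci u := by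
  unfold dp_ci_46 at h
  rcases brec_true h with h | h
  · exact lF_good (T := T) (x := Lt.ci) hM0 [Lt.d, Lt.c, Lt.c, Lt.a, Lt.ci, Lt.d, Lt.c, Lt.ai, Lt.ci] (hat (rf_2 hy) 5 rfl) h
  · exact lF_good (T := T) (x := Lt.ci) hM0 [Lt.a, Lt.b, Lt.ai, Lt.ai, Lt.ci, Lt.d, Lt.a, Lt.a, Lt.d, Lt.b, Lt.d, Lt.ai, Lt.ai, Lt.d, Lt.c, Lt.ai] (hat (rb_15 hy) 3 rfl) h
theorem dp_ci_47_s (hy : Hy g H)
    (j u : ℕ) (hu : u < M) (h : dp_ci_47 j u = true) : Gd g H Lt.ci u := by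
  unfold dp_ci_47 at h
  rcases brec_true h with h | h
  · exact lF_good (T := T) (x := Lt.ci) hM0 [Lt.a, Lt.ci, Lt.b, Lt.d, Lt.b, Lt.c, Lt.ai, Lt.c, Lt.c, Lt.d, Lt.ci] (hat (rf_4 hy) 8 rfl) h
  · exact lS_good (T := T) (x := Lt.ci) hM0 hu [Lt.b, Lt.c, Lt.b, Lt.c, Lt.ai, Lt.ai, Lt.ai, Lt.b, Lt.a, Lt.b, Lt.a, Lt.b, Lt.ai, Lt.b, Lt.a, Lt.a] (hat (rb_17 hy) 10 rfl) h
theorem dp_ci_48_s (hy : Hy g H)
    (j u : ℕ) (hu : u < M) (h : dp_ci_48 j u = true) : Gd g H Lt.ci u := by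
  unfold dp_ci_48 at h
  rcases brec_true h with h | h
  · exact lS_good (T := T) (x := Lt.ci) hM0 hu [Lt.b, Lt.ci, Lt.b, Lt.c, Lt.ai, Lt.ai, Lt.b, Lt.a, Lt.b, Lt.ai, Lt.b, Lt.ai, Lt.b, Lt.a, Lt.a, Lt.a] (hat (rf_17 hy) 4 rfl) h
  · exact dp_ci_47_s hy j u hu h
theorem dp_ci_49_s (hy : Hy g H)
    (j u : ℕ) (hu : u < M) (h : dp_ci_49 j u = true) : Gd g H Lt.ci u := by
  unfold dp_ci_49 at h
  rcases brec_true h with h | h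
  · exact dp_ci_46_s hy j u hu h
  · exact dp_ci_48_s hy j u hu h
theorem dp_ci_50_s (hy : Hy g H)
    (j u : ℕ) (hu : u < M) (h : dp_ci_50 j u = true) : Gd g H Lt.ci u := by
  unfold dp_ci_50 at h
  rcases brec_true h with h | h
  · exact dp_ci_45_s hy j u hu h
  · exact dp_ci_49_s hy j u hu h
theorem dp_ci_51_s (hy : Hy g H)
    (j u : ℕ) (hu : u < M) (h : dp_ci_51 j u = true) : Gd g H Lt.ci u := by
  unfold dp_ci_51 at h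
  rcases brec_true h with h | h
  · exact lF_good (T := T) (x := Lt.ci) hM0 [Lt.b, Lt.c, Lt.a, Lt.b, Lt.a, Lt.a, Lt.a, Lt.a, Lt.b, Lt.a, Lt.b, Lt.ai, Lt.ci, Lt.b] (hat (rf_8 hy) 11 rfl) h
  · exact lF_good (T := T) (x := Lt.ci) hM0 [Lt.b, Lt.ci, Lt.ci, Lt.b, Lt.c, Lt.ai, Lt.ai, Lt.b, Lt.a, Lt.a, Lt.a, Lt.a, Lt.a, Lt.a, Lt.a, Lt.a] (hat (rf_18 hy) 9 rfl) h
theorem dp_ci_52_s (hy : Hy g H)
    (j u : ℕ) (hu : u < M) (h : dp_ci_52 j u = true) : Gd g H Lt.ci u := by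
  unfold dp_ci_52 at h
  rcases brec_true h with h | h
  · exact lS_good (T := T) (x := Lt.ci) hM0 hu [Lt.d, Lt.a, Lt.a, Lt.d, Lt.b, Lt.d, Lt.ai, Lt.ai, Lt.d, Lt.c, Lt.a, Lt.a, Lt.b, Lt.ai, Lt.c, Lt.a] (hat (rf_15 hy) 0 rfl) h
  · exact lF_good (T := T) (x := Lt.ci) hM0 [Lt.b, Lt.c, Lt.ai, Lt.ci, Lt.d, Lt.a, Lt.ci, Lt.b, Lt.c, Lt.ai, Lt.d, Lt.ci, Lt.a] (hat (rb_6 hy) 3 rfl) h
theorem dp_ci_53_s (hy : Hy g H)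
    (j u : ℕ) (hu : u < M) (h : dp_ci_53 j u = true) : Gd g H Lt.ci u := by
  unfold dp_ci_53 at h
  rcases brec_true h with h | h
  · exact lS_good (T := T) (x := Lt.ci) hM0 hu [Lt.b, Lt.c, Lt.c, Lt.b, Lt.c, Lt.ai, Lt.ai, Lt.ai, Lt.ai, Lt.ai, Lt.ai, Lt.ai, Lt.ai, Lt.b, Lt.a, Lt.a] (hat (rb_18 hy) 4 rfl) h
  · exact dp_ci_52_s hy j u hu h
theorem dp_ci_54_s (hy : Hy g H)
    (j u : ℕ) (hu : u < M) (h : dp_ci_54 j u = true) : Gd g H Lt.ci u := by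
  unfold dp_ci_54 at h
  rcases brec_true h with h | h
  · exact dp_ci_51_s hy j u hu h
  · exact dp_ci_53_s hy j u hu h
theorem dp_ci_55_s (hy : Hy g H)
    (j u : ℕ) (hu : u < M) (h : dp_ci_55 j u = true) : Gd g H Lt.ci u := by
  unfold dp_ci_55 at h
  rcases brec_true h with h | h
  · exact lS_good (T := T) (x := Lt.ci) hM0 hu [Lt.b, Lt.ai, Lt.b, Lt.a, Lt.b, Lt.a, Lt.a, Lt.b, Lt.ai, Lt.c, Lt.c, Lt.a, Lt.ci, Lt.ai, Lt.ci] (hat (rf_12 hy) 11 rfl) h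
  · exact lS_good (T := T) (x := Lt.ci) hM0 hu [Lt.b, Lt.ci, Lt.ci, Lt.b, Lt.c, Lt.ai, Lt.ai, Lt.b, Lt.a, Lt.a, Lt.a, Lt.a, Lt.a, Lt.a, Lt.a, Lt.a] (hat (rf_18 hy) 9 rfl) h
theorem dp_ci_56_s (hy : Hy g H)
    (j u : ℕ) (hu : u < M) (h : dp_ci_56 j u = true) : Gd g H Lt.ci u := by
  unfold dp_ci_56 at h
  rcases brec_true h with h | h
  · exact lF_good (T := T) (x := Lt.ci) hM0 [Lt.b, Lt.c, Lt.ai, Lt.c, Lt.d, Lt.a, Lt.ci, Lt.b, Lt.c, Lt.ai, Lt.d, Lt.c, Lt.a] (hat (rf_6 hy) 10 rfl) h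
  · exact dp_ci_55_s hy j u hu h
theorem dp_ci_57_s (hy : Hy g H)
    (j u : ℕ) (hu : u < M) (h : dp_ci_57 j u = true) : Gd g H Lt.ci u := by
  unfold dp_ci_57 at h
  rcases brec_true h with h | h
  · exact lF_good (T := T) (x := Lt.ci) hM0 [Lt.b, Lt.c, Lt.ai, Lt.d, Lt.ci, Lt.a, Lt.ci, Lt.b, Lt.c, Lt.ai, Lt.ci, Lt.d, Lt.a] (hat (rb_6 hy) 10 rfl) h
  · exact lF_good (T := T) (x := Lt.ci) hM0 [Lt.b, Lt.c, Lt.ai, Lt.b, Lt.c, Lt.ai, Lt.ai, Lt.ai, Lt.b, Lt.a, Lt.a, Lt.a, Lt.ci, Lt.b, Lt.a] (hat (rf_13 hy) 7 rfl) h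
theorem dp_ci_58_s (hy : Hy g H)
    (j u : ℕ) (hu : u < M) (h : dp_ci_58 j u = true) : Gd g H Lt.ci u := by
  unfold dp_ci_58 at h
  rcases brec_true h with h | h
  · exact lS_good (T := T) (x := Lt.ci) hM0 hu [Lt.ci, Lt.b, Lt.c, Lt.ai, Lt.ai, Lt.b, Lt.a, Lt.a, Lt.a, Lt.a, Lt.a, Lt.a, Lt.a, Lt.a, Lt.ci, Lt.b] (hat (rf_18 hy) 11 rfl) h
  · exact dp_ci_57_s hy j u hu h
theorem dp_ci_59_s (hy : Hy g H)
    (j u : ℕ) (hu : u < M) (h : dp_ci_59 j u = true) : Gd g H Lt.ci u := by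
  unfold dp_ci_59 at h
  rcases brec_true h with h | h
  · exact dp_ci_56_s hy j u hu h
  · exact dp_ci_58_s hy j u hu h
theorem dp_ci_60_s (hy : Hy g H)
    (j u : ℕ) (hu : u < M) (h : dp_ci_60 j u = true) : Gd g H Lt.ci u := by
  unfold dp_ci_60 at h
  rcases brec_true h with h | h
  · exact dp_ci_54_s hy j u hu h
  · exact dp_ci_59_s hy j u hu h
theorem dp_ci_61_s (hy : Hy g H)
    (j u : ℕ) (hu : u < M) (h : dp_ci_61 j u = true) : Gd g H Lt.ci u := by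
  unfold dp_ci_61 at h
  rcases brec_true h with h | h
  · exact dp_ci_50_s hy j u hu h
  · exact dp_ci_60_s hy j u hu h
theorem dp_ci_62_s (hy : Hy g H)
    (j u : ℕ) (hu : u < M) (h : dp_ci_62 j u = true) : Gd g H Lt.ci u := by
  unfold dp_ci_62 at h
  rcases brec_true h with h | h
  · exact dp_ci_43_s hy j u hu h
  · exact dp_ci_61_s hy j u hu h
theorem dp_ci_63_s (hy : Hy g H)
    (j u : ℕ) (hu : u < M) (h : dp_ci_63 j u = true) : Gd g H Lt.ci u := by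
  unfold dp_ci_63 at h
  rcases brec_true h with h | h
  · exact dp_ci_34_s hy j u hu h
  · exact dp_ci_62_s hy j u hu h
theorem dp_ci_64_s (hy : Hy g H)
    (j u : ℕ) (hu : u < M) (h : dp_ci_64 j u = true) : Gd g H Lt.ci u := by
  unfold dp_ci_64 at h
  rcases brec_true h with h | h
  · exact dp_ci_22_s hy j u hu h
  · exact dp_ci_63_s hy j u hu h
theorem dp_ci_65_s (hy : Hy g H)
    (j u : ℕ) (hu : u < M) (h : dp_ci_65 j u = true) : Gd g H Lt.ci u := by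
  unfold dp_ci_65 at h
  rcases brec_true h with h | h
  · exact dp_ci_13_s hy j u hu h
  · exact dp_ci_64_s hy j u hu h
theorem dp_ci_66_s (hy : Hy g H)
    (j u : ℕ) (hu : u < M) (h : dp_ci_66 j u = true) : Gd g H Lt.ci u := by
  unfold dp_ci_66 at h
  rcases brec_true h with h | h
  · exact dp_ci_5_s hy j u hu h
  · exact dp_ci_65_s hy j u hu h
theorem dp_ci_67_s (hy : Hy g H)
    (j u : ℕ) (hu : u < M) (h : dp_ci_67 j u = true) : Gd g H Lt.ci u := by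
  unfold dp_ci_67 at h
  rcases brec_true h with h | h
  · exact dp_ci_0_s hy j u hu h
  · exact dp_ci_66_s hy j u hu h
theorem dp_ci_68_s (hy : Hy g H)
    (j u : ℕ) (hu : u < M) (h : dp_ci_68 j u = true) : Gd g H Lt.ci u := by
  unfold dp_ci_68 at h
  rcases brec_true h with h | h
  · exact lS_good (T := T) (x := Lt.ci) hM0 hu [Lt.c] (hat (rf_24 hy) 0 rfl) h
  · exact dp_ci_67_s hy j u hu h
theorem snd_ci (hy : Hy g H)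
    (j u : ℕ) (hu : u < M) (h : disp_ci j u = true) : Gd g H Lt.ci u := by
  unfold disp_ci at h
  rcases brec_true h with h | h
  · exact lPar_good (T := T) (x := Lt.ci) (x' := Lt.c) (by decide) rfl (ivt hy _ _ rfl) h
  · rcases brec_true h with h | h
    · exact lDef_good (T := T) (x := Lt.ci) (by decide) rfl h
    · exact dp_ci_68_s hy j u hu h
theorem snc_ci (hy : Hy g H)
    (j u : ℕ) (hu : u < M) (h : chk_ci j u = true) : (T Lt.ci u < A ∧ Gd g H Lt.ci u) ∨ (A ≤ T Lt.ci u ∧ MG u < A) := by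
  unfold chk_ci at h
  cases hb : Nat.ble A (T_ci u) with
  | true => rw [hb] at h; exact Or.inr ⟨le_of_ble hb, le_of_ble h⟩
  | false => rw [hb] at h; exact Or.inl ⟨lt_of_ble_false hb, snd_ci hy j u hu h⟩
theorem dp_d_0_s (hy : Hy g H)
    (j u : ℕ) (hu : u < M) (h : dp_d_0 j u = true) : Gd g H Lt.d u := by
  unfold dp_d_0 at h
  rcases brec_true h with h | h
  · exact lF1_good (T := T) (x := Lt.d) hM0 .d (hat (rf_1 hy) 0 rfl) h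
  · exact lS_good (T := T) (x := Lt.d) hM0 hu [Lt.b, Lt.d, Lt.c, Lt.c, Lt.a, Lt.c, Lt.a, Lt.ci, Lt.b, Lt.d, Lt.b] (hat (rf_5 hy) 3 rfl) h
theorem dp_d_1_s (hy : Hy g H)
    (j u : ℕ) (hu : u < M) (h : dp_d_1 j u = true) : Gd g H Lt.d u := by
  unfold dp_d_1 at h
  rcases brec_true h with h | h
  · exact lS_good (T := T) (x := Lt.d) hM0 hu [Lt.c, Lt.c, Lt.a, Lt.ci, Lt.d, Lt.c, Lt.ai, Lt.ci, Lt.ci] (hat (rf_2 hy) 6 rfl) h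
  · exact lS_good (T := T) (x := Lt.d) hM0 hu [Lt.b, Lt.d, Lt.b, Lt.c, Lt.ai, Lt.ci, Lt.ai, Lt.ci, Lt.ci, Lt.d, Lt.b] (hat (rb_5 hy) 10 rfl) h
theorem dp_d_2_s (hy : Hy g H)
    (j u : ℕ) (hu : u < M) (h : dp_d_2 j u = true) : Gd g H Lt.d u := by
  unfold dp_d_2 at h
  rcases brec_true h with h | h
  · exact lS_good (T := T) (x := Lt.d) hM0 hu [Lt.a, Lt.c, Lt.d, Lt.ci, Lt.ai, Lt.d, Lt.a, Lt.c, Lt.d, Lt.ci, Lt.ai] (hat (rf_3 hy) 0 rfl) h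
  · exact lS_good (T := T) (x := Lt.d) hM0 hu [Lt.ci, Lt.ci, Lt.a, Lt.ci, Lt.b, Lt.d, Lt.b, Lt.c, Lt.ai, Lt.c, Lt.c] (hat (rf_4 hy) 6 rfl) h
theorem dp_d_3_s (hy : Hy g H)
    (j u : ℕ) (hu : u < M) (h : dp_d_3 j u = true) : Gd g H Lt.d u := by
  unfold dp_d_3 at h
  rcases brec_true h with h | h
  · exact lS_good (T := T) (x := Lt.d) hM0 hu [Lt.c, Lt.ai, Lt.ci, Lt.ci, Lt.d, Lt.c, Lt.c, Lt.a, Lt.ci] (hat (rf_2 hy) 1 rfl) h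
  · exact dp_d_2_s hy j u hu h
theorem dp_d_4_s (hy : Hy g H)
    (j u : ℕ) (hu : u < M) (h : dp_d_4 j u = true) : Gd g H Lt.d u := by
  unfold dp_d_4 at h
  rcases brec_true h with h | h
  · exact dp_d_1_s hy j u hu h
  · exact dp_d_3_s hy j u hu h
theorem dp_d_5_s (hy : Hy g H)
    (j u : ℕ) (hu : u < M) (h : dp_d_5 j u = true) : Gd g H Lt.d u := by
  unfold dp_d_5 at h
  rcases brec_true h with h | h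
  · exact lS_good (T := T) (x := Lt.d) hM0 hu [Lt.b, Lt.c, Lt.ai, Lt.ci, Lt.ai, Lt.ci, Lt.ci, Lt.d, Lt.b, Lt.d, Lt.b] (hat (rb_5 hy) 0 rfl) h
  · exact lS_good (T := T) (x := Lt.d) hM0 hu [Lt.ci, Lt.ai, Lt.d, Lt.a, Lt.c, Lt.d, Lt.ci, Lt.ai, Lt.d, Lt.a, Lt.c] (hat (rf_3 hy) 3 rfl) h
theorem dp_d_6_s (hy : Hy g H)
    (j u : ℕ) (hu : u < M) (h : dp_d_6 j u = true) : Gd g H Lt.d u := by
  unfold dp_d_6 at h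
  rcases brec_true h with h | h
  · exact lS_good (T := T) (x := Lt.d) hM0 hu [Lt.b, Lt.d, Lt.b, Lt.d, Lt.c, Lt.c, Lt.a, Lt.c, Lt.a, Lt.ci, Lt.b] (hat (rf_5 hy) 1 rfl) h
  · exact lS_good (T := T) (x := Lt.d) hM0 hu [Lt.c, Lt.c, Lt.a, Lt.c, Lt.a, Lt.ci, Lt.b, Lt.d, Lt.b, Lt.d, Lt.b] (hat (rf_5 hy) 5 rfl) h
theorem dp_d_7_s (hy : Hy g H)
    (j u : ℕ) (hu : u < M) (h : dp_d_7 j u = true) : Gd g H Lt.d u := by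
  unfold dp_d_7 at h
  rcases brec_true h with h | h
  · exact dp_d_5_s hy j u hu h
  · exact dp_d_6_s hy j u hu h
theorem dp_d_8_s (hy : Hy g H)
    (j u : ℕ) (hu : u < M) (h : dp_d_8 j u = true) : Gd g H Lt.d u := by
  unfold dp_d_8 at h
  rcases brec_true h with h | h
  · exact lS_good (T := T) (x := Lt.d) hM0 hu [Lt.ai, Lt.ai, Lt.d, Lt.c, Lt.a, Lt.a, Lt.b, Lt.ai, Lt.c, Lt.a, Lt.ci, Lt.d, Lt.a, Lt.a, Lt.d, Lt.b] (hat (rf_15 hy) 6 rfl) h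
  · exact lF_good (T := T) (x := Lt.d) hM0 [Lt.b, Lt.d, Lt.c, Lt.c, Lt.a, Lt.c, Lt.a, Lt.ci, Lt.b, Lt.d, Lt.b] (hat (rf_5 hy) 3 rfl) h
theorem dp_d_9_s (hy : Hy g H)
    (j u : ℕ) (hu : u < M) (h : dp_d_9 j u = true) : Gd g H Lt.d u := by
  unfold dp_d_9 at h
  rcases brec_true h with h | h
  · exact lS_good (T := T) (x := Lt.d) hM0 hu [Lt.b, Lt.c, Lt.ai, Lt.c, Lt.c, Lt.d, Lt.ci, Lt.ci, Lt.a, Lt.ci, Lt.b] (hat (rf_4 hy) 0 rfl) h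
  · exact dp_d_8_s hy j u hu h
theorem dp_d_10_s (hy : Hy g H)
    (j u : ℕ) (hu : u < M) (h : dp_d_10 j u = true) : Gd g H Lt.d u := by
  unfold dp_d_10 at h
  rcases brec_true h with h | h
  · exact lS_good (T := T) (x := Lt.d) hM0 hu [Lt.b, Lt.d, Lt.b, Lt.d, Lt.b, Lt.c, Lt.ai, Lt.ci, Lt.ai, Lt.ci, Lt.ci] (hat (rb_5 hy) 8 rfl) h
  · exact dp_d_9_s hy j u hu h
theorem dp_d_11_s (hy : Hy g H)
    (j u : ℕ) (hu : u < M) (h : dp_d_11 j u = true) : Gd g H Lt.d u := by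
  unfold dp_d_11 at h
  rcases brec_true h with h | h
  · exact lF_good (T := T) (x := Lt.d) hM0 [Lt.ci, Lt.ci, Lt.a, Lt.ci, Lt.b, Lt.d, Lt.b, Lt.c, Lt.ai, Lt.c, Lt.c] (hat (rf_4 hy) 6 rfl) h
  · exact lS_good (T := T) (x := Lt.d) hM0 hu [Lt.b, Lt.d, Lt.ai, Lt.ai, Lt.d, Lt.c, Lt.a, Lt.a, Lt.b, Lt.ai, Lt.c, Lt.a, Lt.ci, Lt.d, Lt.a, Lt.a] (hat (rf_15 hy) 4 rfl) h
theorem dp_d_12_s (hy : Hy g H)
    (j u : ℕ) (hu : u < M) (h : dp_d_12 j u = true) : Gd g H Lt.d u := by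
  unfold dp_d_12 at h
  rcases brec_true h with h | h
  · exact lF_good (T := T) (x := Lt.d) hM0 [Lt.b, Lt.d, Lt.b, Lt.c, Lt.ai, Lt.ci, Lt.ai, Lt.ci, Lt.ci, Lt.d, Lt.b] (hat (rb_5 hy) 10 rfl) h
  · exact lF_good (T := T) (x := Lt.d) hM0 [Lt.b, Lt.c, Lt.ai, Lt.ci, Lt.ai, Lt.ci, Lt.ci, Lt.d, Lt.b, Lt.d, Lt.b] (hat (rb_5 hy) 0 rfl) h
theorem dp_d_13_s (hy : Hy g H)
    (j u : ℕ) (hu : u < M) (h : dp_d_13 j u = true) : Gd g H Lt.d u := by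
  unfold dp_d_13 at h
  rcases brec_true h with h | h
  · exact lS_good (T := T) (x := Lt.d) hM0 hu [Lt.c, Lt.a, Lt.a, Lt.b, Lt.ai, Lt.c, Lt.a, Lt.ci, Lt.d, Lt.a, Lt.a, Lt.d, Lt.b, Lt.d, Lt.ai, Lt.ai] (hat (rf_15 hy) 9 rfl) h
  · exact dp_d_12_s hy j u hu h
theorem dp_d_14_s (hy : Hy g H)
    (j u : ℕ) (hu : u < M) (h : dp_d_14 j u = true) : Gd g H Lt.d u := by
  unfold dp_d_14 at h
  rcases brec_true h with h | h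
  · exact dp_d_11_s hy j u hu h
  · exact dp_d_13_s hy j u hu h
theorem dp_d_15_s (hy : Hy g H)
    (j u : ℕ) (hu : u < M) (h : dp_d_15 j u = true) : Gd g H Lt.d u := by
  unfold dp_d_15 at h
  rcases brec_true h with h | h
  · exact lS_good (T := T) (x := Lt.d) hM0 hu [Lt.a, Lt.a, Lt.d, Lt.b, Lt.d, Lt.ai, Lt.ai, Lt.d, Lt.c, Lt.a, Lt.a, Lt.b, Lt.ai, Lt.c, Lt.a, Lt.ci] (hat (rf_15 hy) 1 rfl) h
  · exact lS_good (T := T) (x := Lt.d) hM0 hu [Lt.ai, Lt.ai, Lt.d, Lt.c, Lt.ai, Lt.ci, Lt.a, Lt.b, Lt.ai, Lt.ai, Lt.ci, Lt.d, Lt.a, Lt.a, Lt.d, Lt.b] (hat (rb_15 hy) 14 rfl) h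
theorem dp_d_16_s (hy : Hy g H)
    (j u : ℕ) (hu : u < M) (h : dp_d_16 j u = true) : Gd g H Lt.d u := by
  unfold dp_d_16 at h
  rcases brec_true h with h | h
  · exact lF_good (T := T) (x := Lt.d) hM0 [Lt.c, Lt.ai, Lt.ci, Lt.ci, Lt.d, Lt.c, Lt.c, Lt.a, Lt.ci] (hat (rf_2 hy) 1 rfl) h
  · exact lS_good (T := T) (x := Lt.d) hM0 hu [Lt.b, Lt.d, Lt.ai, Lt.ai, Lt.d, Lt.c, Lt.ai, Lt.ci, Lt.a, Lt.b, Lt.ai, Lt.ai, Lt.ci, Lt.d, Lt.a, Lt.a] (hat (rb_15 hy) 12 rfl) h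
theorem dp_d_17_s (hy : Hy g H)
    (j u : ℕ) (hu : u < M) (h : dp_d_17 j u = true) : Gd g H Lt.d u := by
  unfold dp_d_17 at h
  rcases brec_true h with h | h
  · exact dp_d_15_s hy j u hu h
  · exact dp_d_16_s hy j u hu h
theorem dp_d_18_s (hy : Hy g H)
    (j u : ℕ) (hu : u < M) (h : dp_d_18 j u = true) : Gd g H Lt.d u := by
  unfold dp_d_18 at h
  rcases brec_true h with h | h
  · exact lF_good (T := T) (x := Lt.d) hM0 [Lt.a, Lt.c, Lt.d, Lt.ci, Lt.ai, Lt.d, Lt.a, Lt.c, Lt.d, Lt.ci, Lt.ai] (hat (rf_3 hy) 0 rfl) h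
  · exact lF_good (T := T) (x := Lt.d) hM0 [Lt.b, Lt.d, Lt.b, Lt.d, Lt.c, Lt.c, Lt.a, Lt.c, Lt.a, Lt.ci, Lt.b] (hat (rf_5 hy) 1 rfl) h
theorem dp_d_19_s (hy : Hy g H)
    (j u : ℕ) (hu : u < M) (h : dp_d_19 j u = true) : Gd g H Lt.d u := by
  unfold dp_d_19 at h
  rcases brec_true h with h | h
  · exact lF_good (T := T) (x := Lt.d) hM0 [Lt.c, Lt.c, Lt.a, Lt.ci, Lt.d, Lt.c, Lt.ai, Lt.ci, Lt.ci] (hat (rf_2 hy) 6 rfl) h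
  · exact dp_d_18_s hy j u hu h
theorem dp_d_20_s (hy : Hy g H)
    (j u : ℕ) (hu : u < M) (h : dp_d_20 j u = true) : Gd g H Lt.d u := by
  unfold dp_d_20 at h
  rcases brec_true h with h | h
  · exact lF_good (T := T) (x := Lt.d) hM0 [Lt.b, Lt.c, Lt.ai, Lt.c, Lt.c, Lt.d, Lt.ci, Lt.ci, Lt.a, Lt.ci, Lt.b] (hat (rf_4 hy) 0 rfl) h
  · exact lS_good (T := T) (x := Lt.d) hM0 hu [Lt.a, Lt.ci, Lt.b, Lt.c, Lt.ai, Lt.d, Lt.ci, Lt.a, Lt.ci, Lt.b, Lt.c, Lt.ai, Lt.ci] (hat (rb_6 hy) 8 rfl) h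
theorem dp_d_21_s (hy : Hy g H)
    (j u : ℕ) (hu : u < M) (h : dp_d_21 j u = true) : Gd g H Lt.d u := by
  unfold dp_d_21 at h
  rcases brec_true h with h | h
  · exact lS_good (T := T) (x := Lt.d) hM0 hu [Lt.c, Lt.ai, Lt.ci, Lt.a, Lt.b, Lt.ai, Lt.ai, Lt.ci, Lt.d, Lt.a, Lt.a, Lt.d, Lt.b, Lt.d, Lt.ai, Lt.ai] (hat (rb_15 hy) 0 rfl) h
  · exact lS_good (T := T) (x := Lt.d) hM0 hu [Lt.ci, Lt.a, Lt.ci, Lt.b, Lt.c, Lt.ai, Lt.ci, Lt.d, Lt.a, Lt.ci, Lt.b, Lt.c, Lt.ai] (hat (rb_6 hy) 0 rfl) h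
theorem dp_d_22_s (hy : Hy g H)
    (j u : ℕ) (hu : u < M) (h : dp_d_22 j u = true) : Gd g H Lt.d u := by
  unfold dp_d_22 at h
  rcases brec_true h with h | h
  · exact dp_d_20_s hy j u hu h
  · exact dp_d_21_s hy j u hu h
theorem dp_d_23_s (hy : Hy g H)
    (j u : ℕ) (hu : u < M) (h : dp_d_23 j u = true) : Gd g H Lt.d u := by
  unfold dp_d_23 at h
  rcases brec_true h with h | h
  · exact dp_d_19_s hy j u hu h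
  · exact dp_d_22_s hy j u hu h
theorem dp_d_24_s (hy : Hy g H)
    (j u : ℕ) (hu : u < M) (h : dp_d_24 j u = true) : Gd g H Lt.d u := by
  unfold dp_d_24 at h
  rcases brec_true h with h | h
  · exact dp_d_17_s hy j u hu h
  · exact dp_d_23_s hy j u hu h
theorem dp_d_25_s (hy : Hy g H)
    (j u : ℕ) (hu : u < M) (h : dp_d_25 j u = true) : Gd g H Lt.d u := by
  unfold dp_d_25 at h
  rcases brec_true h with h | h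
  · exact dp_d_14_s hy j u hu h
  · exact dp_d_24_s hy j u hu h
theorem dp_d_26_s (hy : Hy g H)
    (j u : ℕ) (hu : u < M) (h : dp_d_26 j u = true) : Gd g H Lt.d u := by
  unfold dp_d_26 at h
  rcases brec_true h with h | h
  · exact dp_d_10_s hy j u hu h
  · exact dp_d_25_s hy j u hu h
theorem dp_d_27_s (hy : Hy g H)
    (j u : ℕ) (hu : u < M) (h : dp_d_27 j u = true) : Gd g H Lt.d u := by
  unfold dp_d_27 at h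
  rcases brec_true h with h | h
  · exact dp_d_7_s hy j u hu h
  · exact dp_d_26_s hy j u hu h
theorem dp_d_28_s (hy : Hy g H)
    (j u : ℕ) (hu : u < M) (h : dp_d_28 j u = true) : Gd g H Lt.d u := by
  unfold dp_d_28 at h
  rcases brec_true h with h | h
  · exact dp_d_4_s hy j u hu h
  · exact dp_d_27_s hy j u hu h
theorem dp_d_29_s (hy : Hy g H)
    (j u : ℕ) (hu : u < M) (h : dp_d_29 j u = true) : Gd g H Lt.d u := by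
  unfold dp_d_29 at h
  rcases brec_true h with h | h
  · exact dp_d_0_s hy j u hu h
  · exact dp_d_28_s hy j u hu h
theorem dp_d_30_s (hy : Hy g H)
    (j u : ℕ) (hu : u < M) (h : dp_d_30 j u = true) : Gd g H Lt.d u := by
  unfold dp_d_30 at h
  rcases brec_true h with h | h
  · exact lS_good (T := T) (x := Lt.d) hM0 hu [Lt.d] (hat (rf_1 hy) 0 rfl) h
  · exact dp_d_29_s hy j u hu h
theorem snd_d (hy : Hy g H)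
    (j u : ℕ) (hu : u < M) (h : disp_d j u = true) : Gd g H Lt.d u := by
  unfold disp_d at h
  rcases brec_true h with h | h
  · exact lDef_good (T := T) (x := Lt.d) (by decide) rfl h
  · rcases brec_true h with h | h
    · exact lPar_good (T := T) (x := Lt.d) (x' := Lt.d) (by decide) rfl (ivt hy _ _ rfl) h
    · exact dp_d_30_s hy j u hu h
theorem snc_d (hy : Hy g H)
    (j u : ℕ) (hu : u < M) (h : chk_d j u = true) : (T Lt.d u < A ∧ Gd g H Lt.d u) ∨ (A ≤ T Lt.d u ∧ MG u < A) := by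
  unfold chk_d at h
  cases hb : Nat.ble A (T_d u) with
  | true => rw [hb] at h; exact Or.inr ⟨le_of_ble hb, le_of_ble h⟩
  | false => rw [hb] at h; exact Or.inl ⟨lt_of_ble_false hb, snd_d hy j u hu h⟩
theorem dM_0_s (hy : Hy g H) (j z1 z2 u : ℕ) (h : dM_0 j z1 z2 u = true) : GdM g H u := by
  unfold dM_0 at h
  rcases brec_true h with h | h
  · exact mCo_good (T := T) (y := .c) hM0 h
  · rcases brec_true h with h | h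
    · exact mCo_good (T := T) (y := .b) hM0 h
    · exact mCo_good (T := T) (y := .ci) hM0 h
theorem dM_1_s (hy : Hy g H) (j z1 z2 u : ℕ) (h : dM_1 j z1 z2 u = true) : GdM g H u := by
  unfold dM_1 at h
  rcases brec_true h with h | h
  · exact mCo_good (T := T) (y := .a) hM0 h
  · exact mCo_good (T := T) (y := .ai) hM0 h
theorem dM_2_s (hy : Hy g H) (j z1 z2 u : ℕ) (h : dM_2 j z1 z2 u = true) : GdM g H u := by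
  unfold dM_2 at h
  exact mCo_good (T := T) (y := .d) hM0 h
theorem dM_3_s (hy : Hy g H) (j z1 z2 u : ℕ) (h : dM_3 j z1 z2 u = true) : GdM g H u := by
  unfold dM_3 at h
  rcases brec_true h with h | h
  · rcases brec_true h with h | h
    · exact mRel_good (T := T) hM0 [Lt.d, Lt.c, Lt.ai, Lt.ci, Lt.ci, Lt.d] [Lt.c, Lt.ai, Lt.ci, Lt.ci] (pat hy (rf_2 hy) 0 rfl) h
    · rcases brec_true h with h | h
      · exact mRel_good (T := T) hM0 [Lt.d, Lt.c, Lt.ai, Lt.ci, Lt.ci, Lt.d, Lt.c] [Lt.c, Lt.ai, Lt.ci] (pat hy (rf_2 hy) 0 rfl) h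
      · exact mRel_good (T := T) hM0 [Lt.d, Lt.c, Lt.c, Lt.a, Lt.ci, Lt.d] [Lt.c, Lt.c, Lt.a, Lt.ci] (pat hy (rf_2 hy) 5 rfl) h
  · rcases brec_true h with h | h
    · exact mRel_good (T := T) hM0 [Lt.d, Lt.c, Lt.c, Lt.a, Lt.ci, Lt.d, Lt.c] [Lt.c, Lt.c, Lt.a] (pat hy (rf_2 hy) 5 rfl) h
    · rcases brec_true h with h | h
      · exact mRel_good (T := T) hM0 [Lt.c, Lt.c, Lt.a, Lt.ci, Lt.d] [Lt.d, Lt.c, Lt.c, Lt.a, Lt.ci] (pat hy (rf_2 hy) 6 rfl) h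
      · exact mRel_good (T := T) hM0 [Lt.c, Lt.ai, Lt.ci, Lt.ci] [Lt.d, Lt.c, Lt.ai, Lt.ci, Lt.ci, Lt.d] (pat hy (rf_2 hy) 1 rfl) h
theorem dM_4_s (hy : Hy g H) (j z1 z2 u : ℕ) (h : dM_4 j z1 z2 u = true) : GdM g H u := by
  unfold dM_4 at h
  rcases brec_true h with h | h
  · rcases brec_true h with h | h
    · rcases brec_true h with h | h
      · exact mRel_good (T := T) hM0 [Lt.c, Lt.c, Lt.a, Lt.ci] [Lt.d, Lt.c, Lt.c, Lt.a, Lt.ci, Lt.d] (pat hy (rf_2 hy) 6 rfl) h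
      · exact mRel_good (T := T) hM0 [Lt.c, Lt.ai, Lt.ci, Lt.ci, Lt.d] [Lt.d, Lt.c, Lt.ai, Lt.ci, Lt.ci] (pat hy (rf_2 hy) 1 rfl) h
    · rcases brec_true h with h | h
      · exact mRel_good (T := T) hM0 [Lt.d, Lt.c, Lt.c, Lt.a, Lt.ci, Lt.d, Lt.c, Lt.ai] [Lt.c, Lt.c] (pat hy (rf_2 hy) 5 rfl) h
      · exact mRel_good (T := T) hM0 [Lt.d, Lt.c, Lt.ai, Lt.ci, Lt.ci, Lt.d, Lt.c, Lt.c] [Lt.c, Lt.ai] (pat hy (rf_2 hy) 0 rfl) h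
  · rcases brec_true h with h | h
    · rcases brec_true h with h | h
      · exact mRel_good (T := T) hM0 [Lt.c, Lt.ai] [Lt.d, Lt.c, Lt.ai, Lt.ci, Lt.ci, Lt.d, Lt.c, Lt.c] (pat hy (rf_2 hy) 1 rfl) h
      · rcases brec_true h with h | h
        · exact mRel_good (T := T) hM0 [Lt.d, Lt.b, Lt.c, Lt.ai, Lt.c, Lt.c, Lt.d] [Lt.b, Lt.c, Lt.ai, Lt.c, Lt.c] (pat hy (rf_4 hy) 11 rfl) h
        · exact mRel_good (T := T) hM0 [Lt.d, Lt.c, Lt.ai, Lt.ci, Lt.ci] [Lt.c, Lt.ai, Lt.ci, Lt.ci, Lt.d] (pat hy (rf_2 hy) 0 rfl) h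
    · rcases brec_true h with h | h
      · exact mRel_good (T := T) hM0 [Lt.ci, Lt.d, Lt.c, Lt.ai, Lt.ci, Lt.ci, Lt.d, Lt.c] [Lt.ai, Lt.ci] (pat hy (rf_2 hy) 9 rfl) h
      · rcases brec_true h with h | h
        · exact mRel_good (T := T) hM0 [Lt.c, Lt.c] [Lt.d, Lt.c, Lt.c, Lt.a, Lt.ci, Lt.d, Lt.c, Lt.ai] (pat hy (rf_2 hy) 6 rfl) h
        · exact mRel_good (T := T) hM0 [Lt.c, Lt.ai, Lt.ci, Lt.ci, Lt.d, Lt.c] [Lt.d, Lt.c, Lt.ai, Lt.ci] (pat hy (rf_2 hy) 1 rfl) h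
theorem dM_5_s (hy : Hy g H) (j z1 z2 u : ℕ) (h : dM_5 j z1 z2 u = true) : GdM g H u := by
  unfold dM_5 at h
  rcases brec_true h with h | h
  · exact dM_3_s hy j z1 z2 u h
  · exact dM_4_s hy j z1 z2 u h
theorem dM_6_s (hy : Hy g H) (j z1 z2 u : ℕ) (h : dM_6 j z1 z2 u = true) : GdM g H u := by
  unfold dM_6 at h
  rcases brec_true h with h | h
  · rcases brec_true h with h | h
    · exact mRel_good (T := T) hM0 [Lt.d, Lt.c, Lt.c, Lt.a, Lt.ci] [Lt.c, Lt.c, Lt.a, Lt.ci, Lt.d] (pat hy (rf_2 hy) 5 rfl) h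
    · rcases brec_true h with h | h
      · exact mRel_good (T := T) hM0 [Lt.c, Lt.ai, Lt.ci] [Lt.d, Lt.c, Lt.ai, Lt.ci, Lt.ci, Lt.d, Lt.c] (pat hy (rf_2 hy) 1 rfl) h
      · exact mRel_good (T := T) hM0 [Lt.a, Lt.ci, Lt.d, Lt.c, Lt.ai, Lt.ci, Lt.ci, Lt.d] [Lt.ci, Lt.ci] (pat hy (rf_2 hy) 8 rfl) h
  · rcases brec_true h with h | h
    · rcases brec_true h with h | h
      · exact mRel_good (T := T) hM0 [Lt.ai, Lt.ci, Lt.ci] [Lt.ci, Lt.d, Lt.c, Lt.ai, Lt.ci, Lt.ci, Lt.d] (pat hy (rf_2 hy) 2 rfl) h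
      · exact mRel_good (T := T) hM0 [Lt.c, Lt.a, Lt.ci, Lt.d] [Lt.ci, Lt.d, Lt.c, Lt.c, Lt.a, Lt.ci] (pat hy (rf_2 hy) 7 rfl) h
    · rcases brec_true h with h | h
      · exact mRel_good (T := T) hM0 [Lt.b, Lt.c, Lt.ai, Lt.c, Lt.c] [Lt.d, Lt.b, Lt.c, Lt.ai, Lt.c, Lt.c, Lt.d] (pat hy (rf_4 hy) 0 rfl) h
      · exact mRel_good (T := T) hM0 [Lt.b, Lt.c, Lt.ai, Lt.c, Lt.c, Lt.d] [Lt.d, Lt.b, Lt.c, Lt.ai, Lt.c, Lt.c] (pat hy (rf_4 hy) 0 rfl) h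
theorem dM_7_s (hy : Hy g H) (j z1 z2 u : ℕ) (h : dM_7 j z1 z2 u = true) : GdM g H u := by
  unfold dM_7 at h
  rcases brec_true h with h | h
  · rcases brec_true h with h | h
    · rcases brec_true h with h | h
      · exact mRel_good (T := T) hM0 [Lt.ci, Lt.d, Lt.c, Lt.ai, Lt.ci, Lt.ci, Lt.d] [Lt.ai, Lt.ci, Lt.ci] (pat hy (rf_2 hy) 9 rfl) h
      · exact mRel_good (T := T) hM0 [Lt.ci, Lt.ai, Lt.d, Lt.a, Lt.c, Lt.d, Lt.ci] [Lt.d, Lt.ci, Lt.ai, Lt.d, Lt.a] (pat hy (rf_3 hy) 3 rfl) h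
    · rcases brec_true h with h | h
      · exact mRel_good (T := T) hM0 [Lt.d, Lt.ci, Lt.ci, Lt.a, Lt.ci, Lt.b, Lt.d, Lt.b, Lt.c] [Lt.ci, Lt.ci, Lt.a] (pat hy (rf_4 hy) 5 rfl) h
      · exact mRel_good (T := T) hM0 [Lt.d, Lt.b, Lt.c, Lt.ai, Lt.c, Lt.c, Lt.d, Lt.ci] [Lt.b, Lt.c, Lt.ai, Lt.c] (pat hy (rf_4 hy) 11 rfl) h
  · rcases brec_true h with h | h
    · rcases brec_true h with h | h
      · exact mRel_good (T := T) hM0 [Lt.d, Lt.b, Lt.d, Lt.b] [Lt.b, Lt.c, Lt.ai, Lt.ci, Lt.ai, Lt.ci, Lt.ci, Lt.d] (pat hy (rf_5 hy) 0 rfl) h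
      · exact mRel_good (T := T) hM0 [Lt.ci, Lt.d, Lt.c, Lt.c, Lt.a, Lt.ci, Lt.d] [Lt.c, Lt.a, Lt.ci] (pat hy (rf_2 hy) 4 rfl) h
    · rcases brec_true h with h | h
      · exact mRel_good (T := T) hM0 [Lt.d, Lt.b, Lt.c, Lt.ai, Lt.c, Lt.c] [Lt.b, Lt.c, Lt.ai, Lt.c, Lt.c, Lt.d] (pat hy (rf_4 hy) 11 rfl) h
      · exact mRel_good (T := T) hM0 [Lt.a, Lt.d, Lt.b, Lt.d, Lt.ai] [Lt.ai, Lt.d, Lt.c, Lt.ai, Lt.ci, Lt.a, Lt.b, Lt.ai, Lt.ai, Lt.ci, Lt.d, Lt.a] (pat hy (rf_15 hy) 2 rfl) h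
theorem dM_8_s (hy : Hy g H) (j z1 z2 u : ℕ) (h : dM_8 j z1 z2 u = true) : GdM g H u := by
  unfold dM_8 at h
  rcases brec_true h with h | h
  · exact dM_6_s hy j z1 z2 u h
  · exact dM_7_s hy j z1 z2 u h
theorem dM_9_s (hy : Hy g H) (j z1 z2 u : ℕ) (h : dM_9 j z1 z2 u = true) : GdM g H u := by
  unfold dM_9 at h
  rcases brec_true h with h | h
  · rcases brec_true h with h | h
    · rcases brec_true h with h | h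
      · exact mRel_good (T := T) hM0 [Lt.c, Lt.a] [Lt.ci, Lt.d, Lt.c, Lt.c, Lt.a, Lt.ci, Lt.d, Lt.c] (pat hy (rf_2 hy) 7 rfl) h
      · exact mRel_good (T := T) hM0 [Lt.c, Lt.c, Lt.a] [Lt.d, Lt.c, Lt.c, Lt.a, Lt.ci, Lt.d, Lt.c] (pat hy (rf_2 hy) 6 rfl) h
    · rcases brec_true h with h | h
      · exact mRel_good (T := T) hM0 [Lt.d, Lt.b, Lt.c, Lt.ai, Lt.ci, Lt.ai, Lt.ci] [Lt.b, Lt.d, Lt.b, Lt.d, Lt.c] (pat hy (rb_5 hy) 11 rfl) h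
      · rcases brec_true h with h | h
        · exact mRel_good (T := T) hM0 [Lt.c, Lt.b, Lt.ai, Lt.b, Lt.a, Lt.b, Lt.a, Lt.b, Lt.ai, Lt.ai, Lt.ci, Lt.b] [Lt.b, Lt.c] (pat hy (rb_7 hy) 4 rfl) h
        · exact mRel_good (T := T) hM0 [Lt.d, Lt.ci, Lt.ci, Lt.a, Lt.ci, Lt.b, Lt.d] [Lt.ci, Lt.ci, Lt.a, Lt.ci, Lt.b] (pat hy (rf_4 hy) 5 rfl) h
  · rcases brec_true h with h | h
    · rcases brec_true h with h | h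
      · exact mRel_good (T := T) hM0 [Lt.c, Lt.a, Lt.ci] [Lt.ci, Lt.d, Lt.c, Lt.c, Lt.a, Lt.ci, Lt.d] (pat hy (rf_2 hy) 7 rfl) h
      · exact mRel_good (T := T) hM0 [Lt.ci, Lt.b, Lt.c, Lt.b, Lt.ai, Lt.b, Lt.a, Lt.b, Lt.a, Lt.b, Lt.ai, Lt.ai] [Lt.b, Lt.c] (pat hy (rb_7 hy) 2 rfl) h
    · rcases brec_true h with h | h
      · exact mRel_good (T := T) hM0 [Lt.c, Lt.b, Lt.ai, Lt.b, Lt.a, Lt.b, Lt.a, Lt.b, Lt.ai, Lt.ai, Lt.ci] [Lt.b, Lt.c, Lt.b] (pat hy (rb_7 hy) 4 rfl) h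
      · rcases brec_true h with h | h
        · exact mRel_good (T := T) hM0 [Lt.ai, Lt.d, Lt.a, Lt.c, Lt.d, Lt.ci] [Lt.c, Lt.d, Lt.ci, Lt.ai, Lt.d, Lt.a] (pat hy (rf_3 hy) 4 rfl) h
        · exact mRel_good (T := T) hM0 [Lt.ci, Lt.d, Lt.c, Lt.ai, Lt.ci, Lt.ci] [Lt.ai, Lt.ci, Lt.ci, Lt.d] (pat hy (rf_2 hy) 9 rfl) h
theorem dM_10_s (hy : Hy g H) (j z1 z2 u : ℕ) (h : dM_10 j z1 z2 u = true) : GdM g H u := by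
  unfold dM_10 at h
  rcases brec_true h with h | h
  · rcases brec_true h with h | h
    · rcases brec_true h with h | h
      · exact mRel_good (T := T) hM0 [Lt.ci, Lt.d, Lt.c, Lt.c, Lt.a, Lt.ci, Lt.d, Lt.c] [Lt.c, Lt.a] (pat hy (rf_2 hy) 4 rfl) h
      · rcases brec_true h with h | h
        · exact mRel_good (T := T) hM0 [Lt.d, Lt.a, Lt.c, Lt.d, Lt.ci, Lt.ai, Lt.d, Lt.a, Lt.c, Lt.d] [Lt.a, Lt.c] (pat hy (rf_3 hy) 5 rfl) h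
        · exact mRel_good (T := T) hM0 [Lt.b, Lt.ai, Lt.b, Lt.a, Lt.b, Lt.a, Lt.b, Lt.ai, Lt.ai, Lt.ci] [Lt.ci, Lt.b, Lt.c, Lt.b] (pat hy (rb_7 hy) 5 rfl) h
    · rcases brec_true h with h | h
      · exact mRel_good (T := T) hM0 [Lt.d, Lt.ci, Lt.ai, Lt.d, Lt.a, Lt.c, Lt.d, Lt.ci] [Lt.ci, Lt.ai, Lt.d, Lt.a] (pat hy (rf_3 hy) 2 rfl) h
      · rcases brec_true h with h | h
        · exact mRel_good (T := T) hM0 [Lt.ci, Lt.ci, Lt.a, Lt.ci, Lt.b, Lt.d] [Lt.d, Lt.ci, Lt.ci, Lt.a, Lt.ci, Lt.b] (pat hy (rf_4 hy) 6 rfl) h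
        · exact mRel_good (T := T) hM0 [Lt.ai, Lt.b, Lt.a, Lt.b, Lt.ci, Lt.b, Lt.c, Lt.b, Lt.c, Lt.a] [Lt.b, Lt.a, Lt.b, Lt.ai] (pat hy (rf_7 hy) 5 rfl) h
  · rcases brec_true h with h | h
    · rcases brec_true h with h | h
      · exact mRel_good (T := T) hM0 [Lt.ci, Lt.d, Lt.c, Lt.ai, Lt.ci, Lt.ci, Lt.d, Lt.c, Lt.c] [Lt.ai] (pat hy (rf_2 hy) 9 rfl) h
      · rcases brec_true h with h | h
        · exact mRel_good (T := T) hM0 [Lt.c, Lt.ai, Lt.c, Lt.c, Lt.d] [Lt.b, Lt.d, Lt.b, Lt.c, Lt.ai, Lt.c, Lt.c] (pat hy (rf_4 hy) 1 rfl) h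
        · exact mRel_good (T := T) hM0 [Lt.d, Lt.ci, Lt.ai, Lt.d, Lt.a, Lt.c, Lt.d, Lt.ci, Lt.ai, Lt.d] [Lt.ci, Lt.ai] (pat hy (rf_3 hy) 2 rfl) h
    · rcases brec_true h with h | h
      · exact mRel_good (T := T) hM0 [Lt.b, Lt.d, Lt.b, Lt.c, Lt.ai, Lt.c, Lt.c, Lt.d, Lt.ci, Lt.ci] [Lt.c, Lt.ai] (pat hy (rf_4 hy) 10 rfl) h
      · rcases brec_true h with h | h
        · exact mRel_good (T := T) hM0 [Lt.d, Lt.b, Lt.c, Lt.ai, Lt.ci, Lt.ai] [Lt.b, Lt.d, Lt.b, Lt.d, Lt.c, Lt.c] (pat hy (rb_5 hy) 11 rfl) h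
        · exact mRel_good (T := T) hM0 [Lt.b, Lt.d, Lt.b, Lt.d, Lt.c, Lt.c, Lt.a] [Lt.d, Lt.b, Lt.c, Lt.ai, Lt.ci] (pat hy (rf_5 hy) 1 rfl) h
theorem dM_11_s (hy : Hy g H) (j z1 z2 u : ℕ) (h : dM_11 j z1 z2 u = true) : GdM g H u := by
  unfold dM_11 at h
  rcases brec_true h with h | h
  · exact dM_9_s hy j z1 z2 u h
  · exact dM_10_s hy j z1 z2 u h
theorem dM_12_s (hy : Hy g H) (j z1 z2 u : ℕ) (h : dM_12 j z1 z2 u = true) : GdM g H u := by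
  unfold dM_12 at h
  rcases brec_true h with h | h
  · exact dM_8_s hy j z1 z2 u h
  · exact dM_11_s hy j z1 z2 u h
theorem dM_13_s (hy : Hy g H) (j z1 z2 u : ℕ) (h : dM_13 j z1 z2 u = true) : GdM g H u := by
  unfold dM_13 at h
  rcases brec_true h with h | h
  · exact dM_5_s hy j z1 z2 u h
  · exact dM_12_s hy j z1 z2 u h
theorem dM_14_s (hy : Hy g H) (j z1 z2 u : ℕ) (h : dM_14 j z1 z2 u = true) : GdM g H u := by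
  unfold dM_14 at h
  rcases brec_true h with h | h
  · exact dM_2_s hy j z1 z2 u h
  · exact dM_13_s hy j z1 z2 u h
theorem dM_15_s (hy : Hy g H) (j z1 z2 u : ℕ) (h : dM_15 j z1 z2 u = true) : GdM g H u := by
  unfold dM_15 at h
  rcases brec_true h with h | h
  · rcases brec_true h with h | h
    · rcases brec_true h with h | h
      · exact mRel_good (T := T) hM0 [Lt.a, Lt.ci, Lt.d] [Lt.ci, Lt.ci, Lt.d, Lt.c, Lt.c, Lt.a, Lt.ci] (pat hy (rf_2 hy) 8 rfl) h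
      · rcases brec_true h with h | h
        · exact mRel_good (T := T) hM0 [Lt.b, Lt.d, Lt.b, Lt.c, Lt.ai, Lt.c, Lt.c, Lt.d] [Lt.c, Lt.ai, Lt.c, Lt.c] (pat hy (rf_4 hy) 10 rfl) h
        · exact mRel_good (T := T) hM0 [Lt.ci, Lt.ai, Lt.d, Lt.a] [Lt.d, Lt.ci, Lt.ai, Lt.d, Lt.a, Lt.c, Lt.d, Lt.ci] (pat hy (rf_3 hy) 3 rfl) h
    · rcases brec_true h with h | h
      · exact mRel_good (T := T) hM0 [Lt.c, Lt.c, Lt.a, Lt.ci, Lt.d, Lt.c, Lt.ai] [Lt.d, Lt.c, Lt.c] (pat hy (rf_2 hy) 6 rfl) h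
      · rcases brec_true h with h | h
        · exact mRel_good (T := T) hM0 [Lt.ai, Lt.ci, Lt.ci, Lt.d, Lt.c, Lt.c, Lt.a, Lt.ci, Lt.d] [Lt.ci] (pat hy (rf_2 hy) 2 rfl) h
        · exact mRel_good (T := T) hM0 [Lt.b, Lt.d, Lt.b, Lt.d, Lt.b, Lt.c, Lt.ai, Lt.ci, Lt.ai] [Lt.d, Lt.c, Lt.c] (pat hy (rb_5 hy) 8 rfl) h
  · rcases brec_true h with h | h
    · rcases brec_true h with h | h
      · exact mRel_good (T := T) hM0 [Lt.ci, Lt.b, Lt.ci] [Lt.a, Lt.a, Lt.b, Lt.ai, Lt.b, Lt.ai, Lt.b, Lt.a, Lt.b, Lt.ci, Lt.b] (pat hy (rb_7 hy) 0 rfl) h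
      · rcases brec_true h with h | h
        · exact mRel_good (T := T) hM0 [Lt.d, Lt.ci, Lt.ai, Lt.d, Lt.a] [Lt.ci, Lt.ai, Lt.d, Lt.a, Lt.c, Lt.d, Lt.ci] (pat hy (rf_3 hy) 2 rfl) h
        · exact mRel_good (T := T) hM0 [Lt.d, Lt.c, Lt.ai] [Lt.c, Lt.ai, Lt.ci, Lt.ci, Lt.d, Lt.c, Lt.c] (pat hy (rf_2 hy) 0 rfl) h
    · rcases brec_true h with h | h
      · exact mRel_good (T := T) hM0 [Lt.d, Lt.b, Lt.d, Lt.b, Lt.c, Lt.ai] [Lt.b, Lt.d, Lt.c, Lt.c, Lt.a, Lt.c] (pat hy (rb_5 hy) 9 rfl) h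
      · rcases brec_true h with h | h
        · exact mRel_good (T := T) hM0 [Lt.a, Lt.c, Lt.d, Lt.ci, Lt.ai, Lt.d, Lt.a, Lt.c] [Lt.d, Lt.a, Lt.c, Lt.d] (pat hy (rf_3 hy) 0 rfl) h
        · exact mRel_good (T := T) hM0 [Lt.b, Lt.d, Lt.b, Lt.d, Lt.b, Lt.c, Lt.ai, Lt.ci, Lt.ai, Lt.ci] [Lt.d, Lt.c] (pat hy (rb_5 hy) 8 rfl) h
theorem dM_16_s (hy : Hy g H) (j z1 z2 u : ℕ) (h : dM_16 j z1 z2 u = true) : GdM g H u := by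
  unfold dM_16 at h
  rcases brec_true h with h | h
  · rcases brec_true h with h | h
    · exact mRel_good (T := T) hM0 [Lt.ai, Lt.ci, Lt.ai, Lt.ci, Lt.ci, Lt.d, Lt.b, Lt.d] [Lt.ci, Lt.b, Lt.d, Lt.b] (pat hy (rb_5 hy) 2 rfl) h
    · rcases brec_true h with h | h
      · exact mRel_good (T := T) hM0 [Lt.d, Lt.a, Lt.c, Lt.d] [Lt.a, Lt.c, Lt.d, Lt.ci, Lt.ai, Lt.d, Lt.a, Lt.c] (pat hy (rf_3 hy) 5 rfl) h
      · exact mRel_good (T := T) hM0 [Lt.c, Lt.ai, Lt.ci, Lt.ci, Lt.d, Lt.c, Lt.c] [Lt.d, Lt.c, Lt.ai] (pat hy (rf_2 hy) 1 rfl) h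
  · rcases brec_true h with h | h
    · exact mRel_good (T := T) hM0 [Lt.d, Lt.ci, Lt.ci, Lt.a] [Lt.ci, Lt.ci, Lt.a, Lt.ci, Lt.b, Lt.d, Lt.b, Lt.c] (pat hy (rf_4 hy) 5 rfl) h
    · rcases brec_true h with h | h
      · exact mRel_good (T := T) hM0 [Lt.a, Lt.c, Lt.d, Lt.ci] [Lt.d, Lt.a, Lt.c, Lt.d, Lt.ci, Lt.ai, Lt.d, Lt.a] (pat hy (rf_3 hy) 0 rfl) h
      · exact mRel_good (T := T) hM0 [Lt.a, Lt.b, Lt.ai, Lt.b, Lt.ai, Lt.b, Lt.a, Lt.b, Lt.ci, Lt.b, Lt.c, Lt.b] [Lt.ai, Lt.ci] (pat hy (rf_7 hy) 1 rfl) h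
theorem dM_17_s (hy : Hy g H) (j z1 z2 u : ℕ) (h : dM_17 j z1 z2 u = true) : GdM g H u := by
  unfold dM_17 at h
  rcases brec_true h with h | h
  · rcases brec_true h with h | h
    · exact mRel_good (T := T) hM0 [Lt.ai, Lt.ci, Lt.ai, Lt.ci, Lt.ci, Lt.d, Lt.b, Lt.d, Lt.b] [Lt.ci, Lt.b, Lt.d] (pat hy (rb_5 hy) 2 rfl) h
    · rcases brec_true h with h | h
      · exact mRel_good (T := T) hM0 [Lt.a, Lt.c, Lt.d, Lt.ci, Lt.ai, Lt.d, Lt.a] [Lt.d, Lt.a, Lt.c, Lt.d, Lt.ci] (pat hy (rf_3 hy) 0 rfl) h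
      · exact mRel_good (T := T) hM0 [Lt.ci, Lt.b, Lt.c, Lt.b, Lt.c, Lt.a] [Lt.b, Lt.ai, Lt.b, Lt.a, Lt.b, Lt.a, Lt.b, Lt.ai] (pat hy (rf_7 hy) 9 rfl) h
  · rcases brec_true h with h | h
    · rcases brec_true h with h | h
      · exact mRel_good (T := T) hM0 [Lt.d, Lt.b, Lt.c, Lt.ai] [Lt.b, Lt.c, Lt.ai, Lt.c, Lt.c, Lt.d, Lt.ci, Lt.ci] (pat hy (rf_4 hy) 11 rfl) h
      · exact mRel_good (T := T) hM0 [Lt.d, Lt.ci, Lt.ci, Lt.a, Lt.ci, Lt.b, Lt.d, Lt.b, Lt.c, Lt.ai] [Lt.ci, Lt.ci] (pat hy (rf_4 hy) 5 rfl) h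
    · rcases brec_true h with h | h
      · exact mRel_good (T := T) hM0 [Lt.c, Lt.d, Lt.ci, Lt.ai, Lt.d, Lt.a] [Lt.ai, Lt.d, Lt.a, Lt.c, Lt.d, Lt.ci] (pat hy (rf_3 hy) 1 rfl) h
      · exact mRel_good (T := T) hM0 [Lt.d, Lt.c, Lt.c, Lt.a, Lt.ci, Lt.d, Lt.c, Lt.ai, Lt.ci] [Lt.c] (pat hy (rf_2 hy) 5 rfl) h
theorem dM_18_s (hy : Hy g H) (j z1 z2 u : ℕ) (h : dM_18 j z1 z2 u = true) : GdM g H u := by
  unfold dM_18 at h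
  rcases brec_true h with h | h
  · exact dM_16_s hy j z1 z2 u h
  · exact dM_17_s hy j z1 z2 u h
theorem dM_19_s (hy : Hy g H) (j z1 z2 u : ℕ) (h : dM_19 j z1 z2 u = true) : GdM g H u := by
  unfold dM_19 at h
  rcases brec_true h with h | h
  · exact dM_15_s hy j z1 z2 u h
  · exact dM_18_s hy j z1 z2 u h
theorem dM_20_s (hy : Hy g H) (j z1 z2 u : ℕ) (h : dM_20 j z1 z2 u = true) : GdM g H u := by
  unfold dM_20 at h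
  rcases brec_true h with h | h
  · rcases brec_true h with h | h
    · exact mRel_good (T := T) hM0 [Lt.ai, Lt.ci, Lt.ci, Lt.d, Lt.c, Lt.c, Lt.a, Lt.ci] [Lt.ci, Lt.d] (pat hy (rf_2 hy) 2 rfl) h
    · rcases brec_true h with h | h
      · exact mRel_good (T := T) hM0 [Lt.d, Lt.b, Lt.d, Lt.b, Lt.c, Lt.ai, Lt.ci] [Lt.b, Lt.d, Lt.c, Lt.c, Lt.a] (pat hy (rb_5 hy) 9 rfl) h
      · exact mRel_good (T := T) hM0 [Lt.c, Lt.ai, Lt.ci, Lt.ci, Lt.d, Lt.c, Lt.c, Lt.a, Lt.ci, Lt.d] [] (pat hy (rf_2 hy) 1 rfl) h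
  · rcases brec_true h with h | h
    · rcases brec_true h with h | h
      · exact mRel_good (T := T) hM0 [Lt.a, Lt.c, Lt.d, Lt.ci, Lt.ai] [Lt.d, Lt.a, Lt.c, Lt.d, Lt.ci, Lt.ai, Lt.d] (pat hy (rf_3 hy) 0 rfl) h
      · exact mRel_good (T := T) hM0 [Lt.ci, Lt.ci, Lt.d] [Lt.a, Lt.ci, Lt.d, Lt.c, Lt.ai, Lt.ci, Lt.ci] (pat hy (rf_2 hy) 3 rfl) h
    · rcases brec_true h with h | h
      · exact mRel_good (T := T) hM0 [Lt.b, Lt.d, Lt.b, Lt.d, Lt.b, Lt.c, Lt.ai, Lt.ci] [Lt.d, Lt.c, Lt.c, Lt.a] (pat hy (rb_5 hy) 8 rfl) h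
      · exact mRel_good (T := T) hM0 [Lt.d, Lt.c, Lt.ai, Lt.ci, Lt.ci, Lt.d, Lt.c, Lt.c, Lt.a] [Lt.c] (pat hy (rf_2 hy) 0 rfl) h
theorem dM_21_s (hy : Hy g H) (j z1 z2 u : ℕ) (h : dM_21 j z1 z2 u = true) : GdM g H u := by
  unfold dM_21 at h
  rcases brec_true h with h | h
  · rcases brec_true h with h | h
    · rcases brec_true h with h | h
      · exact mRel_good (T := T) hM0 [Lt.c, Lt.c, Lt.a, Lt.ci, Lt.d, Lt.c] [Lt.d, Lt.c, Lt.c, Lt.a] (pat hy (rf_2 hy) 6 rfl) h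
      · exact mRel_good (T := T) hM0 [Lt.ci, Lt.a, Lt.ci, Lt.b] [Lt.c, Lt.d, Lt.ci, Lt.ci, Lt.a, Lt.ci, Lt.b, Lt.d] (pat hy (rf_4 hy) 7 rfl) h
    · rcases brec_true h with h | h
      · exact mRel_good (T := T) hM0 [Lt.a, Lt.ci, Lt.d, Lt.c, Lt.ai, Lt.ci, Lt.ci, Lt.d, Lt.c] [Lt.ci] (pat hy (rf_2 hy) 8 rfl) h
      · exact mRel_good (T := T) hM0 [Lt.ai, Lt.b, Lt.a, Lt.b, Lt.a, Lt.b, Lt.ai, Lt.ai, Lt.ci] [Lt.b, Lt.ci, Lt.b, Lt.c, Lt.b] (pat hy (rb_7 hy) 6 rfl) h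
  · rcases brec_true h with h | h
    · rcases brec_true h with h | h
      · exact mRel_good (T := T) hM0 [Lt.ci, Lt.ci, Lt.a, Lt.ci] [Lt.d, Lt.ci, Lt.ci, Lt.a, Lt.ci, Lt.b, Lt.d, Lt.b] (pat hy (rf_4 hy) 6 rfl) h
      · exact mRel_good (T := T) hM0 [Lt.ci, Lt.ci, Lt.d, Lt.c, Lt.c] [Lt.a, Lt.ci, Lt.d, Lt.c, Lt.ai] (pat hy (rf_2 hy) 3 rfl) h
    · rcases brec_true h with h | h
      · exact mRel_good (T := T) hM0 [Lt.b, Lt.d, Lt.b, Lt.d, Lt.b, Lt.c, Lt.ai] [Lt.d, Lt.c, Lt.c, Lt.a, Lt.c] (pat hy (rb_5 hy) 8 rfl) h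
      · exact mRel_good (T := T) hM0 [Lt.b, Lt.c, Lt.ai, Lt.c, Lt.c, Lt.d, Lt.ci] [Lt.d, Lt.b, Lt.c, Lt.ai, Lt.c] (pat hy (rf_4 hy) 0 rfl) h
theorem dM_22_s (hy : Hy g H) (j z1 z2 u : ℕ) (h : dM_22 j z1 z2 u = true) : GdM g H u := by
  unfold dM_22 at h
  rcases brec_true h with h | h
  · exact dM_20_s hy j z1 z2 u h
  · exact dM_21_s hy j z1 z2 u h
theorem dM_23_s (hy : Hy g H) (j z1 z2 u : ℕ) (h : dM_23 j z1 z2 u = true) : GdM g H u := by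
  unfold dM_23 at h
  rcases brec_true h with h | h
  · rcases brec_true h with h | h
    · exact mRel_good (T := T) hM0 [Lt.ci, Lt.ci, Lt.d, Lt.c] [Lt.a, Lt.ci, Lt.d, Lt.c, Lt.ai, Lt.ci] (pat hy (rf_2 hy) 3 rfl) h
    · rcases brec_true h with h | h
      · exact mRel_good (T := T) hM0 [Lt.b, Lt.c, Lt.ai, Lt.ci, Lt.ai, Lt.ci, Lt.ci, Lt.d] [Lt.d, Lt.b, Lt.d, Lt.b] (pat hy (rb_5 hy) 0 rfl) h
      · exact mRel_good (T := T) hM0 [Lt.d, Lt.b, Lt.d, Lt.b, Lt.c, Lt.ai, Lt.ci, Lt.ai] [Lt.b, Lt.d, Lt.c, Lt.c] (pat hy (rb_5 hy) 9 rfl) h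
  · rcases brec_true h with h | h
    · rcases brec_true h with h | h
      · exact mRel_good (T := T) hM0 [Lt.c, Lt.d, Lt.ci, Lt.ci, Lt.a, Lt.ci, Lt.b, Lt.d, Lt.b, Lt.c] [Lt.ci, Lt.a] (pat hy (rf_4 hy) 4 rfl) h
      · exact mRel_good (T := T) hM0 [Lt.c, Lt.b, Lt.ai, Lt.b, Lt.a, Lt.b, Lt.a, Lt.b, Lt.ai] [Lt.b, Lt.c, Lt.b, Lt.c, Lt.a] (pat hy (rb_7 hy) 4 rfl) h
    · rcases brec_true h with h | h
      · exact mRel_good (T := T) hM0 [Lt.b, Lt.d, Lt.b] [Lt.d, Lt.b, Lt.c, Lt.ai, Lt.ci, Lt.ai, Lt.ci, Lt.ci, Lt.d] (pat hy (rf_5 hy) 1 rfl) h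
      · exact mRel_good (T := T) hM0 [Lt.ci, Lt.d, Lt.c, Lt.c, Lt.a, Lt.ci, Lt.d, Lt.c, Lt.ai] [Lt.c] (pat hy (rf_2 hy) 4 rfl) h
theorem dM_24_s (hy : Hy g H) (j z1 z2 u : ℕ) (h : dM_24 j z1 z2 u = true) : GdM g H u := by
  unfold dM_24 at h
  rcases brec_true h with h | h
  · rcases brec_true h with h | h
    · rcases brec_true h with h | h
      · exact mRel_good (T := T) hM0 [Lt.b, Lt.c, Lt.b, Lt.ai, Lt.b, Lt.a, Lt.b, Lt.a, Lt.b, Lt.ai, Lt.ai, Lt.ci] [Lt.c, Lt.b] (pat hy (rb_7 hy) 3 rfl) h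
      · exact mRel_good (T := T) hM0 [Lt.b, Lt.ai, Lt.b, Lt.a, Lt.b, Lt.a, Lt.b, Lt.ai, Lt.ai] [Lt.ci, Lt.b, Lt.c, Lt.b, Lt.c] (pat hy (rb_7 hy) 5 rfl) h
    · rcases brec_true h with h | h
      · exact mRel_good (T := T) hM0 [Lt.d, Lt.b, Lt.d] [Lt.b, Lt.c, Lt.ai, Lt.ci, Lt.ai, Lt.ci, Lt.ci, Lt.d, Lt.b] (pat hy (rf_5 hy) 0 rfl) h
      · exact mRel_good (T := T) hM0 [Lt.b, Lt.c] [Lt.ci, Lt.b, Lt.c, Lt.b, Lt.ai, Lt.b, Lt.a, Lt.b, Lt.a, Lt.b, Lt.ai, Lt.ai] (pat hy (rf_7 hy) 12 rfl) h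
  · rcases brec_true h with h | h
    · rcases brec_true h with h | h
      · exact mRel_good (T := T) hM0 [Lt.b, Lt.ai, Lt.b, Lt.a, Lt.b, Lt.a, Lt.b, Lt.ai] [Lt.ci, Lt.b, Lt.c, Lt.b, Lt.c, Lt.a] (pat hy (rb_7 hy) 5 rfl) h
      · exact mRel_good (T := T) hM0 [Lt.d, Lt.b, Lt.c, Lt.ai, Lt.c, Lt.c, Lt.d, Lt.ci, Lt.ci] [Lt.b, Lt.c, Lt.ai] (pat hy (rf_4 hy) 11 rfl) h
    · rcases brec_true h with h | h
      · exact mRel_good (T := T) hM0 [Lt.b, Lt.d, Lt.c, Lt.c, Lt.a, Lt.c, Lt.a, Lt.ci, Lt.b, Lt.d] [Lt.d, Lt.b] (pat hy (rf_5 hy) 3 rfl) h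
      · exact mRel_good (T := T) hM0 [Lt.ai, Lt.ai, Lt.d, Lt.c, Lt.a, Lt.a, Lt.b, Lt.ai, Lt.c, Lt.a, Lt.ci, Lt.d, Lt.a] [Lt.d, Lt.b, Lt.d, Lt.ai] (pat hy (rf_15 hy) 6 rfl) h
theorem dM_25_s (hy : Hy g H) (j z1 z2 u : ℕ) (h : dM_25 j z1 z2 u = true) : GdM g H u := by
  unfold dM_25 at h
  rcases brec_true h with h | h
  · exact dM_23_s hy j z1 z2 u h
  · exact dM_24_s hy j z1 z2 u h
theorem dM_26_s (hy : Hy g H) (j z1 z2 u : ℕ) (h : dM_26 j z1 z2 u = true) : GdM g H u := by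
  unfold dM_26 at h
  rcases brec_true h with h | h
  · exact dM_22_s hy j z1 z2 u h
  · exact dM_25_s hy j z1 z2 u h
theorem dM_27_s (hy : Hy g H) (j z1 z2 u : ℕ) (h : dM_27 j z1 z2 u = true) : GdM g H u := by
  unfold dM_27 at h
  rcases brec_true h with h | h
  · exact dM_19_s hy j z1 z2 u h
  · exact dM_26_s hy j z1 z2 u h
theorem dM_28_s (hy : Hy g H) (j z1 z2 u : ℕ) (h : dM_28 j z1 z2 u = true) : GdM g H u := by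
  unfold dM_28 at h
  rcases brec_true h with h | h
  · rcases brec_true h with h | h
    · rcases brec_true h with h | h
      · exact mRel_good (T := T) hM0 [Lt.b, Lt.d, Lt.b, Lt.d, Lt.b, Lt.d, Lt.c, Lt.c, Lt.a] [Lt.c, Lt.ai, Lt.ci] (pat hy (rf_5 hy) 11 rfl) h
      · exact mRel_good (T := T) hM0 [Lt.ci, Lt.a, Lt.ci, Lt.b, Lt.d, Lt.b, Lt.c, Lt.ai] [Lt.c, Lt.d, Lt.ci, Lt.ci] (pat hy (rf_4 hy) 7 rfl) h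
    · rcases brec_true h with h | h
      · exact mRel_good (T := T) hM0 [Lt.a, Lt.ci, Lt.b, Lt.d, Lt.b, Lt.c, Lt.ai, Lt.c, Lt.c] [Lt.c, Lt.c, Lt.d] (pat hy (rf_4 hy) 8 rfl) h
      · exact mRel_good (T := T) hM0 [Lt.ai, Lt.b, Lt.a, Lt.b, Lt.a, Lt.b, Lt.ai, Lt.ai, Lt.ci, Lt.b] [Lt.b, Lt.ci, Lt.b, Lt.c] (pat hy (rb_7 hy) 6 rfl) h
  · rcases brec_true h with h | h
    · rcases brec_true h with h | h
      · exact mRel_good (T := T) hM0 [Lt.d, Lt.ci, Lt.ci, Lt.a, Lt.ci, Lt.b, Lt.d, Lt.b] [Lt.ci, Lt.ci, Lt.a, Lt.ci] (pat hy (rf_4 hy) 5 rfl) h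
      · exact mRel_good (T := T) hM0 [Lt.a, Lt.c, Lt.d, Lt.ci, Lt.ai, Lt.d] [Lt.d, Lt.a, Lt.c, Lt.d, Lt.ci, Lt.ai] (pat hy (rf_3 hy) 0 rfl) h
    · rcases brec_true h with h | h
      · exact mRel_good (T := T) hM0 [Lt.ai, Lt.ci, Lt.b, Lt.ci] [Lt.a, Lt.b, Lt.ai, Lt.b, Lt.ai, Lt.b, Lt.a, Lt.b, Lt.ci, Lt.b] (pat hy (rb_7 hy) 13 rfl) h
      · exact mRel_good (T := T) hM0 [Lt.d, Lt.b, Lt.c, Lt.ai, Lt.ci] [Lt.b, Lt.d, Lt.b, Lt.d, Lt.c, Lt.c, Lt.a] (pat hy (rb_5 hy) 11 rfl) h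
theorem dM_29_s (hy : Hy g H) (j z1 z2 u : ℕ) (h : dM_29 j z1 z2 u = true) : GdM g H u := by
  unfold dM_29 at h
  rcases brec_true h with h | h
  · rcases brec_true h with h | h
    · rcases brec_true h with h | h
      · exact mRel_good (T := T) hM0 [Lt.c, Lt.ai] [Lt.b, Lt.d, Lt.b, Lt.c, Lt.ai, Lt.c, Lt.c, Lt.d, Lt.ci, Lt.ci] (pat hy (rf_4 hy) 1 rfl) h
      · exact mRel_good (T := T) hM0 [Lt.ci, Lt.ai, Lt.d, Lt.a, Lt.c, Lt.d, Lt.ci, Lt.ai] [Lt.d, Lt.ci, Lt.ai, Lt.d] (pat hy (rf_3 hy) 3 rfl) h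
    · rcases brec_true h with h | h
      · exact mRel_good (T := T) hM0 [Lt.a, Lt.b, Lt.ci, Lt.b, Lt.c, Lt.b, Lt.c, Lt.a] [Lt.b, Lt.a, Lt.b, Lt.a, Lt.b, Lt.ai] (pat hy (rf_7 hy) 7 rfl) h
      · exact mRel_good (T := T) hM0 [Lt.d, Lt.b, Lt.c, Lt.ai, Lt.c, Lt.c, Lt.d, Lt.ci, Lt.ci, Lt.a] [Lt.b, Lt.c] (pat hy (rf_4 hy) 11 rfl) h
  · rcases brec_true h with h | h
    · rcases brec_true h with h | h
      · exact mRel_good (T := T) hM0 [Lt.a, Lt.ci, Lt.d, Lt.c] [Lt.ci, Lt.ci, Lt.d, Lt.c, Lt.c, Lt.a] (pat hy (rf_2 hy) 8 rfl) h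
      · exact mRel_good (T := T) hM0 [Lt.ci, Lt.ci, Lt.a, Lt.ci, Lt.b] [Lt.d, Lt.ci, Lt.ci, Lt.a, Lt.ci, Lt.b, Lt.d] (pat hy (rf_4 hy) 6 rfl) h
    · rcases brec_true h with h | h
      · exact mRel_good (T := T) hM0 [Lt.b, Lt.c, Lt.b, Lt.ai, Lt.b, Lt.a, Lt.b, Lt.a, Lt.b, Lt.ai, Lt.ai] [Lt.c, Lt.b, Lt.c] (pat hy (rb_7 hy) 3 rfl) h
      · rcases brec_true h with h | h
        · exact mRel_good (T := T) hM0 [Lt.d, Lt.a, Lt.c, Lt.d, Lt.ci, Lt.ai] [Lt.a, Lt.c, Lt.d, Lt.ci, Lt.ai, Lt.d] (pat hy (rf_3 hy) 5 rfl) h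
        · exact mRel_good (T := T) hM0 [Lt.ci, Lt.ai, Lt.d, Lt.a, Lt.c, Lt.d, Lt.ci, Lt.ai, Lt.d, Lt.a] [Lt.d, Lt.ci] (pat hy (rf_3 hy) 3 rfl) h
theorem dM_30_s (hy : Hy g H) (j z1 z2 u : ℕ) (h : dM_30 j z1 z2 u = true) : GdM g H u := by
  unfold dM_30 at h
  rcases brec_true h with h | h
  · exact dM_28_s hy j z1 z2 u h
  · exact dM_29_s hy j z1 z2 u h
theorem dM_31_s (hy : Hy g H) (j z1 z2 u : ℕ) (h : dM_31 j z1 z2 u = true) : GdM g H u := by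
  unfold dM_31 at h
  rcases brec_true h with h | h
  · rcases brec_true h with h | h
    · rcases brec_true h with h | h
      · exact mRel_good (T := T) hM0 [Lt.c, Lt.ai, Lt.c, Lt.c] [Lt.b, Lt.d, Lt.b, Lt.c, Lt.ai, Lt.c, Lt.c, Lt.d] (pat hy (rf_4 hy) 1 rfl) h
      · exact mRel_good (T := T) hM0 [Lt.c, Lt.a, Lt.c, Lt.a, Lt.ci, Lt.b, Lt.d, Lt.b] [Lt.ci, Lt.d, Lt.b, Lt.d] (pat hy (rf_5 hy) 6 rfl) h
    · rcases brec_true h with h | h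
      · exact mRel_good (T := T) hM0 [Lt.b, Lt.ci, Lt.b, Lt.c, Lt.b, Lt.c] [Lt.ai, Lt.b, Lt.a, Lt.b, Lt.a, Lt.b, Lt.ai, Lt.ai] (pat hy (rf_7 hy) 8 rfl) h
      · exact mRel_good (T := T) hM0 [Lt.b, Lt.c, Lt.ai, Lt.ci, Lt.ai, Lt.ci, Lt.ci, Lt.d, Lt.b] [Lt.d, Lt.b, Lt.d] (pat hy (rb_5 hy) 0 rfl) h
  · rcases brec_true h with h | h
    · rcases brec_true h with h | h
      · exact mRel_good (T := T) hM0 [Lt.d, Lt.c, Lt.c] [Lt.c, Lt.c, Lt.a, Lt.ci, Lt.d, Lt.c, Lt.ai] (pat hy (rf_2 hy) 5 rfl) h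
      · exact mRel_good (T := T) hM0 [Lt.ci, Lt.b, Lt.ci, Lt.b, Lt.c, Lt.b, Lt.ai, Lt.b] [Lt.a, Lt.a, Lt.b, Lt.ai, Lt.b, Lt.ai] (pat hy (rb_7 hy) 0 rfl) h
    · rcases brec_true h with h | h
      · exact mRel_good (T := T) hM0 [Lt.ai, Lt.b, Lt.a, Lt.b, Lt.ci, Lt.b, Lt.c, Lt.b, Lt.c, Lt.a, Lt.a] [Lt.b, Lt.a, Lt.b] (pat hy (rf_7 hy) 5 rfl) h
      · rcases brec_true h with h | h
        · exact mRel_good (T := T) hM0 [Lt.ci, Lt.ci, Lt.a, Lt.ci, Lt.b, Lt.d, Lt.b] [Lt.d, Lt.ci, Lt.ci, Lt.a, Lt.ci] (pat hy (rf_4 hy) 6 rfl) h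
        · exact mRel_good (T := T) hM0 [Lt.d, Lt.b, Lt.d, Lt.c, Lt.c] [Lt.b, Lt.d, Lt.b, Lt.c, Lt.ai, Lt.ci, Lt.ai] (pat hy (rf_5 hy) 2 rfl) h
theorem dM_32_s (hy : Hy g H) (j z1 z2 u : ℕ) (h : dM_32 j z1 z2 u = true) : GdM g H u := by
  unfold dM_32 at h
  rcases brec_true h with h | h
  · rcases brec_true h with h | h
    · rcases brec_true h with h | h
      · exact mRel_good (T := T) hM0 [Lt.ai, Lt.ci, Lt.d, Lt.a, Lt.a, Lt.d, Lt.b, Lt.d, Lt.ai] [Lt.a, Lt.b, Lt.ai, Lt.c, Lt.a, Lt.ci, Lt.d, Lt.a] (pat hy (rb_15 hy) 6 rfl) h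
      · exact mRel_good (T := T) hM0 [Lt.c, Lt.a, Lt.ci, Lt.d, Lt.c, Lt.ai, Lt.ci, Lt.ci, Lt.d] [Lt.ci] (pat hy (rf_2 hy) 7 rfl) h
    · rcases brec_true h with h | h
      · exact mRel_good (T := T) hM0 [Lt.d, Lt.b, Lt.d, Lt.c, Lt.c, Lt.a] [Lt.b, Lt.d, Lt.b, Lt.c, Lt.ai, Lt.ci] (pat hy (rf_5 hy) 2 rfl) h
      · exact mRel_good (T := T) hM0 [Lt.b, Lt.d, Lt.c, Lt.c] [Lt.d, Lt.b, Lt.d, Lt.b, Lt.c, Lt.ai, Lt.ci, Lt.ai] (pat hy (rf_5 hy) 3 rfl) h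
  · rcases brec_true h with h | h
    · rcases brec_true h with h | h
      · exact mRel_good (T := T) hM0 [Lt.ai, Lt.c, Lt.c, Lt.d] [Lt.ci, Lt.b, Lt.d, Lt.b, Lt.c, Lt.ai, Lt.c, Lt.c] (pat hy (rf_4 hy) 2 rfl) h
      · exact mRel_good (T := T) hM0 [Lt.b, Lt.c, Lt.ai] [Lt.d, Lt.b, Lt.c, Lt.ai, Lt.c, Lt.c, Lt.d, Lt.ci, Lt.ci] (pat hy (rf_4 hy) 0 rfl) h
    · rcases brec_true h with h | h
      · exact mRel_good (T := T) hM0 [Lt.d, Lt.ci, Lt.ai, Lt.d, Lt.a, Lt.c, Lt.d, Lt.ci, Lt.ai] [Lt.ci, Lt.ai, Lt.d] (pat hy (rf_3 hy) 2 rfl) h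
      · rcases brec_true h with h | h
        · exact mRel_good (T := T) hM0 [Lt.b, Lt.d, Lt.b, Lt.c, Lt.ai, Lt.ci] [Lt.d, Lt.b, Lt.d, Lt.c, Lt.c, Lt.a] (pat hy (rb_5 hy) 10 rfl) h
        · exact mRel_good (T := T) hM0 [Lt.d, Lt.b, Lt.d, Lt.b, Lt.d, Lt.b, Lt.c] [Lt.c, Lt.c, Lt.a, Lt.c, Lt.a] (pat hy (rb_5 hy) 7 rfl) h
theorem dM_33_s (hy : Hy g H) (j z1 z2 u : ℕ) (h : dM_33 j z1 z2 u = true) : GdM g H u := by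
  unfold dM_33 at h
  rcases brec_true h with h | h
  · exact dM_31_s hy j z1 z2 u h
  · exact dM_32_s hy j z1 z2 u h
theorem dM_34_s (hy : Hy g H) (j z1 z2 u : ℕ) (h : dM_34 j z1 z2 u = true) : GdM g H u := by
  unfold dM_34 at h
  rcases brec_true h with h | h
  · exact dM_30_s hy j z1 z2 u h
  · exact dM_33_s hy j z1 z2 u h
theorem dM_35_s (hy : Hy g H) (j z1 z2 u : ℕ) (h : dM_35 j z1 z2 u = true) : GdM g H u := by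
  unfold dM_35 at h
  rcases brec_true h with h | h
  · rcases brec_true h with h | h
    · rcases brec_true h with h | h
      · exact mRel_good (T := T) hM0 [Lt.ai, Lt.ci, Lt.d, Lt.a, Lt.a] [Lt.a, Lt.b, Lt.ai, Lt.c, Lt.a, Lt.ci, Lt.d, Lt.a, Lt.a, Lt.d, Lt.b, Lt.d] (pat hy (rb_15 hy) 6 rfl) h
      · exact mRel_good (T := T) hM0 [Lt.b, Lt.c, Lt.b, Lt.c] [Lt.c, Lt.b, Lt.ai, Lt.b, Lt.a, Lt.b, Lt.a, Lt.b, Lt.ai, Lt.ai] (pat hy (rf_7 hy) 10 rfl) h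
    · rcases brec_true h with h | h
      · exact mRel_good (T := T) hM0 [Lt.c, Lt.c] [Lt.d, Lt.b, Lt.d, Lt.b, Lt.d, Lt.b, Lt.c, Lt.ai, Lt.ci, Lt.ai] (pat hy (rf_5 hy) 5 rfl) h
      · exact mRel_good (T := T) hM0 [Lt.d, Lt.c, Lt.c, Lt.a, Lt.c, Lt.a, Lt.ci, Lt.b, Lt.d] [Lt.b, Lt.d, Lt.b] (pat hy (rf_5 hy) 4 rfl) h
  · rcases brec_true h with h | h
    · rcases brec_true h with h | h
      · exact mRel_good (T := T) hM0 [Lt.a, Lt.ci, Lt.d, Lt.c, Lt.ai] [Lt.ci, Lt.ci, Lt.d, Lt.c, Lt.c] (pat hy (rf_2 hy) 8 rfl) h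
      · exact mRel_good (T := T) hM0 [Lt.ai, Lt.ai, Lt.ci, Lt.b, Lt.ci, Lt.b, Lt.c, Lt.b, Lt.ai, Lt.b] [Lt.b, Lt.ai, Lt.b, Lt.ai] (pat hy (rb_7 hy) 12 rfl) h
    · rcases brec_true h with h | h
      · exact mRel_good (T := T) hM0 [Lt.ci, Lt.a] [Lt.c, Lt.d, Lt.ci, Lt.ci, Lt.a, Lt.ci, Lt.b, Lt.d, Lt.b, Lt.c] (pat hy (rf_4 hy) 7 rfl) h
      · rcases brec_true h with h | h
        · exact mRel_good (T := T) hM0 [Lt.c, Lt.d, Lt.ci] [Lt.ai, Lt.d, Lt.a, Lt.c, Lt.d, Lt.ci, Lt.ai, Lt.d, Lt.a] (pat hy (rf_3 hy) 1 rfl) h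
        · exact mRel_good (T := T) hM0 [Lt.ci, Lt.ci, Lt.a, Lt.ci, Lt.b, Lt.d, Lt.b, Lt.c, Lt.ai, Lt.c, Lt.c, Lt.d] [] (pat hy (rf_4 hy) 6 rfl) h
theorem dM_36_s (hy : Hy g H) (j z1 z2 u : ℕ) (h : dM_36 j z1 z2 u = true) : GdM g H u := by
  unfold dM_36 at h
  rcases brec_true h with h | h
  · rcases brec_true h with h | h
    · rcases brec_true h with h | h
      · exact mRel_good (T := T) hM0 [Lt.a, Lt.a, Lt.b, Lt.a, Lt.b, Lt.a] [Lt.c, Lt.ai, Lt.ai, Lt.b, Lt.ci, Lt.b, Lt.a, Lt.a, Lt.ci] (pat hy (rf_10 hy) 0 rfl) h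
      · exact mRel_good (T := T) hM0 [Lt.c, Lt.c, Lt.d] [Lt.a, Lt.ci, Lt.b, Lt.d, Lt.b, Lt.c, Lt.ai, Lt.c, Lt.c] (pat hy (rf_4 hy) 3 rfl) h
    · rcases brec_true h with h | h
      · exact mRel_good (T := T) hM0 [Lt.b, Lt.a, Lt.b, Lt.a] [Lt.a, Lt.b, Lt.ci, Lt.b, Lt.c, Lt.b, Lt.c, Lt.a, Lt.a, Lt.b] (pat hy (rb_7 hy) 7 rfl) h
      · rcases brec_true h with h | h
        · exact mRel_good (T := T) hM0 [Lt.a, Lt.b, Lt.a, Lt.b, Lt.ai] [Lt.b, Lt.a, Lt.b, Lt.ci, Lt.b, Lt.c, Lt.b, Lt.c, Lt.a] (pat hy (rb_7 hy) 8 rfl) h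
        · exact mRel_good (T := T) hM0 [Lt.b, Lt.d, Lt.c, Lt.c, Lt.a, Lt.c] [Lt.d, Lt.b, Lt.d, Lt.b, Lt.c, Lt.ai] (pat hy (rf_5 hy) 3 rfl) h
  · rcases brec_true h with h | h
    · rcases brec_true h with h | h
      · exact mRel_good (T := T) hM0 [Lt.b, Lt.a, Lt.b, Lt.a, Lt.b, Lt.ai, Lt.ai, Lt.ci, Lt.b] [Lt.a, Lt.b, Lt.ci, Lt.b, Lt.c] (pat hy (rb_7 hy) 7 rfl) h
      · rcases brec_true h with h | h
        · exact mRel_good (T := T) hM0 [Lt.ci, Lt.b, Lt.d, Lt.b, Lt.c, Lt.ai, Lt.c, Lt.c, Lt.d] [Lt.ai, Lt.c, Lt.c] (pat hy (rf_4 hy) 9 rfl) h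
        · exact mRel_good (T := T) hM0 [Lt.a, Lt.b, Lt.ai, Lt.ai, Lt.ci, Lt.d, Lt.a, Lt.a] [Lt.c, Lt.a, Lt.ci, Lt.d, Lt.a, Lt.a, Lt.d, Lt.b, Lt.d] (pat hy (rb_15 hy) 3 rfl) h
    · rcases brec_true h with h | h
      · exact mRel_good (T := T) hM0 [Lt.c, Lt.c, Lt.b, Lt.ai, Lt.b, Lt.a, Lt.a, Lt.b, Lt.a, Lt.b, Lt.ai, Lt.b, Lt.ci] [Lt.b, Lt.c] (pat hy (rf_9 hy) 10 rfl) h
      · rcases brec_true h with h | h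
        · exact mRel_good (T := T) hM0 [Lt.c, Lt.b, Lt.c, Lt.a, Lt.a, Lt.b, Lt.ai, Lt.b, Lt.ai, Lt.b, Lt.a, Lt.b] [Lt.b, Lt.c] (pat hy (rf_7 hy) 11 rfl) h
        · exact mRel_good (T := T) hM0 [Lt.ai, Lt.ci, Lt.ci, Lt.d] [Lt.ci, Lt.d, Lt.c, Lt.ai, Lt.ci, Lt.ci] (pat hy (rf_2 hy) 2 rfl) h
theorem dM_37_s (hy : Hy g H) (j z1 z2 u : ℕ) (h : dM_37 j z1 z2 u = true) : GdM g H u := by
  unfold dM_37 at h
  rcases brec_true h with h | h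
  · exact dM_35_s hy j z1 z2 u h
  · exact dM_36_s hy j z1 z2 u h
theorem dM_38_s (hy : Hy g H) (j z1 z2 u : ℕ) (h : dM_38 j z1 z2 u = true) : GdM g H u := by
  unfold dM_38 at h
  rcases brec_true h with h | h
  · rcases brec_true h with h | h
    · rcases brec_true h with h | h
      · exact mRel_good (T := T) hM0 [Lt.c, Lt.a, Lt.ci, Lt.b, Lt.d] [Lt.ai, Lt.ci, Lt.ci, Lt.d, Lt.b, Lt.d, Lt.b] (pat hy (rf_5 hy) 8 rfl) h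
      · exact mRel_good (T := T) hM0 [Lt.c, Lt.ai, Lt.ci, Lt.ai, Lt.ci, Lt.ci, Lt.d, Lt.b, Lt.d, Lt.b] [Lt.b, Lt.d] (pat hy (rb_5 hy) 1 rfl) h
    · rcases brec_true h with h | h
      · exact mRel_good (T := T) hM0 [Lt.a, Lt.ci, Lt.d, Lt.c, Lt.ai, Lt.ci] [Lt.ci, Lt.ci, Lt.d, Lt.c] (pat hy (rf_2 hy) 8 rfl) h
      · rcases brec_true h with h | h
        · exact mRel_good (T := T) hM0 [Lt.a, Lt.b, Lt.a, Lt.b, Lt.ai, Lt.ai, Lt.ci] [Lt.b, Lt.a, Lt.b, Lt.ci, Lt.b, Lt.c, Lt.b] (pat hy (rb_7 hy) 8 rfl) h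
        · exact mRel_good (T := T) hM0 [Lt.ci, Lt.ci] [Lt.d, Lt.ci, Lt.ci, Lt.a, Lt.ci, Lt.b, Lt.d, Lt.b, Lt.c, Lt.ai] (pat hy (rf_4 hy) 6 rfl) h
  · rcases brec_true h with h | h
    · rcases brec_true h with h | h
      · exact mRel_good (T := T) hM0 [Lt.c, Lt.c, Lt.a, Lt.c, Lt.a, Lt.ci] [Lt.d, Lt.b, Lt.d, Lt.b, Lt.d, Lt.b] (pat hy (rf_5 hy) 5 rfl) h
      · exact mRel_good (T := T) hM0 [Lt.ci, Lt.b, Lt.c] [Lt.b, Lt.ai, Lt.b, Lt.a, Lt.b, Lt.a, Lt.b, Lt.ai, Lt.ai, Lt.ci, Lt.b] (pat hy (rf_7 hy) 9 rfl) h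
    · rcases brec_true h with h | h
      · exact mRel_good (T := T) hM0 [Lt.ai, Lt.ci, Lt.ci, Lt.d, Lt.c] [Lt.ci, Lt.d, Lt.c, Lt.ai, Lt.ci] (pat hy (rf_2 hy) 2 rfl) h
      · rcases brec_true h with h | h
        · exact mRel_good (T := T) hM0 [Lt.a, Lt.ci, Lt.d, Lt.c, Lt.ai, Lt.ci, Lt.ci] [Lt.ci, Lt.ci, Lt.d] (pat hy (rf_2 hy) 8 rfl) h
        · exact mRel_good (T := T) hM0 [Lt.ci, Lt.ci, Lt.a, Lt.ci, Lt.b, Lt.d, Lt.b, Lt.c, Lt.ai] [Lt.d, Lt.ci, Lt.ci] (pat hy (rf_4 hy) 6 rfl) h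
theorem dM_39_s (hy : Hy g H) (j z1 z2 u : ℕ) (h : dM_39 j z1 z2 u = true) : GdM g H u := by
  unfold dM_39 at h
  rcases brec_true h with h | h
  · rcases brec_true h with h | h
    · rcases brec_true h with h | h
      · exact mRel_good (T := T) hM0 [Lt.c, Lt.a, Lt.ci, Lt.d, Lt.c] [Lt.ci, Lt.d, Lt.c, Lt.c, Lt.a] (pat hy (rf_2 hy) 7 rfl) h
      · exact mRel_good (T := T) hM0 [Lt.a, Lt.a, Lt.b, Lt.ai, Lt.c, Lt.a, Lt.ci, Lt.d, Lt.a, Lt.a, Lt.d, Lt.b, Lt.d, Lt.ai] [Lt.ci, Lt.d, Lt.a] (pat hy (rf_15 hy) 10 rfl) h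
    · rcases brec_true h with h | h
      · exact mRel_good (T := T) hM0 [Lt.a, Lt.c, Lt.a, Lt.ci, Lt.b, Lt.d, Lt.b] [Lt.ci, Lt.ci, Lt.d, Lt.b, Lt.d] (pat hy (rf_5 hy) 7 rfl) h
      · rcases brec_true h with h | h
        · exact mRel_good (T := T) hM0 [Lt.ci, Lt.b, Lt.c, Lt.b, Lt.c] [Lt.b, Lt.ai, Lt.b, Lt.a, Lt.b, Lt.a, Lt.b, Lt.ai, Lt.ai] (pat hy (rf_7 hy) 9 rfl) h
        · exact mRel_good (T := T) hM0 [Lt.c, Lt.c, Lt.a] [Lt.d, Lt.b, Lt.d, Lt.b, Lt.d, Lt.b, Lt.c, Lt.ai, Lt.ci] (pat hy (rf_5 hy) 5 rfl) h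
  · rcases brec_true h with h | h
    · rcases brec_true h with h | h
      · exact mRel_good (T := T) hM0 [Lt.b, Lt.d, Lt.b, Lt.c, Lt.ai, Lt.c, Lt.c, Lt.d, Lt.ci] [Lt.c, Lt.ai, Lt.c] (pat hy (rf_4 hy) 10 rfl) h
      · rcases brec_true h with h | h
        · exact mRel_good (T := T) hM0 [Lt.b, Lt.d, Lt.b, Lt.d, Lt.c, Lt.c, Lt.a, Lt.c] [Lt.d, Lt.b, Lt.c, Lt.ai] (pat hy (rf_5 hy) 1 rfl) h
        · exact mRel_good (T := T) hM0 [Lt.d, Lt.ci, Lt.ai] [Lt.ci, Lt.ai, Lt.d, Lt.a, Lt.c, Lt.d, Lt.ci, Lt.ai, Lt.d] (pat hy (rf_3 hy) 2 rfl) h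
    · rcases brec_true h with h | h
      · exact mRel_good (T := T) hM0 [Lt.ai, Lt.ai, Lt.ci] [Lt.b, Lt.ai, Lt.b, Lt.ai, Lt.b, Lt.a, Lt.b, Lt.ci, Lt.b, Lt.c, Lt.b] (pat hy (rb_7 hy) 12 rfl) h
      · rcases brec_true h with h | h
        · exact mRel_good (T := T) hM0 [Lt.c, Lt.c, Lt.a, Lt.c, Lt.a, Lt.ci, Lt.b, Lt.d] [Lt.d, Lt.b, Lt.d, Lt.b] (pat hy (rf_5 hy) 5 rfl) h
        · exact mRel_good (T := T) hM0 [Lt.c, Lt.c, Lt.a, Lt.c, Lt.a, Lt.ci, Lt.b, Lt.d, Lt.b, Lt.d] [Lt.d, Lt.b] (pat hy (rf_5 hy) 5 rfl) h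
theorem dM_40_s (hy : Hy g H) (j z1 z2 u : ℕ) (h : dM_40 j z1 z2 u = true) : GdM g H u := by
  unfold dM_40 at h
  rcases brec_true h with h | h
  · exact dM_38_s hy j z1 z2 u h
  · exact dM_39_s hy j z1 z2 u h
theorem dM_41_s (hy : Hy g H) (j z1 z2 u : ℕ) (h : dM_41 j z1 z2 u = true) : GdM g H u := by
  unfold dM_41 at h
  rcases brec_true h with h | h
  · exact dM_37_s hy j z1 z2 u h
  · exact dM_40_s hy j z1 z2 u h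
theorem dM_42_s (hy : Hy g H) (j z1 z2 u : ℕ) (h : dM_42 j z1 z2 u = true) : GdM g H u := by
  unfold dM_42 at h
  rcases brec_true h with h | h
  · exact dM_34_s hy j z1 z2 u h
  · exact dM_41_s hy j z1 z2 u h
theorem dM_43_s (hy : Hy g H) (j z1 z2 u : ℕ) (h : dM_43 j z1 z2 u = true) : GdM g H u := by
  unfold dM_43 at h
  rcases brec_true h with h | h
  · exact dM_27_s hy j z1 z2 u h
  · exact dM_42_s hy j z1 z2 u h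
theorem dM_44_s (hy : Hy g H) (j z1 z2 u : ℕ) (h : dM_44 j z1 z2 u = true) : GdM g H u := by
  unfold dM_44 at h
  rcases brec_true h with h | h
  · rcases brec_true h with h | h
    · rcases brec_true h with h | h
      · exact mRel_good (T := T) hM0 [Lt.c, Lt.ai, Lt.ci, Lt.ai, Lt.ci, Lt.ci, Lt.d, Lt.b, Lt.d] [Lt.b, Lt.d, Lt.b] (pat hy (rb_5 hy) 1 rfl) h
      · exact mRel_good (T := T) hM0 [Lt.d, Lt.b, Lt.d, Lt.c, Lt.c, Lt.a, Lt.c, Lt.a] [Lt.b, Lt.d, Lt.b, Lt.c] (pat hy (rf_5 hy) 2 rfl) h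
    · rcases brec_true h with h | h
      · exact mRel_good (T := T) hM0 [Lt.b, Lt.a, Lt.b, Lt.a, Lt.b, Lt.ai, Lt.ai, Lt.ci] [Lt.a, Lt.b, Lt.ci, Lt.b, Lt.c, Lt.b] (pat hy (rb_7 hy) 7 rfl) h
      · rcases brec_true h with h | h
        · exact mRel_good (T := T) hM0 [Lt.ai, Lt.d, Lt.a, Lt.c, Lt.d, Lt.ci, Lt.ai, Lt.d, Lt.a] [Lt.c, Lt.d, Lt.ci] (pat hy (rf_3 hy) 4 rfl) h
        · exact mRel_good (T := T) hM0 [Lt.ai, Lt.ci, Lt.ci, Lt.d, Lt.c, Lt.c, Lt.a] [Lt.ci, Lt.d, Lt.c] (pat hy (rf_2 hy) 2 rfl) h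
  · rcases brec_true h with h | h
    · rcases brec_true h with h | h
      · exact mRel_good (T := T) hM0 [Lt.ci, Lt.ci, Lt.a] [Lt.d, Lt.ci, Lt.ci, Lt.a, Lt.ci, Lt.b, Lt.d, Lt.b, Lt.c] (pat hy (rf_4 hy) 6 rfl) h
      · exact mRel_good (T := T) hM0 [Lt.c, Lt.d, Lt.ci, Lt.ci, Lt.a, Lt.ci, Lt.b, Lt.d, Lt.b] [Lt.ci, Lt.a, Lt.ci] (pat hy (rf_4 hy) 4 rfl) h
    · rcases brec_true h with h | h
      · exact mRel_good (T := T) hM0 [Lt.ai, Lt.ci, Lt.ai] [Lt.ci, Lt.b, Lt.d, Lt.b, Lt.d, Lt.b, Lt.d, Lt.c, Lt.c] (pat hy (rb_5 hy) 2 rfl) h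
      · rcases brec_true h with h | h
        · exact mRel_good (T := T) hM0 [Lt.b, Lt.c, Lt.ai, Lt.c] [Lt.d, Lt.b, Lt.c, Lt.ai, Lt.c, Lt.c, Lt.d, Lt.ci] (pat hy (rf_4 hy) 0 rfl) h
        · exact mRel_good (T := T) hM0 [Lt.c, Lt.ai, Lt.ai, Lt.b, Lt.ci, Lt.b, Lt.a, Lt.a, Lt.ci] [Lt.a, Lt.a, Lt.b, Lt.a, Lt.b, Lt.a] (pat hy (rb_10 hy) 0 rfl) h
theorem dM_45_s (hy : Hy g H) (j z1 z2 u : ℕ) (h : dM_45 j z1 z2 u = true) : GdM g H u := by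
  unfold dM_45 at h
  rcases brec_true h with h | h
  · rcases brec_true h with h | h
    · rcases brec_true h with h | h
      · exact mRel_good (T := T) hM0 [Lt.a, Lt.b, Lt.ci, Lt.b, Lt.c, Lt.b, Lt.c] [Lt.b, Lt.a, Lt.b, Lt.a, Lt.b, Lt.ai, Lt.ai] (pat hy (rf_7 hy) 7 rfl) h
      · exact mRel_good (T := T) hM0 [Lt.a, Lt.b, Lt.ai, Lt.ai, Lt.ci, Lt.d, Lt.a, Lt.a, Lt.d, Lt.b, Lt.d, Lt.ai] [Lt.c, Lt.a, Lt.ci, Lt.d, Lt.a] (pat hy (rb_15 hy) 3 rfl) h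
    · rcases brec_true h with h | h
      · exact mRel_good (T := T) hM0 [Lt.c, Lt.d, Lt.ci, Lt.ai, Lt.d, Lt.a, Lt.c] [Lt.ai, Lt.d, Lt.a, Lt.c, Lt.d] (pat hy (rf_3 hy) 1 rfl) h
      · rcases brec_true h with h | h
        · exact mRel_good (T := T) hM0 [Lt.ai, Lt.c, Lt.a, Lt.ci, Lt.d, Lt.a] [Lt.b, Lt.ai, Lt.ai, Lt.ci, Lt.d, Lt.a, Lt.a, Lt.d, Lt.b, Lt.d, Lt.ai] (pat hy (rf_15 hy) 13 rfl) h
        · exact mRel_good (T := T) hM0 [Lt.a, Lt.b, Lt.ai, Lt.b, Lt.ai, Lt.ai, Lt.b, Lt.a, Lt.b, Lt.ci] [Lt.b, Lt.ci, Lt.ci, Lt.b, Lt.c] (pat hy (rb_9 hy) 9 rfl) h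
  · rcases brec_true h with h | h
    · rcases brec_true h with h | h
      · exact mRel_good (T := T) hM0 [Lt.b, Lt.ai, Lt.b, Lt.a, Lt.b, Lt.a, Lt.b, Lt.ai, Lt.ai, Lt.ci, Lt.b] [Lt.ci, Lt.b, Lt.c] (pat hy (rb_7 hy) 5 rfl) h
      · rcases brec_true h with h | h
        · exact mRel_good (T := T) hM0 [Lt.b, Lt.d, Lt.b, Lt.d, Lt.b, Lt.d, Lt.c, Lt.c, Lt.a, Lt.c] [Lt.c, Lt.ai] (pat hy (rf_5 hy) 11 rfl) h
        · exact mRel_good (T := T) hM0 [Lt.ai, Lt.c] [Lt.ci, Lt.b, Lt.d, Lt.b, Lt.c, Lt.ai, Lt.c, Lt.c, Lt.d, Lt.ci] (pat hy (rf_4 hy) 2 rfl) h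
    · rcases brec_true h with h | h
      · exact mRel_good (T := T) hM0 [Lt.c, Lt.d, Lt.ci, Lt.ci] [Lt.ci, Lt.a, Lt.ci, Lt.b, Lt.d, Lt.b, Lt.c, Lt.ai] (pat hy (rf_4 hy) 4 rfl) h
      · rcases brec_true h with h | h
        · exact mRel_good (T := T) hM0 [Lt.b, Lt.c, Lt.ai, Lt.ci, Lt.ai] [Lt.d, Lt.b, Lt.d, Lt.b, Lt.d, Lt.c, Lt.c] (pat hy (rb_5 hy) 0 rfl) h
        · exact mRel_good (T := T) hM0 [Lt.a, Lt.a, Lt.b, Lt.ai, Lt.c, Lt.a, Lt.ci, Lt.d, Lt.a, Lt.a] [Lt.ci, Lt.d, Lt.a, Lt.a, Lt.d, Lt.b, Lt.d] (pat hy (rf_15 hy) 10 rfl) h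
theorem dM_46_s (hy : Hy g H) (j z1 z2 u : ℕ) (h : dM_46 j z1 z2 u = true) : GdM g H u := by
  unfold dM_46 at h
  rcases brec_true h with h | h
  · exact dM_44_s hy j z1 z2 u h
  · exact dM_45_s hy j z1 z2 u h
theorem dM_47_s (hy : Hy g H) (j z1 z2 u : ℕ) (h : dM_47 j z1 z2 u = true) : GdM g H u := by
  unfold dM_47 at h
  rcases brec_true h with h | h
  · rcases brec_true h with h | h
    · rcases brec_true h with h | h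
      · exact mRel_good (T := T) hM0 [Lt.a, Lt.ci, Lt.b, Lt.d, Lt.b, Lt.d] [Lt.ci, Lt.ai, Lt.ci, Lt.ci, Lt.d, Lt.b] (pat hy (rf_5 hy) 9 rfl) h
      · exact mRel_good (T := T) hM0 [Lt.d, Lt.a, Lt.c, Lt.d, Lt.ci, Lt.ai, Lt.d, Lt.a] [Lt.a, Lt.c, Lt.d, Lt.ci] (pat hy (rf_3 hy) 5 rfl) h
    · rcases brec_true h with h | h
      · exact mRel_good (T := T) hM0 [Lt.ci, Lt.b, Lt.ci, Lt.b, Lt.c, Lt.b, Lt.ai, Lt.b, Lt.a, Lt.b] [Lt.a, Lt.a, Lt.b, Lt.ai] (pat hy (rb_7 hy) 0 rfl) h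
      · rcases brec_true h with h | h
        · exact mRel_good (T := T) hM0 [Lt.d, Lt.c, Lt.c, Lt.a, Lt.c, Lt.a, Lt.ci, Lt.b, Lt.d, Lt.b] [Lt.b, Lt.d] (pat hy (rf_5 hy) 4 rfl) h
        · exact mRel_good (T := T) hM0 [Lt.d, Lt.b, Lt.d, Lt.b, Lt.d] [Lt.b, Lt.c, Lt.ai, Lt.ci, Lt.ai, Lt.ci, Lt.ci] (pat hy (rf_5 hy) 0 rfl) h
  · rcases brec_true h with h | h
    · rcases brec_true h with h | h
      · exact mRel_good (T := T) hM0 [Lt.d, Lt.c, Lt.ai, Lt.ci] [Lt.c, Lt.ai, Lt.ci, Lt.ci, Lt.d, Lt.c] (pat hy (rf_2 hy) 0 rfl) h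
      · rcases brec_true h with h | h
        · exact mRel_good (T := T) hM0 [Lt.ai, Lt.ci, Lt.ci, Lt.d, Lt.c, Lt.c, Lt.a, Lt.ci, Lt.d, Lt.c] [] (pat hy (rf_2 hy) 2 rfl) h
        · exact mRel_good (T := T) hM0 [Lt.c, Lt.c, Lt.a, Lt.c, Lt.a, Lt.ci, Lt.b, Lt.d, Lt.b] [Lt.d, Lt.b, Lt.d] (pat hy (rf_5 hy) 5 rfl) h
    · rcases brec_true h with h | h
      · exact mRel_good (T := T) hM0 [Lt.c, Lt.d, Lt.ci, Lt.ai, Lt.d, Lt.a, Lt.c, Lt.d, Lt.ci] [Lt.ai, Lt.d, Lt.a] (pat hy (rf_3 hy) 1 rfl) h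
      · rcases brec_true h with h | h
        · exact mRel_good (T := T) hM0 [Lt.ci, Lt.b, Lt.c, Lt.b] [Lt.b, Lt.ai, Lt.b, Lt.a, Lt.b, Lt.a, Lt.b, Lt.ai, Lt.ai, Lt.ci] (pat hy (rf_7 hy) 9 rfl) h
        · exact mRel_good (T := T) hM0 [Lt.a, Lt.a, Lt.b, Lt.ai, Lt.c, Lt.a, Lt.ci, Lt.d, Lt.a, Lt.a, Lt.d, Lt.b, Lt.d] [Lt.ci, Lt.d, Lt.a, Lt.a] (pat hy (rf_15 hy) 10 rfl) h
theorem dM_48_s (hy : Hy g H) (j z1 z2 u : ℕ) (h : dM_48 j z1 z2 u = true) : GdM g H u := by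
  unfold dM_48 at h
  rcases brec_true h with h | h
  · rcases brec_true h with h | h
    · rcases brec_true h with h | h
      · exact mRel_good (T := T) hM0 [Lt.b, Lt.d, Lt.b, Lt.d, Lt.c, Lt.c, Lt.a, Lt.c, Lt.a] [Lt.d, Lt.b, Lt.c] (pat hy (rf_5 hy) 1 rfl) h
      · rcases brec_true h with h | h
        · exact mRel_good (T := T) hM0 [Lt.a, Lt.ci] [Lt.ci, Lt.ci, Lt.d, Lt.c, Lt.c, Lt.a, Lt.ci, Lt.d] (pat hy (rf_2 hy) 8 rfl) h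
        · exact mRel_good (T := T) hM0 [Lt.d, Lt.a, Lt.c, Lt.d, Lt.ci] [Lt.a, Lt.c, Lt.d, Lt.ci, Lt.ai, Lt.d, Lt.a] (pat hy (rf_3 hy) 5 rfl) h
    · rcases brec_true h with h | h
      · exact mRel_good (T := T) hM0 [Lt.c, Lt.a, Lt.ci, Lt.b, Lt.d, Lt.b, Lt.d, Lt.b, Lt.d, Lt.c, Lt.c, Lt.a] [] (pat hy (rf_5 hy) 8 rfl) h
      · rcases brec_true h with h | h
        · exact mRel_good (T := T) hM0 [Lt.c, Lt.a, Lt.c, Lt.a] [Lt.ci, Lt.d, Lt.b, Lt.d, Lt.b, Lt.d, Lt.b, Lt.c] (pat hy (rf_5 hy) 6 rfl) h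
        · exact mRel_good (T := T) hM0 [Lt.b, Lt.c, Lt.ai, Lt.c, Lt.c, Lt.d, Lt.ci, Lt.ci] [Lt.d, Lt.b, Lt.c, Lt.ai] (pat hy (rf_4 hy) 0 rfl) h
  · rcases brec_true h with h | h
    · rcases brec_true h with h | h
      · exact mRel_good (T := T) hM0 [Lt.ai, Lt.b, Lt.a, Lt.b, Lt.a, Lt.b, Lt.ai, Lt.ai, Lt.ci, Lt.b, Lt.ci] [Lt.b, Lt.ci, Lt.b] (pat hy (rb_7 hy) 6 rfl) h
      · rcases brec_true h with h | h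
        · exact mRel_good (T := T) hM0 [Lt.b, Lt.ci, Lt.b, Lt.c, Lt.b, Lt.ai, Lt.b, Lt.a] [Lt.c, Lt.a, Lt.a, Lt.b, Lt.ai, Lt.b] (pat hy (rb_7 hy) 1 rfl) h
        · exact mRel_good (T := T) hM0 [Lt.c] [Lt.d, Lt.c, Lt.ai, Lt.ci, Lt.ci, Lt.d, Lt.c, Lt.c, Lt.a] (pat hy (rf_2 hy) 1 rfl) h
    · rcases brec_true h with h | h
      · exact mRel_good (T := T) hM0 [Lt.a, Lt.b, Lt.ci, Lt.b, Lt.c, Lt.b] [Lt.b, Lt.a, Lt.b, Lt.a, Lt.b, Lt.ai, Lt.ai, Lt.ci] (pat hy (rf_7 hy) 7 rfl) h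
      · rcases brec_true h with h | h
        · exact mRel_good (T := T) hM0 [Lt.c, Lt.a, Lt.ci, Lt.b, Lt.d, Lt.b, Lt.d, Lt.b, Lt.d, Lt.c] [Lt.ai, Lt.ci] (pat hy (rf_5 hy) 8 rfl) h
        · exact mRel_good (T := T) hM0 [Lt.ai, Lt.c, Lt.a, Lt.ci, Lt.d, Lt.a, Lt.a, Lt.d, Lt.b, Lt.d] [Lt.b, Lt.ai, Lt.ai, Lt.ci, Lt.d, Lt.a, Lt.a] (pat hy (rf_15 hy) 13 rfl) h
theorem dM_49_s (hy : Hy g H) (j z1 z2 u : ℕ) (h : dM_49 j z1 z2 u = true) : GdM g H u := by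
  unfold dM_49 at h
  rcases brec_true h with h | h
  · exact dM_47_s hy j z1 z2 u h
  · exact dM_48_s hy j z1 z2 u h
theorem dM_50_s (hy : Hy g H) (j z1 z2 u : ℕ) (h : dM_50 j z1 z2 u = true) : GdM g H u := by
  unfold dM_50 at h
  rcases brec_true h with h | h
  · exact dM_46_s hy j z1 z2 u h
  · exact dM_49_s hy j z1 z2 u h
theorem dM_51_s (hy : Hy g H) (j z1 z2 u : ℕ) (h : dM_51 j z1 z2 u = true) : GdM g H u := by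
  unfold dM_51 at h
  rcases brec_true h with h | h
  · rcases brec_true h with h | h
    · exact mRel_good (T := T) hM0 [Lt.a, Lt.b, Lt.ai, Lt.c, Lt.a, Lt.ci, Lt.d, Lt.a, Lt.a] [Lt.ai, Lt.ci, Lt.d, Lt.a, Lt.a, Lt.d, Lt.b, Lt.d] (pat hy (rf_15 hy) 11 rfl) h
    · rcases brec_true h with h | h
      · exact mRel_good (T := T) hM0 [Lt.c, Lt.b, Lt.c, Lt.a] [Lt.b, Lt.c, Lt.b, Lt.ai, Lt.b, Lt.a, Lt.b, Lt.a, Lt.b, Lt.ai] (pat hy (rf_7 hy) 11 rfl) h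
      · exact mRel_good (T := T) hM0 [Lt.ci, Lt.a, Lt.ci, Lt.b, Lt.d, Lt.b, Lt.c] [Lt.c, Lt.d, Lt.ci, Lt.ci, Lt.a] (pat hy (rf_4 hy) 7 rfl) h
  · rcases brec_true h with h | h
    · exact mRel_good (T := T) hM0 [Lt.d, Lt.b, Lt.c, Lt.ai, Lt.c] [Lt.b, Lt.c, Lt.ai, Lt.c, Lt.c, Lt.d, Lt.ci] (pat hy (rf_4 hy) 11 rfl) h
    · rcases brec_true h with h | h
      · exact mRel_good (T := T) hM0 [Lt.a, Lt.ci, Lt.b, Lt.d, Lt.b, Lt.d, Lt.b, Lt.d, Lt.c, Lt.c] [Lt.ci, Lt.ai] (pat hy (rf_5 hy) 9 rfl) h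
      · exact mRel_good (T := T) hM0 [Lt.a, Lt.ci, Lt.d, Lt.a] [Lt.ci, Lt.a, Lt.b, Lt.ai, Lt.ai, Lt.ci, Lt.d, Lt.a, Lt.a, Lt.d, Lt.b, Lt.d, Lt.ai] (pat hy (rf_15 hy) 15 rfl) h
theorem dM_52_s (hy : Hy g H) (j z1 z2 u : ℕ) (h : dM_52 j z1 z2 u = true) : GdM g H u := by
  unfold dM_52 at h
  rcases brec_true h with h | h
  · rcases brec_true h with h | h
    · exact mRel_good (T := T) hM0 [Lt.d, Lt.c, Lt.c, Lt.a, Lt.c] [Lt.b, Lt.d, Lt.b, Lt.d, Lt.b, Lt.c, Lt.ai] (pat hy (rf_5 hy) 4 rfl) h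
    · rcases brec_true h with h | h
      · exact mRel_good (T := T) hM0 [Lt.a, Lt.b, Lt.ai, Lt.b, Lt.ai, Lt.b, Lt.a] [Lt.ai, Lt.ci, Lt.b, Lt.ci, Lt.b, Lt.c, Lt.b] (pat hy (rf_7 hy) 1 rfl) h
      · exact mRel_good (T := T) hM0 [Lt.b, Lt.a, Lt.b, Lt.a, Lt.b, Lt.ai, Lt.ai] [Lt.a, Lt.b, Lt.ci, Lt.b, Lt.c, Lt.b, Lt.c] (pat hy (rb_7 hy) 7 rfl) h
  · rcases brec_true h with h | h
    · rcases brec_true h with h | h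
      · exact mRel_good (T := T) hM0 [Lt.ci, Lt.b, Lt.d, Lt.b, Lt.d, Lt.b, Lt.d, Lt.c, Lt.c, Lt.a] [Lt.ai, Lt.ci] (pat hy (rf_5 hy) 10 rfl) h
      · exact mRel_good (T := T) hM0 [Lt.ci, Lt.a, Lt.ci, Lt.b, Lt.d, Lt.b, Lt.c, Lt.ai, Lt.c, Lt.c, Lt.d] [Lt.c] (pat hy (rf_4 hy) 7 rfl) h
    · rcases brec_true h with h | h
      · exact mRel_good (T := T) hM0 [Lt.b, Lt.ci, Lt.b, Lt.c, Lt.b, Lt.ai, Lt.b, Lt.a, Lt.b, Lt.a] [Lt.c, Lt.a, Lt.a, Lt.b] (pat hy (rb_7 hy) 1 rfl) h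
      · exact mRel_good (T := T) hM0 [Lt.ai, Lt.c, Lt.c] [Lt.ci, Lt.b, Lt.d, Lt.b, Lt.c, Lt.ai, Lt.c, Lt.c, Lt.d] (pat hy (rf_4 hy) 2 rfl) h
theorem dM_53_s (hy : Hy g H) (j z1 z2 u : ℕ) (h : dM_53 j z1 z2 u = true) : GdM g H u := by
  unfold dM_53 at h
  rcases brec_true h with h | h
  · exact dM_51_s hy j z1 z2 u h
  · exact dM_52_s hy j z1 z2 u h
theorem dM_54_s (hy : Hy g H) (j z1 z2 u : ℕ) (h : dM_54 j z1 z2 u = true) : GdM g H u := by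
  unfold dM_54 at h
  rcases brec_true h with h | h
  · rcases brec_true h with h | h
    · exact mRel_good (T := T) hM0 [Lt.d, Lt.b, Lt.c] [Lt.b, Lt.c, Lt.ai, Lt.c, Lt.c, Lt.d, Lt.ci, Lt.ci, Lt.a] (pat hy (rf_4 hy) 11 rfl) h
    · rcases brec_true h with h | h
      · exact mRel_good (T := T) hM0 [Lt.ai, Lt.b, Lt.a, Lt.b, Lt.a, Lt.b, Lt.ai, Lt.ai] [Lt.b, Lt.ci, Lt.b, Lt.c, Lt.b, Lt.c] (pat hy (rb_7 hy) 6 rfl) h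
      · exact mRel_good (T := T) hM0 [Lt.c, Lt.d] [Lt.ai, Lt.d, Lt.a, Lt.c, Lt.d, Lt.ci, Lt.ai, Lt.d, Lt.a, Lt.c] (pat hy (rf_3 hy) 1 rfl) h
  · rcases brec_true h with h | h
    · exact mRel_good (T := T) hM0 [Lt.c, Lt.ai, Lt.c] [Lt.b, Lt.d, Lt.b, Lt.c, Lt.ai, Lt.c, Lt.c, Lt.d, Lt.ci] (pat hy (rf_4 hy) 1 rfl) h
    · rcases brec_true h with h | h
      · exact mRel_good (T := T) hM0 [Lt.ai, Lt.ci, Lt.ci, Lt.d, Lt.b, Lt.d, Lt.b, Lt.d] [Lt.c, Lt.a, Lt.ci, Lt.b] (pat hy (rb_5 hy) 4 rfl) h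
      · exact mRel_good (T := T) hM0 [Lt.ci, Lt.d, Lt.a, Lt.a, Lt.d, Lt.b, Lt.d, Lt.ai] [Lt.ai, Lt.ci, Lt.a, Lt.b, Lt.ai, Lt.ai, Lt.ci, Lt.d, Lt.a] (pat hy (rf_15 hy) 16 rfl) h
theorem dM_55_s (hy : Hy g H) (j z1 z2 u : ℕ) (h : dM_55 j z1 z2 u = true) : GdM g H u := by
  unfold dM_55 at h
  rcases brec_true h with h | h
  · rcases brec_true h with h | h
    · exact mRel_good (T := T) hM0 [Lt.b, Lt.d] [Lt.d, Lt.ai, Lt.ai, Lt.d, Lt.c, Lt.ai, Lt.ci, Lt.a, Lt.b, Lt.ai, Lt.ai, Lt.ci, Lt.d, Lt.a, Lt.a] (pat hy (rf_15 hy) 4 rfl) h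
    · rcases brec_true h with h | h
      · exact mRel_good (T := T) hM0 [Lt.a, Lt.b, Lt.ai, Lt.b, Lt.ai, Lt.b, Lt.a, Lt.b, Lt.ci] [Lt.ai, Lt.ci, Lt.b, Lt.ci, Lt.b] (pat hy (rf_7 hy) 1 rfl) h
      · exact mRel_good (T := T) hM0 [Lt.ci, Lt.b] [Lt.b, Lt.ai, Lt.b, Lt.a, Lt.b, Lt.a, Lt.b, Lt.ai, Lt.ai, Lt.ci, Lt.b, Lt.ci] (pat hy (rf_7 hy) 9 rfl) h
  · rcases brec_true h with h | h
    · rcases brec_true h with h | h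
      · exact mRel_good (T := T) hM0 [Lt.b, Lt.ai, Lt.b, Lt.a, Lt.b, Lt.a, Lt.b, Lt.ai, Lt.ai, Lt.ci, Lt.b, Lt.ci] [Lt.ci, Lt.b] (pat hy (rb_7 hy) 5 rfl) h
      · exact mRel_good (T := T) hM0 [Lt.b, Lt.d, Lt.c] [Lt.d, Lt.b, Lt.d, Lt.b, Lt.c, Lt.ai, Lt.ci, Lt.ai, Lt.ci] (pat hy (rf_5 hy) 3 rfl) h
    · rcases brec_true h with h | h
      · exact mRel_good (T := T) hM0 [Lt.d, Lt.ci, Lt.ai, Lt.d, Lt.a, Lt.c] [Lt.ci, Lt.ai, Lt.d, Lt.a, Lt.c, Lt.d] (pat hy (rf_3 hy) 2 rfl) h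
      · exact mRel_good (T := T) hM0 [Lt.ci, Lt.d, Lt.c, Lt.c, Lt.a, Lt.ci] [Lt.c, Lt.a, Lt.ci, Lt.d] (pat hy (rf_2 hy) 4 rfl) h
theorem dM_56_s (hy : Hy g H) (j z1 z2 u : ℕ) (h : dM_56 j z1 z2 u = true) : GdM g H u := by
  unfold dM_56 at h
  rcases brec_true h with h | h
  · exact dM_54_s hy j z1 z2 u h
  · exact dM_55_s hy j z1 z2 u h
theorem dM_57_s (hy : Hy g H) (j z1 z2 u : ℕ) (h : dM_57 j z1 z2 u = true) : GdM g H u := by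
  unfold dM_57 at h
  rcases brec_true h with h | h
  · exact dM_53_s hy j z1 z2 u h
  · exact dM_56_s hy j z1 z2 u h
theorem dM_58_s (hy : Hy g H) (j z1 z2 u : ℕ) (h : dM_58 j z1 z2 u = true) : GdM g H u := by
  unfold dM_58 at h
  rcases brec_true h with h | h
  · rcases brec_true h with h | h
    · exact mRel_good (T := T) hM0 [Lt.b, Lt.a, Lt.b, Lt.ci, Lt.b, Lt.c, Lt.b, Lt.c, Lt.a, Lt.a] [Lt.a, Lt.b, Lt.a, Lt.b] (pat hy (rf_7 hy) 6 rfl) h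
    · rcases brec_true h with h | h
      · exact mRel_good (T := T) hM0 [Lt.ci, Lt.ci, Lt.d, Lt.c, Lt.c, Lt.a, Lt.ci, Lt.d] [Lt.a, Lt.ci] (pat hy (rf_2 hy) 3 rfl) h
      · exact mRel_good (T := T) hM0 [Lt.a, Lt.b, Lt.a, Lt.b] [Lt.b, Lt.a, Lt.b, Lt.ci, Lt.b, Lt.c, Lt.b, Lt.c, Lt.a, Lt.a] (pat hy (rb_7 hy) 8 rfl) h
  · rcases brec_true h with h | h
    · exact mRel_good (T := T) hM0 [Lt.b, Lt.ai, Lt.b, Lt.a, Lt.b] [Lt.ci, Lt.b, Lt.c, Lt.b, Lt.c, Lt.a, Lt.a, Lt.b, Lt.ai] (pat hy (rb_7 hy) 5 rfl) h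
    · rcases brec_true h with h | h
      · exact mRel_good (T := T) hM0 [Lt.d, Lt.c, Lt.c, Lt.a] [Lt.c, Lt.c, Lt.a, Lt.ci, Lt.d, Lt.c] (pat hy (rf_2 hy) 5 rfl) h
      · exact mRel_good (T := T) hM0 [Lt.b, Lt.ci, Lt.b, Lt.c] [Lt.ai, Lt.b, Lt.a, Lt.b, Lt.a, Lt.b, Lt.ai, Lt.ai, Lt.ci, Lt.b] (pat hy (rf_7 hy) 8 rfl) h
theorem dM_59_s (hy : Hy g H) (j z1 z2 u : ℕ) (h : dM_59 j z1 z2 u = true) : GdM g H u := by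
  unfold dM_59 at h
  rcases brec_true h with h | h
  · rcases brec_true h with h | h
    · exact mRel_good (T := T) hM0 [Lt.b, Lt.c, Lt.a, Lt.a, Lt.b, Lt.ai, Lt.b, Lt.ai, Lt.b, Lt.a, Lt.b] [Lt.ci, Lt.b, Lt.c] (pat hy (rf_7 hy) 12 rfl) h
    · rcases brec_true h with h | h
      · exact mRel_good (T := T) hM0 [Lt.b, Lt.ci, Lt.b, Lt.c, Lt.b, Lt.c, Lt.a, Lt.a, Lt.b, Lt.ai, Lt.b, Lt.ai] [Lt.ai, Lt.b] (pat hy (rf_7 hy) 8 rfl) h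
      · exact mRel_good (T := T) hM0 [Lt.c, Lt.a, Lt.ci, Lt.d, Lt.c, Lt.ai] [Lt.ci, Lt.d, Lt.c, Lt.c] (pat hy (rf_2 hy) 7 rfl) h
  · rcases brec_true h with h | h
    · rcases brec_true h with h | h
      · exact mRel_good (T := T) hM0 [Lt.c, Lt.ai, Lt.ai, Lt.b, Lt.c, Lt.b, Lt.a, Lt.a] [Lt.ai, Lt.b, Lt.ai, Lt.b, Lt.ai, Lt.ai, Lt.c] (pat hy (rf_10 hy) 6 rfl) h
      · exact mRel_good (T := T) hM0 [Lt.ci, Lt.d, Lt.b, Lt.d, Lt.b, Lt.d, Lt.b, Lt.c, Lt.ai, Lt.ci] [Lt.c, Lt.a] (pat hy (rb_5 hy) 6 rfl) h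
    · rcases brec_true h with h | h
      · exact mRel_good (T := T) hM0 [Lt.c] [Lt.d, Lt.c, Lt.c, Lt.a, Lt.ci, Lt.d, Lt.c, Lt.ai, Lt.ci] (pat hy (rf_2 hy) 6 rfl) h
      · exact mRel_good (T := T) hM0 [Lt.a, Lt.a, Lt.b, Lt.ai, Lt.b, Lt.ai, Lt.b, Lt.a, Lt.b, Lt.ci, Lt.b, Lt.c] [Lt.ci, Lt.b] (pat hy (rf_7 hy) 0 rfl) h
theorem dM_60_s (hy : Hy g H) (j z1 z2 u : ℕ) (h : dM_60 j z1 z2 u = true) : GdM g H u := by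
  unfold dM_60 at h
  rcases brec_true h with h | h
  · exact dM_58_s hy j z1 z2 u h
  · exact dM_59_s hy j z1 z2 u h
theorem dM_61_s (hy : Hy g H) (j z1 z2 u : ℕ) (h : dM_61 j z1 z2 u = true) : GdM g H u := by
  unfold dM_61 at h
  rcases brec_true h with h | h
  · rcases brec_true h with h | h
    · exact mRel_good (T := T) hM0 [Lt.b, Lt.d, Lt.c, Lt.c, Lt.a, Lt.c, Lt.a, Lt.ci, Lt.b] [Lt.d, Lt.b, Lt.d] (pat hy (rf_5 hy) 3 rfl) h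
    · rcases brec_true h with h | h
      · exact mRel_good (T := T) hM0 [Lt.ci, Lt.ai, Lt.ci, Lt.ci, Lt.d, Lt.b, Lt.d] [Lt.a, Lt.ci, Lt.b, Lt.d, Lt.b] (pat hy (rb_5 hy) 3 rfl) h
      · exact mRel_good (T := T) hM0 [Lt.c, Lt.c, Lt.a, Lt.ci, Lt.d, Lt.c, Lt.ai, Lt.ci, Lt.ci, Lt.d] [] (pat hy (rf_2 hy) 6 rfl) h
  · rcases brec_true h with h | h
    · exact mRel_good (T := T) hM0 [Lt.b, Lt.d, Lt.c, Lt.c, Lt.a] [Lt.d, Lt.b, Lt.d, Lt.b, Lt.c, Lt.ai, Lt.ci] (pat hy (rf_5 hy) 3 rfl) h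
    · rcases brec_true h with h | h
      · exact mRel_good (T := T) hM0 [Lt.ai, Lt.d, Lt.a, Lt.c, Lt.d, Lt.ci, Lt.ai] [Lt.c, Lt.d, Lt.ci, Lt.ai, Lt.d] (pat hy (rf_3 hy) 4 rfl) h
      · exact mRel_good (T := T) hM0 [Lt.c, Lt.ai, Lt.ci, Lt.ci, Lt.d, Lt.c, Lt.c, Lt.a] [Lt.d, Lt.c] (pat hy (rf_2 hy) 1 rfl) h
theorem dM_62_s (hy : Hy g H) (j z1 z2 u : ℕ) (h : dM_62 j z1 z2 u = true) : GdM g H u := by
  unfold dM_62 at h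
  rcases brec_true h with h | h
  · rcases brec_true h with h | h
    · exact mRel_good (T := T) hM0 [Lt.ai, Lt.d, Lt.a] [Lt.c, Lt.d, Lt.ci, Lt.ai, Lt.d, Lt.a, Lt.c, Lt.d, Lt.ci] (pat hy (rf_3 hy) 4 rfl) h
    · rcases brec_true h with h | h
      · exact mRel_good (T := T) hM0 [Lt.a, Lt.ci, Lt.b, Lt.d, Lt.b, Lt.c, Lt.ai, Lt.c, Lt.c, Lt.d] [Lt.c, Lt.c] (pat hy (rf_4 hy) 8 rfl) h
      · exact mRel_good (T := T) hM0 [Lt.a, Lt.b, Lt.a, Lt.b, Lt.ai, Lt.ai, Lt.ci, Lt.b, Lt.ci, Lt.b] [Lt.b, Lt.a, Lt.b, Lt.ci] (pat hy (rb_7 hy) 8 rfl) h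
  · rcases brec_true h with h | h
    · rcases brec_true h with h | h
      · exact mRel_good (T := T) hM0 [Lt.d, Lt.b, Lt.d, Lt.b, Lt.d, Lt.b, Lt.c, Lt.ai, Lt.ci, Lt.ai, Lt.ci] [Lt.c] (pat hy (rb_5 hy) 7 rfl) h
      · exact mRel_good (T := T) hM0 [Lt.ai, Lt.b, Lt.ai, Lt.ai, Lt.ai, Lt.ai, Lt.b, Lt.ai] [Lt.b, Lt.ai, Lt.ci, Lt.b, Lt.ci, Lt.b, Lt.c] (pat hy (rb_8 hy) 9 rfl) h
    · rcases brec_true h with h | h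
      · exact mRel_good (T := T) hM0 [Lt.b, Lt.a, Lt.b, Lt.ai, Lt.ai] [Lt.ai, Lt.b, Lt.a, Lt.b, Lt.ci, Lt.b, Lt.c, Lt.b, Lt.c] (pat hy (rb_7 hy) 9 rfl) h
      · exact mRel_good (T := T) hM0 [Lt.ci, Lt.b, Lt.ci, Lt.b, Lt.c, Lt.b, Lt.ai, Lt.b, Lt.a, Lt.b, Lt.a] [Lt.a, Lt.a, Lt.b] (pat hy (rb_7 hy) 0 rfl) h
theorem dM_63_s (hy : Hy g H) (j z1 z2 u : ℕ) (h : dM_63 j z1 z2 u = true) : GdM g H u := by
  unfold dM_63 at h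
  rcases brec_true h with h | h
  · exact dM_61_s hy j z1 z2 u h
  · exact dM_62_s hy j z1 z2 u h
theorem dM_64_s (hy : Hy g H) (j z1 z2 u : ℕ) (h : dM_64 j z1 z2 u = true) : GdM g H u := by
  unfold dM_64 at h
  rcases brec_true h with h | h
  · exact dM_60_s hy j z1 z2 u h
  · exact dM_63_s hy j z1 z2 u h
theorem dM_65_s (hy : Hy g H) (j z1 z2 u : ℕ) (h : dM_65 j z1 z2 u = true) : GdM g H u := by
  unfold dM_65 at h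
  rcases brec_true h with h | h
  · exact dM_57_s hy j z1 z2 u h
  · exact dM_64_s hy j z1 z2 u h
theorem dM_66_s (hy : Hy g H) (j z1 z2 u : ℕ) (h : dM_66 j z1 z2 u = true) : GdM g H u := by
  unfold dM_66 at h
  rcases brec_true h with h | h
  · exact dM_50_s hy j z1 z2 u h
  · exact dM_65_s hy j z1 z2 u h
theorem dM_67_s (hy : Hy g H) (j z1 z2 u : ℕ) (h : dM_67 j z1 z2 u = true) : GdM g H u := by
  unfold dM_67 at h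
  rcases brec_true h with h | h
  · rcases brec_true h with h | h
    · exact mRel_good (T := T) hM0 [Lt.d, Lt.b, Lt.d, Lt.b, Lt.d, Lt.c, Lt.c] [Lt.b, Lt.c, Lt.ai, Lt.ci, Lt.ai] (pat hy (rf_5 hy) 0 rfl) h
    · rcases brec_true h with h | h
      · exact mRel_good (T := T) hM0 [Lt.d, Lt.ci, Lt.ci] [Lt.ci, Lt.ci, Lt.a, Lt.ci, Lt.b, Lt.d, Lt.b, Lt.c, Lt.ai] (pat hy (rf_4 hy) 5 rfl) h
      · exact mRel_good (T := T) hM0 [Lt.ai, Lt.ai, Lt.b, Lt.ci, Lt.b] [Lt.ci, Lt.a, Lt.a, Lt.b, Lt.a, Lt.b, Lt.a, Lt.c, Lt.ai, Lt.ai] (pat hy (rb_10 hy) 1 rfl) h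
  · rcases brec_true h with h | h
    · exact mRel_good (T := T) hM0 [Lt.ci, Lt.b] [Lt.ai, Lt.c, Lt.c, Lt.d, Lt.ci, Lt.ci, Lt.a, Lt.ci, Lt.b, Lt.d] (pat hy (rf_4 hy) 9 rfl) h
    · rcases brec_true h with h | h
      · exact mRel_good (T := T) hM0 [Lt.ai, Lt.c, Lt.c, Lt.d, Lt.ci, Lt.ci, Lt.a, Lt.ci, Lt.b, Lt.d, Lt.b] [Lt.ci] (pat hy (rf_4 hy) 2 rfl) h
      · exact mRel_good (T := T) hM0 [Lt.ci, Lt.a, Lt.ci, Lt.b, Lt.d, Lt.b, Lt.c, Lt.ai, Lt.c, Lt.c] [Lt.c, Lt.d] (pat hy (rf_4 hy) 7 rfl) h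
theorem dM_68_s (hy : Hy g H) (j z1 z2 u : ℕ) (h : dM_68 j z1 z2 u = true) : GdM g H u := by
  unfold dM_68 at h
  rcases brec_true h with h | h
  · rcases brec_true h with h | h
    · exact mRel_good (T := T) hM0 [Lt.d, Lt.b, Lt.d, Lt.b, Lt.d, Lt.b, Lt.c, Lt.ai] [Lt.c, Lt.c, Lt.a, Lt.c] (pat hy (rb_5 hy) 7 rfl) h
    · rcases brec_true h with h | h
      · exact mRel_good (T := T) hM0 [Lt.ci, Lt.b, Lt.d, Lt.b, Lt.c, Lt.ai, Lt.c, Lt.c, Lt.d, Lt.ci] [Lt.ai, Lt.c] (pat hy (rf_4 hy) 9 rfl) h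
      · exact mRel_good (T := T) hM0 [Lt.a, Lt.ci, Lt.b, Lt.d, Lt.b, Lt.c, Lt.ai, Lt.c] [Lt.c, Lt.c, Lt.d, Lt.ci] (pat hy (rf_4 hy) 8 rfl) h
  · rcases brec_true h with h | h
    · rcases brec_true h with h | h
      · exact mRel_good (T := T) hM0 [Lt.ci, Lt.a, Lt.a, Lt.b, Lt.a, Lt.b, Lt.a, Lt.c, Lt.ai, Lt.ai, Lt.b] [Lt.ai, Lt.ai, Lt.b, Lt.ci] (pat hy (rf_10 hy) 14 rfl) h
      · exact mRel_good (T := T) hM0 [Lt.d, Lt.b, Lt.d, Lt.b, Lt.c, Lt.ai, Lt.ci, Lt.ai, Lt.ci, Lt.ci] [Lt.b, Lt.d] (pat hy (rb_5 hy) 9 rfl) h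
    · rcases brec_true h with h | h
      · exact mRel_good (T := T) hM0 [Lt.c, Lt.a, Lt.a, Lt.b, Lt.ai, Lt.b, Lt.ai] [Lt.b, Lt.ci, Lt.b, Lt.c, Lt.b, Lt.ai, Lt.b] (pat hy (rf_7 hy) 13 rfl) h
      · exact mRel_good (T := T) hM0 [Lt.a, Lt.c] [Lt.d, Lt.a, Lt.c, Lt.d, Lt.ci, Lt.ai, Lt.d, Lt.a, Lt.c, Lt.d] (pat hy (rf_3 hy) 0 rfl) h
theorem dM_69_s (hy : Hy g H) (j z1 z2 u : ℕ) (h : dM_69 j z1 z2 u = true) : GdM g H u := by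
  unfold dM_69 at h
  rcases brec_true h with h | h
  · exact dM_67_s hy j z1 z2 u h
  · exact dM_68_s hy j z1 z2 u h
theorem dM_70_s (hy : Hy g H) (j z1 z2 u : ℕ) (h : dM_70 j z1 z2 u = true) : GdM g H u := by
  unfold dM_70 at h
  rcases brec_true h with h | h
  · rcases brec_true h with h | h
    · exact mRel_good (T := T) hM0 [Lt.ci, Lt.d] [Lt.c, Lt.a, Lt.ci, Lt.d, Lt.c, Lt.ai, Lt.ci, Lt.ci] (pat hy (rf_2 hy) 4 rfl) h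
    · rcases brec_true h with h | h
      · exact mRel_good (T := T) hM0 [Lt.a, Lt.ci, Lt.b, Lt.d, Lt.b, Lt.d, Lt.b] [Lt.ci, Lt.ai, Lt.ci, Lt.ci, Lt.d] (pat hy (rf_5 hy) 9 rfl) h
      · exact mRel_good (T := T) hM0 [Lt.ai, Lt.ai, Lt.b, Lt.ci, Lt.b, Lt.a, Lt.a] [Lt.ci, Lt.a, Lt.a, Lt.b, Lt.a, Lt.b, Lt.a, Lt.c] (pat hy (rb_10 hy) 1 rfl) h
  · rcases brec_true h with h | h
    · exact mRel_good (T := T) hM0 [Lt.b, Lt.c, Lt.b] [Lt.c, Lt.b, Lt.ai, Lt.b, Lt.a, Lt.b, Lt.a, Lt.b, Lt.ai, Lt.ai, Lt.ci] (pat hy (rf_7 hy) 10 rfl) h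
    · rcases brec_true h with h | h
      · exact mRel_good (T := T) hM0 [Lt.b, Lt.c, Lt.b, Lt.c, Lt.a] [Lt.c, Lt.b, Lt.ai, Lt.b, Lt.a, Lt.b, Lt.a, Lt.b, Lt.ai] (pat hy (rf_7 hy) 10 rfl) h
      · exact mRel_good (T := T) hM0 [Lt.d, Lt.b, Lt.c, Lt.ai, Lt.c, Lt.c, Lt.d, Lt.ci, Lt.ci, Lt.a, Lt.ci] [Lt.b] (pat hy (rf_4 hy) 11 rfl) h
theorem dM_71_s (hy : Hy g H) (j z1 z2 u : ℕ) (h : dM_71 j z1 z2 u = true) : GdM g H u := by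
  unfold dM_71 at h
  rcases brec_true h with h | h
  · rcases brec_true h with h | h
    · exact mRel_good (T := T) hM0 [Lt.ai, Lt.ci, Lt.ci, Lt.d, Lt.b] [Lt.c, Lt.a, Lt.ci, Lt.b, Lt.d, Lt.b, Lt.d] (pat hy (rb_5 hy) 4 rfl) h
    · rcases brec_true h with h | h
      · exact mRel_good (T := T) hM0 [Lt.ai, Lt.ci, Lt.ci, Lt.d, Lt.b, Lt.d, Lt.b] [Lt.c, Lt.a, Lt.ci, Lt.b, Lt.d] (pat hy (rb_5 hy) 4 rfl) h
      · exact mRel_good (T := T) hM0 [Lt.ci, Lt.d, Lt.b, Lt.d, Lt.b] [Lt.c, Lt.a, Lt.c, Lt.a, Lt.ci, Lt.b, Lt.d] (pat hy (rb_5 hy) 6 rfl) h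
  · rcases brec_true h with h | h
    · rcases brec_true h with h | h
      · exact mRel_good (T := T) hM0 [Lt.c, Lt.c, Lt.d, Lt.ci, Lt.ci, Lt.a, Lt.ci, Lt.b, Lt.d] [Lt.a, Lt.ci, Lt.b] (pat hy (rf_4 hy) 3 rfl) h
      · exact mRel_good (T := T) hM0 [Lt.b, Lt.ai, Lt.ai, Lt.ci, Lt.d, Lt.a, Lt.a, Lt.d, Lt.b, Lt.d, Lt.ai] [Lt.ai, Lt.c, Lt.a, Lt.ci, Lt.d, Lt.a] (pat hy (rb_15 hy) 4 rfl) h
    · rcases brec_true h with h | h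
      · exact mRel_good (T := T) hM0 [Lt.d, Lt.b, Lt.d, Lt.c, Lt.c, Lt.a, Lt.c, Lt.a, Lt.ci, Lt.b] [Lt.b, Lt.d] (pat hy (rf_5 hy) 2 rfl) h
      · exact mRel_good (T := T) hM0 [Lt.a, Lt.a, Lt.d, Lt.b, Lt.d] [Lt.d, Lt.c, Lt.ai, Lt.ci, Lt.a, Lt.b, Lt.ai, Lt.ai, Lt.ci, Lt.d, Lt.a, Lt.a] (pat hy (rf_15 hy) 1 rfl) h
theorem dM_72_s (hy : Hy g H) (j z1 z2 u : ℕ) (h : dM_72 j z1 z2 u = true) : GdM g H u := by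
  unfold dM_72 at h
  rcases brec_true h with h | h
  · exact dM_70_s hy j z1 z2 u h
  · exact dM_71_s hy j z1 z2 u h
theorem dM_73_s (hy : Hy g H) (j z1 z2 u : ℕ) (h : dM_73 j z1 z2 u = true) : GdM g H u := by
  unfold dM_73 at h
  rcases brec_true h with h | h
  · exact dM_69_s hy j z1 z2 u h
  · exact dM_72_s hy j z1 z2 u h
theorem dM_74_s (hy : Hy g H) (j z1 z2 u : ℕ) (h : dM_74 j z1 z2 u = true) : GdM g H u := by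
  unfold dM_74 at h
  rcases brec_true h with h | h
  · rcases brec_true h with h | h
    · exact mRel_good (T := T) hM0 [Lt.ci, Lt.ci, Lt.d, Lt.c, Lt.c, Lt.a] [Lt.a, Lt.ci, Lt.d, Lt.c] (pat hy (rf_2 hy) 3 rfl) h
    · rcases brec_true h with h | h
      · exact mRel_good (T := T) hM0 [Lt.ci, Lt.ai, Lt.d, Lt.a, Lt.c, Lt.d, Lt.ci, Lt.ai, Lt.d] [Lt.d, Lt.ci, Lt.ai] (pat hy (rf_3 hy) 3 rfl) h
      · exact mRel_good (T := T) hM0 [Lt.a, Lt.b, Lt.ai, Lt.ai, Lt.ci, Lt.b, Lt.ci, Lt.b, Lt.c, Lt.b, Lt.ai] [Lt.b, Lt.ai, Lt.b] (pat hy (rb_7 hy) 10 rfl) h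
  · rcases brec_true h with h | h
    · exact mRel_good (T := T) hM0 [Lt.b, Lt.ci] [Lt.c, Lt.a, Lt.a, Lt.b, Lt.ai, Lt.b, Lt.ai, Lt.b, Lt.a, Lt.b, Lt.ci, Lt.b] (pat hy (rb_7 hy) 1 rfl) h
    · rcases brec_true h with h | h
      · exact mRel_good (T := T) hM0 [Lt.ai, Lt.c, Lt.c, Lt.d, Lt.ci] [Lt.ci, Lt.b, Lt.d, Lt.b, Lt.c, Lt.ai, Lt.c] (pat hy (rf_4 hy) 2 rfl) h
      · exact mRel_good (T := T) hM0 [Lt.b, Lt.ai, Lt.b, Lt.a, Lt.b, Lt.a, Lt.b] [Lt.ci, Lt.b, Lt.c, Lt.b, Lt.c, Lt.a, Lt.a] (pat hy (rb_7 hy) 5 rfl) h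
theorem dM_75_s (hy : Hy g H) (j z1 z2 u : ℕ) (h : dM_75 j z1 z2 u = true) : GdM g H u := by
  unfold dM_75 at h
  rcases brec_true h with h | h
  · rcases brec_true h with h | h
    · exact mRel_good (T := T) hM0 [Lt.ci, Lt.b, Lt.ci, Lt.b] [Lt.a, Lt.a, Lt.b, Lt.ai, Lt.b, Lt.ai, Lt.b, Lt.a, Lt.b, Lt.ci] (pat hy (rb_7 hy) 0 rfl) h
    · rcases brec_true h with h | h
      · exact mRel_good (T := T) hM0 [Lt.a, Lt.c, Lt.d, Lt.ci, Lt.ai, Lt.d, Lt.a, Lt.c, Lt.d, Lt.ci] [Lt.d, Lt.a] (pat hy (rf_3 hy) 0 rfl) h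
      · exact mRel_good (T := T) hM0 [Lt.ai, Lt.ci] [Lt.ci, Lt.d, Lt.c, Lt.ai, Lt.ci, Lt.ci, Lt.d, Lt.c] (pat hy (rf_2 hy) 2 rfl) h
  · rcases brec_true h with h | h
    · rcases brec_true h with h | h
      · exact mRel_good (T := T) hM0 [Lt.c, Lt.d, Lt.ci, Lt.ai, Lt.d] [Lt.ai, Lt.d, Lt.a, Lt.c, Lt.d, Lt.ci, Lt.ai] (pat hy (rf_3 hy) 1 rfl) h
      · exact mRel_good (T := T) hM0 [Lt.a, Lt.c, Lt.d, Lt.ci, Lt.ai, Lt.d, Lt.a, Lt.c, Lt.d] [Lt.d, Lt.a, Lt.c] (pat hy (rf_3 hy) 0 rfl) h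
    · rcases brec_true h with h | h
      · exact mRel_good (T := T) hM0 [Lt.c, Lt.d, Lt.ci] [Lt.ci, Lt.a, Lt.ci, Lt.b, Lt.d, Lt.b, Lt.c, Lt.ai, Lt.c] (pat hy (rf_4 hy) 4 rfl) h
      · exact mRel_good (T := T) hM0 [Lt.ci, Lt.b, Lt.c, Lt.b, Lt.c, Lt.a, Lt.a] [Lt.b, Lt.ai, Lt.b, Lt.a, Lt.b, Lt.a, Lt.b] (pat hy (rf_7 hy) 9 rfl) h
theorem dM_76_s (hy : Hy g H) (j z1 z2 u : ℕ) (h : dM_76 j z1 z2 u = true) : GdM g H u := by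
  unfold dM_76 at h
  rcases brec_true h with h | h
  · exact dM_74_s hy j z1 z2 u h
  · exact dM_75_s hy j z1 z2 u h
theorem dM_77_s (hy : Hy g H) (j z1 z2 u : ℕ) (h : dM_77 j z1 z2 u = true) : GdM g H u := by
  unfold dM_77 at h
  rcases brec_true h with h | h
  · rcases brec_true h with h | h
    · rcases brec_true h with h | h
      · exact mRel_good (T := T) hM0 [Lt.ci, Lt.ai, Lt.d] [Lt.d, Lt.ci, Lt.ai, Lt.d, Lt.a, Lt.c, Lt.d, Lt.ci, Lt.ai] (pat hy (rf_3 hy) 3 rfl) h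
      · exact mRel_good (T := T) hM0 [Lt.c, Lt.d, Lt.ci, Lt.ai, Lt.d, Lt.a, Lt.c, Lt.d] [Lt.ai, Lt.d, Lt.a, Lt.c] (pat hy (rf_3 hy) 1 rfl) h
    · rcases brec_true h with h | h
      · exact mRel_good (T := T) hM0 [Lt.a, Lt.c, Lt.d] [Lt.d, Lt.a, Lt.c, Lt.d, Lt.ci, Lt.ai, Lt.d, Lt.a, Lt.c] (pat hy (rf_3 hy) 0 rfl) h
      · exact mRel_good (T := T) hM0 [Lt.ci, Lt.b, Lt.d, Lt.b] [Lt.ai, Lt.ci, Lt.ai, Lt.ci, Lt.ci, Lt.d, Lt.b, Lt.d] (pat hy (rf_5 hy) 10 rfl) h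
  · rcases brec_true h with h | h
    · rcases brec_true h with h | h
      · exact mRel_good (T := T) hM0 [Lt.ci, Lt.ai, Lt.ci, Lt.ci, Lt.d, Lt.b, Lt.d, Lt.b] [Lt.a, Lt.ci, Lt.b, Lt.d] (pat hy (rb_5 hy) 3 rfl) h
      · exact mRel_good (T := T) hM0 [Lt.c, Lt.ai, Lt.ci, Lt.ci, Lt.d, Lt.c, Lt.c, Lt.a, Lt.ci] [Lt.d] (pat hy (rf_2 hy) 1 rfl) h
    · rcases brec_true h with h | h
      · exact mRel_good (T := T) hM0 [Lt.a, Lt.b, Lt.ai, Lt.b, Lt.ai, Lt.b, Lt.a, Lt.b, Lt.ci, Lt.b] [Lt.ai, Lt.ci, Lt.b, Lt.ci] (pat hy (rf_7 hy) 1 rfl) h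
      · exact mRel_good (T := T) hM0 [Lt.d, Lt.b, Lt.d, Lt.b, Lt.d, Lt.b, Lt.c, Lt.ai, Lt.ci, Lt.ai, Lt.ci, Lt.ci] [] (pat hy (rb_5 hy) 7 rfl) h
theorem dM_78_s (hy : Hy g H) (j z1 z2 u : ℕ) (h : dM_78 j z1 z2 u = true) : GdM g H u := by
  unfold dM_78 at h
  rcases brec_true h with h | h
  · rcases brec_true h with h | h
    · rcases brec_true h with h | h
      · exact mRel_good (T := T) hM0 [Lt.b, Lt.c, Lt.ai, Lt.ci, Lt.ai, Lt.ci] [Lt.d, Lt.b, Lt.d, Lt.b, Lt.d, Lt.c] (pat hy (rb_5 hy) 0 rfl) h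
      · exact mRel_good (T := T) hM0 [Lt.b, Lt.ai, Lt.b, Lt.ai, Lt.b, Lt.a, Lt.b] [Lt.ai, Lt.ai, Lt.ci, Lt.b, Lt.ci, Lt.b, Lt.c] (pat hy (rf_7 hy) 2 rfl) h
    · rcases brec_true h with h | h
      · exact mRel_good (T := T) hM0 [Lt.b, Lt.ai, Lt.ai, Lt.b, Lt.a, Lt.b, Lt.ci, Lt.ci, Lt.b, Lt.c, Lt.c, Lt.b] [Lt.a, Lt.b, Lt.ai] (pat hy (rb_9 hy) 12 rfl) h
      · exact mRel_good (T := T) hM0 [Lt.d, Lt.ci, Lt.ci, Lt.a, Lt.ci, Lt.b, Lt.d, Lt.b, Lt.c, Lt.ai, Lt.c, Lt.c] [] (pat hy (rf_4 hy) 5 rfl) h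
  · rcases brec_true h with h | h
    · rcases brec_true h with h | h
      · exact mRel_good (T := T) hM0 [Lt.d, Lt.b, Lt.d, Lt.b, Lt.d, Lt.b, Lt.c, Lt.ai, Lt.ci] [Lt.c, Lt.c, Lt.a] (pat hy (rb_5 hy) 7 rfl) h
      · exact mRel_good (T := T) hM0 [Lt.c, Lt.ai, Lt.ci, Lt.ai, Lt.ci, Lt.ci, Lt.d, Lt.b] [Lt.b, Lt.d, Lt.b, Lt.d] (pat hy (rb_5 hy) 1 rfl) h
    · rcases brec_true h with h | h
      · exact mRel_good (T := T) hM0 [Lt.ci, Lt.b, Lt.c, Lt.b, Lt.ai, Lt.b, Lt.a, Lt.b, Lt.a] [Lt.b, Lt.c, Lt.a, Lt.a, Lt.b] (pat hy (rb_7 hy) 2 rfl) h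
      · rcases brec_true h with h | h
        · exact mRel_good (T := T) hM0 [Lt.d, Lt.b, Lt.d] [Lt.c, Lt.c, Lt.a, Lt.c, Lt.a, Lt.ci, Lt.b, Lt.d, Lt.b] (pat hy (rb_5 hy) 7 rfl) h
        · exact mRel_good (T := T) hM0 [Lt.ci, Lt.ci, Lt.d, Lt.b, Lt.d, Lt.b, Lt.d, Lt.b] [Lt.a, Lt.c, Lt.a, Lt.ci] (pat hy (rb_5 hy) 5 rfl) h
theorem dM_79_s (hy : Hy g H) (j z1 z2 u : ℕ) (h : dM_79 j z1 z2 u = true) : GdM g H u := by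
  unfold dM_79 at h
  rcases brec_true h with h | h
  · exact dM_77_s hy j z1 z2 u h
  · exact dM_78_s hy j z1 z2 u h
theorem dM_80_s (hy : Hy g H) (j z1 z2 u : ℕ) (h : dM_80 j z1 z2 u = true) : GdM g H u := by
  unfold dM_80 at h
  rcases brec_true h with h | h
  · exact dM_76_s hy j z1 z2 u h
  · exact dM_79_s hy j z1 z2 u h
theorem dM_81_s (hy : Hy g H) (j z1 z2 u : ℕ) (h : dM_81 j z1 z2 u = true) : GdM g H u := by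
  unfold dM_81 at h
  rcases brec_true h with h | h
  · exact dM_73_s hy j z1 z2 u h
  · exact dM_80_s hy j z1 z2 u h
theorem dM_82_s (hy : Hy g H) (j z1 z2 u : ℕ) (h : dM_82 j z1 z2 u = true) : GdM g H u := by
  unfold dM_82 at h
  rcases brec_true h with h | h
  · rcases brec_true h with h | h
    · rcases brec_true h with h | h
      · exact mRel_good (T := T) hM0 [Lt.b, Lt.a, Lt.b, Lt.a, Lt.b, Lt.ai, Lt.ai, Lt.ci, Lt.b, Lt.ci] [Lt.a, Lt.b, Lt.ci, Lt.b] (pat hy (rb_7 hy) 7 rfl) h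
      · exact mRel_good (T := T) hM0 [Lt.ai, Lt.b, Lt.ai, Lt.b, Lt.a, Lt.b, Lt.ci, Lt.b, Lt.c, Lt.b] [Lt.b, Lt.ai, Lt.ai, Lt.ci] (pat hy (rf_7 hy) 3 rfl) h
    · rcases brec_true h with h | h
      · exact mRel_good (T := T) hM0 [Lt.b, Lt.ci, Lt.b, Lt.c, Lt.a, Lt.b, Lt.a, Lt.a] [Lt.c, Lt.a, Lt.b, Lt.ai, Lt.b, Lt.ai, Lt.ai] (pat hy (rf_8 hy) 9 rfl) h
      · exact mRel_good (T := T) hM0 [Lt.ci, Lt.d] [Lt.ai, Lt.ci, Lt.ci, Lt.d, Lt.c, Lt.c, Lt.a, Lt.ci] (pat hy (rf_2 hy) 9 rfl) h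
  · rcases brec_true h with h | h
    · rcases brec_true h with h | h
      · exact mRel_good (T := T) hM0 [Lt.c, Lt.b, Lt.c, Lt.a, Lt.a, Lt.b, Lt.ai] [Lt.b, Lt.c, Lt.b, Lt.ai, Lt.b, Lt.a, Lt.b] (pat hy (rf_7 hy) 11 rfl) h
      · exact mRel_good (T := T) hM0 [Lt.c, Lt.a, Lt.ci, Lt.d, Lt.c, Lt.ai, Lt.ci, Lt.ci, Lt.d, Lt.c] [] (pat hy (rf_2 hy) 7 rfl) h
    · rcases brec_true h with h | h
      · exact mRel_good (T := T) hM0 [Lt.d, Lt.b, Lt.d, Lt.b, Lt.d, Lt.c, Lt.c, Lt.a] [Lt.b, Lt.c, Lt.ai, Lt.ci] (pat hy (rf_5 hy) 0 rfl) h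
      · exact mRel_good (T := T) hM0 [Lt.a, Lt.b, Lt.a, Lt.b, Lt.ai, Lt.ai] [Lt.b, Lt.a, Lt.b, Lt.ci, Lt.b, Lt.c, Lt.b, Lt.c] (pat hy (rb_7 hy) 8 rfl) h
theorem dM_83_s (hy : Hy g H) (j z1 z2 u : ℕ) (h : dM_83 j z1 z2 u = true) : GdM g H u := by
  unfold dM_83 at h
  rcases brec_true h with h | h
  · rcases brec_true h with h | h
    · rcases brec_true h with h | h
      · exact mRel_good (T := T) hM0 [Lt.ai, Lt.c, Lt.c, Lt.d, Lt.ci, Lt.ci] [Lt.ci, Lt.b, Lt.d, Lt.b, Lt.c, Lt.ai] (pat hy (rf_4 hy) 2 rfl) h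
      · exact mRel_good (T := T) hM0 [Lt.b, Lt.d, Lt.ai] [Lt.d, Lt.ai, Lt.ai, Lt.d, Lt.c, Lt.ai, Lt.ci, Lt.a, Lt.b, Lt.ai, Lt.ai, Lt.ci, Lt.d, Lt.a] (pat hy (rf_15 hy) 4 rfl) h
    · rcases brec_true h with h | h
      · exact mRel_good (T := T) hM0 [Lt.b, Lt.c, Lt.ai, Lt.c, Lt.c, Lt.d, Lt.ci, Lt.ci, Lt.a] [Lt.d, Lt.b, Lt.c] (pat hy (rf_4 hy) 0 rfl) h
      · exact mRel_good (T := T) hM0 [Lt.b, Lt.ai, Lt.b, Lt.a, Lt.b, Lt.ci] [Lt.a, Lt.b, Lt.ai, Lt.ai, Lt.ci, Lt.b, Lt.ci, Lt.b] (pat hy (rf_7 hy) 4 rfl) h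
  · rcases brec_true h with h | h
    · rcases brec_true h with h | h
      · exact mRel_good (T := T) hM0 [Lt.ai, Lt.ci, Lt.b, Lt.ci, Lt.b, Lt.c, Lt.b, Lt.ai] [Lt.a, Lt.b, Lt.ai, Lt.b, Lt.ai, Lt.b] (pat hy (rb_7 hy) 13 rfl) h
      · exact mRel_good (T := T) hM0 [Lt.ci, Lt.b, Lt.a, Lt.a] [Lt.b, Lt.a, Lt.a, Lt.ci, Lt.a, Lt.a, Lt.b, Lt.a, Lt.b, Lt.a, Lt.c] (pat hy (rb_10 hy) 4 rfl) h
    · rcases brec_true h with h | h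
      · exact mRel_good (T := T) hM0 [Lt.ai, Lt.b, Lt.ai, Lt.b, Lt.a] [Lt.b, Lt.ai, Lt.ai, Lt.ci, Lt.b, Lt.ci, Lt.b, Lt.c, Lt.b] (pat hy (rf_7 hy) 3 rfl) h
      · rcases brec_true h with h | h
        · exact mRel_good (T := T) hM0 [Lt.c, Lt.ai, Lt.c, Lt.c, Lt.d, Lt.ci, Lt.ci, Lt.a, Lt.ci, Lt.b] [Lt.b, Lt.d] (pat hy (rf_4 hy) 1 rfl) h
        · exact mRel_good (T := T) hM0 [Lt.ci, Lt.b, Lt.ci, Lt.b, Lt.c] [Lt.a, Lt.b, Lt.ai, Lt.b, Lt.ai, Lt.ai, Lt.ai, Lt.ai, Lt.b, Lt.ai] (pat hy (rf_8 hy) 8 rfl) h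
theorem dM_84_s (hy : Hy g H) (j z1 z2 u : ℕ) (h : dM_84 j z1 z2 u = true) : GdM g H u := by
  unfold dM_84 at h
  rcases brec_true h with h | h
  · exact dM_82_s hy j z1 z2 u h
  · exact dM_83_s hy j z1 z2 u h
theorem dM_85_s (hy : Hy g H) (j z1 z2 u : ℕ) (h : dM_85 j z1 z2 u = true) : GdM g H u := by
  unfold dM_85 at h
  rcases brec_true h with h | h
  · rcases brec_true h with h | h
    · rcases brec_true h with h | h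
      · exact mRel_good (T := T) hM0 [Lt.ai, Lt.ci, Lt.b, Lt.c, Lt.b, Lt.c] [Lt.b, Lt.a, Lt.a, Lt.a, Lt.a, Lt.b, Lt.a, Lt.b, Lt.ai] (pat hy (rb_8 hy) 1 rfl) h
      · exact mRel_good (T := T) hM0 [Lt.c, Lt.a, Lt.ci, Lt.d, Lt.c, Lt.ai, Lt.ci, Lt.ci] [Lt.ci, Lt.d] (pat hy (rf_2 hy) 7 rfl) h
    · rcases brec_true h with h | h
      · exact mRel_good (T := T) hM0 [Lt.b, Lt.c] [Lt.ci, Lt.b, Lt.c, Lt.a, Lt.b, Lt.a, Lt.a, Lt.a, Lt.a, Lt.b, Lt.a, Lt.b, Lt.ai] (pat hy (rb_8 hy) 5 rfl) h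
      · exact mRel_good (T := T) hM0 [Lt.b, Lt.ai, Lt.c, Lt.a, Lt.ci, Lt.d, Lt.a, Lt.a] [Lt.ai, Lt.ai, Lt.ci, Lt.d, Lt.a, Lt.a, Lt.d, Lt.b, Lt.d] (pat hy (rf_15 hy) 12 rfl) h
  · rcases brec_true h with h | h
    · rcases brec_true h with h | h
      · exact mRel_good (T := T) hM0 [Lt.c, Lt.b, Lt.c, Lt.a, Lt.a, Lt.b, Lt.ai, Lt.b, Lt.ai, Lt.b] [Lt.b, Lt.c, Lt.b, Lt.ai] (pat hy (rf_7 hy) 11 rfl) h
      · exact mRel_good (T := T) hM0 [Lt.b, Lt.c, Lt.b, Lt.c, Lt.a, Lt.a] [Lt.c, Lt.b, Lt.ai, Lt.b, Lt.a, Lt.b, Lt.a, Lt.b] (pat hy (rf_7 hy) 10 rfl) h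
    · rcases brec_true h with h | h
      · exact mRel_good (T := T) hM0 [Lt.c, Lt.c, Lt.a, Lt.c, Lt.a, Lt.ci, Lt.b] [Lt.d, Lt.b, Lt.d, Lt.b, Lt.d] (pat hy (rf_5 hy) 5 rfl) h
      · rcases brec_true h with h | h
        · exact mRel_good (T := T) hM0 [Lt.ci, Lt.b, Lt.c, Lt.b, Lt.ai] [Lt.b, Lt.c, Lt.a, Lt.a, Lt.b, Lt.ai, Lt.b, Lt.ai, Lt.b] (pat hy (rb_7 hy) 2 rfl) h
        · exact mRel_good (T := T) hM0 [Lt.b, Lt.a, Lt.b] [Lt.ai, Lt.ai, Lt.c, Lt.ai, Lt.ai, Lt.b, Lt.ci, Lt.b, Lt.a, Lt.a, Lt.ci, Lt.ai] (pat hy (rf_10 hy) 2 rfl) h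
theorem dM_86_s (hy : Hy g H) (j z1 z2 u : ℕ) (h : dM_86 j z1 z2 u = true) : GdM g H u := by
  unfold dM_86 at h
  rcases brec_true h with h | h
  · rcases brec_true h with h | h
    · rcases brec_true h with h | h
      · exact mRel_good (T := T) hM0 [Lt.c, Lt.c, Lt.a, Lt.c] [Lt.d, Lt.b, Lt.d, Lt.b, Lt.d, Lt.b, Lt.c, Lt.ai] (pat hy (rf_5 hy) 5 rfl) h
      · exact mRel_good (T := T) hM0 [Lt.d, Lt.c, Lt.c, Lt.a, Lt.c, Lt.a, Lt.ci, Lt.b] [Lt.b, Lt.d, Lt.b, Lt.d] (pat hy (rf_5 hy) 4 rfl) h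
    · rcases brec_true h with h | h
      · exact mRel_good (T := T) hM0 [Lt.b, Lt.c, Lt.ai, Lt.c, Lt.d, Lt.a] [Lt.c, Lt.ai, Lt.ci, Lt.d, Lt.a, Lt.ci, Lt.b, Lt.c] (pat hy (rf_6 hy) 10 rfl) h
      · exact mRel_good (T := T) hM0 [Lt.a, Lt.a, Lt.ci, Lt.ai, Lt.b, Lt.ai, Lt.b, Lt.ai, Lt.ai, Lt.c] [Lt.b, Lt.c, Lt.b, Lt.a, Lt.a] (pat hy (rb_10 hy) 6 rfl) h
  · rcases brec_true h with h | h
    · rcases brec_true h with h | h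
      · exact mRel_good (T := T) hM0 [Lt.ai, Lt.b, Lt.a, Lt.b, Lt.ci, Lt.b, Lt.c, Lt.b, Lt.c] [Lt.b, Lt.a, Lt.b, Lt.ai, Lt.ai] (pat hy (rf_7 hy) 5 rfl) h
      · exact mRel_good (T := T) hM0 [Lt.ai, Lt.b, Lt.ai, Lt.b] [Lt.b, Lt.ai, Lt.ai, Lt.ci, Lt.b, Lt.ci, Lt.b, Lt.c, Lt.b, Lt.ai] (pat hy (rf_7 hy) 3 rfl) h
    · rcases brec_true h with h | h
      · exact mRel_good (T := T) hM0 [Lt.d, Lt.ci, Lt.ai, Lt.d, Lt.a, Lt.c, Lt.d] [Lt.ci, Lt.ai, Lt.d, Lt.a, Lt.c] (pat hy (rf_3 hy) 2 rfl) h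
      · rcases brec_true h with h | h
        · exact mRel_good (T := T) hM0 [Lt.a, Lt.a, Lt.b, Lt.a, Lt.b, Lt.ai, Lt.b, Lt.ci, Lt.ci, Lt.b, Lt.c] [Lt.b, Lt.a, Lt.b, Lt.ci] (pat hy (rf_9 hy) 0 rfl) h
        · exact mRel_good (T := T) hM0 [Lt.c, Lt.d, Lt.ci, Lt.ai] [Lt.ai, Lt.d, Lt.a, Lt.c, Lt.d, Lt.ci, Lt.ai, Lt.d] (pat hy (rf_3 hy) 1 rfl) h
theorem dM_87_s (hy : Hy g H) (j z1 z2 u : ℕ) (h : dM_87 j z1 z2 u = true) : GdM g H u := by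
  unfold dM_87 at h
  rcases brec_true h with h | h
  · exact dM_85_s hy j z1 z2 u h
  · exact dM_86_s hy j z1 z2 u h
theorem dM_88_s (hy : Hy g H) (j z1 z2 u : ℕ) (h : dM_88 j z1 z2 u = true) : GdM g H u := by
  unfold dM_88 at h
  rcases brec_true h with h | h
  · exact dM_84_s hy j z1 z2 u h
  · exact dM_87_s hy j z1 z2 u h
theorem dM_89_s (hy : Hy g H) (j z1 z2 u : ℕ) (h : dM_89 j z1 z2 u = true) : GdM g H u := by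
  unfold dM_89 at h
  rcases brec_true h with h | h
  · rcases brec_true h with h | h
    · rcases brec_true h with h | h
      · exact mRel_good (T := T) hM0 [Lt.a, Lt.a, Lt.b, Lt.ai, Lt.c, Lt.a, Lt.ci, Lt.d, Lt.a] [Lt.ci, Lt.d, Lt.a, Lt.a, Lt.d, Lt.b, Lt.d, Lt.ai] (pat hy (rf_15 hy) 10 rfl) h
      · exact mRel_good (T := T) hM0 [Lt.b, Lt.a, Lt.b, Lt.ci, Lt.b, Lt.c, Lt.b, Lt.c] [Lt.a, Lt.b, Lt.a, Lt.b, Lt.ai, Lt.ai] (pat hy (rf_7 hy) 6 rfl) h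
    · rcases brec_true h with h | h
      · exact mRel_good (T := T) hM0 [Lt.ai, Lt.b, Lt.ai, Lt.b, Lt.ai, Lt.ai, Lt.c, Lt.ai, Lt.ai, Lt.b, Lt.ci, Lt.b, Lt.a, Lt.a] [Lt.c] (pat hy (rb_10 hy) 9 rfl) h
      · exact mRel_good (T := T) hM0 [Lt.ci, Lt.ai] [Lt.d, Lt.ci, Lt.ai, Lt.d, Lt.a, Lt.c, Lt.d, Lt.ci, Lt.ai, Lt.d] (pat hy (rf_3 hy) 3 rfl) h
  · rcases brec_true h with h | h
    · rcases brec_true h with h | h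
      · exact mRel_good (T := T) hM0 [Lt.ci, Lt.b, Lt.d, Lt.b, Lt.c, Lt.ai, Lt.c] [Lt.ai, Lt.c, Lt.c, Lt.d, Lt.ci] (pat hy (rf_4 hy) 9 rfl) h
      · exact mRel_good (T := T) hM0 [Lt.a, Lt.b, Lt.ai] [Lt.b, Lt.ai, Lt.b, Lt.a, Lt.b, Lt.ci, Lt.b, Lt.c, Lt.b, Lt.c, Lt.a] (pat hy (rb_7 hy) 10 rfl) h
    · rcases brec_true h with h | h
      · exact mRel_good (T := T) hM0 [Lt.b, Lt.d, Lt.b, Lt.d, Lt.c, Lt.c] [Lt.d, Lt.b, Lt.c, Lt.ai, Lt.ci, Lt.ai] (pat hy (rf_5 hy) 1 rfl) h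
      · exact mRel_good (T := T) hM0 [Lt.b, Lt.ai, Lt.b, Lt.a, Lt.b, Lt.ci, Lt.b, Lt.c, Lt.b, Lt.c, Lt.a, Lt.a] [Lt.a, Lt.b] (pat hy (rf_7 hy) 4 rfl) h
theorem dM_90_s (hy : Hy g H) (j z1 z2 u : ℕ) (h : dM_90 j z1 z2 u = true) : GdM g H u := by
  unfold dM_90 at h
  rcases brec_true h with h | h
  · rcases brec_true h with h | h
    · rcases brec_true h with h | h
      · exact mRel_good (T := T) hM0 [Lt.d, Lt.b, Lt.d, Lt.c, Lt.c, Lt.a, Lt.c] [Lt.b, Lt.d, Lt.b, Lt.c, Lt.ai] (pat hy (rf_5 hy) 2 rfl) h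
      · exact mRel_good (T := T) hM0 [Lt.c, Lt.c, Lt.d, Lt.ci, Lt.ci, Lt.a, Lt.ci, Lt.b, Lt.d, Lt.b, Lt.c, Lt.ai] [] (pat hy (rf_4 hy) 3 rfl) h
    · rcases brec_true h with h | h
      · exact mRel_good (T := T) hM0 [Lt.c, Lt.d] [Lt.ci, Lt.a, Lt.ci, Lt.b, Lt.d, Lt.b, Lt.c, Lt.ai, Lt.c, Lt.c] (pat hy (rf_4 hy) 4 rfl) h
      · exact mRel_good (T := T) hM0 [Lt.c, Lt.b, Lt.a, Lt.a] [Lt.b, Lt.a, Lt.a, Lt.ci, Lt.ai, Lt.b, Lt.ai, Lt.b, Lt.ai, Lt.ai, Lt.c] (pat hy (rf_10 hy) 10 rfl) h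
  · rcases brec_true h with h | h
    · rcases brec_true h with h | h
      · exact mRel_good (T := T) hM0 [Lt.a, Lt.b, Lt.ai, Lt.b, Lt.ai, Lt.ai, Lt.b, Lt.a, Lt.b, Lt.ci, Lt.ci, Lt.b, Lt.c, Lt.c] [Lt.b] (pat hy (rb_9 hy) 9 rfl) h
      · exact mRel_good (T := T) hM0 [Lt.ci, Lt.a, Lt.a, Lt.b, Lt.a, Lt.b, Lt.a, Lt.c, Lt.ai, Lt.ai] [Lt.ai, Lt.ai, Lt.b, Lt.ci, Lt.b] (pat hy (rf_10 hy) 14 rfl) h
    · rcases brec_true h with h | h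
      · exact mRel_good (T := T) hM0 [Lt.a, Lt.a, Lt.b, Lt.ai, Lt.b, Lt.ai, Lt.b, Lt.a] [Lt.ci, Lt.b, Lt.ci, Lt.b, Lt.c, Lt.b] (pat hy (rf_7 hy) 0 rfl) h
      · rcases brec_true h with h | h
        · exact mRel_good (T := T) hM0 [Lt.b, Lt.a, Lt.b] [Lt.ai, Lt.b, Lt.a, Lt.b, Lt.ci, Lt.b, Lt.c, Lt.b, Lt.c, Lt.a, Lt.a] (pat hy (rb_7 hy) 9 rfl) h
        · exact mRel_good (T := T) hM0 [Lt.a, Lt.a, Lt.b, Lt.ai, Lt.b, Lt.ai, Lt.b] [Lt.ci, Lt.b, Lt.ci, Lt.b, Lt.c, Lt.b, Lt.ai] (pat hy (rf_7 hy) 0 rfl) h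
theorem dM_91_s (hy : Hy g H) (j z1 z2 u : ℕ) (h : dM_91 j z1 z2 u = true) : GdM g H u := by
  unfold dM_91 at h
  rcases brec_true h with h | h
  · exact dM_89_s hy j z1 z2 u h
  · exact dM_90_s hy j z1 z2 u h
theorem dM_92_s (hy : Hy g H) (j z1 z2 u : ℕ) (h : dM_92 j z1 z2 u = true) : GdM g H u := by
  unfold dM_92 at h
  rcases brec_true h with h | h
  · rcases brec_true h with h | h
    · rcases brec_true h with h | h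
      · exact mRel_good (T := T) hM0 [Lt.b, Lt.ai, Lt.b, Lt.a, Lt.a, Lt.b, Lt.a, Lt.b, Lt.ai, Lt.b, Lt.ci, Lt.ci] [Lt.ci, Lt.ci, Lt.b] (pat hy (rf_9 hy) 12 rfl) h
      · exact mRel_good (T := T) hM0 [Lt.a, Lt.b, Lt.a, Lt.b, Lt.ai, Lt.ci] [Lt.ai, Lt.ai, Lt.ai, Lt.b, Lt.ai, Lt.ci, Lt.b, Lt.c, Lt.b] (pat hy (rf_8 hy) 3 rfl) h
    · rcases brec_true h with h | h
      · exact mRel_good (T := T) hM0 [Lt.a, Lt.ci, Lt.b, Lt.d, Lt.b] [Lt.ci, Lt.ai, Lt.ci, Lt.ci, Lt.d, Lt.b, Lt.d] (pat hy (rf_5 hy) 9 rfl) h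
      · exact mRel_good (T := T) hM0 [Lt.b, Lt.c, Lt.b, Lt.ai, Lt.b, Lt.a, Lt.b, Lt.a, Lt.b, Lt.ai, Lt.ai, Lt.ci, Lt.b, Lt.ci] [] (pat hy (rb_7 hy) 3 rfl) h
  · rcases brec_true h with h | h
    · rcases brec_true h with h | h
      · exact mRel_good (T := T) hM0 [Lt.a, Lt.b, Lt.ci] [Lt.b, Lt.a, Lt.b, Lt.a, Lt.b, Lt.ai, Lt.ai, Lt.ci, Lt.b, Lt.ci, Lt.b] (pat hy (rf_7 hy) 7 rfl) h
      · exact mRel_good (T := T) hM0 [Lt.a, Lt.c, Lt.a, Lt.ci, Lt.b, Lt.d, Lt.b, Lt.d, Lt.b] [Lt.ci, Lt.ci, Lt.d] (pat hy (rf_5 hy) 7 rfl) h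
    · rcases brec_true h with h | h
      · exact mRel_good (T := T) hM0 [Lt.b, Lt.c, Lt.a] [Lt.ci, Lt.b, Lt.c, Lt.b, Lt.ai, Lt.b, Lt.a, Lt.b, Lt.a, Lt.b, Lt.ai] (pat hy (rf_7 hy) 12 rfl) h
      · rcases brec_true h with h | h
        · exact mRel_good (T := T) hM0 [Lt.b, Lt.a, Lt.b, Lt.ci, Lt.ci, Lt.b, Lt.c, Lt.c, Lt.b, Lt.a, Lt.b, Lt.ai, Lt.b] [Lt.a, Lt.a] (pat hy (rb_9 hy) 0 rfl) h
        · exact mRel_good (T := T) hM0 [Lt.ci, Lt.d, Lt.c, Lt.c, Lt.a, Lt.ci, Lt.d, Lt.c, Lt.ai, Lt.ci] [] (pat hy (rf_2 hy) 4 rfl) h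
theorem dM_93_s (hy : Hy g H) (j z1 z2 u : ℕ) (h : dM_93 j z1 z2 u = true) : GdM g H u := by
  unfold dM_93 at h
  rcases brec_true h with h | h
  · rcases brec_true h with h | h
    · rcases brec_true h with h | h
      · exact mRel_good (T := T) hM0 [Lt.a, Lt.ci, Lt.b] [Lt.c, Lt.c, Lt.d, Lt.ci, Lt.ci, Lt.a, Lt.ci, Lt.b, Lt.d] (pat hy (rf_4 hy) 8 rfl) h
      · exact mRel_good (T := T) hM0 [Lt.b, Lt.a, Lt.b, Lt.a, Lt.b, Lt.ai, Lt.ai, Lt.ci, Lt.b, Lt.ci, Lt.b] [Lt.a, Lt.b, Lt.ci] (pat hy (rb_7 hy) 7 rfl) h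
    · rcases brec_true h with h | h
      · exact mRel_good (T := T) hM0 [Lt.a, Lt.ci, Lt.d] [Lt.ci, Lt.a, Lt.b, Lt.ai, Lt.ai, Lt.ci, Lt.d, Lt.a, Lt.a, Lt.d, Lt.b, Lt.d, Lt.ai, Lt.ai] (pat hy (rf_15 hy) 15 rfl) h
      · exact mRel_good (T := T) hM0 [Lt.b, Lt.a, Lt.b, Lt.ci, Lt.b, Lt.c, Lt.b, Lt.c, Lt.a, Lt.a, Lt.b, Lt.ai] [Lt.a, Lt.b] (pat hy (rf_7 hy) 6 rfl) h
  · rcases brec_true h with h | h
    · rcases brec_true h with h | h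
      · exact mRel_good (T := T) hM0 [Lt.c, Lt.c, Lt.d, Lt.ci] [Lt.a, Lt.ci, Lt.b, Lt.d, Lt.b, Lt.c, Lt.ai, Lt.c] (pat hy (rf_4 hy) 3 rfl) h
      · exact mRel_good (T := T) hM0 [Lt.b, Lt.ai, Lt.ai] [Lt.ai, Lt.b, Lt.ai, Lt.b, Lt.a, Lt.b, Lt.ci, Lt.b, Lt.c, Lt.b, Lt.c] (pat hy (rb_7 hy) 11 rfl) h
    · rcases brec_true h with h | h
      · exact mRel_good (T := T) hM0 [Lt.a, Lt.a, Lt.a, Lt.a, Lt.b, Lt.a] [Lt.b, Lt.ai, Lt.ci, Lt.b, Lt.c, Lt.b, Lt.c, Lt.a, Lt.b] (pat hy (rf_8 hy) 0 rfl) h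
      · rcases brec_true h with h | h
        · exact mRel_good (T := T) hM0 [Lt.c, Lt.ai, Lt.ai, Lt.b, Lt.ci, Lt.b, Lt.a, Lt.a] [Lt.a, Lt.a, Lt.b, Lt.a, Lt.b, Lt.a, Lt.c] (pat hy (rb_10 hy) 0 rfl) h
        · exact mRel_good (T := T) hM0 [Lt.d, Lt.b, Lt.d, Lt.b, Lt.d, Lt.b] [Lt.c, Lt.c, Lt.a, Lt.c, Lt.a, Lt.ci] (pat hy (rb_5 hy) 7 rfl) h
theorem dM_94_s (hy : Hy g H) (j z1 z2 u : ℕ) (h : dM_94 j z1 z2 u = true) : GdM g H u := by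
  unfold dM_94 at h
  rcases brec_true h with h | h
  · exact dM_92_s hy j z1 z2 u h
  · exact dM_93_s hy j z1 z2 u h
theorem dM_95_s (hy : Hy g H) (j z1 z2 u : ℕ) (h : dM_95 j z1 z2 u = true) : GdM g H u := by
  unfold dM_95 at h
  rcases brec_true h with h | h
  · exact dM_91_s hy j z1 z2 u h
  · exact dM_94_s hy j z1 z2 u h
theorem dM_96_s (hy : Hy g H) (j z1 z2 u : ℕ) (h : dM_96 j z1 z2 u = true) : GdM g H u := by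
  unfold dM_96 at h
  rcases brec_true h with h | h
  · exact dM_88_s hy j z1 z2 u h
  · exact dM_95_s hy j z1 z2 u h
theorem dM_97_s (hy : Hy g H) (j z1 z2 u : ℕ) (h : dM_97 j z1 z2 u = true) : GdM g H u := by
  unfold dM_97 at h
  rcases brec_true h with h | h
  · exact dM_81_s hy j z1 z2 u h
  · exact dM_96_s hy j z1 z2 u h
theorem dM_98_s (hy : Hy g H) (j z1 z2 u : ℕ) (h : dM_98 j z1 z2 u = true) : GdM g H u := by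
  unfold dM_98 at h
  rcases brec_true h with h | h
  · exact dM_66_s hy j z1 z2 u h
  · exact dM_97_s hy j z1 z2 u h
theorem dM_99_s (hy : Hy g H) (j z1 z2 u : ℕ) (h : dM_99 j z1 z2 u = true) : GdM g H u := by
  unfold dM_99 at h
  rcases brec_true h with h | h
  · exact dM_43_s hy j z1 z2 u h
  · exact dM_98_s hy j z1 z2 u h
theorem dM_100_s (hy : Hy g H) (j z1 z2 u : ℕ) (h : dM_100 j z1 z2 u = true) : GdM g H u := by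
  unfold dM_100 at h
  rcases brec_true h with h | h
  · rcases brec_true h with h | h
    · rcases brec_true h with h | h
      · exact mRel_good (T := T) hM0 [Lt.a, Lt.a, Lt.d, Lt.b, Lt.d, Lt.ai] [Lt.d, Lt.c, Lt.ai, Lt.ci, Lt.a, Lt.b, Lt.ai, Lt.ai, Lt.ci, Lt.d, Lt.a] (pat hy (rf_15 hy) 1 rfl) h
      · exact mRel_good (T := T) hM0 [Lt.a, Lt.b, Lt.ai] [Lt.ai, Lt.ci, Lt.b, Lt.ci, Lt.b, Lt.c, Lt.b, Lt.ai, Lt.b, Lt.a, Lt.b] (pat hy (rf_7 hy) 1 rfl) h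
    · rcases brec_true h with h | h
      · exact mRel_good (T := T) hM0 [Lt.c, Lt.ai] [Lt.b, Lt.d, Lt.b, Lt.d, Lt.b, Lt.d, Lt.c, Lt.c, Lt.a, Lt.c] (pat hy (rb_5 hy) 1 rfl) h
      · exact mRel_good (T := T) hM0 [Lt.b, Lt.c, Lt.b, Lt.ai, Lt.b, Lt.a] [Lt.c, Lt.b, Lt.c, Lt.a, Lt.a, Lt.b, Lt.ai, Lt.b] (pat hy (rb_7 hy) 3 rfl) h
  · rcases brec_true h with h | h
    · rcases brec_true h with h | h
      · exact mRel_good (T := T) hM0 [Lt.d, Lt.a, Lt.c, Lt.d, Lt.ci, Lt.ai, Lt.d, Lt.a, Lt.c] [Lt.a, Lt.c, Lt.d] (pat hy (rf_3 hy) 5 rfl) h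
      · exact mRel_good (T := T) hM0 [Lt.c, Lt.a, Lt.ci, Lt.b, Lt.d, Lt.b, Lt.d] [Lt.ai, Lt.ci, Lt.ci, Lt.d, Lt.b] (pat hy (rf_5 hy) 8 rfl) h
    · rcases brec_true h with h | h
      · exact mRel_good (T := T) hM0 [Lt.b, Lt.a, Lt.b, Lt.ci, Lt.b, Lt.c, Lt.b, Lt.c, Lt.a] [Lt.a, Lt.b, Lt.a, Lt.b, Lt.ai] (pat hy (rf_7 hy) 6 rfl) h
      · exact mRel_good (T := T) hM0 [Lt.a, Lt.ci, Lt.d, Lt.c, Lt.ai, Lt.ci, Lt.ci, Lt.d, Lt.c, Lt.c] [] (pat hy (rf_2 hy) 8 rfl) h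
theorem dM_101_s (hy : Hy g H) (j z1 z2 u : ℕ) (h : dM_101 j z1 z2 u = true) : GdM g H u := by
  unfold dM_101 at h
  rcases brec_true h with h | h
  · rcases brec_true h with h | h
    · rcases brec_true h with h | h
      · exact mRel_good (T := T) hM0 [Lt.b, Lt.ai, Lt.c, Lt.a, Lt.ci, Lt.d, Lt.a, Lt.a, Lt.d, Lt.b, Lt.d, Lt.ai] [Lt.ai, Lt.ai, Lt.ci, Lt.d, Lt.a] (pat hy (rf_15 hy) 12 rfl) h
      · exact mRel_good (T := T) hM0 [Lt.b, Lt.ai, Lt.b, Lt.ai, Lt.ai, Lt.c, Lt.ai] [Lt.a, Lt.c, Lt.ai, Lt.ai, Lt.b, Lt.c, Lt.b, Lt.a] (pat hy (rb_10 hy) 10 rfl) h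
    · rcases brec_true h with h | h
      · exact mRel_good (T := T) hM0 [Lt.b, Lt.ai, Lt.ai, Lt.ci, Lt.b, Lt.ci, Lt.b, Lt.c, Lt.b, Lt.ai, Lt.b] [Lt.ai, Lt.b, Lt.ai] (pat hy (rb_7 hy) 11 rfl) h
      · exact mRel_good (T := T) hM0 [Lt.ai, Lt.ai, Lt.b, Lt.ci, Lt.b, Lt.a, Lt.a, Lt.ci, Lt.ai] [Lt.ci, Lt.a, Lt.a, Lt.b, Lt.a, Lt.b] (pat hy (rb_10 hy) 1 rfl) h
  · rcases brec_true h with h | h
    · rcases brec_true h with h | h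
      · exact mRel_good (T := T) hM0 [Lt.b, Lt.c, Lt.b, Lt.ai, Lt.b, Lt.a, Lt.b, Lt.a, Lt.b, Lt.ai] [Lt.c, Lt.b, Lt.c, Lt.a] (pat hy (rb_7 hy) 3 rfl) h
      · exact mRel_good (T := T) hM0 [Lt.ci, Lt.a, Lt.ci, Lt.b, Lt.d, Lt.b, Lt.c, Lt.ai, Lt.c, Lt.c, Lt.d, Lt.ci] [] (pat hy (rf_4 hy) 7 rfl) h
    · rcases brec_true h with h | h
      · exact mRel_good (T := T) hM0 [Lt.ai, Lt.b, Lt.a, Lt.b, Lt.a] [Lt.b, Lt.ci, Lt.b, Lt.c, Lt.b, Lt.c, Lt.a, Lt.a, Lt.b] (pat hy (rb_7 hy) 6 rfl) h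
      · rcases brec_true h with h | h
        · exact mRel_good (T := T) hM0 [Lt.b, Lt.ci, Lt.b, Lt.c, Lt.b, Lt.c, Lt.a] [Lt.ai, Lt.b, Lt.a, Lt.b, Lt.a, Lt.b, Lt.ai] (pat hy (rf_7 hy) 8 rfl) h
        · exact mRel_good (T := T) hM0 [Lt.ci, Lt.ai, Lt.d, Lt.a, Lt.c] [Lt.d, Lt.ci, Lt.ai, Lt.d, Lt.a, Lt.c, Lt.d] (pat hy (rf_3 hy) 3 rfl) h
theorem dM_102_s (hy : Hy g H) (j z1 z2 u : ℕ) (h : dM_102 j z1 z2 u = true) : GdM g H u := by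
  unfold dM_102 at h
  rcases brec_true h with h | h
  · exact dM_100_s hy j z1 z2 u h
  · exact dM_101_s hy j z1 z2 u h
theorem dM_103_s (hy : Hy g H) (j z1 z2 u : ℕ) (h : dM_103 j z1 z2 u = true) : GdM g H u := by
  unfold dM_103 at h
  rcases brec_true h with h | h
  · rcases brec_true h with h | h
    · rcases brec_true h with h | h
      · exact mRel_good (T := T) hM0 [Lt.ai, Lt.ai, Lt.ci, Lt.d, Lt.a] [Lt.b, Lt.ai, Lt.c, Lt.a, Lt.ci, Lt.d, Lt.a, Lt.a, Lt.d, Lt.b, Lt.d, Lt.ai] (pat hy (rb_15 hy) 5 rfl) h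
      · exact mRel_good (T := T) hM0 [Lt.ai, Lt.ai, Lt.ci, Lt.b, Lt.ci, Lt.b] [Lt.b, Lt.ai, Lt.b, Lt.ai, Lt.b, Lt.a, Lt.b, Lt.ci] (pat hy (rb_7 hy) 12 rfl) h
    · rcases brec_true h with h | h
      · exact mRel_good (T := T) hM0 [Lt.d, Lt.b, Lt.c, Lt.ai] [Lt.b, Lt.d, Lt.b, Lt.d, Lt.c, Lt.c, Lt.a, Lt.c] (pat hy (rb_5 hy) 11 rfl) h
      · exact mRel_good (T := T) hM0 [Lt.a, Lt.b] [Lt.b, Lt.ai, Lt.b, Lt.a, Lt.b, Lt.ci, Lt.b, Lt.c, Lt.b, Lt.c, Lt.a, Lt.a] (pat hy (rb_7 hy) 10 rfl) h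
  · rcases brec_true h with h | h
    · rcases brec_true h with h | h
      · exact mRel_good (T := T) hM0 [Lt.ai, Lt.c, Lt.c, Lt.d, Lt.ci, Lt.ci, Lt.a, Lt.ci, Lt.b, Lt.d, Lt.b, Lt.c] [] (pat hy (rf_4 hy) 2 rfl) h
      · exact mRel_good (T := T) hM0 [Lt.d, Lt.a, Lt.c, Lt.d, Lt.ci, Lt.ai, Lt.d, Lt.a, Lt.c, Lt.d, Lt.ci, Lt.ai] [] (pat hy (rf_3 hy) 5 rfl) h
    · rcases brec_true h with h | h
      · exact mRel_good (T := T) hM0 [Lt.ci, Lt.d, Lt.b, Lt.d] [Lt.c, Lt.a, Lt.c, Lt.a, Lt.ci, Lt.b, Lt.d, Lt.b] (pat hy (rb_5 hy) 6 rfl) h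
      · rcases brec_true h with h | h
        · exact mRel_good (T := T) hM0 [Lt.ai, Lt.ai, Lt.ci, Lt.b, Lt.ci, Lt.b, Lt.c, Lt.b, Lt.ai, Lt.b, Lt.a, Lt.b] [Lt.b, Lt.ai] (pat hy (rb_7 hy) 12 rfl) h
        · exact mRel_good (T := T) hM0 [Lt.b, Lt.d, Lt.b, Lt.d, Lt.b, Lt.c] [Lt.d, Lt.c, Lt.c, Lt.a, Lt.c, Lt.a] (pat hy (rb_5 hy) 8 rfl) h
theorem dM_104_s (hy : Hy g H) (j z1 z2 u : ℕ) (h : dM_104 j z1 z2 u = true) : GdM g H u := by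
  unfold dM_104 at h
  rcases brec_true h with h | h
  · rcases brec_true h with h | h
    · rcases brec_true h with h | h
      · exact mRel_good (T := T) hM0 [Lt.b, Lt.a, Lt.b, Lt.ai] [Lt.ai, Lt.b, Lt.a, Lt.b, Lt.ci, Lt.b, Lt.c, Lt.b, Lt.c, Lt.a] (pat hy (rb_7 hy) 9 rfl) h
      · exact mRel_good (T := T) hM0 [Lt.b, Lt.a, Lt.b, Lt.ai, Lt.ai, Lt.ci, Lt.b, Lt.ci, Lt.b, Lt.c, Lt.b] [Lt.ai, Lt.b, Lt.a] (pat hy (rb_7 hy) 9 rfl) h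
    · rcases brec_true h with h | h
      · exact mRel_good (T := T) hM0 [Lt.ai, Lt.ci, Lt.ai, Lt.ci] [Lt.ci, Lt.b, Lt.d, Lt.b, Lt.d, Lt.b, Lt.d, Lt.c] (pat hy (rb_5 hy) 2 rfl) h
      · exact mRel_good (T := T) hM0 [Lt.ci, Lt.b, Lt.ci, Lt.b] [Lt.a, Lt.b, Lt.ai, Lt.b, Lt.ai, Lt.ai, Lt.ai, Lt.ai, Lt.b, Lt.ai, Lt.ci] (pat hy (rf_8 hy) 8 rfl) h
  · rcases brec_true h with h | h
    · rcases brec_true h with h | h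
      · exact mRel_good (T := T) hM0 [Lt.c, Lt.a, Lt.a, Lt.b, Lt.ai, Lt.c, Lt.a, Lt.ci, Lt.d, Lt.a] [Lt.d, Lt.a, Lt.a, Lt.d, Lt.b, Lt.d, Lt.ai] (pat hy (rf_15 hy) 9 rfl) h
      · exact mRel_good (T := T) hM0 [Lt.ai, Lt.ci, Lt.ai, Lt.ci, Lt.ci, Lt.d] [Lt.ci, Lt.b, Lt.d, Lt.b, Lt.d, Lt.b] (pat hy (rb_5 hy) 2 rfl) h
    · rcases brec_true h with h | h
      · exact mRel_good (T := T) hM0 [Lt.b, Lt.ai, Lt.ai, Lt.c, Lt.ai, Lt.ai, Lt.b, Lt.ci, Lt.b, Lt.a] [Lt.a, Lt.b, Lt.a, Lt.c, Lt.ai] (pat hy (rb_10 hy) 12 rfl) h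
      · rcases brec_true h with h | h
        · exact mRel_good (T := T) hM0 [Lt.d, Lt.ci, Lt.ci, Lt.a, Lt.ci, Lt.b, Lt.d, Lt.b, Lt.c, Lt.ai, Lt.c] [Lt.ci] (pat hy (rf_4 hy) 5 rfl) h
        · exact mRel_good (T := T) hM0 [Lt.b, Lt.c, Lt.b, Lt.c, Lt.a, Lt.a, Lt.b] [Lt.c, Lt.b, Lt.ai, Lt.b, Lt.a, Lt.b, Lt.a] (pat hy (rf_7 hy) 10 rfl) h
theorem dM_105_s (hy : Hy g H) (j z1 z2 u : ℕ) (h : dM_105 j z1 z2 u = true) : GdM g H u := by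
  unfold dM_105 at h
  rcases brec_true h with h | h
  · exact dM_103_s hy j z1 z2 u h
  · exact dM_104_s hy j z1 z2 u h
theorem dM_106_s (hy : Hy g H) (j z1 z2 u : ℕ) (h : dM_106 j z1 z2 u = true) : GdM g H u := by
  unfold dM_106 at h
  rcases brec_true h with h | h
  · exact dM_102_s hy j z1 z2 u h
  · exact dM_105_s hy j z1 z2 u h
theorem dM_107_s (hy : Hy g H) (j z1 z2 u : ℕ) (h : dM_107 j z1 z2 u = true) : GdM g H u := by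
  unfold dM_107 at h
  rcases brec_true h with h | h
  · rcases brec_true h with h | h
    · rcases brec_true h with h | h
      · exact mRel_good (T := T) hM0 [Lt.ai, Lt.ci, Lt.ci, Lt.d] [Lt.c, Lt.a, Lt.ci, Lt.b, Lt.d, Lt.b, Lt.d, Lt.b] (pat hy (rb_5 hy) 4 rfl) h
      · exact mRel_good (T := T) hM0 [Lt.a, Lt.a, Lt.b, Lt.a, Lt.b, Lt.a, Lt.c, Lt.ai, Lt.ai, Lt.b] [Lt.c, Lt.ai, Lt.ai, Lt.b, Lt.ci] (pat hy (rf_10 hy) 0 rfl) h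
    · rcases brec_true h with h | h
      · exact mRel_good (T := T) hM0 [Lt.b, Lt.ai, Lt.b, Lt.a] [Lt.ci, Lt.b, Lt.c, Lt.b, Lt.c, Lt.a, Lt.a, Lt.b, Lt.ai, Lt.b] (pat hy (rb_7 hy) 5 rfl) h
      · exact mRel_good (T := T) hM0 [Lt.c, Lt.c] [Lt.a, Lt.ci, Lt.b, Lt.d, Lt.b, Lt.c, Lt.ai, Lt.c, Lt.c, Lt.d] (pat hy (rf_4 hy) 3 rfl) h
  · rcases brec_true h with h | h
    · rcases brec_true h with h | h
      · exact mRel_good (T := T) hM0 [Lt.a, Lt.b, Lt.ci, Lt.b, Lt.c, Lt.b, Lt.c, Lt.a, Lt.a, Lt.b, Lt.ai] [Lt.b, Lt.a, Lt.b] (pat hy (rf_7 hy) 7 rfl) h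
      · exact mRel_good (T := T) hM0 [Lt.a, Lt.a, Lt.ci, Lt.a, Lt.a, Lt.b, Lt.a, Lt.b, Lt.a, Lt.c, Lt.ai] [Lt.b, Lt.ci, Lt.b, Lt.a] (pat hy (rf_10 hy) 12 rfl) h
    · rcases brec_true h with h | h
      · exact mRel_good (T := T) hM0 [Lt.c, Lt.a, Lt.ci, Lt.d, Lt.c, Lt.ai, Lt.ci] [Lt.ci, Lt.d, Lt.c] (pat hy (rf_2 hy) 7 rfl) h
      · exact mRel_good (T := T) hM0 [Lt.c, Lt.ai, Lt.c, Lt.c, Lt.d, Lt.ci] [Lt.b, Lt.d, Lt.b, Lt.c, Lt.ai, Lt.c] (pat hy (rf_4 hy) 1 rfl) h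
theorem dM_108_s (hy : Hy g H) (j z1 z2 u : ℕ) (h : dM_108 j z1 z2 u = true) : GdM g H u := by
  unfold dM_108 at h
  rcases brec_true h with h | h
  · rcases brec_true h with h | h
    · rcases brec_true h with h | h
      · exact mRel_good (T := T) hM0 [Lt.ai, Lt.b, Lt.ai, Lt.ai, Lt.b, Lt.a, Lt.b, Lt.ci, Lt.ci, Lt.b] [Lt.b, Lt.ai, Lt.b, Lt.ci, Lt.ci] (pat hy (rb_9 hy) 11 rfl) h
      · exact mRel_good (T := T) hM0 [Lt.b, Lt.ai, Lt.b, Lt.a, Lt.b, Lt.ci, Lt.b, Lt.c, Lt.b, Lt.c] [Lt.a, Lt.b, Lt.ai, Lt.ai] (pat hy (rf_7 hy) 4 rfl) h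
    · rcases brec_true h with h | h
      · exact mRel_good (T := T) hM0 [Lt.ci, Lt.b, Lt.d, Lt.b, Lt.d, Lt.b, Lt.d, Lt.c] [Lt.ai, Lt.ci, Lt.ai, Lt.ci] (pat hy (rf_5 hy) 10 rfl) h
      · exact mRel_good (T := T) hM0 [Lt.ai, Lt.ci] [Lt.a, Lt.b, Lt.ai, Lt.b, Lt.ai, Lt.b, Lt.a, Lt.b, Lt.ci, Lt.b, Lt.c, Lt.b] (pat hy (rb_7 hy) 13 rfl) h
  · rcases brec_true h with h | h
    · rcases brec_true h with h | h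
      · exact mRel_good (T := T) hM0 [Lt.ci, Lt.ai, Lt.ci, Lt.ci] [Lt.a, Lt.ci, Lt.b, Lt.d, Lt.b, Lt.d, Lt.b, Lt.d] (pat hy (rb_5 hy) 3 rfl) h
      · exact mRel_good (T := T) hM0 [Lt.d, Lt.b, Lt.c, Lt.ai, Lt.c, Lt.c, Lt.d, Lt.ci, Lt.ci, Lt.a, Lt.ci, Lt.b] [] (pat hy (rf_4 hy) 11 rfl) h
    · rcases brec_true h with h | h
      · exact mRel_good (T := T) hM0 [Lt.d, Lt.c, Lt.c, Lt.a, Lt.ci, Lt.d, Lt.c, Lt.ai, Lt.ci, Lt.ci] [] (pat hy (rf_2 hy) 5 rfl) h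
      · rcases brec_true h with h | h
        · exact mRel_good (T := T) hM0 [Lt.c, Lt.a, Lt.a] [Lt.b, Lt.ci, Lt.b, Lt.c, Lt.b, Lt.ai, Lt.b, Lt.a, Lt.b, Lt.a, Lt.b] (pat hy (rf_7 hy) 13 rfl) h
        · exact mRel_good (T := T) hM0 [Lt.a, Lt.ci] [Lt.c, Lt.c, Lt.d, Lt.ci, Lt.ci, Lt.a, Lt.ci, Lt.b, Lt.d, Lt.b] (pat hy (rf_4 hy) 8 rfl) h
theorem dM_109_s (hy : Hy g H) (j z1 z2 u : ℕ) (h : dM_109 j z1 z2 u = true) : GdM g H u := by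
  unfold dM_109 at h
  rcases brec_true h with h | h
  · exact dM_107_s hy j z1 z2 u h
  · exact dM_108_s hy j z1 z2 u h
theorem dM_110_s (hy : Hy g H) (j z1 z2 u : ℕ) (h : dM_110 j z1 z2 u = true) : GdM g H u := by
  unfold dM_110 at h
  rcases brec_true h with h | h
  · rcases brec_true h with h | h
    · rcases brec_true h with h | h
      · exact mRel_good (T := T) hM0 [Lt.ci, Lt.b, Lt.c, Lt.ai, Lt.d, Lt.c, Lt.a, Lt.ci, Lt.b] [Lt.ai, Lt.d, Lt.ci, Lt.a, Lt.ci] (pat hy (rf_6 hy) 2 rfl) h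
      · exact mRel_good (T := T) hM0 [Lt.c, Lt.a, Lt.ci, Lt.b, Lt.d, Lt.b] [Lt.ai, Lt.ci, Lt.ci, Lt.d, Lt.b, Lt.d] (pat hy (rf_5 hy) 8 rfl) h
    · rcases brec_true h with h | h
      · exact mRel_good (T := T) hM0 [Lt.b, Lt.a, Lt.a, Lt.ci] [Lt.c, Lt.b, Lt.a, Lt.a, Lt.ci, Lt.a, Lt.a, Lt.b, Lt.a, Lt.b, Lt.a] (pat hy (rb_10 hy) 5 rfl) h
      · exact mRel_good (T := T) hM0 [Lt.a, Lt.ci, Lt.ai, Lt.b, Lt.ai, Lt.b, Lt.ai, Lt.ai, Lt.c, Lt.ai, Lt.ai, Lt.b] [Lt.ai, Lt.b, Lt.c] (pat hy (rb_10 hy) 7 rfl) h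
  · rcases brec_true h with h | h
    · rcases brec_true h with h | h
      · exact mRel_good (T := T) hM0 [Lt.a, Lt.b, Lt.ai, Lt.ai] [Lt.b, Lt.ai, Lt.b, Lt.a, Lt.b, Lt.ci, Lt.b, Lt.c, Lt.b, Lt.c] (pat hy (rb_7 hy) 10 rfl) h
      · exact mRel_good (T := T) hM0 [Lt.ci, Lt.d, Lt.b, Lt.d, Lt.b, Lt.d, Lt.b] [Lt.c, Lt.a, Lt.c, Lt.a, Lt.ci] (pat hy (rb_5 hy) 6 rfl) h
    · rcases brec_true h with h | h
      · exact mRel_good (T := T) hM0 [Lt.ci, Lt.ci, Lt.d, Lt.c, Lt.c, Lt.a, Lt.ci, Lt.d, Lt.c, Lt.ai] [] (pat hy (rf_2 hy) 3 rfl) h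
      · rcases brec_true h with h | h
        · exact mRel_good (T := T) hM0 [Lt.b, Lt.ci, Lt.b, Lt.c, Lt.b, Lt.ai, Lt.b, Lt.a, Lt.b, Lt.a, Lt.b, Lt.ai] [Lt.c, Lt.a] (pat hy (rb_7 hy) 1 rfl) h
        · exact mRel_good (T := T) hM0 [Lt.b, Lt.a, Lt.b, Lt.ai, Lt.ai, Lt.ci, Lt.b] [Lt.ai, Lt.b, Lt.a, Lt.b, Lt.ci, Lt.b, Lt.c] (pat hy (rb_7 hy) 9 rfl) h
theorem dM_111_s (hy : Hy g H) (j z1 z2 u : ℕ) (h : dM_111 j z1 z2 u = true) : GdM g H u := by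
  unfold dM_111 at h
  rcases brec_true h with h | h
  · rcases brec_true h with h | h
    · rcases brec_true h with h | h
      · exact mRel_good (T := T) hM0 [Lt.a, Lt.b, Lt.ai, Lt.c, Lt.a, Lt.ci, Lt.d, Lt.a] [Lt.ai, Lt.ci, Lt.d, Lt.a, Lt.a, Lt.d, Lt.b, Lt.d, Lt.ai] (pat hy (rf_15 hy) 11 rfl) h
      · exact mRel_good (T := T) hM0 [Lt.d, Lt.ci, Lt.ci, Lt.a, Lt.ci, Lt.b] [Lt.ci, Lt.ci, Lt.a, Lt.ci, Lt.b, Lt.d] (pat hy (rf_4 hy) 5 rfl) h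
    · rcases brec_true h with h | h
      · exact mRel_good (T := T) hM0 [Lt.ai, Lt.ai, Lt.b, Lt.ci, Lt.b, Lt.a] [Lt.ci, Lt.a, Lt.a, Lt.b, Lt.a, Lt.b, Lt.a, Lt.c, Lt.ai] (pat hy (rb_10 hy) 1 rfl) h
      · exact mRel_good (T := T) hM0 [Lt.b, Lt.a] [Lt.ai, Lt.ci, Lt.b, Lt.c, Lt.b, Lt.c, Lt.a, Lt.b, Lt.ai, Lt.b, Lt.ai, Lt.ai, Lt.ai] (pat hy (rf_8 hy) 14 rfl) h
  · rcases brec_true h with h | h
    · rcases brec_true h with h | h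
      · exact mRel_good (T := T) hM0 [Lt.a, Lt.c, Lt.a, Lt.ci, Lt.b, Lt.d, Lt.b, Lt.d] [Lt.ci, Lt.ci, Lt.d, Lt.b] (pat hy (rf_5 hy) 7 rfl) h
      · exact mRel_good (T := T) hM0 [Lt.d, Lt.ci, Lt.ai, Lt.d] [Lt.ci, Lt.ai, Lt.d, Lt.a, Lt.c, Lt.d, Lt.ci, Lt.ai] (pat hy (rf_3 hy) 2 rfl) h
    · rcases brec_true h with h | h
      · exact mRel_good (T := T) hM0 [Lt.a, Lt.a, Lt.a, Lt.a, Lt.b, Lt.a, Lt.b, Lt.ai, Lt.ci] [Lt.b, Lt.ai, Lt.ci, Lt.b, Lt.c, Lt.b] (pat hy (rf_8 hy) 0 rfl) h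
      · rcases brec_true h with h | h
        · exact mRel_good (T := T) hM0 [Lt.d, Lt.a, Lt.c] [Lt.a, Lt.c, Lt.d, Lt.ci, Lt.ai, Lt.d, Lt.a, Lt.c, Lt.d] (pat hy (rf_3 hy) 5 rfl) h
        · exact mRel_good (T := T) hM0 [Lt.a, Lt.ci, Lt.d, Lt.a, Lt.a, Lt.d, Lt.b, Lt.d] [Lt.ci, Lt.a, Lt.b, Lt.ai, Lt.ai, Lt.ci, Lt.d, Lt.a, Lt.a] (pat hy (rf_15 hy) 15 rfl) h
theorem dM_112_s (hy : Hy g H) (j z1 z2 u : ℕ) (h : dM_112 j z1 z2 u = true) : GdM g H u := by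
  unfold dM_112 at h
  rcases brec_true h with h | h
  · exact dM_110_s hy j z1 z2 u h
  · exact dM_111_s hy j z1 z2 u h
theorem dM_113_s (hy : Hy g H) (j z1 z2 u : ℕ) (h : dM_113 j z1 z2 u = true) : GdM g H u := by
  unfold dM_113 at h
  rcases brec_true h with h | h
  · exact dM_109_s hy j z1 z2 u h
  · exact dM_112_s hy j z1 z2 u h
theorem dM_114_s (hy : Hy g H) (j z1 z2 u : ℕ) (h : dM_114 j z1 z2 u = true) : GdM g H u := by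
  unfold dM_114 at h
  rcases brec_true h with h | h
  · exact dM_106_s hy j z1 z2 u h
  · exact dM_113_s hy j z1 z2 u h
theorem dM_115_s (hy : Hy g H) (j z1 z2 u : ℕ) (h : dM_115 j z1 z2 u = true) : GdM g H u := by
  unfold dM_115 at h
  rcases brec_true h with h | h
  · rcases brec_true h with h | h
    · rcases brec_true h with h | h
      · exact mRel_good (T := T) hM0 [Lt.c, Lt.d, Lt.ci, Lt.ci, Lt.a] [Lt.ci, Lt.a, Lt.ci, Lt.b, Lt.d, Lt.b, Lt.c] (pat hy (rf_4 hy) 4 rfl) h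
      · exact mRel_good (T := T) hM0 [Lt.a, Lt.a, Lt.b, Lt.ai, Lt.c, Lt.a, Lt.ci, Lt.d, Lt.a, Lt.a, Lt.d, Lt.b, Lt.d, Lt.ai, Lt.ai] [Lt.ci, Lt.d] (pat hy (rf_15 hy) 10 rfl) h
    · rcases brec_true h with h | h
      · exact mRel_good (T := T) hM0 [Lt.d, Lt.b, Lt.d, Lt.b, Lt.d, Lt.b, Lt.c, Lt.ai, Lt.ci, Lt.ai] [Lt.c, Lt.c] (pat hy (rb_5 hy) 7 rfl) h
      · exact mRel_good (T := T) hM0 [Lt.b, Lt.a, Lt.b, Lt.ci, Lt.b, Lt.c, Lt.b, Lt.c, Lt.a, Lt.a, Lt.b] [Lt.a, Lt.b, Lt.a] (pat hy (rf_7 hy) 6 rfl) h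
  · rcases brec_true h with h | h
    · rcases brec_true h with h | h
      · exact mRel_good (T := T) hM0 [Lt.b, Lt.a, Lt.b, Lt.ai, Lt.ai, Lt.ci, Lt.b, Lt.ci, Lt.b, Lt.c, Lt.b, Lt.ai, Lt.b] [Lt.ai] (pat hy (rb_7 hy) 9 rfl) h
      · exact mRel_good (T := T) hM0 [Lt.ai, Lt.ai] [Lt.b, Lt.ai, Lt.b, Lt.ai, Lt.b, Lt.a, Lt.b, Lt.ci, Lt.b, Lt.c, Lt.b, Lt.c] (pat hy (rb_7 hy) 12 rfl) h
    · rcases brec_true h with h | h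
      · exact mRel_good (T := T) hM0 [Lt.b, Lt.ai, Lt.b, Lt.a, Lt.a, Lt.b, Lt.a, Lt.b, Lt.ai, Lt.b] [Lt.ci, Lt.ci, Lt.b, Lt.c, Lt.c] (pat hy (rf_9 hy) 12 rfl) h
      · exact mRel_good (T := T) hM0 [Lt.a, Lt.b, Lt.ai, Lt.c, Lt.a, Lt.ci, Lt.d, Lt.a, Lt.a, Lt.d, Lt.b, Lt.d, Lt.ai] [Lt.ai, Lt.ci, Lt.d, Lt.a] (pat hy (rf_15 hy) 11 rfl) h
theorem dM_116_s (hy : Hy g H) (j z1 z2 u : ℕ) (h : dM_116 j z1 z2 u = true) : GdM g H u := by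
  unfold dM_116 at h
  rcases brec_true h with h | h
  · rcases brec_true h with h | h
    · rcases brec_true h with h | h
      · exact mRel_good (T := T) hM0 [Lt.ci, Lt.b, Lt.c, Lt.b, Lt.ai, Lt.b, Lt.a, Lt.b, Lt.a, Lt.b, Lt.ai] [Lt.b, Lt.c, Lt.a] (pat hy (rb_7 hy) 2 rfl) h
      · exact mRel_good (T := T) hM0 [Lt.b, Lt.d, Lt.c, Lt.c, Lt.a, Lt.c, Lt.a] [Lt.d, Lt.b, Lt.d, Lt.b, Lt.c] (pat hy (rf_5 hy) 3 rfl) h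
    · rcases brec_true h with h | h
      · exact mRel_good (T := T) hM0 [Lt.b, Lt.c, Lt.b, Lt.ai] [Lt.c, Lt.b, Lt.c, Lt.a, Lt.a, Lt.b, Lt.ai, Lt.b, Lt.ai, Lt.b] (pat hy (rb_7 hy) 3 rfl) h
      · exact mRel_good (T := T) hM0 [Lt.d, Lt.c] [Lt.c, Lt.ai, Lt.ci, Lt.ci, Lt.d, Lt.c, Lt.c, Lt.a] (pat hy (rf_2 hy) 0 rfl) h
  · rcases brec_true h with h | h
    · rcases brec_true h with h | h
      · exact mRel_good (T := T) hM0 [Lt.ci, Lt.ci] [Lt.a, Lt.ci, Lt.d, Lt.c, Lt.ai, Lt.ci, Lt.ci, Lt.d] (pat hy (rf_2 hy) 3 rfl) h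
      · exact mRel_good (T := T) hM0 [Lt.b, Lt.c, Lt.ai, Lt.ci] [Lt.d, Lt.b, Lt.d, Lt.b, Lt.d, Lt.c, Lt.c, Lt.a] (pat hy (rb_5 hy) 0 rfl) h
    · rcases brec_true h with h | h
      · exact mRel_good (T := T) hM0 [Lt.b, Lt.d, Lt.b, Lt.d, Lt.c, Lt.c, Lt.a, Lt.c, Lt.a, Lt.ci] [Lt.d, Lt.b] (pat hy (rf_5 hy) 1 rfl) h
      · rcases brec_true h with h | h
        · exact mRel_good (T := T) hM0 [Lt.ci, Lt.b, Lt.ci, Lt.b, Lt.c, Lt.b, Lt.ai, Lt.b, Lt.a] [Lt.a, Lt.a, Lt.b, Lt.ai, Lt.b] (pat hy (rb_7 hy) 0 rfl) h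
        · exact mRel_good (T := T) hM0 [Lt.ci, Lt.ci, Lt.d, Lt.b, Lt.d, Lt.b, Lt.d, Lt.b, Lt.c, Lt.ai] [Lt.a, Lt.c] (pat hy (rb_5 hy) 5 rfl) h
theorem dM_117_s (hy : Hy g H) (j z1 z2 u : ℕ) (h : dM_117 j z1 z2 u = true) : GdM g H u := by
  unfold dM_117 at h
  rcases brec_true h with h | h
  · exact dM_115_s hy j z1 z2 u h
  · exact dM_116_s hy j z1 z2 u h
theorem dM_118_s (hy : Hy g H) (j z1 z2 u : ℕ) (h : dM_118 j z1 z2 u = true) : GdM g H u := by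
  unfold dM_118 at h
  rcases brec_true h with h | h
  · rcases brec_true h with h | h
    · rcases brec_true h with h | h
      · exact mRel_good (T := T) hM0 [Lt.ai, Lt.c, Lt.a, Lt.ci, Lt.d, Lt.a, Lt.a, Lt.d, Lt.b, Lt.d, Lt.ai] [Lt.b, Lt.ai, Lt.ai, Lt.ci, Lt.d, Lt.a] (pat hy (rf_15 hy) 13 rfl) h
      · exact mRel_good (T := T) hM0 [Lt.ai, Lt.ci, Lt.b, Lt.ci, Lt.b] [Lt.a, Lt.b, Lt.ai, Lt.b, Lt.ai, Lt.b, Lt.a, Lt.b, Lt.ci] (pat hy (rb_7 hy) 13 rfl) h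
    · rcases brec_true h with h | h
      · exact mRel_good (T := T) hM0 [Lt.b, Lt.d, Lt.b, Lt.c, Lt.ai] [Lt.d, Lt.b, Lt.d, Lt.c, Lt.c, Lt.a, Lt.c] (pat hy (rb_5 hy) 10 rfl) h
      · rcases brec_true h with h | h
        · exact mRel_good (T := T) hM0 [Lt.a, Lt.a] [Lt.b, Lt.c, Lt.b, Lt.a, Lt.a, Lt.ci, Lt.a, Lt.a, Lt.b, Lt.a, Lt.b, Lt.a, Lt.c] (pat hy (rb_10 hy) 6 rfl) h
        · exact mRel_good (T := T) hM0 [Lt.ci, Lt.b, Lt.c, Lt.b, Lt.ai, Lt.b] [Lt.b, Lt.c, Lt.a, Lt.a, Lt.b, Lt.ai, Lt.b, Lt.ai] (pat hy (rb_7 hy) 2 rfl) h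
  · rcases brec_true h with h | h
    · rcases brec_true h with h | h
      · exact mRel_good (T := T) hM0 [Lt.b, Lt.c, Lt.ai, Lt.ci, Lt.ai, Lt.ci, Lt.ci] [Lt.d, Lt.b, Lt.d, Lt.b, Lt.d] (pat hy (rb_5 hy) 0 rfl) h
      · rcases brec_true h with h | h
        · exact mRel_good (T := T) hM0 [Lt.a, Lt.a, Lt.ci, Lt.a, Lt.a, Lt.b, Lt.a, Lt.b, Lt.a, Lt.c, Lt.ai, Lt.ai] [Lt.b, Lt.ci, Lt.b] (pat hy (rf_10 hy) 12 rfl) h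
        · exact mRel_good (T := T) hM0 [Lt.ci, Lt.ci, Lt.d, Lt.b, Lt.d, Lt.b, Lt.d, Lt.b, Lt.c, Lt.ai, Lt.ci] [Lt.a] (pat hy (rb_5 hy) 5 rfl) h
    · rcases brec_true h with h | h
      · rcases brec_true h with h | h
        · exact mRel_good (T := T) hM0 [Lt.c, Lt.b, Lt.ai, Lt.b, Lt.a, Lt.a, Lt.b, Lt.a, Lt.b, Lt.ai, Lt.b, Lt.ci, Lt.ci] [Lt.ci, Lt.b] (pat hy (rf_9 hy) 11 rfl) h
        · exact mRel_good (T := T) hM0 [Lt.b, Lt.ci, Lt.b, Lt.c, Lt.b] [Lt.ai, Lt.b, Lt.a, Lt.b, Lt.a, Lt.b, Lt.ai, Lt.ai, Lt.ci] (pat hy (rf_7 hy) 8 rfl) h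
      · rcases brec_true h with h | h
        · exact mRel_good (T := T) hM0 [Lt.c, Lt.b, Lt.a, Lt.a, Lt.ci, Lt.a] [Lt.b, Lt.a, Lt.a, Lt.ci, Lt.ai, Lt.b, Lt.ai, Lt.b, Lt.ai] (pat hy (rf_10 hy) 10 rfl) h
        · exact mRel_good (T := T) hM0 [Lt.b, Lt.ai, Lt.ai, Lt.ai, Lt.ai, Lt.b, Lt.ai, Lt.ci, Lt.b, Lt.c] [Lt.a, Lt.b, Lt.ai, Lt.ci, Lt.b] (pat hy (rb_8 hy) 10 rfl) h
theorem dM_119_s (hy : Hy g H) (j z1 z2 u : ℕ) (h : dM_119 j z1 z2 u = true) : GdM g H u := by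
  unfold dM_119 at h
  rcases brec_true h with h | h
  · rcases brec_true h with h | h
    · exact mRel_good (T := T) hM0 [Lt.ci, Lt.b, Lt.ci, Lt.b, Lt.c, Lt.b, Lt.ai] [Lt.a, Lt.a, Lt.b, Lt.ai, Lt.b, Lt.ai, Lt.b] (pat hy (rb_7 hy) 0 rfl) h
    · rcases brec_true h with h | h
      · exact mRel_good (T := T) hM0 [Lt.ai, Lt.b, Lt.ai, Lt.ai, Lt.c, Lt.ai, Lt.ai, Lt.b, Lt.ci, Lt.b, Lt.a, Lt.a, Lt.ci, Lt.ai] [Lt.b] (pat hy (rb_10 hy) 11 rfl) h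
      · exact mRel_good (T := T) hM0 [Lt.ci, Lt.d, Lt.c, Lt.ai, Lt.ci] [Lt.ai, Lt.ci, Lt.ci, Lt.d, Lt.c] (pat hy (rf_2 hy) 9 rfl) h
  · rcases brec_true h with h | h
    · exact mRel_good (T := T) hM0 [Lt.b, Lt.a, Lt.b, Lt.ai, Lt.b, Lt.ai, Lt.ai, Lt.b] [Lt.ci, Lt.ci, Lt.b, Lt.c, Lt.c, Lt.b, Lt.ai] (pat hy (rb_9 hy) 8 rfl) h
    · rcases brec_true h with h | h
      · exact mRel_good (T := T) hM0 [Lt.a, Lt.b, Lt.ai, Lt.b, Lt.ai, Lt.ai, Lt.ai, Lt.ai, Lt.b, Lt.ai, Lt.ci, Lt.b, Lt.c, Lt.b] [Lt.ci] (pat hy (rb_8 hy) 7 rfl) h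
      · exact mRel_good (T := T) hM0 [Lt.ai, Lt.ci, Lt.ci, Lt.d, Lt.c, Lt.c] [Lt.ci, Lt.d, Lt.c, Lt.ai] (pat hy (rf_2 hy) 2 rfl) h
theorem dM_120_s (hy : Hy g H) (j z1 z2 u : ℕ) (h : dM_120 j z1 z2 u = true) : GdM g H u := by
  unfold dM_120 at h
  rcases brec_true h with h | h
  · rcases brec_true h with h | h
    · exact mRel_good (T := T) hM0 [Lt.ai, Lt.b, Lt.ai, Lt.b, Lt.ai, Lt.ai, Lt.c, Lt.ai, Lt.ai, Lt.b] [Lt.c, Lt.ai, Lt.ai, Lt.b, Lt.c] (pat hy (rb_10 hy) 9 rfl) h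
    · rcases brec_true h with h | h
      · exact mRel_good (T := T) hM0 [Lt.b, Lt.c, Lt.a, Lt.a, Lt.b, Lt.ai, Lt.b, Lt.ai, Lt.b, Lt.a, Lt.b, Lt.ci, Lt.b, Lt.c] [] (pat hy (rf_7 hy) 12 rfl) h
      · exact mRel_good (T := T) hM0 [Lt.b, Lt.c, Lt.ai] [Lt.d, Lt.b, Lt.d, Lt.b, Lt.d, Lt.c, Lt.c, Lt.a, Lt.c] (pat hy (rb_5 hy) 0 rfl) h
  · rcases brec_true h with h | h
    · rcases brec_true h with h | h
      · exact mRel_good (T := T) hM0 [Lt.ai, Lt.ai, Lt.d, Lt.c, Lt.a, Lt.a, Lt.b, Lt.ai, Lt.c, Lt.a, Lt.ci, Lt.d, Lt.a, Lt.a] [Lt.d, Lt.b, Lt.d] (pat hy (rf_15 hy) 6 rfl) h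
      · exact mRel_good (T := T) hM0 [Lt.b, Lt.ci, Lt.b, Lt.c, Lt.b, Lt.c, Lt.a, Lt.a, Lt.b] [Lt.ai, Lt.b, Lt.a, Lt.b, Lt.a] (pat hy (rf_7 hy) 8 rfl) h
    · rcases brec_true h with h | h
      · exact mRel_good (T := T) hM0 [Lt.ai, Lt.c, Lt.ai, Lt.ai, Lt.b, Lt.ci, Lt.b, Lt.a] [Lt.a, Lt.b, Lt.a, Lt.b, Lt.a, Lt.c, Lt.ai] (pat hy (rb_10 hy) 14 rfl) h
      · exact mRel_good (T := T) hM0 [Lt.a, Lt.a, Lt.b, Lt.a, Lt.b, Lt.ai, Lt.ci, Lt.b, Lt.ci, Lt.b, Lt.c, Lt.a, Lt.b, Lt.a] [Lt.ai] (pat hy (rf_8 hy) 2 rfl) h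
theorem dM_121_s (hy : Hy g H) (j z1 z2 u : ℕ) (h : dM_121 j z1 z2 u = true) : GdM g H u := by
  unfold dM_121 at h
  rcases brec_true h with h | h
  · exact dM_119_s hy j z1 z2 u h
  · exact dM_120_s hy j z1 z2 u h
theorem dM_122_s (hy : Hy g H) (j z1 z2 u : ℕ) (h : dM_122 j z1 z2 u = true) : GdM g H u := by
  unfold dM_122 at h
  rcases brec_true h with h | h
  · exact dM_118_s hy j z1 z2 u h
  · exact dM_121_s hy j z1 z2 u h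
theorem dM_123_s (hy : Hy g H) (j z1 z2 u : ℕ) (h : dM_123 j z1 z2 u = true) : GdM g H u := by
  unfold dM_123 at h
  rcases brec_true h with h | h
  · exact dM_117_s hy j z1 z2 u h
  · exact dM_122_s hy j z1 z2 u h
theorem dM_124_s (hy : Hy g H) (j z1 z2 u : ℕ) (h : dM_124 j z1 z2 u = true) : GdM g H u := by
  unfold dM_124 at h
  rcases brec_true h with h | h
  · rcases brec_true h with h | h
    · exact mRel_good (T := T) hM0 [Lt.d, Lt.a, Lt.ci, Lt.b, Lt.c, Lt.ai, Lt.d, Lt.c] [Lt.ci, Lt.a, Lt.ci, Lt.b, Lt.c, Lt.ai] (pat hy (rf_6 hy) 0 rfl) h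
    · rcases brec_true h with h | h
      · exact mRel_good (T := T) hM0 [Lt.b, Lt.a, Lt.c, Lt.ai, Lt.ai, Lt.b, Lt.c, Lt.b, Lt.a, Lt.a] [Lt.ai, Lt.b, Lt.ai, Lt.ai, Lt.c] (pat hy (rf_10 hy) 4 rfl) h
      · exact mRel_good (T := T) hM0 [Lt.a, Lt.a, Lt.ci, Lt.ai] [Lt.b, Lt.c, Lt.b, Lt.a, Lt.a, Lt.ci, Lt.a, Lt.a, Lt.b, Lt.a, Lt.b] (pat hy (rb_10 hy) 6 rfl) h
  · rcases brec_true h with h | h
    · exact mRel_good (T := T) hM0 [Lt.a, Lt.b, Lt.ai, Lt.ci, Lt.b, Lt.ci, Lt.b, Lt.c] [Lt.b, Lt.ai, Lt.ai, Lt.ai, Lt.ai, Lt.b, Lt.ai] (pat hy (rf_8 hy) 5 rfl) h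
    · rcases brec_true h with h | h
      · exact mRel_good (T := T) hM0 [Lt.b, Lt.ai, Lt.b, Lt.a, Lt.b, Lt.ci, Lt.b, Lt.c] [Lt.a, Lt.b, Lt.ai, Lt.ai, Lt.ci, Lt.b] (pat hy (rf_7 hy) 4 rfl) h
      · exact mRel_good (T := T) hM0 [Lt.b, Lt.ci, Lt.b, Lt.c, Lt.b, Lt.c, Lt.a, Lt.a] [Lt.ai, Lt.b, Lt.a, Lt.b, Lt.a, Lt.b] (pat hy (rf_7 hy) 8 rfl) h
theorem dM_125_s (hy : Hy g H) (j z1 z2 u : ℕ) (h : dM_125 j z1 z2 u = true) : GdM g H u := by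
  unfold dM_125 at h
  rcases brec_true h with h | h
  · rcases brec_true h with h | h
    · exact mRel_good (T := T) hM0 [Lt.ci, Lt.b, Lt.d, Lt.b, Lt.c, Lt.ai, Lt.c, Lt.c] [Lt.ai, Lt.c, Lt.c, Lt.d] (pat hy (rf_4 hy) 9 rfl) h
    · rcases brec_true h with h | h
      · exact mRel_good (T := T) hM0 [Lt.b, Lt.c, Lt.c, Lt.a, Lt.c, Lt.ai] [Lt.ai, Lt.b, Lt.a, Lt.b, Lt.a, Lt.a, Lt.b, Lt.ai, Lt.c, Lt.c] (pat hy (rb_12 hy) 4 rfl) h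
      · exact mRel_good (T := T) hM0 [Lt.d, Lt.b, Lt.d, Lt.b, Lt.c, Lt.ai, Lt.ci, Lt.ai, Lt.ci] [Lt.b, Lt.d, Lt.c] (pat hy (rb_5 hy) 9 rfl) h
  · rcases brec_true h with h | h
    · rcases brec_true h with h | h
      · exact mRel_good (T := T) hM0 [Lt.ai, Lt.ai, Lt.ci, Lt.d, Lt.a, Lt.a, Lt.d, Lt.b, Lt.d, Lt.ai, Lt.ai] [Lt.b, Lt.ai, Lt.c, Lt.a, Lt.ci, Lt.d] (pat hy (rb_15 hy) 5 rfl) h
      · exact mRel_good (T := T) hM0 [Lt.d, Lt.c, Lt.ai, Lt.ci, Lt.ci, Lt.d, Lt.c, Lt.c, Lt.a, Lt.ci] [] (pat hy (rf_2 hy) 0 rfl) h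
    · rcases brec_true h with h | h
      · exact mRel_good (T := T) hM0 [Lt.ci, Lt.ci, Lt.ci, Lt.ci, Lt.ci, Lt.ci, Lt.ci, Lt.ci, Lt.ci, Lt.ci, Lt.ci, Lt.ci, Lt.ci, Lt.ci, Lt.ci, Lt.ci, Lt.ci] [] (pat hy (rb_16 hy) 0 rfl) h
      · exact mRel_good (T := T) hM0 [Lt.a, Lt.b, Lt.ai, Lt.b, Lt.a, Lt.a, Lt.ci] [Lt.b, Lt.ai, Lt.b, Lt.a, Lt.a, Lt.a, Lt.ci, Lt.b, Lt.ci, Lt.b] (pat hy (rb_17 hy) 3 rfl) h
theorem dM_126_s (hy : Hy g H) (j z1 z2 u : ℕ) (h : dM_126 j z1 z2 u = true) : GdM g H u := by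
  unfold dM_126 at h
  rcases brec_true h with h | h
  · exact dM_124_s hy j z1 z2 u h
  · exact dM_125_s hy j z1 z2 u h
theorem dM_127_s (hy : Hy g H) (j z1 z2 u : ℕ) (h : dM_127 j z1 z2 u = true) : GdM g H u := by
  unfold dM_127 at h
  rcases brec_true h with h | h
  · rcases brec_true h with h | h
    · exact mRel_good (T := T) hM0 [Lt.a, Lt.b, Lt.ai, Lt.ai, Lt.ci, Lt.b, Lt.ci, Lt.b, Lt.c, Lt.b, Lt.ai, Lt.b, Lt.a] [Lt.b] (pat hy (rb_7 hy) 10 rfl) h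
    · rcases brec_true h with h | h
      · exact mRel_good (T := T) hM0 [Lt.ai, Lt.c, Lt.c, Lt.d, Lt.ci, Lt.ci, Lt.a] [Lt.ci, Lt.b, Lt.d, Lt.b, Lt.c] (pat hy (rf_4 hy) 2 rfl) h
      · exact mRel_good (T := T) hM0 [Lt.c, Lt.b, Lt.ai, Lt.b, Lt.a, Lt.a, Lt.b, Lt.a, Lt.b, Lt.ai, Lt.b, Lt.ci] [Lt.ci, Lt.b, Lt.c] (pat hy (rf_9 hy) 11 rfl) h
  · rcases brec_true h with h | h
    · exact mRel_good (T := T) hM0 [Lt.ai, Lt.ci, Lt.b, Lt.c, Lt.b, Lt.c, Lt.a] [Lt.b, Lt.a, Lt.a, Lt.a, Lt.a, Lt.b, Lt.a, Lt.b] (pat hy (rb_8 hy) 1 rfl) h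
    · rcases brec_true h with h | h
      · exact mRel_good (T := T) hM0 [Lt.b, Lt.a, Lt.b, Lt.ci] [Lt.a, Lt.b, Lt.a, Lt.b, Lt.ai, Lt.ai, Lt.ci, Lt.b, Lt.ci, Lt.b] (pat hy (rf_7 hy) 6 rfl) h
      · exact mRel_good (T := T) hM0 [Lt.b, Lt.d, Lt.b, Lt.c, Lt.ai, Lt.ci, Lt.ai, Lt.ci] [Lt.d, Lt.b, Lt.d, Lt.c] (pat hy (rb_5 hy) 10 rfl) h
theorem dM_128_s (hy : Hy g H) (j z1 z2 u : ℕ) (h : dM_128 j z1 z2 u = true) : GdM g H u := by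
  unfold dM_128 at h
  rcases brec_true h with h | h
  · rcases brec_true h with h | h
    · exact mRel_good (T := T) hM0 [Lt.a, Lt.a] [Lt.ci, Lt.b, Lt.ci, Lt.b, Lt.c, Lt.b, Lt.ai, Lt.b, Lt.a, Lt.b, Lt.a, Lt.b] (pat hy (rf_7 hy) 0 rfl) h
    · rcases brec_true h with h | h
      · exact mRel_good (T := T) hM0 [Lt.b, Lt.c, Lt.a, Lt.a, Lt.b, Lt.ai, Lt.b, Lt.ai, Lt.b] [Lt.ci, Lt.b, Lt.c, Lt.b, Lt.ai] (pat hy (rf_7 hy) 12 rfl) h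
      · exact mRel_good (T := T) hM0 [Lt.a, Lt.a, Lt.a, Lt.b, Lt.a, Lt.b, Lt.ai, Lt.ci, Lt.b, Lt.ci] [Lt.ai, Lt.b, Lt.ai, Lt.ci, Lt.b] (pat hy (rf_8 hy) 1 rfl) h
  · rcases brec_true h with h | h
    · rcases brec_true h with h | h
      · exact mRel_good (T := T) hM0 [Lt.b, Lt.a, Lt.a, Lt.b, Lt.a, Lt.b, Lt.ai, Lt.b, Lt.ci, Lt.ci] [Lt.a, Lt.b, Lt.ci, Lt.ci, Lt.b] (pat hy (rf_9 hy) 14 rfl) h
      · exact mRel_good (T := T) hM0 [Lt.b, Lt.ai, Lt.ai, Lt.ci, Lt.b, Lt.ci, Lt.b, Lt.c, Lt.b, Lt.ai, Lt.b, Lt.a, Lt.b] [Lt.ai] (pat hy (rb_7 hy) 11 rfl) h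
    · rcases brec_true h with h | h
      · exact mRel_good (T := T) hM0 [Lt.ai, Lt.ai, Lt.ci, Lt.b] [Lt.b, Lt.ai, Lt.b, Lt.ai, Lt.b, Lt.a, Lt.b, Lt.ci, Lt.b, Lt.c] (pat hy (rb_7 hy) 12 rfl) h
      · exact mRel_good (T := T) hM0 [Lt.b, Lt.ai, Lt.c, Lt.a, Lt.ci, Lt.d, Lt.a, Lt.a, Lt.d, Lt.b, Lt.d, Lt.ai, Lt.ai] [Lt.ai, Lt.ai, Lt.ci, Lt.d] (pat hy (rf_15 hy) 12 rfl) h
theorem dM_129_s (hy : Hy g H) (j z1 z2 u : ℕ) (h : dM_129 j z1 z2 u = true) : GdM g H u := by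
  unfold dM_129 at h
  rcases brec_true h with h | h
  · exact dM_127_s hy j z1 z2 u h
  · exact dM_128_s hy j z1 z2 u h
theorem dM_130_s (hy : Hy g H) (j z1 z2 u : ℕ) (h : dM_130 j z1 z2 u = true) : GdM g H u := by
  unfold dM_130 at h
  rcases brec_true h with h | h
  · exact dM_126_s hy j z1 z2 u h
  · exact dM_129_s hy j z1 z2 u h
theorem dM_131_s (hy : Hy g H) (j z1 z2 u : ℕ) (h : dM_131 j z1 z2 u = true) : GdM g H u := by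
  unfold dM_131 at h
  rcases brec_true h with h | h
  · rcases brec_true h with h | h
    · exact mRel_good (T := T) hM0 [Lt.b, Lt.ai, Lt.ai, Lt.b, Lt.a, Lt.b, Lt.ci, Lt.ci, Lt.b] [Lt.a, Lt.b, Lt.ai, Lt.b, Lt.ci, Lt.ci] (pat hy (rb_9 hy) 12 rfl) h
    · rcases brec_true h with h | h
      · exact mRel_good (T := T) hM0 [Lt.b, Lt.a, Lt.a, Lt.ci, Lt.a, Lt.a, Lt.b, Lt.a, Lt.b, Lt.a, Lt.c, Lt.ai] [Lt.ci, Lt.b, Lt.a] (pat hy (rf_10 hy) 11 rfl) h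
      · exact mRel_good (T := T) hM0 [Lt.a, Lt.b, Lt.a, Lt.b, Lt.a, Lt.c, Lt.ai, Lt.ai, Lt.b, Lt.c, Lt.b, Lt.a] [Lt.ai, Lt.c, Lt.ai] (pat hy (rf_10 hy) 1 rfl) h
  · rcases brec_true h with h | h
    · exact mRel_good (T := T) hM0 [Lt.ai, Lt.ai, Lt.ci, Lt.d, Lt.a, Lt.a, Lt.d, Lt.b, Lt.d, Lt.ai] [Lt.b, Lt.ai, Lt.c, Lt.a, Lt.ci, Lt.d, Lt.a] (pat hy (rb_15 hy) 5 rfl) h
    · rcases brec_true h with h | h
      · exact mRel_good (T := T) hM0 [Lt.b, Lt.ai, Lt.ci, Lt.b, Lt.c, Lt.b, Lt.c] [Lt.a, Lt.a, Lt.a, Lt.a, Lt.b, Lt.a, Lt.b, Lt.ai] (pat hy (rb_8 hy) 0 rfl) h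
      · exact mRel_good (T := T) hM0 [Lt.a, Lt.b, Lt.ai, Lt.b, Lt.ai, Lt.ai, Lt.b] [Lt.b, Lt.ci, Lt.ci, Lt.b, Lt.c, Lt.c, Lt.b, Lt.ai] (pat hy (rb_9 hy) 9 rfl) h
theorem dM_132_s (hy : Hy g H) (j z1 z2 u : ℕ) (h : dM_132 j z1 z2 u = true) : GdM g H u := by
  unfold dM_132 at h
  rcases brec_true h with h | h
  · rcases brec_true h with h | h
    · exact mRel_good (T := T) hM0 [Lt.c, Lt.b, Lt.ai, Lt.b, Lt.a, Lt.b, Lt.a, Lt.b, Lt.ai, Lt.ai] [Lt.b, Lt.c, Lt.b, Lt.c] (pat hy (rb_7 hy) 4 rfl) h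
    · rcases brec_true h with h | h
      · exact mRel_good (T := T) hM0 [Lt.ai, Lt.ci, Lt.a, Lt.b, Lt.ai, Lt.ai, Lt.ci, Lt.d, Lt.a, Lt.a, Lt.d] [Lt.ci, Lt.d, Lt.a, Lt.a, Lt.d, Lt.b] (pat hy (rb_15 hy) 1 rfl) h
      · exact mRel_good (T := T) hM0 [Lt.d, Lt.ci] [Lt.ci, Lt.ci, Lt.a, Lt.ci, Lt.b, Lt.d, Lt.b, Lt.c, Lt.ai, Lt.c] (pat hy (rf_4 hy) 5 rfl) h
  · rcases brec_true h with h | h
    · rcases brec_true h with h | h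
      · exact mRel_good (T := T) hM0 [Lt.b, Lt.ci, Lt.b, Lt.a, Lt.a] [Lt.a, Lt.a, Lt.ci, Lt.a, Lt.a, Lt.b, Lt.a, Lt.b, Lt.a, Lt.c] (pat hy (rb_10 hy) 3 rfl) h
      · exact mRel_good (T := T) hM0 [Lt.ai, Lt.b, Lt.a, Lt.b, Lt.a, Lt.b, Lt.ai] [Lt.b, Lt.ci, Lt.b, Lt.c, Lt.b, Lt.c, Lt.a] (pat hy (rb_7 hy) 6 rfl) h
    · rcases brec_true h with h | h
      · exact mRel_good (T := T) hM0 [Lt.a, Lt.a, Lt.b, Lt.ai] [Lt.ci, Lt.b, Lt.ci, Lt.b, Lt.c, Lt.b, Lt.ai, Lt.b, Lt.a, Lt.b] (pat hy (rf_7 hy) 0 rfl) h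
      · exact mRel_good (T := T) hM0 [Lt.ai, Lt.b, Lt.ai] [Lt.b, Lt.ai, Lt.b, Lt.ci, Lt.ci, Lt.b, Lt.c, Lt.c, Lt.b, Lt.ai, Lt.b, Lt.a] (pat hy (rb_9 hy) 11 rfl) h
theorem dM_133_s (hy : Hy g H) (j z1 z2 u : ℕ) (h : dM_133 j z1 z2 u = true) : GdM g H u := by
  unfold dM_133 at h
  rcases brec_true h with h | h
  · exact dM_131_s hy j z1 z2 u h
  · exact dM_132_s hy j z1 z2 u h
theorem dM_134_s (hy : Hy g H) (j z1 z2 u : ℕ) (h : dM_134 j z1 z2 u = true) : GdM g H u := by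
  unfold dM_134 at h
  rcases brec_true h with h | h
  · rcases brec_true h with h | h
    · exact mRel_good (T := T) hM0 [Lt.b, Lt.a, Lt.b, Lt.a, Lt.a, Lt.b, Lt.ai, Lt.c, Lt.c, Lt.a, Lt.ci, Lt.ai, Lt.ci, Lt.ci] [Lt.a, Lt.b] (pat hy (rf_12 hy) 13 rfl) h
    · rcases brec_true h with h | h
      · exact mRel_good (T := T) hM0 [Lt.b, Lt.d, Lt.ai, Lt.ai, Lt.d, Lt.c, Lt.a, Lt.a, Lt.b, Lt.ai, Lt.c, Lt.a, Lt.ci, Lt.d, Lt.a] [Lt.d, Lt.ai] (pat hy (rf_15 hy) 4 rfl) h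
      · exact mRel_good (T := T) hM0 [Lt.a, Lt.a, Lt.a, Lt.a, Lt.a, Lt.a, Lt.ci, Lt.b, Lt.ci, Lt.ci] [Lt.ai, Lt.ai, Lt.b, Lt.a, Lt.a, Lt.ci, Lt.b] (pat hy (rf_18 hy) 2 rfl) h
  · rcases brec_true h with h | h
    · rcases brec_true h with h | h
      · exact mRel_good (T := T) hM0 [Lt.ci, Lt.d, Lt.b, Lt.d, Lt.b, Lt.d, Lt.b, Lt.c] [Lt.c, Lt.a, Lt.c, Lt.a] (pat hy (rb_5 hy) 6 rfl) h
      · exact mRel_good (T := T) hM0 [Lt.b, Lt.c, Lt.a, Lt.b, Lt.a, Lt.a, Lt.a, Lt.a, Lt.b, Lt.a, Lt.b, Lt.ai] [Lt.c, Lt.b, Lt.c] (pat hy (rf_8 hy) 11 rfl) h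
    · rcases brec_true h with h | h
      · exact mRel_good (T := T) hM0 [Lt.b, Lt.c, Lt.a, Lt.b, Lt.a, Lt.a] [Lt.c, Lt.b, Lt.c, Lt.a, Lt.b, Lt.ai, Lt.b, Lt.ai, Lt.ai] (pat hy (rf_8 hy) 11 rfl) h
      · exact mRel_good (T := T) hM0 [Lt.b, Lt.ai, Lt.ci, Lt.b, Lt.c, Lt.b] [Lt.a, Lt.a, Lt.a, Lt.a, Lt.b, Lt.a, Lt.b, Lt.ai, Lt.ci] (pat hy (rb_8 hy) 0 rfl) h
theorem dM_135_s (hy : Hy g H) (j z1 z2 u : ℕ) (h : dM_135 j z1 z2 u = true) : GdM g H u := by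
  unfold dM_135 at h
  rcases brec_true h with h | h
  · rcases brec_true h with h | h
    · exact mRel_good (T := T) hM0 [Lt.b, Lt.a, Lt.a, Lt.a, Lt.a, Lt.b, Lt.a] [Lt.ai, Lt.ci, Lt.b, Lt.c, Lt.b, Lt.c, Lt.a, Lt.b] (pat hy (rf_8 hy) 14 rfl) h
    · rcases brec_true h with h | h
      · exact mRel_good (T := T) hM0 [Lt.a, Lt.b, Lt.a, Lt.a, Lt.a, Lt.a, Lt.b, Lt.a, Lt.b, Lt.ai, Lt.ci] [Lt.ci, Lt.b, Lt.c, Lt.b] (pat hy (rf_8 hy) 13 rfl) h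
      · exact mRel_good (T := T) hM0 [Lt.a, Lt.d, Lt.b, Lt.d] [Lt.ai, Lt.d, Lt.c, Lt.ai, Lt.ci, Lt.a, Lt.b, Lt.ai, Lt.ai, Lt.ci, Lt.d, Lt.a, Lt.a] (pat hy (rf_15 hy) 2 rfl) h
  · rcases brec_true h with h | h
    · rcases brec_true h with h | h
      · exact mRel_good (T := T) hM0 [Lt.ai, Lt.ai] [Lt.ci, Lt.ai, Lt.b, Lt.ai, Lt.b, Lt.ai, Lt.ai, Lt.c, Lt.ai, Lt.ai, Lt.b, Lt.ci, Lt.b] (pat hy (rf_10 hy) 7 rfl) h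
      · exact mRel_good (T := T) hM0 [Lt.b, Lt.ai, Lt.ai, Lt.b, Lt.a, Lt.b, Lt.ci] [Lt.a, Lt.b, Lt.ai, Lt.b, Lt.ci, Lt.ci, Lt.b, Lt.c] (pat hy (rb_9 hy) 12 rfl) h
    · rcases brec_true h with h | h
      · exact mRel_good (T := T) hM0 [Lt.c, Lt.d, Lt.ci, Lt.ai, Lt.d, Lt.a, Lt.c, Lt.d, Lt.ci, Lt.ai, Lt.d, Lt.a] [] (pat hy (rf_3 hy) 1 rfl) h
      · exact mRel_good (T := T) hM0 [Lt.a, Lt.a, Lt.a, Lt.b] [Lt.ai, Lt.b, Lt.ai, Lt.ci, Lt.b, Lt.c, Lt.b, Lt.c, Lt.a, Lt.b, Lt.ai] (pat hy (rf_8 hy) 1 rfl) h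
theorem dM_136_s (hy : Hy g H) (j z1 z2 u : ℕ) (h : dM_136 j z1 z2 u = true) : GdM g H u := by
  unfold dM_136 at h
  rcases brec_true h with h | h
  · exact dM_134_s hy j z1 z2 u h
  · exact dM_135_s hy j z1 z2 u h
theorem dM_137_s (hy : Hy g H) (j z1 z2 u : ℕ) (h : dM_137 j z1 z2 u = true) : GdM g H u := by
  unfold dM_137 at h
  rcases brec_true h with h | h
  · exact dM_133_s hy j z1 z2 u h
  · exact dM_136_s hy j z1 z2 u h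
theorem dM_138_s (hy : Hy g H) (j z1 z2 u : ℕ) (h : dM_138 j z1 z2 u = true) : GdM g H u := by
  unfold dM_138 at h
  rcases brec_true h with h | h
  · exact dM_130_s hy j z1 z2 u h
  · exact dM_137_s hy j z1 z2 u h
theorem dM_139_s (hy : Hy g H) (j z1 z2 u : ℕ) (h : dM_139 j z1 z2 u = true) : GdM g H u := by
  unfold dM_139 at h
  rcases brec_true h with h | h
  · exact dM_123_s hy j z1 z2 u h
  · exact dM_138_s hy j z1 z2 u h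
theorem dM_140_s (hy : Hy g H) (j z1 z2 u : ℕ) (h : dM_140 j z1 z2 u = true) : GdM g H u := by
  unfold dM_140 at h
  rcases brec_true h with h | h
  · exact dM_114_s hy j z1 z2 u h
  · exact dM_139_s hy j z1 z2 u h
theorem dM_141_s (hy : Hy g H) (j z1 z2 u : ℕ) (h : dM_141 j z1 z2 u = true) : GdM g H u := by
  unfold dM_141 at h
  rcases brec_true h with h | h
  · rcases brec_true h with h | h
    · exact mRel_good (T := T) hM0 [Lt.ci, Lt.a, Lt.ci, Lt.b, Lt.d, Lt.b] [Lt.c, Lt.d, Lt.ci, Lt.ci, Lt.a, Lt.ci] (pat hy (rf_4 hy) 7 rfl) h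
    · rcases brec_true h with h | h
      · exact mRel_good (T := T) hM0 [Lt.a, Lt.ci, Lt.ai, Lt.b, Lt.ai, Lt.b, Lt.ai, Lt.ai, Lt.c] [Lt.ai, Lt.b, Lt.c, Lt.b, Lt.a, Lt.a] (pat hy (rb_10 hy) 7 rfl) h
      · exact mRel_good (T := T) hM0 [Lt.ai, Lt.d, Lt.c, Lt.a, Lt.a, Lt.b, Lt.ai, Lt.c, Lt.a, Lt.ci, Lt.d, Lt.a, Lt.a, Lt.d, Lt.b, Lt.d, Lt.ai] [] (pat hy (rf_15 hy) 7 rfl) h
  · rcases brec_true h with h | h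
    · exact mRel_good (T := T) hM0 [Lt.b, Lt.c, Lt.ai, Lt.ci, Lt.ai, Lt.ci, Lt.ci, Lt.d, Lt.b, Lt.d] [Lt.d, Lt.b] (pat hy (rb_5 hy) 0 rfl) h
    · rcases brec_true h with h | h
      · exact mRel_good (T := T) hM0 [Lt.ci, Lt.d, Lt.c] [Lt.ai, Lt.ci, Lt.ci, Lt.d, Lt.c, Lt.c, Lt.a] (pat hy (rf_2 hy) 9 rfl) h
      · exact mRel_good (T := T) hM0 [Lt.b, Lt.ai, Lt.ai, Lt.ci] [Lt.ai, Lt.b, Lt.ai, Lt.b, Lt.a, Lt.b, Lt.ci, Lt.b, Lt.c, Lt.b] (pat hy (rb_7 hy) 11 rfl) h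
theorem dM_142_s (hy : Hy g H) (j z1 z2 u : ℕ) (h : dM_142 j z1 z2 u = true) : GdM g H u := by
  unfold dM_142 at h
  rcases brec_true h with h | h
  · rcases brec_true h with h | h
    · exact mRel_good (T := T) hM0 [Lt.c, Lt.a, Lt.a, Lt.b, Lt.ai, Lt.c, Lt.a, Lt.ci, Lt.d, Lt.a, Lt.a, Lt.d] [Lt.d, Lt.a, Lt.a, Lt.d, Lt.b] (pat hy (rf_15 hy) 9 rfl) h
    · rcases brec_true h with h | h
      · exact mRel_good (T := T) hM0 [Lt.ci, Lt.b, Lt.c, Lt.b, Lt.c, Lt.a, Lt.b, Lt.ai, Lt.b, Lt.ai, Lt.ai, Lt.ai] [Lt.a, Lt.b, Lt.a] (pat hy (rb_8 hy) 2 rfl) h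
      · exact mRel_good (T := T) hM0 [Lt.b, Lt.a, Lt.a, Lt.b, Lt.a, Lt.b, Lt.ai] [Lt.a, Lt.b, Lt.ci, Lt.ci, Lt.b, Lt.c, Lt.c, Lt.b] (pat hy (rf_9 hy) 14 rfl) h
  · rcases brec_true h with h | h
    · rcases brec_true h with h | h
      · exact mRel_good (T := T) hM0 [Lt.ai, Lt.ci, Lt.b, Lt.ci, Lt.b, Lt.c, Lt.a, Lt.b, Lt.a] [Lt.b, Lt.ai, Lt.b, Lt.ai, Lt.ai, Lt.ai] (pat hy (rf_8 hy) 7 rfl) h
      · exact mRel_good (T := T) hM0 [Lt.a, Lt.a, Lt.b, Lt.a, Lt.b, Lt.ai] [Lt.b, Lt.a, Lt.b, Lt.ci, Lt.ci, Lt.b, Lt.c, Lt.c, Lt.b] (pat hy (rf_9 hy) 0 rfl) h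
    · rcases brec_true h with h | h
      · exact mRel_good (T := T) hM0 [Lt.a, Lt.b, Lt.a, Lt.b, Lt.a, Lt.c, Lt.ai, Lt.ai, Lt.b] [Lt.ai, Lt.c, Lt.ai, Lt.ai, Lt.b, Lt.ci] (pat hy (rf_10 hy) 1 rfl) h
      · exact mRel_good (T := T) hM0 [Lt.b, Lt.d, Lt.b, Lt.c, Lt.ai] [Lt.c, Lt.ai, Lt.c, Lt.c, Lt.d, Lt.ci, Lt.ci] (pat hy (rf_4 hy) 10 rfl) h
theorem dM_143_s (hy : Hy g H) (j z1 z2 u : ℕ) (h : dM_143 j z1 z2 u = true) : GdM g H u := by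
  unfold dM_143 at h
  rcases brec_true h with h | h
  · exact dM_141_s hy j z1 z2 u h
  · exact dM_142_s hy j z1 z2 u h
theorem dM_144_s (hy : Hy g H) (j z1 z2 u : ℕ) (h : dM_144 j z1 z2 u = true) : GdM g H u := by
  unfold dM_144 at h
  rcases brec_true h with h | h
  · rcases brec_true h with h | h
    · exact mRel_good (T := T) hM0 [Lt.c, Lt.a, Lt.ci, Lt.ai, Lt.ci] [Lt.ci, Lt.a, Lt.b, Lt.ai, Lt.ai, Lt.b, Lt.ai, Lt.b, Lt.a, Lt.b, Lt.c] (pat hy (rf_12 hy) 5 rfl) h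
    · rcases brec_true h with h | h
      · exact mRel_good (T := T) hM0 [Lt.a, Lt.b, Lt.ai, Lt.b, Lt.ci, Lt.ci, Lt.b, Lt.c] [Lt.b, Lt.ai, Lt.ai, Lt.b, Lt.a, Lt.b, Lt.ci] (pat hy (rf_9 hy) 3 rfl) h
      · exact mRel_good (T := T) hM0 [Lt.b, Lt.ai, Lt.b, Lt.ai, Lt.b, Lt.a, Lt.b, Lt.ci, Lt.b] [Lt.ai, Lt.ai, Lt.ci, Lt.b, Lt.ci] (pat hy (rf_7 hy) 2 rfl) h
  · rcases brec_true h with h | h
    · exact mRel_good (T := T) hM0 [Lt.d, Lt.a, Lt.ci, Lt.b, Lt.c, Lt.ai, Lt.d, Lt.c, Lt.a] [Lt.ci, Lt.a, Lt.ci, Lt.b, Lt.c] (pat hy (rf_6 hy) 0 rfl) h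
    · rcases brec_true h with h | h
      · exact mRel_good (T := T) hM0 [Lt.a, Lt.a, Lt.ci, Lt.a, Lt.a, Lt.b, Lt.a, Lt.b, Lt.a, Lt.c] [Lt.b, Lt.ci, Lt.b, Lt.a, Lt.a] (pat hy (rf_10 hy) 12 rfl) h
      · exact mRel_good (T := T) hM0 [Lt.a, Lt.b, Lt.ai, Lt.b, Lt.ai] [Lt.ci, Lt.b, Lt.ci, Lt.b, Lt.c, Lt.a, Lt.b, Lt.a, Lt.a, Lt.a] (pat hy (rb_8 hy) 7 rfl) h
theorem dM_145_s (hy : Hy g H) (j z1 z2 u : ℕ) (h : dM_145 j z1 z2 u = true) : GdM g H u := by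
  unfold dM_145 at h
  rcases brec_true h with h | h
  · rcases brec_true h with h | h
    · exact mRel_good (T := T) hM0 [Lt.c, Lt.c, Lt.d, Lt.ci, Lt.ci] [Lt.a, Lt.ci, Lt.b, Lt.d, Lt.b, Lt.c, Lt.ai] (pat hy (rf_4 hy) 3 rfl) h
    · rcases brec_true h with h | h
      · exact mRel_good (T := T) hM0 [Lt.ai, Lt.c, Lt.c, Lt.d, Lt.ci, Lt.ci, Lt.a, Lt.ci] [Lt.ci, Lt.b, Lt.d, Lt.b] (pat hy (rf_4 hy) 2 rfl) h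
      · exact mRel_good (T := T) hM0 [Lt.a, Lt.b, Lt.a, Lt.b, Lt.ai, Lt.ai, Lt.ci, Lt.b, Lt.ci, Lt.b, Lt.c, Lt.b, Lt.ai] [Lt.b] (pat hy (rb_7 hy) 8 rfl) h
  · rcases brec_true h with h | h
    · rcases brec_true h with h | h
      · exact mRel_good (T := T) hM0 [Lt.c, Lt.a, Lt.a, Lt.b, Lt.ai, Lt.b, Lt.ai, Lt.b, Lt.a, Lt.b, Lt.ci, Lt.b, Lt.c] [Lt.b] (pat hy (rf_7 hy) 13 rfl) h
      · exact mRel_good (T := T) hM0 [Lt.ai, Lt.b, Lt.ai, Lt.b, Lt.a, Lt.b, Lt.ci, Lt.b, Lt.c, Lt.b, Lt.c, Lt.a, Lt.a, Lt.b] [] (pat hy (rf_7 hy) 3 rfl) h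
    · rcases brec_true h with h | h
      · exact mRel_good (T := T) hM0 [Lt.ai, Lt.b] [Lt.a, Lt.ci, Lt.a, Lt.a, Lt.b, Lt.a, Lt.b, Lt.a, Lt.c, Lt.ai, Lt.ai, Lt.b, Lt.c] (pat hy (rb_10 hy) 2 rfl) h
      · exact mRel_good (T := T) hM0 [Lt.ai, Lt.b, Lt.a, Lt.b, Lt.a, Lt.b, Lt.ai, Lt.ai, Lt.ci, Lt.b, Lt.ci, Lt.b] [Lt.b, Lt.ci] (pat hy (rb_7 hy) 6 rfl) h
theorem dM_146_s (hy : Hy g H) (j z1 z2 u : ℕ) (h : dM_146 j z1 z2 u = true) : GdM g H u := by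
  unfold dM_146 at h
  rcases brec_true h with h | h
  · exact dM_144_s hy j z1 z2 u h
  · exact dM_145_s hy j z1 z2 u h
theorem dM_147_s (hy : Hy g H) (j z1 z2 u : ℕ) (h : dM_147 j z1 z2 u = true) : GdM g H u := by
  unfold dM_147 at h
  rcases brec_true h with h | h
  · exact dM_143_s hy j z1 z2 u h
  · exact dM_146_s hy j z1 z2 u h
theorem dM_148_s (hy : Hy g H) (j z1 z2 u : ℕ) (h : dM_148 j z1 z2 u = true) : GdM g H u := by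
  unfold dM_148 at h
  rcases brec_true h with h | h
  · rcases brec_true h with h | h
    · exact mRel_good (T := T) hM0 [Lt.a, Lt.a, Lt.b, Lt.a, Lt.b, Lt.a, Lt.c] [Lt.c, Lt.ai, Lt.ai, Lt.b, Lt.ci, Lt.b, Lt.a, Lt.a] (pat hy (rf_10 hy) 0 rfl) h
    · rcases brec_true h with h | h
      · exact mRel_good (T := T) hM0 [Lt.ai, Lt.c, Lt.a, Lt.ci, Lt.d] [Lt.b, Lt.ai, Lt.ai, Lt.ci, Lt.d, Lt.a, Lt.a, Lt.d, Lt.b, Lt.d, Lt.ai, Lt.ai] (pat hy (rf_15 hy) 13 rfl) h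
      · exact mRel_good (T := T) hM0 [Lt.ai, Lt.d, Lt.c, Lt.a, Lt.ci, Lt.b, Lt.c, Lt.ai, Lt.c, Lt.d, Lt.a] [Lt.ci, Lt.b, Lt.c] (pat hy (rf_6 hy) 5 rfl) h
  · rcases brec_true h with h | h
    · exact mRel_good (T := T) hM0 [Lt.b, Lt.a, Lt.a, Lt.ci, Lt.ai, Lt.b, Lt.ai, Lt.b, Lt.ai, Lt.ai, Lt.c, Lt.ai] [Lt.c, Lt.b, Lt.a] (pat hy (rb_10 hy) 5 rfl) h
    · rcases brec_true h with h | h
      · exact mRel_good (T := T) hM0 [Lt.d, Lt.ci, Lt.a, Lt.ci, Lt.b, Lt.c, Lt.ai, Lt.ci, Lt.d, Lt.a, Lt.ci] [Lt.a, Lt.ci, Lt.b] (pat hy (rb_6 hy) 13 rfl) h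
      · exact mRel_good (T := T) hM0 [Lt.b, Lt.a, Lt.b, Lt.a] [Lt.ai, Lt.ai, Lt.c, Lt.ai, Lt.ai, Lt.b, Lt.ci, Lt.b, Lt.a, Lt.a, Lt.ci] (pat hy (rf_10 hy) 2 rfl) h
theorem dM_149_s (hy : Hy g H) (j z1 z2 u : ℕ) (h : dM_149 j z1 z2 u = true) : GdM g H u := by
  unfold dM_149 at h
  rcases brec_true h with h | h
  · rcases brec_true h with h | h
    · exact mRel_good (T := T) hM0 [Lt.ai, Lt.d, Lt.c, Lt.a] [Lt.ci, Lt.b, Lt.c, Lt.ai, Lt.d, Lt.ci, Lt.a, Lt.ci, Lt.b, Lt.c] (pat hy (rf_6 hy) 5 rfl) h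
    · rcases brec_true h with h | h
      · exact mRel_good (T := T) hM0 [Lt.ci, Lt.b, Lt.c, Lt.c, Lt.b, Lt.ai, Lt.b, Lt.a, Lt.a, Lt.b, Lt.a, Lt.b, Lt.ai, Lt.b, Lt.ci] [] (pat hy (rf_9 hy) 8 rfl) h
      · exact mRel_good (T := T) hM0 [Lt.a, Lt.b, Lt.ci, Lt.b, Lt.c, Lt.b, Lt.c, Lt.a, Lt.a, Lt.b] [Lt.b, Lt.a, Lt.b, Lt.a] (pat hy (rf_7 hy) 7 rfl) h
  · rcases brec_true h with h | h
    · rcases brec_true h with h | h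
      · exact mRel_good (T := T) hM0 [Lt.b, Lt.d, Lt.b, Lt.d] [Lt.c, Lt.ai, Lt.ci, Lt.ai, Lt.ci, Lt.ci, Lt.d, Lt.b] (pat hy (rf_5 hy) 11 rfl) h
      · exact mRel_good (T := T) hM0 [Lt.ai, Lt.ai, Lt.d, Lt.c, Lt.a, Lt.a, Lt.b, Lt.ai, Lt.c, Lt.a, Lt.ci, Lt.d] [Lt.d, Lt.b, Lt.d, Lt.ai, Lt.ai] (pat hy (rf_15 hy) 6 rfl) h
    · rcases brec_true h with h | h
      · exact mRel_good (T := T) hM0 [Lt.d, Lt.c] [Lt.b, Lt.d, Lt.b, Lt.d, Lt.b, Lt.c, Lt.ai, Lt.ci, Lt.ai, Lt.ci] (pat hy (rf_5 hy) 4 rfl) h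
      · exact mRel_good (T := T) hM0 [Lt.ai, Lt.ci, Lt.b, Lt.ci, Lt.b, Lt.c, Lt.a, Lt.b, Lt.a, Lt.a, Lt.a, Lt.a, Lt.b] [Lt.b, Lt.ai] (pat hy (rf_8 hy) 7 rfl) h
theorem dM_150_s (hy : Hy g H) (j z1 z2 u : ℕ) (h : dM_150 j z1 z2 u = true) : GdM g H u := by
  unfold dM_150 at h
  rcases brec_true h with h | h
  · exact dM_148_s hy j z1 z2 u h
  · exact dM_149_s hy j z1 z2 u h
theorem dM_151_s (hy : Hy g H) (j z1 z2 u : ℕ) (h : dM_151 j z1 z2 u = true) : GdM g H u := by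
  unfold dM_151 at h
  rcases brec_true h with h | h
  · rcases brec_true h with h | h
    · exact mRel_good (T := T) hM0 [Lt.b, Lt.c, Lt.ai, Lt.c, Lt.c, Lt.d, Lt.ci, Lt.ci, Lt.a, Lt.ci, Lt.b, Lt.d] [] (pat hy (rf_4 hy) 0 rfl) h
    · rcases brec_true h with h | h
      · exact mRel_good (T := T) hM0 [Lt.ci, Lt.d, Lt.a] [Lt.ai, Lt.ci, Lt.a, Lt.b, Lt.ai, Lt.ai, Lt.ci, Lt.d, Lt.a, Lt.a, Lt.d, Lt.b, Lt.d, Lt.ai] (pat hy (rf_15 hy) 16 rfl) h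
      · exact mRel_good (T := T) hM0 [Lt.c, Lt.ai, Lt.ai, Lt.b, Lt.a, Lt.a, Lt.a, Lt.a, Lt.a, Lt.a, Lt.a, Lt.a, Lt.ci] [Lt.b, Lt.c, Lt.c, Lt.b] (pat hy (rf_18 hy) 13 rfl) h
  · rcases brec_true h with h | h
    · exact mRel_good (T := T) hM0 [Lt.b, Lt.d, Lt.b, Lt.c, Lt.ai, Lt.ci, Lt.ai] [Lt.d, Lt.b, Lt.d, Lt.c, Lt.c] (pat hy (rb_5 hy) 10 rfl) h
    · rcases brec_true h with h | h
      · exact mRel_good (T := T) hM0 [Lt.ai, Lt.ai, Lt.ci, Lt.d, Lt.a, Lt.a] [Lt.b, Lt.ai, Lt.c, Lt.a, Lt.ci, Lt.d, Lt.a, Lt.a, Lt.d, Lt.b, Lt.d] (pat hy (rb_15 hy) 5 rfl) h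
      · exact mRel_good (T := T) hM0 [Lt.b, Lt.d, Lt.c, Lt.c, Lt.a, Lt.c, Lt.a, Lt.ci, Lt.b, Lt.d, Lt.b] [Lt.d] (pat hy (rf_5 hy) 3 rfl) h
theorem dM_152_s (hy : Hy g H) (j z1 z2 u : ℕ) (h : dM_152 j z1 z2 u = true) : GdM g H u := by
  unfold dM_152 at h
  rcases brec_true h with h | h
  · rcases brec_true h with h | h
    · exact mRel_good (T := T) hM0 [Lt.b, Lt.c, Lt.b, Lt.a, Lt.a] [Lt.a, Lt.a, Lt.ci, Lt.ai, Lt.b, Lt.ai, Lt.b, Lt.ai, Lt.ai, Lt.c] (pat hy (rf_10 hy) 9 rfl) h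
    · rcases brec_true h with h | h
      · exact mRel_good (T := T) hM0 [Lt.a, Lt.b, Lt.a, Lt.b, Lt.a, Lt.c, Lt.ai, Lt.ai, Lt.b, Lt.c, Lt.b, Lt.a, Lt.a, Lt.ci] [Lt.ai] (pat hy (rf_10 hy) 1 rfl) h
      · exact mRel_good (T := T) hM0 [Lt.c, Lt.ai, Lt.ai, Lt.b, Lt.c, Lt.b, Lt.a] [Lt.ai, Lt.b, Lt.ai, Lt.b, Lt.ai, Lt.ai, Lt.c, Lt.ai] (pat hy (rf_10 hy) 6 rfl) h
  · rcases brec_true h with h | h
    · rcases brec_true h with h | h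
      · exact mRel_good (T := T) hM0 [Lt.a, Lt.ci, Lt.a, Lt.a, Lt.b, Lt.a, Lt.b, Lt.a, Lt.c, Lt.ai] [Lt.ai, Lt.b, Lt.ci, Lt.b, Lt.a] (pat hy (rf_10 hy) 13 rfl) h
      · exact mRel_good (T := T) hM0 [Lt.b, Lt.ai, Lt.b, Lt.ai, Lt.b, Lt.a, Lt.b, Lt.ci, Lt.b, Lt.c] [Lt.ai, Lt.ai, Lt.ci, Lt.b] (pat hy (rf_7 hy) 2 rfl) h
    · rcases brec_true h with h | h
      · exact mRel_good (T := T) hM0 [Lt.a, Lt.a, Lt.a, Lt.a, Lt.b, Lt.a, Lt.b, Lt.ai, Lt.ci, Lt.b, Lt.ci] [Lt.b, Lt.ai, Lt.ci, Lt.b] (pat hy (rf_8 hy) 0 rfl) h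
      · exact mRel_good (T := T) hM0 [Lt.ci, Lt.ai, Lt.b, Lt.ai, Lt.b, Lt.ai, Lt.ai, Lt.c] [Lt.ai, Lt.ai, Lt.b, Lt.c, Lt.b, Lt.a, Lt.a] (pat hy (rb_10 hy) 8 rfl) h
theorem dM_153_s (hy : Hy g H) (j z1 z2 u : ℕ) (h : dM_153 j z1 z2 u = true) : GdM g H u := by
  unfold dM_153 at h
  rcases brec_true h with h | h
  · exact dM_151_s hy j z1 z2 u h
  · exact dM_152_s hy j z1 z2 u h
theorem dM_154_s (hy : Hy g H) (j z1 z2 u : ℕ) (h : dM_154 j z1 z2 u = true) : GdM g H u := by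
  unfold dM_154 at h
  rcases brec_true h with h | h
  · exact dM_150_s hy j z1 z2 u h
  · exact dM_153_s hy j z1 z2 u h
theorem dM_155_s (hy : Hy g H) (j z1 z2 u : ℕ) (h : dM_155 j z1 z2 u = true) : GdM g H u := by
  unfold dM_155 at h
  rcases brec_true h with h | h
  · exact dM_147_s hy j z1 z2 u h
  · exact dM_154_s hy j z1 z2 u h
theorem dM_156_s (hy : Hy g H) (j z1 z2 u : ℕ) (h : dM_156 j z1 z2 u = true) : GdM g H u := by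
  unfold dM_156 at h
  rcases brec_true h with h | h
  · rcases brec_true h with h | h
    · exact mRel_good (T := T) hM0 [Lt.b, Lt.a, Lt.b, Lt.a, Lt.b] [Lt.a, Lt.b, Lt.ci, Lt.b, Lt.c, Lt.b, Lt.c, Lt.a, Lt.a] (pat hy (rb_7 hy) 7 rfl) h
    · rcases brec_true h with h | h
      · exact mRel_good (T := T) hM0 [Lt.b, Lt.ai, Lt.b, Lt.ai, Lt.b, Lt.a, Lt.b, Lt.ci, Lt.b, Lt.c, Lt.b, Lt.c, Lt.a] [Lt.ai] (pat hy (rf_7 hy) 2 rfl) h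
      · exact mRel_good (T := T) hM0 [Lt.c, Lt.a, Lt.c, Lt.a, Lt.ci, Lt.b] [Lt.ci, Lt.d, Lt.b, Lt.d, Lt.b, Lt.d] (pat hy (rf_5 hy) 6 rfl) h
  · rcases brec_true h with h | h
    · exact mRel_good (T := T) hM0 [Lt.d, Lt.b, Lt.c] [Lt.b, Lt.d, Lt.b, Lt.d, Lt.c, Lt.c, Lt.a, Lt.c, Lt.a] (pat hy (rb_5 hy) 11 rfl) h
    · rcases brec_true h with h | h
      · exact mRel_good (T := T) hM0 [Lt.ci, Lt.b, Lt.c, Lt.b, Lt.c, Lt.a, Lt.b] [Lt.a, Lt.b, Lt.a, Lt.a, Lt.a, Lt.a, Lt.b, Lt.a] (pat hy (rb_8 hy) 2 rfl) h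
      · exact mRel_good (T := T) hM0 [Lt.b, Lt.a, Lt.b, Lt.ai, Lt.b, Lt.ci, Lt.ci, Lt.b, Lt.c, Lt.c, Lt.b, Lt.ai] [Lt.ai, Lt.ai, Lt.b] (pat hy (rf_9 hy) 2 rfl) h
theorem dM_157_s (hy : Hy g H) (j z1 z2 u : ℕ) (h : dM_157 j z1 z2 u = true) : GdM g H u := by
  unfold dM_157 at h
  rcases brec_true h with h | h
  · rcases brec_true h with h | h
    · exact mRel_good (T := T) hM0 [Lt.a, Lt.a, Lt.b, Lt.a, Lt.b, Lt.ai, Lt.b, Lt.ci, Lt.ci, Lt.b] [Lt.b, Lt.a, Lt.b, Lt.ci, Lt.ci] (pat hy (rf_9 hy) 0 rfl) h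
    · rcases brec_true h with h | h
      · exact mRel_good (T := T) hM0 [Lt.a, Lt.b, Lt.ci, Lt.ci, Lt.b, Lt.c, Lt.c] [Lt.b, Lt.a, Lt.a, Lt.b, Lt.a, Lt.b, Lt.ai, Lt.b] (pat hy (rb_9 hy) 1 rfl) h
      · exact mRel_good (T := T) hM0 [Lt.a, Lt.b, Lt.ai, Lt.b, Lt.ai, Lt.ai, Lt.ai, Lt.ai, Lt.b, Lt.ai, Lt.ci, Lt.b, Lt.c] [Lt.ci, Lt.b] (pat hy (rb_8 hy) 7 rfl) h
  · rcases brec_true h with h | h
    · rcases brec_true h with h | h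
      · exact mRel_good (T := T) hM0 [Lt.c, Lt.a, Lt.ci, Lt.d, Lt.a, Lt.a, Lt.d, Lt.b, Lt.d, Lt.ai, Lt.ai, Lt.d] [Lt.a, Lt.b, Lt.ai, Lt.ai, Lt.ci] (pat hy (rf_15 hy) 14 rfl) h
      · exact mRel_good (T := T) hM0 [Lt.ai, Lt.c, Lt.ai, Lt.ai, Lt.b, Lt.ci, Lt.b, Lt.a, Lt.a, Lt.ci] [Lt.a, Lt.b, Lt.a, Lt.b, Lt.a] (pat hy (rb_10 hy) 14 rfl) h
    · rcases brec_true h with h | h
      · exact mRel_good (T := T) hM0 [Lt.a, Lt.a, Lt.a, Lt.b, Lt.a] [Lt.ai, Lt.b, Lt.ai, Lt.ci, Lt.b, Lt.c, Lt.b, Lt.c, Lt.a, Lt.b] (pat hy (rf_8 hy) 1 rfl) h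
      · exact mRel_good (T := T) hM0 [Lt.b, Lt.c, Lt.c, Lt.b, Lt.ai, Lt.b, Lt.a, Lt.a, Lt.b, Lt.a, Lt.b, Lt.ai, Lt.b, Lt.ci] [Lt.c] (pat hy (rf_9 hy) 9 rfl) h
theorem dM_158_s (hy : Hy g H) (j z1 z2 u : ℕ) (h : dM_158 j z1 z2 u = true) : GdM g H u := by
  unfold dM_158 at h
  rcases brec_true h with h | h
  · exact dM_156_s hy j z1 z2 u h
  · exact dM_157_s hy j z1 z2 u h
theorem dM_159_s (hy : Hy g H) (j z1 z2 u : ℕ) (h : dM_159 j z1 z2 u = true) : GdM g H u := by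
  unfold dM_159 at h
  rcases brec_true h with h | h
  · rcases brec_true h with h | h
    · exact mRel_good (T := T) hM0 [Lt.b, Lt.a, Lt.b, Lt.ai, Lt.ci, Lt.b, Lt.ci, Lt.b, Lt.c, Lt.a, Lt.b, Lt.a, Lt.a] [Lt.ai, Lt.ai] (pat hy (rf_8 hy) 4 rfl) h
    · rcases brec_true h with h | h
      · exact mRel_good (T := T) hM0 [Lt.b, Lt.d, Lt.b, Lt.c, Lt.ai, Lt.c, Lt.c] [Lt.c, Lt.ai, Lt.c, Lt.c, Lt.d] (pat hy (rf_4 hy) 10 rfl) h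
      · exact mRel_good (T := T) hM0 [Lt.ci, Lt.ci, Lt.d, Lt.c, Lt.c, Lt.a, Lt.ci, Lt.d, Lt.c] [Lt.a] (pat hy (rf_2 hy) 3 rfl) h
  · rcases brec_true h with h | h
    · exact mRel_good (T := T) hM0 [Lt.d, Lt.b] [Lt.b, Lt.d, Lt.b, Lt.c, Lt.ai, Lt.ci, Lt.ai, Lt.ci, Lt.ci, Lt.d] (pat hy (rf_5 hy) 2 rfl) h
    · rcases brec_true h with h | h
      · exact mRel_good (T := T) hM0 [Lt.ai, Lt.d, Lt.a, Lt.c, Lt.d, Lt.ci, Lt.ai, Lt.d] [Lt.c, Lt.d, Lt.ci, Lt.ai] (pat hy (rf_3 hy) 4 rfl) h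
      · exact mRel_good (T := T) hM0 [Lt.d, Lt.b, Lt.d, Lt.b, Lt.d, Lt.c] [Lt.b, Lt.c, Lt.ai, Lt.ci, Lt.ai, Lt.ci] (pat hy (rf_5 hy) 0 rfl) h
theorem dM_160_s (hy : Hy g H) (j z1 z2 u : ℕ) (h : dM_160 j z1 z2 u = true) : GdM g H u := by
  unfold dM_160 at h
  rcases brec_true h with h | h
  · rcases brec_true h with h | h
    · exact mRel_good (T := T) hM0 [Lt.ci, Lt.ai, Lt.d, Lt.a, Lt.c, Lt.d] [Lt.d, Lt.ci, Lt.ai, Lt.d, Lt.a, Lt.c] (pat hy (rf_3 hy) 3 rfl) h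
    · rcases brec_true h with h | h
      · exact mRel_good (T := T) hM0 [Lt.c, Lt.a, Lt.c, Lt.a, Lt.ci, Lt.b, Lt.d, Lt.b, Lt.d] [Lt.ci, Lt.d, Lt.b] (pat hy (rf_5 hy) 6 rfl) h
      · exact mRel_good (T := T) hM0 [Lt.a, Lt.b, Lt.a, Lt.b, Lt.ai, Lt.b, Lt.ci, Lt.ci] [Lt.ai, Lt.b, Lt.a, Lt.b, Lt.ci, Lt.ci, Lt.b] (pat hy (rf_9 hy) 1 rfl) h
  · rcases brec_true h with h | h
    · rcases brec_true h with h | h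
      · exact mRel_good (T := T) hM0 [Lt.c, Lt.a, Lt.ci, Lt.b, Lt.d, Lt.b, Lt.d, Lt.b, Lt.d] [Lt.ai, Lt.ci, Lt.ci] (pat hy (rf_5 hy) 8 rfl) h
      · exact mRel_good (T := T) hM0 [Lt.b, Lt.ci, Lt.b, Lt.c, Lt.b, Lt.c, Lt.a, Lt.a, Lt.b, Lt.ai, Lt.b] [Lt.ai, Lt.b, Lt.a] (pat hy (rf_7 hy) 8 rfl) h
    · rcases brec_true h with h | h
      · exact mRel_good (T := T) hM0 [Lt.a, Lt.b, Lt.a, Lt.b, Lt.ai, Lt.ai, Lt.ci, Lt.b, Lt.ci, Lt.b, Lt.c, Lt.b] [Lt.b, Lt.a] (pat hy (rb_7 hy) 8 rfl) h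
      · exact mRel_good (T := T) hM0 [Lt.ci, Lt.b, Lt.c, Lt.b] [Lt.b, Lt.c, Lt.a, Lt.a, Lt.b, Lt.ai, Lt.b, Lt.ai, Lt.b, Lt.a] (pat hy (rb_7 hy) 2 rfl) h
theorem dM_161_s (hy : Hy g H) (j z1 z2 u : ℕ) (h : dM_161 j z1 z2 u = true) : GdM g H u := by
  unfold dM_161 at h
  rcases brec_true h with h | h
  · exact dM_159_s hy j z1 z2 u h
  · exact dM_160_s hy j z1 z2 u h
theorem dM_162_s (hy : Hy g H) (j z1 z2 u : ℕ) (h : dM_162 j z1 z2 u = true) : GdM g H u := by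
  unfold dM_162 at h
  rcases brec_true h with h | h
  · exact dM_158_s hy j z1 z2 u h
  · exact dM_161_s hy j z1 z2 u h
theorem dM_163_s (hy : Hy g H) (j z1 z2 u : ℕ) (h : dM_163 j z1 z2 u = true) : GdM g H u := by
  unfold dM_163 at h
  rcases brec_true h with h | h
  · rcases brec_true h with h | h
    · exact mRel_good (T := T) hM0 [Lt.b, Lt.d, Lt.b, Lt.d, Lt.b] [Lt.c, Lt.ai, Lt.ci, Lt.ai, Lt.ci, Lt.ci, Lt.d] (pat hy (rf_5 hy) 11 rfl) h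
    · rcases brec_true h with h | h
      · exact mRel_good (T := T) hM0 [Lt.ai, Lt.b, Lt.a, Lt.b] [Lt.b, Lt.ci, Lt.b, Lt.c, Lt.b, Lt.c, Lt.a, Lt.a, Lt.b, Lt.ai] (pat hy (rb_7 hy) 6 rfl) h
      · exact mRel_good (T := T) hM0 [Lt.a, Lt.b, Lt.a, Lt.b, Lt.a, Lt.c] [Lt.ai, Lt.c, Lt.ai, Lt.ai, Lt.b, Lt.ci, Lt.b, Lt.a, Lt.a] (pat hy (rf_10 hy) 1 rfl) h
  · rcases brec_true h with h | h
    · exact mRel_good (T := T) hM0 [Lt.c, Lt.b, Lt.c] [Lt.b, Lt.c, Lt.b, Lt.ai, Lt.b, Lt.a, Lt.b, Lt.a, Lt.b, Lt.ai, Lt.ai] (pat hy (rf_7 hy) 11 rfl) h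
    · rcases brec_true h with h | h
      · exact mRel_good (T := T) hM0 [Lt.ai, Lt.b, Lt.a, Lt.b, Lt.ci, Lt.b, Lt.c, Lt.b, Lt.c, Lt.a, Lt.a, Lt.b] [Lt.b, Lt.a] (pat hy (rf_7 hy) 5 rfl) h
      · exact mRel_good (T := T) hM0 [Lt.a, Lt.c] [Lt.ci, Lt.ci, Lt.d, Lt.b, Lt.d, Lt.b, Lt.d, Lt.b, Lt.c, Lt.ai] (pat hy (rf_5 hy) 7 rfl) h
theorem dM_164_s (hy : Hy g H) (j z1 z2 u : ℕ) (h : dM_164 j z1 z2 u = true) : GdM g H u := by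
  unfold dM_164 at h
  rcases brec_true h with h | h
  · rcases brec_true h with h | h
    · exact mRel_good (T := T) hM0 [Lt.b, Lt.d, Lt.b, Lt.d, Lt.b, Lt.d, Lt.c, Lt.c, Lt.a, Lt.c, Lt.a, Lt.ci] [] (pat hy (rf_5 hy) 11 rfl) h
    · rcases brec_true h with h | h
      · exact mRel_good (T := T) hM0 [Lt.a, Lt.b, Lt.a, Lt.b, Lt.ai, Lt.b, Lt.ci, Lt.ci, Lt.b, Lt.c, Lt.c] [Lt.ai, Lt.b, Lt.a, Lt.b] (pat hy (rf_9 hy) 1 rfl) h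
      · exact mRel_good (T := T) hM0 [Lt.c, Lt.a, Lt.c, Lt.a, Lt.ci, Lt.b, Lt.d, Lt.b, Lt.d, Lt.b, Lt.d, Lt.c] [] (pat hy (rf_5 hy) 6 rfl) h
  · rcases brec_true h with h | h
    · rcases brec_true h with h | h
      · exact mRel_good (T := T) hM0 [Lt.ci, Lt.b, Lt.c, Lt.ai, Lt.ci, Lt.d, Lt.a, Lt.ci, Lt.b, Lt.c] [Lt.ai, Lt.c, Lt.d, Lt.a] (pat hy (rb_6 hy) 2 rfl) h
      · exact mRel_good (T := T) hM0 [Lt.c, Lt.a, Lt.ci] [Lt.ai, Lt.ci, Lt.ci, Lt.d, Lt.b, Lt.d, Lt.b, Lt.d, Lt.b] (pat hy (rf_5 hy) 8 rfl) h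
    · rcases brec_true h with h | h
      · exact mRel_good (T := T) hM0 [Lt.c] [Lt.ci, Lt.d, Lt.b, Lt.d, Lt.b, Lt.d, Lt.b, Lt.c, Lt.ai, Lt.ci, Lt.ai] (pat hy (rf_5 hy) 6 rfl) h
      · exact mRel_good (T := T) hM0 [Lt.d, Lt.a, Lt.c, Lt.d, Lt.ci, Lt.ai, Lt.d] [Lt.a, Lt.c, Lt.d, Lt.ci, Lt.ai] (pat hy (rf_3 hy) 5 rfl) h
theorem dM_165_s (hy : Hy g H) (j z1 z2 u : ℕ) (h : dM_165 j z1 z2 u = true) : GdM g H u := by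
  unfold dM_165 at h
  rcases brec_true h with h | h
  · exact dM_163_s hy j z1 z2 u h
  · exact dM_164_s hy j z1 z2 u h
theorem dM_166_s (hy : Hy g H) (j z1 z2 u : ℕ) (h : dM_166 j z1 z2 u = true) : GdM g H u := by
  unfold dM_166 at h
  rcases brec_true h with h | h
  · rcases brec_true h with h | h
    · exact mRel_good (T := T) hM0 [Lt.ci, Lt.ai, Lt.d, Lt.a, Lt.c, Lt.d, Lt.ci, Lt.ai, Lt.d, Lt.a, Lt.c] [Lt.d] (pat hy (rf_3 hy) 3 rfl) h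
    · rcases brec_true h with h | h
      · exact mRel_good (T := T) hM0 [Lt.a, Lt.a, Lt.ci, Lt.b, Lt.c, Lt.c] [Lt.b, Lt.a, Lt.a, Lt.a, Lt.a, Lt.a, Lt.a, Lt.a, Lt.a, Lt.ci, Lt.b] (pat hy (rb_18 hy) 1 rfl) h
      · exact mRel_good (T := T) hM0 [Lt.b, Lt.a, Lt.b, Lt.ai, Lt.b] [Lt.ai, Lt.ai, Lt.b, Lt.a, Lt.b, Lt.ci, Lt.ci, Lt.b, Lt.c, Lt.c] (pat hy (rf_9 hy) 2 rfl) h
  · rcases brec_true h with h | h
    · rcases brec_true h with h | h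
      · exact mRel_good (T := T) hM0 [Lt.c, Lt.a, Lt.b, Lt.a, Lt.a, Lt.a, Lt.a, Lt.b, Lt.a, Lt.b, Lt.ai, Lt.ci, Lt.b, Lt.ci] [Lt.b] (pat hy (rf_8 hy) 12 rfl) h
      · exact mRel_good (T := T) hM0 [Lt.c, Lt.a, Lt.ci, Lt.d, Lt.a, Lt.a, Lt.d, Lt.b, Lt.d, Lt.ai, Lt.ai] [Lt.a, Lt.b, Lt.ai, Lt.ai, Lt.ci, Lt.d] (pat hy (rf_15 hy) 14 rfl) h
    · rcases brec_true h with h | h
      · exact mRel_good (T := T) hM0 [Lt.c, Lt.b, Lt.c, Lt.a, Lt.a, Lt.b, Lt.ai, Lt.b, Lt.ai, Lt.b, Lt.a] [Lt.b, Lt.c, Lt.b] (pat hy (rf_7 hy) 11 rfl) h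
      · exact mRel_good (T := T) hM0 [Lt.ci, Lt.d, Lt.c, Lt.c] [Lt.c, Lt.a, Lt.ci, Lt.d, Lt.c, Lt.ai] (pat hy (rf_2 hy) 4 rfl) h
theorem dM_167_s (hy : Hy g H) (j z1 z2 u : ℕ) (h : dM_167 j z1 z2 u = true) : GdM g H u := by
  unfold dM_167 at h
  rcases brec_true h with h | h
  · rcases brec_true h with h | h
    · exact mRel_good (T := T) hM0 [Lt.ci] [Lt.c, Lt.a, Lt.ci, Lt.d, Lt.c, Lt.ai, Lt.ci, Lt.ci, Lt.d] (pat hy (rf_2 hy) 4 rfl) h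
    · rcases brec_true h with h | h
      · exact mRel_good (T := T) hM0 [Lt.a, Lt.b, Lt.ai, Lt.ai, Lt.ci, Lt.b, Lt.ci, Lt.b] [Lt.b, Lt.ai, Lt.b, Lt.a, Lt.b, Lt.ci] (pat hy (rb_7 hy) 10 rfl) h
      · exact mRel_good (T := T) hM0 [Lt.b, Lt.a, Lt.b, Lt.ci, Lt.b, Lt.c] [Lt.a, Lt.b, Lt.a, Lt.b, Lt.ai, Lt.ai, Lt.ci, Lt.b] (pat hy (rf_7 hy) 6 rfl) h
  · rcases brec_true h with h | h
    · rcases brec_true h with h | h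
      · exact mRel_good (T := T) hM0 [Lt.b, Lt.a, Lt.c] [Lt.ai, Lt.b, Lt.ai, Lt.ai, Lt.c, Lt.ai, Lt.ai, Lt.b, Lt.ci, Lt.b, Lt.a, Lt.a] (pat hy (rf_10 hy) 4 rfl) h
      · exact mRel_good (T := T) hM0 [Lt.b, Lt.ci, Lt.b, Lt.c, Lt.ai, Lt.ai, Lt.b, Lt.a, Lt.b, Lt.ai, Lt.b, Lt.ai, Lt.b, Lt.a, Lt.a] [Lt.c, Lt.ai] (pat hy (rf_17 hy) 4 rfl) h
    · rcases brec_true h with h | h
      · exact mRel_good (T := T) hM0 [Lt.b, Lt.ai, Lt.b, Lt.ai] [Lt.ai, Lt.ai, Lt.ci, Lt.b, Lt.ci, Lt.b, Lt.c, Lt.b, Lt.ai, Lt.b] (pat hy (rf_7 hy) 2 rfl) h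
      · exact mRel_good (T := T) hM0 [Lt.ai, Lt.ci, Lt.b, Lt.c] [Lt.b, Lt.a, Lt.a, Lt.a, Lt.a, Lt.b, Lt.a, Lt.b, Lt.ai, Lt.ci, Lt.b] (pat hy (rb_8 hy) 1 rfl) h
theorem dM_168_s (hy : Hy g H) (j z1 z2 u : ℕ) (h : dM_168 j z1 z2 u = true) : GdM g H u := by
  unfold dM_168 at h
  rcases brec_true h with h | h
  · exact dM_166_s hy j z1 z2 u h
  · exact dM_167_s hy j z1 z2 u h
theorem dM_169_s (hy : Hy g H) (j z1 z2 u : ℕ) (h : dM_169 j z1 z2 u = true) : GdM g H u := by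
  unfold dM_169 at h
  rcases brec_true h with h | h
  · exact dM_165_s hy j z1 z2 u h
  · exact dM_168_s hy j z1 z2 u h
theorem dM_170_s (hy : Hy g H) (j z1 z2 u : ℕ) (h : dM_170 j z1 z2 u = true) : GdM g H u := by
  unfold dM_170 at h
  rcases brec_true h with h | h
  · exact dM_162_s hy j z1 z2 u h
  · exact dM_169_s hy j z1 z2 u h
theorem dM_171_s (hy : Hy g H) (j z1 z2 u : ℕ) (h : dM_171 j z1 z2 u = true) : GdM g H u := by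
  unfold dM_171 at h
  rcases brec_true h with h | h
  · exact dM_155_s hy j z1 z2 u h
  · exact dM_170_s hy j z1 z2 u h
theorem dM_172_s (hy : Hy g H) (j z1 z2 u : ℕ) (h : dM_172 j z1 z2 u = true) : GdM g H u := by
  unfold dM_172 at h
  rcases brec_true h with h | h
  · rcases brec_true h with h | h
    · exact mRel_good (T := T) hM0 [Lt.a, Lt.b, Lt.ai, Lt.ai, Lt.ci] [Lt.b, Lt.ai, Lt.b, Lt.a, Lt.b, Lt.ci, Lt.b, Lt.c, Lt.b] (pat hy (rb_7 hy) 10 rfl) h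
    · rcases brec_true h with h | h
      · exact mRel_good (T := T) hM0 [Lt.b, Lt.c, Lt.a, Lt.b, Lt.ai, Lt.b, Lt.ai] [Lt.ci, Lt.b, Lt.c, Lt.a, Lt.b, Lt.a, Lt.a, Lt.a] (pat hy (rb_8 hy) 5 rfl) h
      · exact mRel_good (T := T) hM0 [Lt.a, Lt.ci, Lt.b, Lt.d] [Lt.ci, Lt.ai, Lt.ci, Lt.ci, Lt.d, Lt.b, Lt.d, Lt.b] (pat hy (rf_5 hy) 9 rfl) h
  · rcases brec_true h with h | h
    · exact mRel_good (T := T) hM0 [Lt.a, Lt.b] [Lt.b, Lt.a, Lt.b, Lt.ci, Lt.b, Lt.c, Lt.b, Lt.c, Lt.a, Lt.a, Lt.b, Lt.ai] (pat hy (rb_7 hy) 8 rfl) h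
    · rcases brec_true h with h | h
      · exact mRel_good (T := T) hM0 [Lt.ci, Lt.ai, Lt.ci, Lt.ci, Lt.d] [Lt.a, Lt.ci, Lt.b, Lt.d, Lt.b, Lt.d, Lt.b] (pat hy (rb_5 hy) 3 rfl) h
      · exact mRel_good (T := T) hM0 [Lt.ci, Lt.a, Lt.ci, Lt.b, Lt.d, Lt.b, Lt.c, Lt.ai, Lt.c] [Lt.c, Lt.d, Lt.ci] (pat hy (rf_4 hy) 7 rfl) h
theorem dM_173_s (hy : Hy g H) (j z1 z2 u : ℕ) (h : dM_173 j z1 z2 u = true) : GdM g H u := by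
  unfold dM_173 at h
  rcases brec_true h with h | h
  · rcases brec_true h with h | h
    · exact mRel_good (T := T) hM0 [Lt.ai, Lt.b, Lt.a] [Lt.b, Lt.a, Lt.b, Lt.ai, Lt.ai, Lt.ci, Lt.b, Lt.ci, Lt.b, Lt.c, Lt.b] (pat hy (rf_7 hy) 5 rfl) h
    · rcases brec_true h with h | h
      · exact mRel_good (T := T) hM0 [Lt.ai, Lt.b, Lt.ai] [Lt.b, Lt.a, Lt.c, Lt.ai, Lt.ai, Lt.b, Lt.c, Lt.b, Lt.a, Lt.a, Lt.ci, Lt.a] (pat hy (rb_10 hy) 11 rfl) h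
      · exact mRel_good (T := T) hM0 [Lt.ai, Lt.b, Lt.a, Lt.b, Lt.a, Lt.b] [Lt.b, Lt.ci, Lt.b, Lt.c, Lt.b, Lt.c, Lt.a, Lt.a] (pat hy (rb_7 hy) 6 rfl) h
  · rcases brec_true h with h | h
    · rcases brec_true h with h | h
      · exact mRel_good (T := T) hM0 [Lt.ai, Lt.d, Lt.a, Lt.c, Lt.d, Lt.ci, Lt.ai, Lt.d, Lt.a, Lt.c, Lt.d, Lt.ci] [] (pat hy (rf_3 hy) 4 rfl) h
      · exact mRel_good (T := T) hM0 [Lt.c, Lt.a, Lt.a, Lt.b, Lt.ai, Lt.b, Lt.ai, Lt.b, Lt.a] [Lt.b, Lt.ci, Lt.b, Lt.c, Lt.b] (pat hy (rf_7 hy) 13 rfl) h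
    · rcases brec_true h with h | h
      · exact mRel_good (T := T) hM0 [Lt.ai, Lt.b, Lt.ci, Lt.b, Lt.a, Lt.a] [Lt.a, Lt.ci, Lt.a, Lt.a, Lt.b, Lt.a, Lt.b, Lt.a, Lt.c] (pat hy (rb_10 hy) 2 rfl) h
      · exact mRel_good (T := T) hM0 [Lt.b, Lt.a, Lt.b, Lt.ci, Lt.ci, Lt.b, Lt.c, Lt.c] [Lt.a, Lt.a, Lt.b, Lt.a, Lt.b, Lt.ai, Lt.b] (pat hy (rb_9 hy) 0 rfl) h
theorem dM_174_s (hy : Hy g H) (j z1 z2 u : ℕ) (h : dM_174 j z1 z2 u = true) : GdM g H u := by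
  unfold dM_174 at h
  rcases brec_true h with h | h
  · exact dM_172_s hy j z1 z2 u h
  · exact dM_173_s hy j z1 z2 u h
theorem dM_175_s (hy : Hy g H) (j z1 z2 u : ℕ) (h : dM_175 j z1 z2 u = true) : GdM g H u := by
  unfold dM_175 at h
  rcases brec_true h with h | h
  · rcases brec_true h with h | h
    · exact mRel_good (T := T) hM0 [Lt.b, Lt.ai, Lt.ai, Lt.ai, Lt.ai] [Lt.a, Lt.b, Lt.ai, Lt.ci, Lt.b, Lt.ci, Lt.b, Lt.c, Lt.a, Lt.b] (pat hy (rb_8 hy) 10 rfl) h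
    · rcases brec_true h with h | h
      · exact mRel_good (T := T) hM0 [Lt.b, Lt.ai, Lt.ci, Lt.b, Lt.c, Lt.b, Lt.c, Lt.a, Lt.b, Lt.ai, Lt.b, Lt.ai] [Lt.a, Lt.a, Lt.a] (pat hy (rb_8 hy) 0 rfl) h
      · exact mRel_good (T := T) hM0 [Lt.b, Lt.a, Lt.b, Lt.a, Lt.b, Lt.ai] [Lt.a, Lt.b, Lt.ci, Lt.b, Lt.c, Lt.b, Lt.c, Lt.a] (pat hy (rb_7 hy) 7 rfl) h
  · rcases brec_true h with h | h
    · exact mRel_good (T := T) hM0 [Lt.c, Lt.b, Lt.c, Lt.a, Lt.a, Lt.b] [Lt.b, Lt.c, Lt.b, Lt.ai, Lt.b, Lt.a, Lt.b, Lt.a] (pat hy (rf_7 hy) 11 rfl) h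
    · rcases brec_true h with h | h
      · exact mRel_good (T := T) hM0 [Lt.b, Lt.c, Lt.b, Lt.ai, Lt.b, Lt.a, Lt.b] [Lt.c, Lt.b, Lt.c, Lt.a, Lt.a, Lt.b, Lt.ai] (pat hy (rb_7 hy) 3 rfl) h
      · exact mRel_good (T := T) hM0 [Lt.b, Lt.ai, Lt.b, Lt.ai, Lt.ai, Lt.c, Lt.ai, Lt.ai, Lt.b, Lt.ci, Lt.b, Lt.a, Lt.a, Lt.ci] [Lt.a] (pat hy (rb_10 hy) 10 rfl) h
theorem dM_176_s (hy : Hy g H) (j z1 z2 u : ℕ) (h : dM_176 j z1 z2 u = true) : GdM g H u := by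
  unfold dM_176 at h
  rcases brec_true h with h | h
  · rcases brec_true h with h | h
    · exact mRel_good (T := T) hM0 [Lt.d, Lt.c, Lt.c, Lt.a] [Lt.b, Lt.d, Lt.b, Lt.d, Lt.b, Lt.c, Lt.ai, Lt.ci] (pat hy (rf_5 hy) 4 rfl) h
    · rcases brec_true h with h | h
      · exact mRel_good (T := T) hM0 [Lt.ai, Lt.ci, Lt.ai, Lt.ci, Lt.ci] [Lt.ci, Lt.b, Lt.d, Lt.b, Lt.d, Lt.b, Lt.d] (pat hy (rb_5 hy) 2 rfl) h
      · exact mRel_good (T := T) hM0 [Lt.a, Lt.a, Lt.b, Lt.ai, Lt.b, Lt.ai, Lt.b, Lt.a, Lt.b] [Lt.ci, Lt.b, Lt.ci, Lt.b, Lt.c] (pat hy (rf_7 hy) 0 rfl) h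
  · rcases brec_true h with h | h
    · rcases brec_true h with h | h
      · exact mRel_good (T := T) hM0 [Lt.a, Lt.b, Lt.ai, Lt.ai, Lt.ci, Lt.d] [Lt.c, Lt.a, Lt.ci, Lt.d, Lt.a, Lt.a, Lt.d, Lt.b, Lt.d, Lt.ai, Lt.ai] (pat hy (rb_15 hy) 3 rfl) h
      · exact mRel_good (T := T) hM0 [Lt.a, Lt.ci, Lt.d, Lt.a, Lt.a] [Lt.ci, Lt.a, Lt.b, Lt.ai, Lt.ai, Lt.ci, Lt.d, Lt.a, Lt.a, Lt.d, Lt.b, Lt.d] (pat hy (rf_15 hy) 15 rfl) h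
    · rcases brec_true h with h | h
      · exact mRel_good (T := T) hM0 [Lt.d, Lt.ci, Lt.ai, Lt.d, Lt.a, Lt.c, Lt.d, Lt.ci, Lt.ai, Lt.d, Lt.a] [Lt.ci] (pat hy (rf_3 hy) 2 rfl) h
      · exact mRel_good (T := T) hM0 [Lt.b, Lt.d, Lt.b, Lt.c, Lt.ai, Lt.c, Lt.c, Lt.d, Lt.ci, Lt.ci, Lt.a] [Lt.c] (pat hy (rf_4 hy) 10 rfl) h
theorem dM_177_s (hy : Hy g H) (j z1 z2 u : ℕ) (h : dM_177 j z1 z2 u = true) : GdM g H u := by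
  unfold dM_177 at h
  rcases brec_true h with h | h
  · exact dM_175_s hy j z1 z2 u h
  · exact dM_176_s hy j z1 z2 u h
theorem dM_178_s (hy : Hy g H) (j z1 z2 u : ℕ) (h : dM_178 j z1 z2 u = true) : GdM g H u := by
  unfold dM_178 at h
  rcases brec_true h with h | h
  · exact dM_174_s hy j z1 z2 u h
  · exact dM_177_s hy j z1 z2 u h
theorem dM_179_s (hy : Hy g H) (j z1 z2 u : ℕ) (h : dM_179 j z1 z2 u = true) : GdM g H u := by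
  unfold dM_179 at h
  rcases brec_true h with h | h
  · rcases brec_true h with h | h
    · exact mRel_good (T := T) hM0 [Lt.ci, Lt.ci, Lt.a, Lt.ci, Lt.b, Lt.d, Lt.b, Lt.c] [Lt.d, Lt.ci, Lt.ci, Lt.a] (pat hy (rf_4 hy) 6 rfl) h
    · rcases brec_true h with h | h
      · exact mRel_good (T := T) hM0 [Lt.ai] [Lt.ci, Lt.d, Lt.c, Lt.ai, Lt.ci, Lt.ci, Lt.d, Lt.c, Lt.c] (pat hy (rf_2 hy) 2 rfl) h
      · exact mRel_good (T := T) hM0 [Lt.d, Lt.b, Lt.d, Lt.ai, Lt.ai, Lt.d, Lt.c, Lt.a, Lt.a, Lt.b, Lt.ai, Lt.c, Lt.a, Lt.ci, Lt.d, Lt.a, Lt.a] [] (pat hy (rf_15 hy) 3 rfl) h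
  · rcases brec_true h with h | h
    · exact mRel_good (T := T) hM0 [Lt.c, Lt.ai, Lt.d, Lt.ci, Lt.a] [Lt.b, Lt.c, Lt.ai, Lt.d, Lt.c, Lt.a, Lt.ci, Lt.b, Lt.c] (pat hy (rb_6 hy) 11 rfl) h
    · rcases brec_true h with h | h
      · exact mRel_good (T := T) hM0 [Lt.b, Lt.ai, Lt.ai] [Lt.a, Lt.b, Lt.ai, Lt.ci, Lt.b, Lt.ci, Lt.b, Lt.c, Lt.a, Lt.b, Lt.a, Lt.a] (pat hy (rb_8 hy) 10 rfl) h
      · exact mRel_good (T := T) hM0 [Lt.b, Lt.ci, Lt.b, Lt.c, Lt.b, Lt.ai, Lt.b, Lt.a, Lt.b, Lt.a, Lt.b] [Lt.c, Lt.a, Lt.a] (pat hy (rb_7 hy) 1 rfl) h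
theorem dM_180_s (hy : Hy g H) (j z1 z2 u : ℕ) (h : dM_180 j z1 z2 u = true) : GdM g H u := by
  unfold dM_180 at h
  rcases brec_true h with h | h
  · rcases brec_true h with h | h
    · exact mRel_good (T := T) hM0 [Lt.a, Lt.a, Lt.b, Lt.a, Lt.b, Lt.ai, Lt.ci, Lt.b, Lt.ci, Lt.b, Lt.c] [Lt.ai, Lt.ai, Lt.b, Lt.ai] (pat hy (rf_8 hy) 2 rfl) h
    · rcases brec_true h with h | h
      · exact mRel_good (T := T) hM0 [Lt.ai, Lt.b, Lt.ai, Lt.ai, Lt.b, Lt.a, Lt.b, Lt.ci, Lt.ci] [Lt.b, Lt.ai, Lt.b, Lt.ci, Lt.ci, Lt.b] (pat hy (rb_9 hy) 11 rfl) h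
      · exact mRel_good (T := T) hM0 [Lt.b, Lt.ai, Lt.b, Lt.ai, Lt.b, Lt.a, Lt.b, Lt.ci] [Lt.ai, Lt.ai, Lt.ci, Lt.b, Lt.ci, Lt.b] (pat hy (rf_7 hy) 2 rfl) h
  · rcases brec_true h with h | h
    · rcases brec_true h with h | h
      · exact mRel_good (T := T) hM0 [Lt.c, Lt.c] [Lt.b, Lt.c, Lt.c, Lt.b, Lt.a, Lt.b, Lt.ai, Lt.b, Lt.ai, Lt.ai, Lt.b, Lt.a, Lt.b] (pat hy (rf_9 hy) 10 rfl) h
      · exact mRel_good (T := T) hM0 [Lt.c, Lt.a, Lt.a, Lt.b, Lt.ai, Lt.c, Lt.a, Lt.ci, Lt.d, Lt.a, Lt.a, Lt.d, Lt.b, Lt.d, Lt.ai] [Lt.d, Lt.a] (pat hy (rf_15 hy) 9 rfl) h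
    · rcases brec_true h with h | h
      · exact mRel_good (T := T) hM0 [Lt.c, Lt.c, Lt.d, Lt.ci, Lt.ci, Lt.a, Lt.ci, Lt.b, Lt.d, Lt.b] [Lt.a, Lt.ci] (pat hy (rf_4 hy) 3 rfl) h
      · exact mRel_good (T := T) hM0 [Lt.b, Lt.ai, Lt.b, Lt.ci, Lt.ci, Lt.b, Lt.c, Lt.c, Lt.b] [Lt.ai, Lt.b, Lt.ai, Lt.ai, Lt.b, Lt.a] (pat hy (rf_9 hy) 4 rfl) h
theorem dM_181_s (hy : Hy g H) (j z1 z2 u : ℕ) (h : dM_181 j z1 z2 u = true) : GdM g H u := by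
  unfold dM_181 at h
  rcases brec_true h with h | h
  · exact dM_179_s hy j z1 z2 u h
  · exact dM_180_s hy j z1 z2 u h
theorem dM_182_s (hy : Hy g H) (j z1 z2 u : ℕ) (h : dM_182 j z1 z2 u = true) : GdM g H u := by
  unfold dM_182 at h
  rcases brec_true h with h | h
  · rcases brec_true h with h | h
    · exact mRel_good (T := T) hM0 [Lt.c, Lt.a, Lt.a, Lt.b, Lt.ai, Lt.b] [Lt.b, Lt.ci, Lt.b, Lt.c, Lt.b, Lt.ai, Lt.b, Lt.a] (pat hy (rf_7 hy) 13 rfl) h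
    · rcases brec_true h with h | h
      · exact mRel_good (T := T) hM0 [Lt.a, Lt.a, Lt.b, Lt.ai, Lt.b, Lt.ai, Lt.b, Lt.a, Lt.b, Lt.ci, Lt.b] [Lt.ci, Lt.b, Lt.ci] (pat hy (rf_7 hy) 0 rfl) h
      · exact mRel_good (T := T) hM0 [Lt.b, Lt.ci, Lt.b, Lt.c, Lt.b] [Lt.c, Lt.a, Lt.a, Lt.b, Lt.ai, Lt.b, Lt.ai, Lt.b, Lt.a] (pat hy (rb_7 hy) 1 rfl) h
  · rcases brec_true h with h | h
    · rcases brec_true h with h | h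
      · exact mRel_good (T := T) hM0 [Lt.ai, Lt.d, Lt.c, Lt.a, Lt.ci, Lt.b, Lt.c, Lt.ai, Lt.c, Lt.d, Lt.a, Lt.ci] [Lt.ci, Lt.b] (pat hy (rf_6 hy) 5 rfl) h
      · exact mRel_good (T := T) hM0 [Lt.b, Lt.c, Lt.ai, Lt.d, Lt.c, Lt.a, Lt.ci, Lt.b] [Lt.c, Lt.ai, Lt.d, Lt.ci, Lt.a, Lt.ci] (pat hy (rf_6 hy) 3 rfl) h
    · rcases brec_true h with h | h
      · exact mRel_good (T := T) hM0 [Lt.a, Lt.c, Lt.a, Lt.ci, Lt.b, Lt.d] [Lt.ci, Lt.ci, Lt.d, Lt.b, Lt.d, Lt.b] (pat hy (rf_5 hy) 7 rfl) h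
      · exact mRel_good (T := T) hM0 [Lt.ai, Lt.ai, Lt.ai, Lt.ai, Lt.b, Lt.ai, Lt.ci, Lt.b, Lt.c, Lt.b] [Lt.b, Lt.a, Lt.b, Lt.ai, Lt.ci] (pat hy (rb_8 hy) 11 rfl) h
theorem dM_183_s (hy : Hy g H) (j z1 z2 u : ℕ) (h : dM_183 j z1 z2 u = true) : GdM g H u := by
  unfold dM_183 at h
  rcases brec_true h with h | h
  · rcases brec_true h with h | h
    · exact mRel_good (T := T) hM0 [Lt.ai, Lt.ci, Lt.ai, Lt.ci, Lt.ci, Lt.d, Lt.b, Lt.d, Lt.b, Lt.d, Lt.b, Lt.c] [] (pat hy (rb_5 hy) 2 rfl) h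
    · rcases brec_true h with h | h
      · exact mRel_good (T := T) hM0 [Lt.b, Lt.a, Lt.b, Lt.ai, Lt.ai, Lt.ci, Lt.b, Lt.ci, Lt.b, Lt.c, Lt.b, Lt.ai] [Lt.ai, Lt.b] (pat hy (rb_7 hy) 9 rfl) h
      · exact mRel_good (T := T) hM0 [Lt.a, Lt.b, Lt.a] [Lt.b, Lt.a, Lt.b, Lt.ci, Lt.b, Lt.c, Lt.b, Lt.c, Lt.a, Lt.a, Lt.b] (pat hy (rb_7 hy) 8 rfl) h
  · rcases brec_true h with h | h
    · rcases brec_true h with h | h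
      · exact mRel_good (T := T) hM0 [Lt.ai, Lt.ci, Lt.ai, Lt.ci, Lt.ci, Lt.d, Lt.b] [Lt.ci, Lt.b, Lt.d, Lt.b, Lt.d] (pat hy (rb_5 hy) 2 rfl) h
      · exact mRel_good (T := T) hM0 [Lt.ci, Lt.b, Lt.d, Lt.b, Lt.d] [Lt.ai, Lt.ci, Lt.ai, Lt.ci, Lt.ci, Lt.d, Lt.b] (pat hy (rf_5 hy) 10 rfl) h
    · rcases brec_true h with h | h
      · exact mRel_good (T := T) hM0 [Lt.b, Lt.c, Lt.a, Lt.b, Lt.a, Lt.a, Lt.a, Lt.a, Lt.b, Lt.a, Lt.b, Lt.ai, Lt.ci] [Lt.c, Lt.b] (pat hy (rf_8 hy) 11 rfl) h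
      · exact mRel_good (T := T) hM0 [Lt.a, Lt.a, Lt.b, Lt.a, Lt.b, Lt.ai, Lt.ci, Lt.b, Lt.ci, Lt.b, Lt.c, Lt.a] [Lt.ai, Lt.ai, Lt.b] (pat hy (rf_8 hy) 2 rfl) h
theorem dM_184_s (hy : Hy g H) (j z1 z2 u : ℕ) (h : dM_184 j z1 z2 u = true) : GdM g H u := by
  unfold dM_184 at h
  rcases brec_true h with h | h
  · exact dM_182_s hy j z1 z2 u h
  · exact dM_183_s hy j z1 z2 u h
theorem dM_185_s (hy : Hy g H) (j z1 z2 u : ℕ) (h : dM_185 j z1 z2 u = true) : GdM g H u := by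
  unfold dM_185 at h
  rcases brec_true h with h | h
  · exact dM_181_s hy j z1 z2 u h
  · exact dM_184_s hy j z1 z2 u h
theorem dM_186_s (hy : Hy g H) (j z1 z2 u : ℕ) (h : dM_186 j z1 z2 u = true) : GdM g H u := by
  unfold dM_186 at h
  rcases brec_true h with h | h
  · exact dM_178_s hy j z1 z2 u h
  · exact dM_185_s hy j z1 z2 u h
theorem dM_187_s (hy : Hy g H) (j z1 z2 u : ℕ) (h : dM_187 j z1 z2 u = true) : GdM g H u := by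
  unfold dM_187 at h
  rcases brec_true h with h | h
  · rcases brec_true h with h | h
    · exact mRel_good (T := T) hM0 [Lt.b, Lt.ci, Lt.b, Lt.a] [Lt.a, Lt.a, Lt.ci, Lt.a, Lt.a, Lt.b, Lt.a, Lt.b, Lt.a, Lt.c, Lt.ai] (pat hy (rb_10 hy) 3 rfl) h
    · rcases brec_true h with h | h
      · exact mRel_good (T := T) hM0 [Lt.ai, Lt.ci, Lt.b, Lt.c, Lt.b, Lt.c, Lt.a, Lt.b, Lt.ai, Lt.b, Lt.ai, Lt.ai, Lt.ai, Lt.ai, Lt.b] [] (pat hy (rb_8 hy) 1 rfl) h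
      · exact mRel_good (T := T) hM0 [Lt.ai, Lt.c, Lt.c, Lt.d, Lt.ci, Lt.ci, Lt.a, Lt.ci, Lt.b, Lt.d] [Lt.ci, Lt.b] (pat hy (rf_4 hy) 2 rfl) h
  · rcases brec_true h with h | h
    · exact mRel_good (T := T) hM0 [Lt.b, Lt.d] [Lt.d, Lt.b, Lt.c, Lt.ai, Lt.ci, Lt.ai, Lt.ci, Lt.ci, Lt.d, Lt.b] (pat hy (rf_5 hy) 1 rfl) h
    · rcases brec_true h with h | h
      · exact mRel_good (T := T) hM0 [Lt.c, Lt.a, Lt.ci, Lt.b, Lt.d, Lt.b, Lt.d, Lt.b] [Lt.ai, Lt.ci, Lt.ci, Lt.d] (pat hy (rf_5 hy) 8 rfl) h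
      · exact mRel_good (T := T) hM0 [Lt.b, Lt.c, Lt.b, Lt.c, Lt.a, Lt.a, Lt.b, Lt.ai] [Lt.c, Lt.b, Lt.ai, Lt.b, Lt.a, Lt.b] (pat hy (rf_7 hy) 10 rfl) h
theorem dM_188_s (hy : Hy g H) (j z1 z2 u : ℕ) (h : dM_188 j z1 z2 u = true) : GdM g H u := by
  unfold dM_188 at h
  rcases brec_true h with h | h
  · rcases brec_true h with h | h
    · exact mRel_good (T := T) hM0 [Lt.ai] [Lt.b, Lt.ai, Lt.b, Lt.ai, Lt.b, Lt.a, Lt.b, Lt.ci, Lt.b, Lt.c, Lt.b, Lt.c, Lt.a] (pat hy (rb_7 hy) 12 rfl) h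
    · rcases brec_true h with h | h
      · exact mRel_good (T := T) hM0 [Lt.ai, Lt.ai, Lt.c, Lt.ai] [Lt.b, Lt.a, Lt.b, Lt.a, Lt.c, Lt.ai, Lt.ai, Lt.b, Lt.c, Lt.b, Lt.a] (pat hy (rb_10 hy) 13 rfl) h
      · exact mRel_good (T := T) hM0 [Lt.a, Lt.a, Lt.b, Lt.ai, Lt.b, Lt.ai] [Lt.ci, Lt.b, Lt.ci, Lt.b, Lt.c, Lt.b, Lt.ai, Lt.b] (pat hy (rf_7 hy) 0 rfl) h
  · rcases brec_true h with h | h
    · rcases brec_true h with h | h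
      · exact mRel_good (T := T) hM0 [Lt.b, Lt.a, Lt.b, Lt.ai] [Lt.ai, Lt.ai, Lt.ai, Lt.ai, Lt.b, Lt.ai, Lt.ci, Lt.b, Lt.c, Lt.b, Lt.c] (pat hy (rf_8 hy) 4 rfl) h
      · exact mRel_good (T := T) hM0 [Lt.d, Lt.c, Lt.a, Lt.ci, Lt.b, Lt.c, Lt.ai, Lt.c, Lt.d, Lt.a, Lt.ci] [Lt.a, Lt.ci, Lt.b] (pat hy (rf_6 hy) 6 rfl) h
    · rcases brec_true h with h | h
      · exact mRel_good (T := T) hM0 [Lt.a, Lt.ci, Lt.b, Lt.d, Lt.b] [Lt.c, Lt.c, Lt.d, Lt.ci, Lt.ci, Lt.a, Lt.ci] (pat hy (rf_4 hy) 8 rfl) h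
      · exact mRel_good (T := T) hM0 [Lt.c, Lt.a, Lt.b, Lt.ai, Lt.b, Lt.ai, Lt.ai, Lt.ai, Lt.ai, Lt.b] [Lt.b, Lt.ci, Lt.b, Lt.c, Lt.a] (pat hy (rb_8 hy) 6 rfl) h
theorem dM_189_s (hy : Hy g H) (j z1 z2 u : ℕ) (h : dM_189 j z1 z2 u = true) : GdM g H u := by
  unfold dM_189 at h
  rcases brec_true h with h | h
  · exact dM_187_s hy j z1 z2 u h
  · exact dM_188_s hy j z1 z2 u h
theorem dM_190_s (hy : Hy g H) (j z1 z2 u : ℕ) (h : dM_190 j z1 z2 u = true) : GdM g H u := by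
  unfold dM_190 at h
  rcases brec_true h with h | h
  · rcases brec_true h with h | h
    · exact mRel_good (T := T) hM0 [Lt.d, Lt.b, Lt.d, Lt.b, Lt.c] [Lt.b, Lt.d, Lt.c, Lt.c, Lt.a, Lt.c, Lt.a] (pat hy (rb_5 hy) 9 rfl) h
    · rcases brec_true h with h | h
      · exact mRel_good (T := T) hM0 [Lt.a, Lt.ci] [Lt.ci, Lt.ai, Lt.ci, Lt.ci, Lt.d, Lt.b, Lt.d, Lt.b, Lt.d, Lt.b] (pat hy (rf_5 hy) 9 rfl) h
      · exact mRel_good (T := T) hM0 [Lt.b, Lt.ai, Lt.b, Lt.ai, Lt.b, Lt.a, Lt.b, Lt.ci, Lt.b, Lt.c, Lt.b, Lt.c, Lt.a, Lt.a] [] (pat hy (rf_7 hy) 2 rfl) h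
  · rcases brec_true h with h | h
    · exact mRel_good (T := T) hM0 [Lt.c, Lt.a, Lt.ci, Lt.d, Lt.a, Lt.a, Lt.d] [Lt.a, Lt.b, Lt.ai, Lt.ai, Lt.ci, Lt.d, Lt.a, Lt.a, Lt.d, Lt.b] (pat hy (rf_15 hy) 14 rfl) h
    · rcases brec_true h with h | h
      · exact mRel_good (T := T) hM0 [Lt.c, Lt.d, Lt.ci, Lt.ai, Lt.d, Lt.a, Lt.c, Lt.d, Lt.ci, Lt.ai] [Lt.ai, Lt.d] (pat hy (rf_3 hy) 1 rfl) h
      · exact mRel_good (T := T) hM0 [Lt.ai, Lt.ci, Lt.b, Lt.ci, Lt.b, Lt.c, Lt.b, Lt.ai, Lt.b, Lt.a, Lt.b, Lt.a] [Lt.a, Lt.b] (pat hy (rb_7 hy) 13 rfl) h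
theorem dM_191_s (hy : Hy g H) (j z1 z2 u : ℕ) (h : dM_191 j z1 z2 u = true) : GdM g H u := by
  unfold dM_191 at h
  rcases brec_true h with h | h
  · rcases brec_true h with h | h
    · exact mRel_good (T := T) hM0 [Lt.d, Lt.a, Lt.c, Lt.d, Lt.ci, Lt.ai, Lt.d, Lt.a, Lt.c, Lt.d, Lt.ci] [Lt.a] (pat hy (rf_3 hy) 5 rfl) h
    · rcases brec_true h with h | h
      · exact mRel_good (T := T) hM0 [Lt.ai, Lt.ci, Lt.a, Lt.b, Lt.ai, Lt.ai, Lt.ci, Lt.d, Lt.a] [Lt.ci, Lt.d, Lt.a, Lt.a, Lt.d, Lt.b, Lt.d, Lt.ai] (pat hy (rb_15 hy) 1 rfl) h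
      · exact mRel_good (T := T) hM0 [Lt.b, Lt.ai, Lt.ai, Lt.ci, Lt.b, Lt.ci, Lt.b, Lt.c, Lt.b] [Lt.ai, Lt.b, Lt.ai, Lt.b, Lt.a] (pat hy (rb_7 hy) 11 rfl) h
  · rcases brec_true h with h | h
    · rcases brec_true h with h | h
      · exact mRel_good (T := T) hM0 [Lt.ai, Lt.ci, Lt.a, Lt.b, Lt.ai, Lt.ai, Lt.ci, Lt.d, Lt.a, Lt.a, Lt.d, Lt.b, Lt.d, Lt.ai] [Lt.ci, Lt.d, Lt.a] (pat hy (rb_15 hy) 1 rfl) h
      · exact mRel_good (T := T) hM0 [Lt.b, Lt.c, Lt.b, Lt.a] [Lt.a, Lt.a, Lt.ci, Lt.ai, Lt.b, Lt.ai, Lt.b, Lt.ai, Lt.ai, Lt.c, Lt.ai] (pat hy (rf_10 hy) 9 rfl) h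
    · rcases brec_true h with h | h
      · exact mRel_good (T := T) hM0 [Lt.ai, Lt.ci] [Lt.ci, Lt.b, Lt.d, Lt.b, Lt.d, Lt.b, Lt.d, Lt.c, Lt.c, Lt.a] (pat hy (rb_5 hy) 2 rfl) h
      · exact mRel_good (T := T) hM0 [Lt.b, Lt.a, Lt.b, Lt.ai, Lt.b, Lt.ci] [Lt.ai, Lt.ai, Lt.b, Lt.a, Lt.b, Lt.ci, Lt.ci, Lt.b, Lt.c] (pat hy (rf_9 hy) 2 rfl) h
theorem dM_192_s (hy : Hy g H) (j z1 z2 u : ℕ) (h : dM_192 j z1 z2 u = true) : GdM g H u := by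
  unfold dM_192 at h
  rcases brec_true h with h | h
  · exact dM_190_s hy j z1 z2 u h
  · exact dM_191_s hy j z1 z2 u h
theorem dM_193_s (hy : Hy g H) (j z1 z2 u : ℕ) (h : dM_193 j z1 z2 u = true) : GdM g H u := by
  unfold dM_193 at h
  rcases brec_true h with h | h
  · exact dM_189_s hy j z1 z2 u h
  · exact dM_192_s hy j z1 z2 u h
theorem dM_194_s (hy : Hy g H) (j z1 z2 u : ℕ) (h : dM_194 j z1 z2 u = true) : GdM g H u := by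
  unfold dM_194 at h
  rcases brec_true h with h | h
  · rcases brec_true h with h | h
    · exact mRel_good (T := T) hM0 [Lt.c, Lt.a, Lt.a, Lt.b, Lt.ai, Lt.b, Lt.ai, Lt.b, Lt.a, Lt.b, Lt.ci] [Lt.b, Lt.ci, Lt.b] (pat hy (rf_7 hy) 13 rfl) h
    · rcases brec_true h with h | h
      · exact mRel_good (T := T) hM0 [Lt.c, Lt.ai, Lt.c, Lt.c, Lt.d, Lt.ci, Lt.ci, Lt.a, Lt.ci, Lt.b, Lt.d, Lt.b] [] (pat hy (rf_4 hy) 1 rfl) h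
      · exact mRel_good (T := T) hM0 [Lt.a, Lt.a, Lt.a, Lt.a, Lt.a, Lt.ci, Lt.b, Lt.ci, Lt.ci, Lt.b, Lt.c, Lt.ai] [Lt.ai, Lt.ai, Lt.ai, Lt.b, Lt.a] (pat hy (rf_18 hy) 3 rfl) h
  · rcases brec_true h with h | h
    · exact mRel_good (T := T) hM0 [Lt.ai, Lt.d, Lt.c, Lt.a, Lt.a, Lt.b, Lt.ai, Lt.c, Lt.a, Lt.ci, Lt.d, Lt.a] [Lt.a, Lt.d, Lt.b, Lt.d, Lt.ai] (pat hy (rf_15 hy) 7 rfl) h
    · rcases brec_true h with h | h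
      · exact mRel_good (T := T) hM0 [Lt.c, Lt.a, Lt.ci, Lt.b] [Lt.ai, Lt.ci, Lt.ci, Lt.d, Lt.b, Lt.d, Lt.b, Lt.d] (pat hy (rf_5 hy) 8 rfl) h
      · exact mRel_good (T := T) hM0 [Lt.a] [Lt.ci, Lt.ci, Lt.d, Lt.c, Lt.c, Lt.a, Lt.ci, Lt.d, Lt.c] (pat hy (rf_2 hy) 8 rfl) h
theorem dM_195_s (hy : Hy g H) (j z1 z2 u : ℕ) (h : dM_195 j z1 z2 u = true) : GdM g H u := by
  unfold dM_195 at h
  rcases brec_true h with h | h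
  · rcases brec_true h with h | h
    · exact mRel_good (T := T) hM0 [Lt.ci, Lt.a, Lt.b, Lt.ai, Lt.ai, Lt.ci, Lt.d] [Lt.a, Lt.ci, Lt.d, Lt.a, Lt.a, Lt.d, Lt.b, Lt.d, Lt.ai, Lt.ai] (pat hy (rb_15 hy) 2 rfl) h
    · rcases brec_true h with h | h
      · exact mRel_good (T := T) hM0 [Lt.ai, Lt.d, Lt.a, Lt.c, Lt.d] [Lt.c, Lt.d, Lt.ci, Lt.ai, Lt.d, Lt.a, Lt.c] (pat hy (rf_3 hy) 4 rfl) h
      · exact mRel_good (T := T) hM0 [Lt.c, Lt.a, Lt.c, Lt.a, Lt.ci, Lt.b, Lt.d] [Lt.ci, Lt.d, Lt.b, Lt.d, Lt.b] (pat hy (rf_5 hy) 6 rfl) h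
  · rcases brec_true h with h | h
    · rcases brec_true h with h | h
      · exact mRel_good (T := T) hM0 [Lt.d, Lt.b, Lt.d, Lt.ai] [Lt.ai, Lt.ai, Lt.d, Lt.c, Lt.ai, Lt.ci, Lt.a, Lt.b, Lt.ai, Lt.ai, Lt.ci, Lt.d, Lt.a] (pat hy (rf_15 hy) 3 rfl) h
      · exact mRel_good (T := T) hM0 [Lt.c, Lt.a, Lt.c, Lt.a, Lt.ci, Lt.b, Lt.d, Lt.b, Lt.d, Lt.b] [Lt.ci, Lt.d] (pat hy (rf_5 hy) 6 rfl) h
    · rcases brec_true h with h | h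
      · exact mRel_good (T := T) hM0 [Lt.b, Lt.c] [Lt.c, Lt.b, Lt.ai, Lt.b, Lt.a, Lt.b, Lt.a, Lt.b, Lt.ai, Lt.ai, Lt.ci, Lt.b] (pat hy (rf_7 hy) 10 rfl) h
      · exact mRel_good (T := T) hM0 [Lt.a, Lt.b, Lt.ai, Lt.b, Lt.ai, Lt.ai, Lt.ai, Lt.ai, Lt.b, Lt.ai] [Lt.ci, Lt.b, Lt.ci, Lt.b, Lt.c] (pat hy (rb_8 hy) 7 rfl) h
theorem dM_196_s (hy : Hy g H) (j z1 z2 u : ℕ) (h : dM_196 j z1 z2 u = true) : GdM g H u := by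
  unfold dM_196 at h
  rcases brec_true h with h | h
  · exact dM_194_s hy j z1 z2 u h
  · exact dM_195_s hy j z1 z2 u h
theorem dM_197_s (hy : Hy g H) (j z1 z2 u : ℕ) (h : dM_197 j z1 z2 u = true) : GdM g H u := by
  unfold dM_197 at h
  rcases brec_true h with h | h
  · rcases brec_true h with h | h
    · exact mRel_good (T := T) hM0 [Lt.b, Lt.a, Lt.b] [Lt.a, Lt.a, Lt.b, Lt.a, Lt.b, Lt.ai, Lt.b, Lt.ci, Lt.ci, Lt.b, Lt.c, Lt.c] (pat hy (rb_9 hy) 0 rfl) h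
    · rcases brec_true h with h | h
      · exact mRel_good (T := T) hM0 [Lt.ci, Lt.ci, Lt.d, Lt.c, Lt.c, Lt.a, Lt.ci] [Lt.a, Lt.ci, Lt.d] (pat hy (rf_2 hy) 3 rfl) h
      · exact mRel_good (T := T) hM0 [Lt.a, Lt.a, Lt.b, Lt.a, Lt.b, Lt.a, Lt.c, Lt.ai] [Lt.c, Lt.ai, Lt.ai, Lt.b, Lt.ci, Lt.b, Lt.a] (pat hy (rf_10 hy) 0 rfl) h
  · rcases brec_true h with h | h
    · rcases brec_true h with h | h
      · exact mRel_good (T := T) hM0 [Lt.a, Lt.a, Lt.a, Lt.a, Lt.b, Lt.a, Lt.b, Lt.ai] [Lt.b, Lt.ai, Lt.ci, Lt.b, Lt.c, Lt.b, Lt.c] (pat hy (rf_8 hy) 0 rfl) h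
      · exact mRel_good (T := T) hM0 [Lt.c, Lt.ai, Lt.ai, Lt.b, Lt.c, Lt.b] [Lt.ai, Lt.b, Lt.ai, Lt.b, Lt.ai, Lt.ai, Lt.c, Lt.ai, Lt.ai] (pat hy (rf_10 hy) 6 rfl) h
    · rcases brec_true h with h | h
      · exact mRel_good (T := T) hM0 [Lt.d, Lt.a, Lt.a, Lt.d, Lt.b, Lt.d, Lt.ai] [Lt.c, Lt.ai, Lt.ci, Lt.a, Lt.b, Lt.ai, Lt.ai, Lt.ci, Lt.d, Lt.a] (pat hy (rf_15 hy) 0 rfl) h
      · exact mRel_good (T := T) hM0 [Lt.ai, Lt.ci, Lt.d, Lt.a] [Lt.a, Lt.b, Lt.ai, Lt.c, Lt.a, Lt.ci, Lt.d, Lt.a, Lt.a, Lt.d, Lt.b, Lt.d, Lt.ai] (pat hy (rb_15 hy) 6 rfl) h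
theorem dM_198_s (hy : Hy g H) (j z1 z2 u : ℕ) (h : dM_198 j z1 z2 u = true) : GdM g H u := by
  unfold dM_198 at h
  rcases brec_true h with h | h
  · rcases brec_true h with h | h
    · exact mRel_good (T := T) hM0 [Lt.d, Lt.ai, Lt.ai, Lt.d, Lt.c, Lt.a, Lt.a, Lt.b, Lt.ai, Lt.c, Lt.a, Lt.ci, Lt.d, Lt.a] [Lt.b, Lt.d, Lt.ai] (pat hy (rf_15 hy) 5 rfl) h
    · rcases brec_true h with h | h
      · exact mRel_good (T := T) hM0 [Lt.d, Lt.b] [Lt.b, Lt.c, Lt.ai, Lt.c, Lt.c, Lt.d, Lt.ci, Lt.ci, Lt.a, Lt.ci] (pat hy (rf_4 hy) 11 rfl) h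
      · exact mRel_good (T := T) hM0 [Lt.a, Lt.a, Lt.a, Lt.a, Lt.b] [Lt.b, Lt.ai, Lt.ci, Lt.b, Lt.c, Lt.b, Lt.c, Lt.a, Lt.b, Lt.ai] (pat hy (rf_8 hy) 0 rfl) h
  · rcases brec_true h with h | h
    · rcases brec_true h with h | h
      · exact mRel_good (T := T) hM0 [Lt.d, Lt.b] [Lt.b, Lt.c, Lt.ai, Lt.ci, Lt.ai, Lt.ci, Lt.ci, Lt.d, Lt.b, Lt.d] (pat hy (rf_5 hy) 0 rfl) h
      · exact mRel_good (T := T) hM0 [Lt.a, Lt.c, Lt.d, Lt.ci, Lt.ai, Lt.d, Lt.a, Lt.c, Lt.d, Lt.ci, Lt.ai, Lt.d] [] (pat hy (rf_3 hy) 0 rfl) h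
    · rcases brec_true h with h | h
      · exact mRel_good (T := T) hM0 [Lt.ci, Lt.ai, Lt.ci, Lt.ci, Lt.d, Lt.b, Lt.d, Lt.b, Lt.d, Lt.b, Lt.c] [Lt.a] (pat hy (rb_5 hy) 3 rfl) h
      · exact mRel_good (T := T) hM0 [Lt.a, Lt.b, Lt.a, Lt.b, Lt.ai, Lt.ci, Lt.b, Lt.ci] [Lt.ai, Lt.ai, Lt.ai, Lt.b, Lt.ai, Lt.ci, Lt.b] (pat hy (rf_8 hy) 3 rfl) h
theorem dM_199_s (hy : Hy g H) (j z1 z2 u : ℕ) (h : dM_199 j z1 z2 u = true) : GdM g H u := by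
  unfold dM_199 at h
  rcases brec_true h with h | h
  · exact dM_197_s hy j z1 z2 u h
  · exact dM_198_s hy j z1 z2 u h
theorem dM_200_s (hy : Hy g H) (j z1 z2 u : ℕ) (h : dM_200 j z1 z2 u = true) : GdM g H u := by
  unfold dM_200 at h
  rcases brec_true h with h | h
  · exact dM_196_s hy j z1 z2 u h
  · exact dM_199_s hy j z1 z2 u h
theorem dM_201_s (hy : Hy g H) (j z1 z2 u : ℕ) (h : dM_201 j z1 z2 u = true) : GdM g H u := by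
  unfold dM_201 at h
  rcases brec_true h with h | h
  · exact dM_193_s hy j z1 z2 u h
  · exact dM_200_s hy j z1 z2 u h
theorem dM_202_s (hy : Hy g H) (j z1 z2 u : ℕ) (h : dM_202 j z1 z2 u = true) : GdM g H u := by
  unfold dM_202 at h
  rcases brec_true h with h | h
  · exact dM_186_s hy j z1 z2 u h
  · exact dM_201_s hy j z1 z2 u h
theorem dM_203_s (hy : Hy g H) (j z1 z2 u : ℕ) (h : dM_203 j z1 z2 u = true) : GdM g H u := by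
  unfold dM_203 at h
  rcases brec_true h with h | h
  · exact dM_171_s hy j z1 z2 u h
  · exact dM_202_s hy j z1 z2 u h
theorem dM_204_s (hy : Hy g H) (j z1 z2 u : ℕ) (h : dM_204 j z1 z2 u = true) : GdM g H u := by
  unfold dM_204 at h
  rcases brec_true h with h | h
  · exact dM_140_s hy j z1 z2 u h
  · exact dM_203_s hy j z1 z2 u h
theorem dM_205_s (hy : Hy g H) (j z1 z2 u : ℕ) (h : dM_205 j z1 z2 u = true) : GdM g H u := by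
  unfold dM_205 at h
  rcases brec_true h with h | h
  · rcases brec_true h with h | h
    · exact mRel_good (T := T) hM0 [Lt.c, Lt.a, Lt.a, Lt.b, Lt.ai, Lt.b, Lt.ai, Lt.b, Lt.a, Lt.b, Lt.ci, Lt.b] [Lt.b, Lt.ci] (pat hy (rf_7 hy) 13 rfl) h
    · rcases brec_true h with h | h
      · exact mRel_good (T := T) hM0 [Lt.ai, Lt.b, Lt.ai, Lt.ai, Lt.b, Lt.a, Lt.b, Lt.ci, Lt.ci, Lt.b, Lt.c] [Lt.b, Lt.ai, Lt.b, Lt.ci] (pat hy (rb_9 hy) 11 rfl) h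
      · exact mRel_good (T := T) hM0 [Lt.c, Lt.a, Lt.b, Lt.ai, Lt.b, Lt.ai, Lt.ai] [Lt.b, Lt.ci, Lt.b, Lt.c, Lt.a, Lt.b, Lt.a, Lt.a] (pat hy (rb_8 hy) 6 rfl) h
  · rcases brec_true h with h | h
    · exact mRel_good (T := T) hM0 [Lt.ai] [Lt.ci, Lt.b, Lt.d, Lt.b, Lt.d, Lt.b, Lt.d, Lt.c, Lt.c, Lt.a, Lt.c] (pat hy (rb_5 hy) 2 rfl) h
    · rcases brec_true h with h | h
      · exact mRel_good (T := T) hM0 [Lt.ai, Lt.b, Lt.ai, Lt.b, Lt.a, Lt.b, Lt.ci] [Lt.b, Lt.ai, Lt.ai, Lt.ci, Lt.b, Lt.ci, Lt.b] (pat hy (rf_7 hy) 3 rfl) h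
      · exact mRel_good (T := T) hM0 [Lt.d, Lt.b, Lt.c, Lt.ai, Lt.ci, Lt.ai, Lt.ci, Lt.ci] [Lt.b, Lt.d, Lt.b, Lt.d] (pat hy (rb_5 hy) 11 rfl) h
theorem dM_206_s (hy : Hy g H) (j z1 z2 u : ℕ) (h : dM_206 j z1 z2 u = true) : GdM g H u := by
  unfold dM_206 at h
  rcases brec_true h with h | h
  · rcases brec_true h with h | h
    · exact mRel_good (T := T) hM0 [Lt.ai, Lt.ci, Lt.a, Lt.b, Lt.ai, Lt.ai, Lt.ci, Lt.d, Lt.a, Lt.a, Lt.d, Lt.b, Lt.d, Lt.ai, Lt.ai] [Lt.ci, Lt.d] (pat hy (rb_15 hy) 1 rfl) h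
    · rcases brec_true h with h | h
      · exact mRel_good (T := T) hM0 [Lt.a, Lt.b, Lt.a, Lt.b, Lt.ai, Lt.ci, Lt.b, Lt.ci, Lt.b, Lt.c, Lt.a, Lt.b] [Lt.ai, Lt.ai, Lt.ai] (pat hy (rf_8 hy) 3 rfl) h
      · exact mRel_good (T := T) hM0 [Lt.b, Lt.ai, Lt.ai, Lt.ci, Lt.b, Lt.ci, Lt.b, Lt.c] [Lt.ai, Lt.b, Lt.ai, Lt.b, Lt.a, Lt.b] (pat hy (rb_7 hy) 11 rfl) h
  · rcases brec_true h with h | h
    · rcases brec_true h with h | h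
      · exact mRel_good (T := T) hM0 [Lt.c, Lt.b] [Lt.b, Lt.c, Lt.b, Lt.ai, Lt.b, Lt.a, Lt.b, Lt.a, Lt.b, Lt.ai, Lt.ai, Lt.ci] (pat hy (rf_7 hy) 11 rfl) h
      · exact mRel_good (T := T) hM0 [Lt.a, Lt.b, Lt.ci, Lt.b, Lt.c] [Lt.b, Lt.a, Lt.b, Lt.a, Lt.b, Lt.ai, Lt.ai, Lt.ci, Lt.b] (pat hy (rf_7 hy) 7 rfl) h
    · rcases brec_true h with h | h
      · exact mRel_good (T := T) hM0 [Lt.c, Lt.a, Lt.ci, Lt.b, Lt.c, Lt.ai, Lt.c, Lt.d, Lt.a, Lt.ci, Lt.b] [Lt.d, Lt.a, Lt.ci] (pat hy (rf_6 hy) 7 rfl) h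
      · exact mRel_good (T := T) hM0 [Lt.b, Lt.ai, Lt.c, Lt.a, Lt.ci, Lt.d, Lt.a] [Lt.ai, Lt.ai, Lt.ci, Lt.d, Lt.a, Lt.a, Lt.d, Lt.b, Lt.d, Lt.ai] (pat hy (rf_15 hy) 12 rfl) h
theorem dM_207_s (hy : Hy g H) (j z1 z2 u : ℕ) (h : dM_207 j z1 z2 u = true) : GdM g H u := by
  unfold dM_207 at h
  rcases brec_true h with h | h
  · exact dM_205_s hy j z1 z2 u h
  · exact dM_206_s hy j z1 z2 u h
theorem dM_208_s (hy : Hy g H) (j z1 z2 u : ℕ) (h : dM_208 j z1 z2 u = true) : GdM g H u := by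
  unfold dM_208 at h
  rcases brec_true h with h | h
  · rcases brec_true h with h | h
    · exact mRel_good (T := T) hM0 [Lt.a, Lt.a, Lt.b, Lt.a, Lt.b, Lt.a, Lt.c, Lt.ai, Lt.ai, Lt.b, Lt.c, Lt.b, Lt.a, Lt.a] [Lt.c] (pat hy (rf_10 hy) 0 rfl) h
    · rcases brec_true h with h | h
      · exact mRel_good (T := T) hM0 [Lt.ci] [Lt.c, Lt.d, Lt.ci, Lt.ci, Lt.a, Lt.ci, Lt.b, Lt.d, Lt.b, Lt.c, Lt.ai] (pat hy (rf_4 hy) 7 rfl) h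
      · exact mRel_good (T := T) hM0 [Lt.ci, Lt.b, Lt.c, Lt.ai, Lt.ci, Lt.d, Lt.a, Lt.ci] [Lt.ai, Lt.c, Lt.d, Lt.a, Lt.ci, Lt.b] (pat hy (rb_6 hy) 2 rfl) h
  · rcases brec_true h with h | h
    · exact mRel_good (T := T) hM0 [Lt.b, Lt.a, Lt.b, Lt.ci, Lt.b] [Lt.a, Lt.b, Lt.a, Lt.b, Lt.ai, Lt.ai, Lt.ci, Lt.b, Lt.ci] (pat hy (rf_7 hy) 6 rfl) h
    · rcases brec_true h with h | h
      · exact mRel_good (T := T) hM0 [Lt.a, Lt.c, Lt.a, Lt.ci, Lt.b] [Lt.ci, Lt.ci, Lt.d, Lt.b, Lt.d, Lt.b, Lt.d] (pat hy (rf_5 hy) 7 rfl) h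
      · exact mRel_good (T := T) hM0 [Lt.d, Lt.c, Lt.c] [Lt.b, Lt.d, Lt.b, Lt.d, Lt.b, Lt.c, Lt.ai, Lt.ci, Lt.ai] (pat hy (rf_5 hy) 4 rfl) h
theorem dM_209_s (hy : Hy g H) (j z1 z2 u : ℕ) (h : dM_209 j z1 z2 u = true) : GdM g H u := by
  unfold dM_209 at h
  rcases brec_true h with h | h
  · rcases brec_true h with h | h
    · exact mRel_good (T := T) hM0 [Lt.ai, Lt.d] [Lt.c, Lt.d, Lt.ci, Lt.ai, Lt.d, Lt.a, Lt.c, Lt.d, Lt.ci, Lt.ai] (pat hy (rf_3 hy) 4 rfl) h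
    · rcases brec_true h with h | h
      · exact mRel_good (T := T) hM0 [Lt.ci, Lt.b, Lt.ci, Lt.b, Lt.c, Lt.b, Lt.ai, Lt.b, Lt.a, Lt.b, Lt.a, Lt.b, Lt.ai] [Lt.a] (pat hy (rb_7 hy) 0 rfl) h
      · exact mRel_good (T := T) hM0 [Lt.ci, Lt.d, Lt.c, Lt.ai, Lt.ci, Lt.ci, Lt.d, Lt.c, Lt.c, Lt.a] [] (pat hy (rf_2 hy) 9 rfl) h
  · rcases brec_true h with h | h
    · rcases brec_true h with h | h
      · exact mRel_good (T := T) hM0 [Lt.d, Lt.ai, Lt.ai, Lt.d, Lt.c, Lt.a, Lt.a, Lt.b, Lt.ai, Lt.c, Lt.a, Lt.ci, Lt.d] [Lt.b, Lt.d, Lt.ai, Lt.ai] (pat hy (rf_15 hy) 5 rfl) h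
      · rcases brec_true h with h | h
        · exact mRel_good (T := T) hM0 [Lt.ai, Lt.b, Lt.a, Lt.b, Lt.ci, Lt.ci, Lt.b, Lt.c, Lt.c] [Lt.a, Lt.b, Lt.a, Lt.b, Lt.ai, Lt.b] (pat hy (rb_9 hy) 14 rfl) h
        · exact mRel_good (T := T) hM0 [Lt.ai, Lt.b, Lt.ci, Lt.ci, Lt.b, Lt.c] [Lt.b, Lt.ai, Lt.b, Lt.ai, Lt.ai, Lt.b, Lt.a, Lt.b, Lt.ci] (pat hy (rf_9 hy) 5 rfl) h
    · rcases brec_true h with h | h
      · rcases brec_true h with h | h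
        · exact mRel_good (T := T) hM0 [Lt.b, Lt.c, Lt.ai, Lt.d, Lt.ci, Lt.a, Lt.ci, Lt.b, Lt.c, Lt.ai, Lt.ci, Lt.d] [Lt.c, Lt.ai] (pat hy (rb_6 hy) 10 rfl) h
        · exact mRel_good (T := T) hM0 [Lt.ai, Lt.ai, Lt.b, Lt.ai, Lt.b, Lt.a, Lt.b, Lt.c, Lt.c, Lt.a] [Lt.b, Lt.ai, Lt.c, Lt.c, Lt.a, Lt.ci] (pat hy (rb_12 hy) 14 rfl) h
      · rcases brec_true h with h | h
        · exact mRel_good (T := T) hM0 [Lt.a, Lt.ci, Lt.ai, Lt.b] [Lt.ai, Lt.b, Lt.c, Lt.b, Lt.a, Lt.a, Lt.ci, Lt.a, Lt.a, Lt.b, Lt.a] (pat hy (rb_10 hy) 7 rfl) h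
        · exact mRel_good (T := T) hM0 [Lt.b, Lt.ai, Lt.b, Lt.ai, Lt.b, Lt.a, Lt.a, Lt.b, Lt.ai, Lt.b, Lt.ci, Lt.b, Lt.c, Lt.b, Lt.c, Lt.b] [Lt.ai, Lt.ai] (pat hy (rf_20 hy) 2 rfl) h
theorem dM_210_s (hy : Hy g H) (j z1 z2 u : ℕ) (h : dM_210 j z1 z2 u = true) : GdM g H u := by
  unfold dM_210 at h
  rcases brec_true h with h | h
  · exact dM_208_s hy j z1 z2 u h
  · exact dM_209_s hy j z1 z2 u h
theorem dM_211_s (hy : Hy g H) (j z1 z2 u : ℕ) (h : dM_211 j z1 z2 u = true) : GdM g H u := by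
  unfold dM_211 at h
  rcases brec_true h with h | h
  · exact dM_207_s hy j z1 z2 u h
  · exact dM_210_s hy j z1 z2 u h
theorem dM_212_s (hy : Hy g H) (j z1 z2 u : ℕ) (h : dM_212 j z1 z2 u = true) : GdM g H u := by
  unfold dM_212 at h
  rcases brec_true h with h | h
  · rcases brec_true h with h | h
    · exact mRel_good (T := T) hM0 [Lt.ai, Lt.b, Lt.a, Lt.b, Lt.ci, Lt.ci, Lt.b, Lt.c, Lt.c, Lt.b, Lt.a] [Lt.a, Lt.b, Lt.a, Lt.b] (pat hy (rb_9 hy) 14 rfl) h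
    · rcases brec_true h with h | h
      · exact mRel_good (T := T) hM0 [Lt.a, Lt.b, Lt.a, Lt.c, Lt.ai, Lt.ai, Lt.b, Lt.c, Lt.b, Lt.a, Lt.a] [Lt.b, Lt.ai, Lt.ai, Lt.c] (pat hy (rf_10 hy) 3 rfl) h
      · exact mRel_good (T := T) hM0 [Lt.a, Lt.ci, Lt.d, Lt.a, Lt.a, Lt.d] [Lt.ci, Lt.a, Lt.b, Lt.ai, Lt.ai, Lt.ci, Lt.d, Lt.a, Lt.a, Lt.d, Lt.b] (pat hy (rf_15 hy) 15 rfl) h
  · rcases brec_true h with h | h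
    · exact mRel_good (T := T) hM0 [Lt.b, Lt.a, Lt.b] [Lt.a, Lt.b, Lt.a, Lt.b, Lt.ai, Lt.ai, Lt.ci, Lt.b, Lt.ci, Lt.b, Lt.c] (pat hy (rf_7 hy) 6 rfl) h
    · rcases brec_true h with h | h
      · exact mRel_good (T := T) hM0 [Lt.c, Lt.c, Lt.d, Lt.ci, Lt.ci, Lt.a] [Lt.a, Lt.ci, Lt.b, Lt.d, Lt.b, Lt.c] (pat hy (rf_4 hy) 3 rfl) h
      · exact mRel_good (T := T) hM0 [Lt.ai, Lt.ai, Lt.b, Lt.c, Lt.b, Lt.a, Lt.a, Lt.ci] [Lt.ci, Lt.ai, Lt.b, Lt.ai, Lt.b, Lt.ai, Lt.ai] (pat hy (rf_10 hy) 7 rfl) h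
theorem dM_213_s (hy : Hy g H) (j z1 z2 u : ℕ) (h : dM_213 j z1 z2 u = true) : GdM g H u := by
  unfold dM_213 at h
  rcases brec_true h with h | h
  · rcases brec_true h with h | h
    · exact mRel_good (T := T) hM0 [Lt.a, Lt.a, Lt.a] [Lt.b, Lt.a, Lt.b, Lt.ai, Lt.b, Lt.a, Lt.a, Lt.a, Lt.a, Lt.b, Lt.ai, Lt.b, Lt.a, Lt.b, Lt.ai] (pat hy (rf_21 hy) 0 rfl) h
    · rcases brec_true h with h | h
      · exact mRel_good (T := T) hM0 [Lt.ai, Lt.ai, Lt.b, Lt.ai, Lt.ci, Lt.b, Lt.c] [Lt.a, Lt.a, Lt.b, Lt.a, Lt.b, Lt.ai, Lt.ci, Lt.b] (pat hy (rb_8 hy) 13 rfl) h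
      · exact mRel_good (T := T) hM0 [Lt.b, Lt.c, Lt.a, Lt.a] [Lt.ci, Lt.b, Lt.c, Lt.b, Lt.ai, Lt.b, Lt.a, Lt.b, Lt.a, Lt.b] (pat hy (rf_7 hy) 12 rfl) h
  · rcases brec_true h with h | h
    · rcases brec_true h with h | h
      · exact mRel_good (T := T) hM0 [Lt.c, Lt.c, Lt.d, Lt.ci, Lt.ci, Lt.a, Lt.ci, Lt.b] [Lt.a, Lt.ci, Lt.b, Lt.d] (pat hy (rf_4 hy) 3 rfl) h
      · exact mRel_good (T := T) hM0 [Lt.ci, Lt.b, Lt.c, Lt.b, Lt.ai, Lt.b, Lt.a, Lt.b, Lt.a, Lt.b, Lt.ai, Lt.ai, Lt.ci, Lt.b] [] (pat hy (rb_7 hy) 2 rfl) h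
    · rcases brec_true h with h | h
      · exact mRel_good (T := T) hM0 [Lt.b, Lt.ai, Lt.b, Lt.ai, Lt.ai, Lt.c, Lt.ai, Lt.ai, Lt.b, Lt.ci, Lt.b, Lt.a] [Lt.a, Lt.c, Lt.ai] (pat hy (rb_10 hy) 10 rfl) h
      · exact mRel_good (T := T) hM0 [Lt.ci, Lt.d, Lt.a, Lt.ci, Lt.b, Lt.c, Lt.ai, Lt.d, Lt.ci, Lt.a] [Lt.a, Lt.ci, Lt.b, Lt.c] (pat hy (rb_6 hy) 6 rfl) h
theorem dM_214_s (hy : Hy g H) (j z1 z2 u : ℕ) (h : dM_214 j z1 z2 u = true) : GdM g H u := by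
  unfold dM_214 at h
  rcases brec_true h with h | h
  · exact dM_212_s hy j z1 z2 u h
  · exact dM_213_s hy j z1 z2 u h
theorem dM_215_s (hy : Hy g H) (j z1 z2 u : ℕ) (h : dM_215 j z1 z2 u = true) : GdM g H u := by
  unfold dM_215 at h
  rcases brec_true h with h | h
  · rcases brec_true h with h | h
    · exact mRel_good (T := T) hM0 [Lt.b, Lt.ci, Lt.b, Lt.c, Lt.b, Lt.ai, Lt.b, Lt.a, Lt.b, Lt.a, Lt.b, Lt.ai, Lt.ai] [Lt.c] (pat hy (rb_7 hy) 1 rfl) h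
    · rcases brec_true h with h | h
      · exact mRel_good (T := T) hM0 [Lt.c, Lt.a, Lt.a, Lt.b, Lt.ai, Lt.c, Lt.a, Lt.ci, Lt.d, Lt.a, Lt.a, Lt.d, Lt.b, Lt.d] [Lt.d, Lt.a, Lt.a] (pat hy (rf_15 hy) 9 rfl) h
      · exact mRel_good (T := T) hM0 [Lt.a, Lt.b, Lt.a, Lt.a, Lt.a] [Lt.ci, Lt.b, Lt.c, Lt.b, Lt.c, Lt.a, Lt.b, Lt.ai, Lt.b, Lt.ai] (pat hy (rf_8 hy) 13 rfl) h
  · rcases brec_true h with h | h
    · exact mRel_good (T := T) hM0 [Lt.a, Lt.b, Lt.a, Lt.b, Lt.ai, Lt.ci, Lt.b, Lt.ci, Lt.b, Lt.c, Lt.a, Lt.b, Lt.a, Lt.a, Lt.a] [] (pat hy (rf_8 hy) 3 rfl) h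
    · rcases brec_true h with h | h
      · exact mRel_good (T := T) hM0 [Lt.a, Lt.a, Lt.a, Lt.ci, Lt.b, Lt.ci, Lt.b, Lt.c] [Lt.b, Lt.a, Lt.b, Lt.a, Lt.b, Lt.ai, Lt.b, Lt.a, Lt.a] (pat hy (rf_17 hy) 0 rfl) h
      · exact mRel_good (T := T) hM0 [Lt.ai, Lt.b, Lt.a, Lt.b, Lt.a, Lt.a] [Lt.b, Lt.c, Lt.c, Lt.a, Lt.c, Lt.ai, Lt.ci, Lt.ci, Lt.a, Lt.b] (pat hy (rf_12 hy) 12 rfl) h
theorem dM_216_s (hy : Hy g H) (j z1 z2 u : ℕ) (h : dM_216 j z1 z2 u = true) : GdM g H u := by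
  unfold dM_216 at h
  rcases brec_true h with h | h
  · rcases brec_true h with h | h
    · exact mRel_good (T := T) hM0 [Lt.ai, Lt.ci, Lt.d, Lt.a, Lt.a, Lt.d, Lt.b, Lt.d, Lt.ai, Lt.ai, Lt.d] [Lt.a, Lt.b, Lt.ai, Lt.c, Lt.a, Lt.ci] (pat hy (rb_15 hy) 6 rfl) h
    · rcases brec_true h with h | h
      · exact mRel_good (T := T) hM0 [Lt.d, Lt.a, Lt.c, Lt.a, Lt.ci, Lt.b, Lt.c, Lt.ai, Lt.ci, Lt.ai, Lt.d, Lt.ci, Lt.ci, Lt.b] [Lt.ci, Lt.ci] (pat hy (rf_11 hy) 6 rfl) h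
      · exact mRel_good (T := T) hM0 [Lt.ai, Lt.b, Lt.a, Lt.b, Lt.c] [Lt.b, Lt.a, Lt.a, Lt.b, Lt.ai, Lt.c, Lt.c, Lt.a, Lt.ci, Lt.ai, Lt.ci] (pat hy (rb_12 hy) 1 rfl) h
  · rcases brec_true h with h | h
    · rcases brec_true h with h | h
      · exact mRel_good (T := T) hM0 [Lt.b, Lt.a, Lt.a, Lt.a, Lt.a, Lt.b, Lt.a, Lt.b, Lt.ai, Lt.ci, Lt.b] [Lt.ai, Lt.ci, Lt.b, Lt.c] (pat hy (rf_8 hy) 14 rfl) h
      · exact mRel_good (T := T) hM0 [Lt.a, Lt.b, Lt.ci] [Lt.b, Lt.a, Lt.a, Lt.b, Lt.a, Lt.b, Lt.ai, Lt.b, Lt.ci, Lt.ci, Lt.b, Lt.c] (pat hy (rb_9 hy) 1 rfl) h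
    · rcases brec_true h with h | h
      · exact mRel_good (T := T) hM0 [Lt.a, Lt.b, Lt.ai, Lt.b, Lt.ci, Lt.ci, Lt.b] [Lt.b, Lt.ai, Lt.ai, Lt.b, Lt.a, Lt.b, Lt.ci, Lt.ci] (pat hy (rf_9 hy) 3 rfl) h
      · exact mRel_good (T := T) hM0 [Lt.ci, Lt.ci] [Lt.a, Lt.c, Lt.a, Lt.ci, Lt.b, Lt.d, Lt.b, Lt.d, Lt.b, Lt.d] (pat hy (rb_5 hy) 5 rfl) h
theorem dM_217_s (hy : Hy g H) (j z1 z2 u : ℕ) (h : dM_217 j z1 z2 u = true) : GdM g H u := by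
  unfold dM_217 at h
  rcases brec_true h with h | h
  · exact dM_215_s hy j z1 z2 u h
  · exact dM_216_s hy j z1 z2 u h
theorem dM_218_s (hy : Hy g H) (j z1 z2 u : ℕ) (h : dM_218 j z1 z2 u = true) : GdM g H u := by
  unfold dM_218 at h
  rcases brec_true h with h | h
  · exact dM_214_s hy j z1 z2 u h
  · exact dM_217_s hy j z1 z2 u h
theorem dM_219_s (hy : Hy g H) (j z1 z2 u : ℕ) (h : dM_219 j z1 z2 u = true) : GdM g H u := by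
  unfold dM_219 at h
  rcases brec_true h with h | h
  · rcases brec_true h with h | h
    · exact mRel_good (T := T) hM0 [Lt.a, Lt.b, Lt.a, Lt.b, Lt.ai, Lt.b, Lt.ci, Lt.ci, Lt.b, Lt.c, Lt.c, Lt.b] [Lt.ai, Lt.b, Lt.a] (pat hy (rf_9 hy) 1 rfl) h
    · rcases brec_true h with h | h
      · exact mRel_good (T := T) hM0 [Lt.ci, Lt.b, Lt.c, Lt.ai, Lt.ai, Lt.b, Lt.a, Lt.a, Lt.a, Lt.a, Lt.a, Lt.a, Lt.a, Lt.a, Lt.ci, Lt.b, Lt.ci] [] (pat hy (rf_18 hy) 11 rfl) h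
      · exact mRel_good (T := T) hM0 [Lt.a, Lt.b, Lt.ai, Lt.ai, Lt.b, Lt.ai, Lt.b, Lt.a, Lt.b, Lt.c, Lt.c, Lt.a, Lt.c, Lt.ai, Lt.ci, Lt.ci] [] (pat hy (rb_12 hy) 12 rfl) h
  · rcases brec_true h with h | h
    · exact mRel_good (T := T) hM0 [Lt.b, Lt.c, Lt.b, Lt.a, Lt.a, Lt.ci, Lt.a, Lt.a] [Lt.a, Lt.a, Lt.ci, Lt.ai, Lt.b, Lt.ai, Lt.b] (pat hy (rf_10 hy) 9 rfl) h
    · rcases brec_true h with h | h
      · exact mRel_good (T := T) hM0 [Lt.b, Lt.c, Lt.c, Lt.b, Lt.a, Lt.b, Lt.ai] [Lt.c, Lt.c, Lt.b, Lt.ai, Lt.b, Lt.a, Lt.a, Lt.b] (pat hy (rb_9 hy) 5 rfl) h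
      · exact mRel_good (T := T) hM0 [Lt.ai, Lt.ai, Lt.b, Lt.c, Lt.b, Lt.a, Lt.a, Lt.ci, Lt.a] [Lt.ci, Lt.ai, Lt.b, Lt.ai, Lt.b, Lt.ai] (pat hy (rf_10 hy) 7 rfl) h
theorem dM_220_s (hy : Hy g H) (j z1 z2 u : ℕ) (h : dM_220 j z1 z2 u = true) : GdM g H u := by
  unfold dM_220 at h
  rcases brec_true h with h | h
  · rcases brec_true h with h | h
    · exact mRel_good (T := T) hM0 [Lt.a, Lt.ci, Lt.b, Lt.c, Lt.ai, Lt.c, Lt.d, Lt.a, Lt.ci, Lt.b, Lt.c, Lt.ai, Lt.d] [Lt.ci] (pat hy (rf_6 hy) 8 rfl) h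
    · rcases brec_true h with h | h
      · exact mRel_good (T := T) hM0 [Lt.ai, Lt.b, Lt.ai, Lt.ai, Lt.ai, Lt.ai, Lt.b] [Lt.b, Lt.ai, Lt.ci, Lt.b, Lt.ci, Lt.b, Lt.c, Lt.a] (pat hy (rb_8 hy) 9 rfl) h
      · exact mRel_good (T := T) hM0 [Lt.b, Lt.a, Lt.b, Lt.a, Lt.c, Lt.ai, Lt.ai, Lt.b, Lt.c, Lt.b, Lt.a, Lt.a] [Lt.ai, Lt.ai, Lt.c] (pat hy (rf_10 hy) 2 rfl) h
  · rcases brec_true h with h | h
    · rcases brec_true h with h | h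
      · exact mRel_good (T := T) hM0 [Lt.ci, Lt.ci, Lt.b, Lt.ai, Lt.b, Lt.a, Lt.b, Lt.a, Lt.a, Lt.b, Lt.ai, Lt.c] [Lt.a, Lt.c, Lt.ai, Lt.ci] (pat hy (rf_12 hy) 9 rfl) h
      · exact mRel_good (T := T) hM0 [Lt.ai] [Lt.ci, Lt.b, Lt.d, Lt.b, Lt.c, Lt.ai, Lt.c, Lt.c, Lt.d, Lt.ci, Lt.ci] (pat hy (rf_4 hy) 2 rfl) h
    · rcases brec_true h with h | h
      · exact mRel_good (T := T) hM0 [Lt.ai, Lt.ci, Lt.b, Lt.ci] [Lt.b, Lt.ai, Lt.b, Lt.ai, Lt.ai, Lt.ai, Lt.ai, Lt.b, Lt.ai, Lt.ci, Lt.b] (pat hy (rf_8 hy) 7 rfl) h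
      · exact mRel_good (T := T) hM0 [Lt.b, Lt.c, Lt.a, Lt.b, Lt.a, Lt.a, Lt.a, Lt.a, Lt.b, Lt.a, Lt.b, Lt.ai, Lt.ci, Lt.b] [Lt.c] (pat hy (rf_8 hy) 11 rfl) h
theorem dM_221_s (hy : Hy g H) (j z1 z2 u : ℕ) (h : dM_221 j z1 z2 u = true) : GdM g H u := by
  unfold dM_221 at h
  rcases brec_true h with h | h
  · exact dM_219_s hy j z1 z2 u h
  · exact dM_220_s hy j z1 z2 u h
theorem dM_222_s (hy : Hy g H) (j z1 z2 u : ℕ) (h : dM_222 j z1 z2 u = true) : GdM g H u := by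
  unfold dM_222 at h
  rcases brec_true h with h | h
  · rcases brec_true h with h | h
    · exact mRel_good (T := T) hM0 [Lt.d, Lt.a, Lt.ci, Lt.b, Lt.c, Lt.ai, Lt.d, Lt.ci, Lt.a, Lt.ci] [Lt.c, Lt.a, Lt.ci, Lt.b] (pat hy (rb_6 hy) 7 rfl) h
    · rcases brec_true h with h | h
      · exact mRel_good (T := T) hM0 [Lt.a, Lt.b, Lt.a, Lt.a, Lt.b, Lt.ai, Lt.c, Lt.c] [Lt.b, Lt.a, Lt.b, Lt.c, Lt.c, Lt.a, Lt.c, Lt.ai] (pat hy (rf_12 hy) 14 rfl) h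
      · exact mRel_good (T := T) hM0 [Lt.b, Lt.a, Lt.b, Lt.ai, Lt.b, Lt.ai, Lt.ai, Lt.b, Lt.a, Lt.b] [Lt.ci, Lt.ci, Lt.b, Lt.c, Lt.c] (pat hy (rb_9 hy) 8 rfl) h
  · rcases brec_true h with h | h
    · rcases brec_true h with h | h
      · exact mRel_good (T := T) hM0 [Lt.b, Lt.ai, Lt.b, Lt.a, Lt.b, Lt.ci, Lt.b] [Lt.a, Lt.b, Lt.ai, Lt.ai, Lt.ci, Lt.b, Lt.ci] (pat hy (rf_7 hy) 4 rfl) h
      · exact mRel_good (T := T) hM0 [Lt.a, Lt.ci, Lt.b, Lt.c, Lt.b, Lt.c, Lt.ai, Lt.ai, Lt.ai, Lt.b] [Lt.ai, Lt.b, Lt.a, Lt.b, Lt.ai, Lt.b, Lt.ai] (pat hy (rb_17 hy) 8 rfl) h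
    · rcases brec_true h with h | h
      · exact mRel_good (T := T) hM0 [Lt.ci] [Lt.d, Lt.a, Lt.ci, Lt.b, Lt.c, Lt.ai, Lt.d, Lt.c, Lt.a, Lt.ci, Lt.b, Lt.c, Lt.ai] (pat hy (rb_6 hy) 0 rfl) h
      · exact mRel_good (T := T) hM0 [Lt.b, Lt.ci, Lt.ci, Lt.b, Lt.c] [Lt.a, Lt.b, Lt.ai, Lt.b, Lt.ai, Lt.ai, Lt.b, Lt.a, Lt.b, Lt.ci] (pat hy (rf_9 hy) 6 rfl) h
theorem dM_223_s (hy : Hy g H) (j z1 z2 u : ℕ) (h : dM_223 j z1 z2 u = true) : GdM g H u := by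
  unfold dM_223 at h
  rcases brec_true h with h | h
  · rcases brec_true h with h | h
    · exact mRel_good (T := T) hM0 [Lt.b, Lt.ci, Lt.b, Lt.c, Lt.b, Lt.ai] [Lt.c, Lt.a, Lt.a, Lt.b, Lt.ai, Lt.b, Lt.ai, Lt.b] (pat hy (rb_7 hy) 1 rfl) h
    · rcases brec_true h with h | h
      · exact mRel_good (T := T) hM0 [Lt.ai, Lt.b, Lt.ai, Lt.ci, Lt.b, Lt.c, Lt.b, Lt.c, Lt.a] [Lt.a, Lt.a, Lt.a, Lt.b, Lt.a, Lt.b] (pat hy (rb_8 hy) 14 rfl) h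
      · exact mRel_good (T := T) hM0 [Lt.a, Lt.b, Lt.a, Lt.c] [Lt.b, Lt.ai, Lt.ai, Lt.c, Lt.ai, Lt.ai, Lt.b, Lt.ci, Lt.b, Lt.a, Lt.a] (pat hy (rf_10 hy) 3 rfl) h
  · rcases brec_true h with h | h
    · rcases brec_true h with h | h
      · exact mRel_good (T := T) hM0 [Lt.d, Lt.c, Lt.a] [Lt.a, Lt.ci, Lt.b, Lt.c, Lt.ai, Lt.d, Lt.ci, Lt.a, Lt.ci, Lt.b, Lt.c] (pat hy (rf_6 hy) 6 rfl) h
      · exact mRel_good (T := T) hM0 [Lt.b, Lt.ai, Lt.ai, Lt.b, Lt.a, Lt.b] [Lt.a, Lt.b, Lt.ai, Lt.b, Lt.ci, Lt.ci, Lt.b, Lt.c, Lt.c] (pat hy (rb_9 hy) 12 rfl) h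
    · rcases brec_true h with h | h
      · exact mRel_good (T := T) hM0 [Lt.b] [Lt.ai, Lt.ci, Lt.b, Lt.c, Lt.b, Lt.c, Lt.a, Lt.b, Lt.ai, Lt.b, Lt.ai, Lt.ai, Lt.ai, Lt.ai] (pat hy (rf_8 hy) 14 rfl) h
      · exact mRel_good (T := T) hM0 [Lt.c, Lt.ai, Lt.ci, Lt.d, Lt.a] [Lt.b, Lt.c, Lt.ai, Lt.c, Lt.d, Lt.a, Lt.ci, Lt.b, Lt.c] (pat hy (rb_6 hy) 4 rfl) h
theorem dM_224_s (hy : Hy g H) (j z1 z2 u : ℕ) (h : dM_224 j z1 z2 u = true) : GdM g H u := by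
  unfold dM_224 at h
  rcases brec_true h with h | h
  · exact dM_222_s hy j z1 z2 u h
  · exact dM_223_s hy j z1 z2 u h
theorem dM_225_s (hy : Hy g H) (j z1 z2 u : ℕ) (h : dM_225 j z1 z2 u = true) : GdM g H u := by
  unfold dM_225 at h
  rcases brec_true h with h | h
  · exact dM_221_s hy j z1 z2 u h
  · exact dM_224_s hy j z1 z2 u h
theorem dM_226_s (hy : Hy g H) (j z1 z2 u : ℕ) (h : dM_226 j z1 z2 u = true) : GdM g H u := by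
  unfold dM_226 at h
  rcases brec_true h with h | h
  · exact dM_218_s hy j z1 z2 u h
  · exact dM_225_s hy j z1 z2 u h
theorem dM_227_s (hy : Hy g H) (j z1 z2 u : ℕ) (h : dM_227 j z1 z2 u = true) : GdM g H u := by
  unfold dM_227 at h
  rcases brec_true h with h | h
  · exact dM_211_s hy j z1 z2 u h
  · exact dM_226_s hy j z1 z2 u h
theorem dM_228_s (hy : Hy g H) (j z1 z2 u : ℕ) (h : dM_228 j z1 z2 u = true) : GdM g H u := by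
  unfold dM_228 at h
  rcases brec_true h with h | h
  · rcases brec_true h with h | h
    · exact mRel_good (T := T) hM0 [Lt.a, Lt.a, Lt.b, Lt.ai] [Lt.ai, Lt.ai, Lt.b, Lt.a, Lt.b, Lt.ai, Lt.b, Lt.a, Lt.a, Lt.a, Lt.a, Lt.b, Lt.ai, Lt.b] (pat hy (rf_21 hy) 2 rfl) h
    · rcases brec_true h with h | h
      · exact mRel_good (T := T) hM0 [Lt.b, Lt.a, Lt.b, Lt.ai, Lt.ci, Lt.b] [Lt.ai, Lt.ai, Lt.ai, Lt.ai, Lt.b, Lt.ai, Lt.ci, Lt.b, Lt.c] (pat hy (rf_8 hy) 4 rfl) h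
      · exact mRel_good (T := T) hM0 [Lt.a, Lt.b, Lt.a, Lt.a, Lt.a, Lt.a, Lt.b, Lt.a, Lt.b, Lt.ai, Lt.ci, Lt.b] [Lt.ci, Lt.b, Lt.c] (pat hy (rf_8 hy) 13 rfl) h
  · rcases brec_true h with h | h
    · exact mRel_good (T := T) hM0 [Lt.ai, Lt.b, Lt.a, Lt.a, Lt.b, Lt.a, Lt.b, Lt.ai, Lt.b, Lt.ci] [Lt.b, Lt.ci, Lt.ci, Lt.b, Lt.c] (pat hy (rf_9 hy) 13 rfl) h
    · rcases brec_true h with h | h
      · exact mRel_good (T := T) hM0 [Lt.b, Lt.c, Lt.ai] [Lt.c, Lt.b, Lt.c, Lt.ai, Lt.ai, Lt.ai, Lt.b, Lt.a, Lt.b, Lt.a, Lt.b, Lt.ai, Lt.b, Lt.a] (pat hy (rf_17 hy) 6 rfl) h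
      · exact mRel_good (T := T) hM0 [Lt.b, Lt.a, Lt.b, Lt.a, Lt.b, Lt.ai, Lt.ai, Lt.ci, Lt.b, Lt.ci, Lt.b, Lt.c, Lt.b] [Lt.a] (pat hy (rb_7 hy) 7 rfl) h
theorem dM_229_s (hy : Hy g H) (j z1 z2 u : ℕ) (h : dM_229 j z1 z2 u = true) : GdM g H u := by
  unfold dM_229 at h
  rcases brec_true h with h | h
  · rcases brec_true h with h | h
    · exact mRel_good (T := T) hM0 [Lt.a, Lt.a, Lt.b, Lt.a, Lt.b, Lt.ai, Lt.ai, Lt.b, Lt.a, Lt.a, Lt.b] [Lt.b, Lt.a, Lt.a, Lt.b, Lt.ai] (pat hy (rf_14 hy) 0 rfl) h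
    · rcases brec_true h with h | h
      · exact mRel_good (T := T) hM0 [Lt.ai, Lt.b, Lt.a, Lt.b, Lt.a, Lt.a, Lt.b, Lt.ai, Lt.c, Lt.c, Lt.a, Lt.ci, Lt.ai, Lt.ci] [Lt.b, Lt.c] (pat hy (rf_12 hy) 12 rfl) h
      · exact mRel_good (T := T) hM0 [Lt.ci, Lt.b, Lt.c, Lt.b, Lt.c, Lt.a, Lt.a, Lt.b, Lt.ai] [Lt.b, Lt.ai, Lt.b, Lt.a, Lt.b] (pat hy (rf_7 hy) 9 rfl) h
  · rcases brec_true h with h | h
    · rcases brec_true h with h | h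
      · exact mRel_good (T := T) hM0 [Lt.ai, Lt.ai, Lt.c, Lt.ai, Lt.ai, Lt.b, Lt.ci, Lt.b, Lt.a, Lt.a, Lt.ci] [Lt.b, Lt.a, Lt.b, Lt.a] (pat hy (rb_10 hy) 13 rfl) h
      · exact mRel_good (T := T) hM0 [Lt.b, Lt.ai, Lt.ai, Lt.ci, Lt.d, Lt.a, Lt.a, Lt.d, Lt.b, Lt.d, Lt.ai, Lt.ai] [Lt.ai, Lt.c, Lt.a, Lt.ci, Lt.d] (pat hy (rb_15 hy) 4 rfl) h
    · rcases brec_true h with h | h
      · exact mRel_good (T := T) hM0 [Lt.b, Lt.a, Lt.a, Lt.ci, Lt.ai, Lt.b] [Lt.c, Lt.b, Lt.a, Lt.a, Lt.ci, Lt.a, Lt.a, Lt.b, Lt.a] (pat hy (rb_10 hy) 5 rfl) h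
      · exact mRel_good (T := T) hM0 [Lt.b, Lt.ai, Lt.b, Lt.a, Lt.b, Lt.ci, Lt.b, Lt.c, Lt.b, Lt.c, Lt.a, Lt.a, Lt.b, Lt.ai] [] (pat hy (rf_7 hy) 4 rfl) h
theorem dM_230_s (hy : Hy g H) (j z1 z2 u : ℕ) (h : dM_230 j z1 z2 u = true) : GdM g H u := by
  unfold dM_230 at h
  rcases brec_true h with h | h
  · exact dM_228_s hy j z1 z2 u h
  · exact dM_229_s hy j z1 z2 u h
theorem dM_231_s (hy : Hy g H) (j z1 z2 u : ℕ) (h : dM_231 j z1 z2 u = true) : GdM g H u := by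
  unfold dM_231 at h
  rcases brec_true h with h | h
  · rcases brec_true h with h | h
    · exact mRel_good (T := T) hM0 [Lt.b, Lt.c, Lt.a, Lt.a, Lt.b, Lt.ai] [Lt.ci, Lt.b, Lt.c, Lt.b, Lt.ai, Lt.b, Lt.a, Lt.b] (pat hy (rf_7 hy) 12 rfl) h
    · rcases brec_true h with h | h
      · exact mRel_good (T := T) hM0 [Lt.ai, Lt.b, Lt.ai, Lt.b, Lt.a, Lt.b, Lt.ci, Lt.b, Lt.c, Lt.b, Lt.c] [Lt.b, Lt.ai, Lt.ai] (pat hy (rf_7 hy) 3 rfl) h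
      · exact mRel_good (T := T) hM0 [Lt.b, Lt.ai, Lt.ai, Lt.ai, Lt.ai, Lt.b, Lt.ai, Lt.ci, Lt.b, Lt.c, Lt.b] [Lt.a, Lt.b, Lt.ai, Lt.ci] (pat hy (rb_8 hy) 10 rfl) h
  · rcases brec_true h with h | h
    · exact mRel_good (T := T) hM0 [Lt.a, Lt.b, Lt.ai, Lt.c, Lt.a, Lt.ci, Lt.d, Lt.a, Lt.a, Lt.d, Lt.b, Lt.d] [Lt.ai, Lt.ci, Lt.d, Lt.a, Lt.a] (pat hy (rf_15 hy) 11 rfl) h
    · rcases brec_true h with h | h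
      · exact mRel_good (T := T) hM0 [Lt.c, Lt.ai, Lt.c, Lt.d, Lt.a, Lt.ci, Lt.b, Lt.c, Lt.ai, Lt.d, Lt.c, Lt.a, Lt.ci] [Lt.b] (pat hy (rf_6 hy) 11 rfl) h
      · exact mRel_good (T := T) hM0 [Lt.b, Lt.a, Lt.b, Lt.ai, Lt.ai, Lt.ci, Lt.b, Lt.ci, Lt.b, Lt.c, Lt.b, Lt.ai, Lt.b, Lt.a] [] (pat hy (rb_7 hy) 9 rfl) h
theorem dM_232_s (hy : Hy g H) (j z1 z2 u : ℕ) (h : dM_232 j z1 z2 u = true) : GdM g H u := by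
  unfold dM_232 at h
  rcases brec_true h with h | h
  · rcases brec_true h with h | h
    · exact mRel_good (T := T) hM0 [Lt.ai, Lt.ai, Lt.c, Lt.ai, Lt.ai, Lt.b] [Lt.b, Lt.a, Lt.b, Lt.a, Lt.c, Lt.ai, Lt.ai, Lt.b, Lt.c] (pat hy (rb_10 hy) 13 rfl) h
    · rcases brec_true h with h | h
      · exact mRel_good (T := T) hM0 [Lt.a, Lt.a, Lt.b, Lt.a, Lt.b, Lt.ai, Lt.ci, Lt.b] [Lt.ai, Lt.ai, Lt.b, Lt.ai, Lt.ci, Lt.b, Lt.c] (pat hy (rf_8 hy) 2 rfl) h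
      · exact mRel_good (T := T) hM0 [Lt.a, Lt.b, Lt.ai, Lt.b, Lt.ai, Lt.ai, Lt.ai, Lt.ai, Lt.b] [Lt.ci, Lt.b, Lt.ci, Lt.b, Lt.c, Lt.a] (pat hy (rb_8 hy) 7 rfl) h
  · rcases brec_true h with h | h
    · rcases brec_true h with h | h
      · exact mRel_good (T := T) hM0 [Lt.ci, Lt.b, Lt.c, Lt.ai, Lt.d, Lt.c, Lt.a, Lt.ci, Lt.b, Lt.c, Lt.ai, Lt.c] [Lt.ai, Lt.d] (pat hy (rf_6 hy) 2 rfl) h
      · exact mRel_good (T := T) hM0 [Lt.c, Lt.c] [Lt.ai, Lt.ci, Lt.d, Lt.a, Lt.ci, Lt.b, Lt.c, Lt.ai, Lt.d, Lt.c, Lt.a, Lt.a, Lt.b, Lt.a, Lt.a, Lt.a] (pat hy (rb_19 hy) 2 rfl) h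
    · rcases brec_true h with h | h
      · exact mRel_good (T := T) hM0 [Lt.d, Lt.c, Lt.a, Lt.ci, Lt.b, Lt.c, Lt.ai, Lt.c, Lt.d, Lt.a, Lt.ci, Lt.b, Lt.c, Lt.ai] [] (pat hy (rf_6 hy) 6 rfl) h
      · exact mRel_good (T := T) hM0 [Lt.a] [Lt.b, Lt.c, Lt.b, Lt.a, Lt.a, Lt.ci, Lt.a, Lt.a, Lt.b, Lt.a, Lt.b, Lt.a, Lt.c, Lt.ai] (pat hy (rb_10 hy) 6 rfl) h
theorem dM_233_s (hy : Hy g H) (j z1 z2 u : ℕ) (h : dM_233 j z1 z2 u = true) : GdM g H u := by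
  unfold dM_233 at h
  rcases brec_true h with h | h
  · exact dM_231_s hy j z1 z2 u h
  · exact dM_232_s hy j z1 z2 u h
theorem dM_234_s (hy : Hy g H) (j z1 z2 u : ℕ) (h : dM_234 j z1 z2 u = true) : GdM g H u := by
  unfold dM_234 at h
  rcases brec_true h with h | h
  · exact dM_230_s hy j z1 z2 u h
  · exact dM_233_s hy j z1 z2 u h
theorem dM_235_s (hy : Hy g H) (j z1 z2 u : ℕ) (h : dM_235 j z1 z2 u = true) : GdM g H u := by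
  unfold dM_235 at h
  rcases brec_true h with h | h
  · rcases brec_true h with h | h
    · exact mRel_good (T := T) hM0 [Lt.a, Lt.b, Lt.a, Lt.b, Lt.ai, Lt.b, Lt.ci] [Lt.ai, Lt.b, Lt.a, Lt.b, Lt.ci, Lt.ci, Lt.b, Lt.c] (pat hy (rf_9 hy) 1 rfl) h
    · rcases brec_true h with h | h
      · exact mRel_good (T := T) hM0 [Lt.ci, Lt.b, Lt.c, Lt.ai, Lt.c, Lt.d, Lt.a] [Lt.ai, Lt.ci, Lt.d, Lt.a, Lt.ci, Lt.b, Lt.c] (pat hy (rf_6 hy) 9 rfl) h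
      · exact mRel_good (T := T) hM0 [Lt.b, Lt.a, Lt.a, Lt.a, Lt.ci, Lt.b, Lt.a, Lt.ci, Lt.b, Lt.c, Lt.ai] [Lt.a, Lt.a, Lt.a, Lt.ci, Lt.b] (pat hy (rf_13 hy) 15 rfl) h
  · rcases brec_true h with h | h
    · exact mRel_good (T := T) hM0 [Lt.d, Lt.b, Lt.d, Lt.c, Lt.c, Lt.a, Lt.c, Lt.a, Lt.ci] [Lt.b, Lt.d, Lt.b] (pat hy (rf_5 hy) 2 rfl) h
    · rcases brec_true h with h | h
      · exact mRel_good (T := T) hM0 [Lt.ai, Lt.b, Lt.ai, Lt.ai, Lt.c, Lt.ai, Lt.ai, Lt.b] [Lt.b, Lt.a, Lt.c, Lt.ai, Lt.ai, Lt.b, Lt.c] (pat hy (rb_10 hy) 11 rfl) h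
      · exact mRel_good (T := T) hM0 [Lt.b, Lt.a, Lt.b, Lt.ai, Lt.b] [Lt.ci, Lt.ci, Lt.b, Lt.c, Lt.c, Lt.b, Lt.ai, Lt.b, Lt.a, Lt.a] (pat hy (rb_9 hy) 8 rfl) h
theorem dM_236_s (hy : Hy g H) (j z1 z2 u : ℕ) (h : dM_236 j z1 z2 u = true) : GdM g H u := by
  unfold dM_236 at h
  rcases brec_true h with h | h
  · rcases brec_true h with h | h
    · exact mRel_good (T := T) hM0 [Lt.b, Lt.ai, Lt.ai, Lt.c, Lt.ai, Lt.ai, Lt.b, Lt.ci, Lt.b, Lt.a, Lt.a] [Lt.a, Lt.b, Lt.a, Lt.c] (pat hy (rb_10 hy) 12 rfl) h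
    · rcases brec_true h with h | h
      · exact mRel_good (T := T) hM0 [Lt.b, Lt.a, Lt.b, Lt.ai, Lt.ai, Lt.b, Lt.a, Lt.a, Lt.b, Lt.a, Lt.b, Lt.ai, Lt.ai] [Lt.ai, Lt.ai, Lt.b] (pat hy (rf_14 hy) 2 rfl) h
      · exact mRel_good (T := T) hM0 [Lt.b, Lt.d, Lt.ai, Lt.ai] [Lt.d, Lt.ai, Lt.ai, Lt.d, Lt.c, Lt.ai, Lt.ci, Lt.a, Lt.b, Lt.ai, Lt.ai, Lt.ci, Lt.d] (pat hy (rf_15 hy) 4 rfl) h
  · rcases brec_true h with h | h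
    · rcases brec_true h with h | h
      · exact mRel_good (T := T) hM0 [Lt.c, Lt.a, Lt.c, Lt.a, Lt.ci, Lt.b, Lt.d, Lt.b, Lt.d, Lt.b, Lt.d] [Lt.ci] (pat hy (rf_5 hy) 6 rfl) h
      · exact mRel_good (T := T) hM0 [Lt.c, Lt.ai, Lt.ai, Lt.ai, Lt.b, Lt.ai] [Lt.ci, Lt.ai, Lt.ci, Lt.d, Lt.a, Lt.ci, Lt.b, Lt.c, Lt.ai, Lt.d, Lt.c, Lt.a] (pat hy (rb_19 hy) 3 rfl) h
    · rcases brec_true h with h | h
      · exact mRel_good (T := T) hM0 [Lt.b, Lt.a, Lt.a, Lt.b, Lt.a, Lt.b, Lt.ai, Lt.ai] [Lt.a, Lt.a, Lt.b, Lt.ai, Lt.b, Lt.ai, Lt.ai, Lt.b] (pat hy (rf_14 hy) 7 rfl) h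
      · exact mRel_good (T := T) hM0 [Lt.ci, Lt.b, Lt.d, Lt.b, Lt.d, Lt.b, Lt.d, Lt.c, Lt.c, Lt.a, Lt.c] [Lt.ai] (pat hy (rf_5 hy) 10 rfl) h
theorem dM_237_s (hy : Hy g H) (j z1 z2 u : ℕ) (h : dM_237 j z1 z2 u = true) : GdM g H u := by
  unfold dM_237 at h
  rcases brec_true h with h | h
  · exact dM_235_s hy j z1 z2 u h
  · exact dM_236_s hy j z1 z2 u h
theorem dM_238_s (hy : Hy g H) (j z1 z2 u : ℕ) (h : dM_238 j z1 z2 u = true) : GdM g H u := by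
  unfold dM_238 at h
  rcases brec_true h with h | h
  · rcases brec_true h with h | h
    · exact mRel_good (T := T) hM0 [Lt.a, Lt.b, Lt.a, Lt.b, Lt.ai] [Lt.ai, Lt.b, Lt.a, Lt.b, Lt.ci, Lt.ci, Lt.b, Lt.c, Lt.c, Lt.b] (pat hy (rf_9 hy) 1 rfl) h
    · rcases brec_true h with h | h
      · exact mRel_good (T := T) hM0 [Lt.c] [Lt.b, Lt.c, Lt.c, Lt.b, Lt.ai, Lt.b, Lt.a, Lt.a, Lt.b, Lt.a, Lt.b, Lt.ai, Lt.b, Lt.ci] (pat hy (rb_9 hy) 6 rfl) h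
      · exact mRel_good (T := T) hM0 [Lt.c, Lt.a, Lt.ci, Lt.b, Lt.c, Lt.ai, Lt.c, Lt.d, Lt.a, Lt.ci, Lt.b, Lt.c, Lt.ai] [Lt.d] (pat hy (rf_6 hy) 7 rfl) h
  · rcases brec_true h with h | h
    · rcases brec_true h with h | h
      · exact mRel_good (T := T) hM0 [Lt.d] [Lt.a, Lt.c, Lt.d, Lt.ci, Lt.ai, Lt.d, Lt.a, Lt.c, Lt.d, Lt.ci, Lt.ai] (pat hy (rf_3 hy) 5 rfl) h
      · exact mRel_good (T := T) hM0 [Lt.d, Lt.c, Lt.a, Lt.ci, Lt.b] [Lt.a, Lt.ci, Lt.b, Lt.c, Lt.ai, Lt.d, Lt.ci, Lt.a, Lt.ci] (pat hy (rf_6 hy) 6 rfl) h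
    · rcases brec_true h with h | h
      · exact mRel_good (T := T) hM0 [Lt.a, Lt.a, Lt.b, Lt.a, Lt.b, Lt.ai, Lt.ai, Lt.b] [Lt.b, Lt.a, Lt.a, Lt.b, Lt.ai, Lt.b, Lt.ai, Lt.ai] (pat hy (rf_14 hy) 0 rfl) h
      · exact mRel_good (T := T) hM0 [Lt.ai, Lt.b, Lt.a, Lt.a, Lt.b, Lt.ai, Lt.b, Lt.ai] [Lt.a, Lt.b, Lt.a, Lt.b, Lt.ai, Lt.ai, Lt.b, Lt.a] (pat hy (rb_14 hy) 7 rfl) h
theorem dM_239_s (hy : Hy g H) (j z1 z2 u : ℕ) (h : dM_239 j z1 z2 u = true) : GdM g H u := by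
  unfold dM_239 at h
  rcases brec_true h with h | h
  · rcases brec_true h with h | h
    · exact mRel_good (T := T) hM0 [Lt.b, Lt.c, Lt.b, Lt.c, Lt.a, Lt.b] [Lt.c, Lt.a, Lt.b, Lt.a, Lt.a, Lt.a, Lt.a, Lt.b, Lt.a] (pat hy (rb_8 hy) 3 rfl) h
    · rcases brec_true h with h | h
      · exact mRel_good (T := T) hM0 [Lt.ai, Lt.ci, Lt.b, Lt.ci, Lt.b, Lt.c, Lt.b, Lt.ai, Lt.b] [Lt.a, Lt.b, Lt.ai, Lt.b, Lt.ai] (pat hy (rb_7 hy) 13 rfl) h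
      · exact mRel_good (T := T) hM0 [Lt.ai, Lt.ai, Lt.ci, Lt.b, Lt.ci, Lt.b, Lt.c, Lt.b, Lt.ai] [Lt.b, Lt.ai, Lt.b, Lt.ai, Lt.b] (pat hy (rb_7 hy) 12 rfl) h
  · rcases brec_true h with h | h
    · rcases brec_true h with h | h
      · exact mRel_good (T := T) hM0 [Lt.b, Lt.ci, Lt.ci, Lt.b, Lt.c, Lt.c, Lt.b, Lt.ai] [Lt.a, Lt.b, Lt.ai, Lt.b, Lt.ai, Lt.ai, Lt.b] (pat hy (rf_9 hy) 6 rfl) h
      · exact mRel_good (T := T) hM0 [Lt.ai, Lt.ai, Lt.b, Lt.a, Lt.b, Lt.a, Lt.b, Lt.ai, Lt.b, Lt.a, Lt.a, Lt.ci, Lt.b] [Lt.a, Lt.ci, Lt.b, Lt.ci] (pat hy (rb_17 hy) 15 rfl) h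
    · rcases brec_true h with h | h
      · exact mRel_good (T := T) hM0 [Lt.d, Lt.c, Lt.a, Lt.ci, Lt.b, Lt.c, Lt.ai, Lt.c] [Lt.a, Lt.ci, Lt.b, Lt.c, Lt.ai, Lt.d] (pat hy (rf_6 hy) 6 rfl) h
      · exact mRel_good (T := T) hM0 [Lt.b] [Lt.ci, Lt.b, Lt.c, Lt.b, Lt.ai, Lt.b, Lt.a, Lt.b, Lt.a, Lt.b, Lt.ai, Lt.ai, Lt.ci] (pat hy (rf_7 hy) 12 rfl) h
theorem dM_240_s (hy : Hy g H) (j z1 z2 u : ℕ) (h : dM_240 j z1 z2 u = true) : GdM g H u := by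
  unfold dM_240 at h
  rcases brec_true h with h | h
  · exact dM_238_s hy j z1 z2 u h
  · exact dM_239_s hy j z1 z2 u h
theorem dM_241_s (hy : Hy g H) (j z1 z2 u : ℕ) (h : dM_241 j z1 z2 u = true) : GdM g H u := by
  unfold dM_241 at h
  rcases brec_true h with h | h
  · exact dM_237_s hy j z1 z2 u h
  · exact dM_240_s hy j z1 z2 u h
theorem dM_242_s (hy : Hy g H) (j z1 z2 u : ℕ) (h : dM_242 j z1 z2 u = true) : GdM g H u := by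
  unfold dM_242 at h
  rcases brec_true h with h | h
  · exact dM_234_s hy j z1 z2 u h
  · exact dM_241_s hy j z1 z2 u h
theorem dM_243_s (hy : Hy g H) (j z1 z2 u : ℕ) (h : dM_243 j z1 z2 u = true) : GdM g H u := by
  unfold dM_243 at h
  rcases brec_true h with h | h
  · rcases brec_true h with h | h
    · exact mRel_good (T := T) hM0 [Lt.a, Lt.b, Lt.a, Lt.a, Lt.a, Lt.a, Lt.b, Lt.a] [Lt.ci, Lt.b, Lt.c, Lt.b, Lt.c, Lt.a, Lt.b] (pat hy (rf_8 hy) 13 rfl) h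
    · rcases brec_true h with h | h
      · exact mRel_good (T := T) hM0 [Lt.ci] [Lt.b, Lt.a, Lt.b, Lt.ai, Lt.b, Lt.ai, Lt.ai, Lt.b, Lt.a, Lt.b, Lt.ci, Lt.ci, Lt.b, Lt.c] (pat hy (rf_9 hy) 7 rfl) h
      · exact mRel_good (T := T) hM0 [Lt.ai, Lt.b, Lt.c, Lt.b, Lt.a, Lt.a, Lt.ci, Lt.a, Lt.a, Lt.b, Lt.a, Lt.b, Lt.a, Lt.c] [Lt.a] (pat hy (rf_10 hy) 8 rfl) h
  · rcases brec_true h with h | h
    · exact mRel_good (T := T) hM0 [Lt.ci, Lt.b, Lt.ci, Lt.b, Lt.c, Lt.b] [Lt.a, Lt.a, Lt.b, Lt.ai, Lt.b, Lt.ai, Lt.b, Lt.a] (pat hy (rb_7 hy) 0 rfl) h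
    · rcases brec_true h with h | h
      · exact mRel_good (T := T) hM0 [Lt.c, Lt.b, Lt.ai, Lt.b, Lt.a, Lt.b, Lt.a, Lt.b] [Lt.b, Lt.c, Lt.b, Lt.c, Lt.a, Lt.a] (pat hy (rb_7 hy) 4 rfl) h
      · exact mRel_good (T := T) hM0 [Lt.c, Lt.a, Lt.a, Lt.b, Lt.ai, Lt.c, Lt.a, Lt.ci, Lt.d, Lt.a, Lt.a] [Lt.d, Lt.a, Lt.a, Lt.d, Lt.b, Lt.d] (pat hy (rf_15 hy) 9 rfl) h
theorem dM_244_s (hy : Hy g H) (j z1 z2 u : ℕ) (h : dM_244 j z1 z2 u = true) : GdM g H u := by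
  unfold dM_244 at h
  rcases brec_true h with h | h
  · rcases brec_true h with h | h
    · exact mRel_good (T := T) hM0 [Lt.b, Lt.c, Lt.a, Lt.b, Lt.ai, Lt.b, Lt.ai, Lt.ai, Lt.ai, Lt.ai, Lt.b, Lt.ai] [Lt.ci, Lt.b, Lt.c] (pat hy (rb_8 hy) 5 rfl) h
    · rcases brec_true h with h | h
      · exact mRel_good (T := T) hM0 [Lt.ai, Lt.ai, Lt.b, Lt.c, Lt.b] [Lt.ci, Lt.ai, Lt.b, Lt.ai, Lt.b, Lt.ai, Lt.ai, Lt.c, Lt.ai, Lt.ai] (pat hy (rf_10 hy) 7 rfl) h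
      · exact mRel_good (T := T) hM0 [Lt.b, Lt.ai, Lt.b, Lt.ci, Lt.ci, Lt.b, Lt.c, Lt.c, Lt.b, Lt.ai, Lt.b, Lt.a] [Lt.ai, Lt.b, Lt.ai] (pat hy (rf_9 hy) 4 rfl) h
  · rcases brec_true h with h | h
    · rcases brec_true h with h | h
      · exact mRel_good (T := T) hM0 [Lt.c, Lt.a, Lt.ci, Lt.ai] [Lt.ci, Lt.a, Lt.b, Lt.ai, Lt.ai, Lt.b, Lt.ai, Lt.b, Lt.a, Lt.b, Lt.c, Lt.c] (pat hy (rf_12 hy) 5 rfl) h
      · exact mRel_good (T := T) hM0 [Lt.ai, Lt.ai, Lt.c, Lt.ai, Lt.ai, Lt.b, Lt.ci, Lt.b, Lt.a, Lt.a, Lt.ci, Lt.ai] [Lt.b, Lt.a, Lt.b] (pat hy (rb_10 hy) 13 rfl) h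
    · rcases brec_true h with h | h
      · exact mRel_good (T := T) hM0 [Lt.ai, Lt.d] [Lt.a, Lt.d, Lt.b, Lt.d, Lt.ai, Lt.ai, Lt.d, Lt.c, Lt.ai, Lt.ci, Lt.a, Lt.b, Lt.ai, Lt.ai, Lt.ci] (pat hy (rf_15 hy) 7 rfl) h
      · exact mRel_good (T := T) hM0 [Lt.a, Lt.ci, Lt.b, Lt.c, Lt.ai, Lt.d, Lt.c, Lt.a, Lt.ci] [Lt.d, Lt.ci, Lt.a, Lt.ci, Lt.b] (pat hy (rf_6 hy) 1 rfl) h
theorem dM_245_s (hy : Hy g H) (j z1 z2 u : ℕ) (h : dM_245 j z1 z2 u = true) : GdM g H u := by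
  unfold dM_245 at h
  rcases brec_true h with h | h
  · exact dM_243_s hy j z1 z2 u h
  · exact dM_244_s hy j z1 z2 u h
theorem dM_246_s (hy : Hy g H) (j z1 z2 u : ℕ) (h : dM_246 j z1 z2 u = true) : GdM g H u := by
  unfold dM_246 at h
  rcases brec_true h with h | h
  · rcases brec_true h with h | h
    · exact mRel_good (T := T) hM0 [Lt.ai, Lt.ci, Lt.b, Lt.ci, Lt.b, Lt.c, Lt.b, Lt.ai, Lt.b, Lt.a] [Lt.a, Lt.b, Lt.ai, Lt.b] (pat hy (rb_7 hy) 13 rfl) h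
    · rcases brec_true h with h | h
      · exact mRel_good (T := T) hM0 [Lt.b, Lt.c, Lt.b, Lt.c, Lt.a, Lt.b, Lt.ai, Lt.b, Lt.ai, Lt.ai, Lt.ai, Lt.ai, Lt.b] [Lt.c, Lt.a] (pat hy (rb_8 hy) 3 rfl) h
      · exact mRel_good (T := T) hM0 [Lt.ai, Lt.b, Lt.a, Lt.b, Lt.ci, Lt.ci, Lt.b, Lt.c, Lt.c, Lt.b] [Lt.a, Lt.b, Lt.a, Lt.b, Lt.ai] (pat hy (rb_9 hy) 14 rfl) h
  · rcases brec_true h with h | h
    · exact mRel_good (T := T) hM0 [Lt.a, Lt.b, Lt.ai, Lt.b, Lt.ai, Lt.ai, Lt.b, Lt.a, Lt.b, Lt.ci, Lt.ci] [Lt.b, Lt.ci, Lt.ci, Lt.b] (pat hy (rb_9 hy) 9 rfl) h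
    · rcases brec_true h with h | h
      · exact mRel_good (T := T) hM0 [Lt.b, Lt.a, Lt.a, Lt.a, Lt.a, Lt.b, Lt.a, Lt.b] [Lt.ai, Lt.ci, Lt.b, Lt.c, Lt.b, Lt.c, Lt.a] (pat hy (rf_8 hy) 14 rfl) h
      · exact mRel_good (T := T) hM0 [Lt.b, Lt.ai, Lt.ai, Lt.c, Lt.ai, Lt.ai] [Lt.a, Lt.b, Lt.a, Lt.c, Lt.ai, Lt.ai, Lt.b, Lt.c, Lt.b] (pat hy (rb_10 hy) 12 rfl) h
theorem dM_247_s (hy : Hy g H) (j z1 z2 u : ℕ) (h : dM_247 j z1 z2 u = true) : GdM g H u := by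
  unfold dM_247 at h
  rcases brec_true h with h | h
  · rcases brec_true h with h | h
    · exact mRel_good (T := T) hM0 [Lt.a, Lt.b, Lt.a, Lt.c, Lt.ai, Lt.ai, Lt.b, Lt.c, Lt.b, Lt.a] [Lt.b, Lt.ai, Lt.ai, Lt.c, Lt.ai] (pat hy (rf_10 hy) 3 rfl) h
    · rcases brec_true h with h | h
      · exact mRel_good (T := T) hM0 [Lt.b, Lt.c, Lt.b, Lt.ai, Lt.b, Lt.a, Lt.b, Lt.a] [Lt.c, Lt.b, Lt.c, Lt.a, Lt.a, Lt.b] (pat hy (rb_7 hy) 3 rfl) h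
      · exact mRel_good (T := T) hM0 [Lt.ci] [Lt.c, Lt.a, Lt.c, Lt.a, Lt.ci, Lt.b, Lt.d, Lt.b, Lt.d, Lt.b, Lt.d] (pat hy (rb_5 hy) 6 rfl) h
  · rcases brec_true h with h | h
    · rcases brec_true h with h | h
      · exact mRel_good (T := T) hM0 [Lt.b, Lt.ai, Lt.ai, Lt.b, Lt.a, Lt.a] [Lt.ai, Lt.b, Lt.ai, Lt.ai, Lt.b, Lt.a, Lt.a, Lt.b, Lt.ai, Lt.b] (pat hy (rf_14 hy) 4 rfl) h
      · exact mRel_good (T := T) hM0 [Lt.a, Lt.a, Lt.b, Lt.ai, Lt.b, Lt.a] [Lt.ai, Lt.ai, Lt.b, Lt.a, Lt.b, Lt.ai, Lt.b, Lt.a, Lt.a, Lt.a, Lt.a, Lt.b] (pat hy (rf_21 hy) 2 rfl) h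
    · rcases brec_true h with h | h
      · exact mRel_good (T := T) hM0 [Lt.a, Lt.b, Lt.ci, Lt.b, Lt.c, Lt.b, Lt.c, Lt.a, Lt.a, Lt.b, Lt.ai, Lt.b, Lt.ai] [Lt.b] (pat hy (rf_7 hy) 7 rfl) h
      · exact mRel_good (T := T) hM0 [Lt.a, Lt.b, Lt.a, Lt.c, Lt.ai, Lt.ai, Lt.b, Lt.c] [Lt.b, Lt.ai, Lt.ai, Lt.c, Lt.ai, Lt.ai, Lt.b] (pat hy (rf_10 hy) 3 rfl) h
theorem dM_248_s (hy : Hy g H) (j z1 z2 u : ℕ) (h : dM_248 j z1 z2 u = true) : GdM g H u := by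
  unfold dM_248 at h
  rcases brec_true h with h | h
  · exact dM_246_s hy j z1 z2 u h
  · exact dM_247_s hy j z1 z2 u h
theorem dM_249_s (hy : Hy g H) (j z1 z2 u : ℕ) (h : dM_249 j z1 z2 u = true) : GdM g H u := by
  unfold dM_249 at h
  rcases brec_true h with h | h
  · exact dM_245_s hy j z1 z2 u h
  · exact dM_248_s hy j z1 z2 u h
theorem dM_250_s (hy : Hy g H) (j z1 z2 u : ℕ) (h : dM_250 j z1 z2 u = true) : GdM g H u := by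
  unfold dM_250 at h
  rcases brec_true h with h | h
  · rcases brec_true h with h | h
    · exact mRel_good (T := T) hM0 [Lt.a, Lt.a, Lt.b, Lt.a, Lt.b] [Lt.c, Lt.ai, Lt.ai, Lt.b, Lt.ci, Lt.b, Lt.a, Lt.a, Lt.ci, Lt.ai] (pat hy (rf_10 hy) 0 rfl) h
    · rcases brec_true h with h | h
      · exact mRel_good (T := T) hM0 [Lt.b, Lt.a, Lt.a, Lt.a, Lt.ci, Lt.b, Lt.a, Lt.ci, Lt.b, Lt.c] [Lt.a, Lt.a, Lt.a, Lt.ci, Lt.b, Lt.a] (pat hy (rf_13 hy) 15 rfl) h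
      · exact mRel_good (T := T) hM0 [Lt.a, Lt.b, Lt.ai, Lt.b, Lt.ai, Lt.ai, Lt.ai, Lt.ai, Lt.b, Lt.ai, Lt.ci, Lt.b, Lt.c, Lt.b, Lt.c] [] (pat hy (rb_8 hy) 7 rfl) h
  · rcases brec_true h with h | h
    · exact mRel_good (T := T) hM0 [Lt.ai, Lt.ai, Lt.ai, Lt.b, Lt.a, Lt.a, Lt.ci, Lt.b, Lt.c, Lt.c, Lt.b] [Lt.a, Lt.a, Lt.a, Lt.a, Lt.a, Lt.ci] (pat hy (rb_18 hy) 14 rfl) h
    · rcases brec_true h with h | h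
      · exact mRel_good (T := T) hM0 [Lt.ai, Lt.b, Lt.ai, Lt.b, Lt.a, Lt.a, Lt.a, Lt.ci, Lt.b, Lt.ci, Lt.b] [Lt.b, Lt.ai, Lt.b, Lt.a, Lt.a, Lt.ci] (pat hy (rf_17 hy) 13 rfl) h
      · exact mRel_good (T := T) hM0 [Lt.ai, Lt.b, Lt.ai, Lt.ai, Lt.ai, Lt.ai, Lt.b, Lt.ai, Lt.ci] [Lt.b, Lt.ai, Lt.ci, Lt.b, Lt.ci, Lt.b] (pat hy (rb_8 hy) 9 rfl) h
theorem dM_251_s (hy : Hy g H) (j z1 z2 u : ℕ) (h : dM_251 j z1 z2 u = true) : GdM g H u := by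
  unfold dM_251 at h
  rcases brec_true h with h | h
  · rcases brec_true h with h | h
    · exact mRel_good (T := T) hM0 [Lt.ci, Lt.ai, Lt.d, Lt.a, Lt.c, Lt.d, Lt.ci, Lt.ai, Lt.d, Lt.a, Lt.c, Lt.d] [] (pat hy (rf_3 hy) 3 rfl) h
    · rcases brec_true h with h | h
      · exact mRel_good (T := T) hM0 [Lt.b, Lt.c, Lt.a, Lt.b, Lt.ai, Lt.b, Lt.ai, Lt.ai, Lt.ai, Lt.ai, Lt.b] [Lt.ci, Lt.b, Lt.c, Lt.a] (pat hy (rb_8 hy) 5 rfl) h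
      · exact mRel_good (T := T) hM0 [Lt.a, Lt.b, Lt.ai, Lt.b, Lt.ai, Lt.b, Lt.a, Lt.b] [Lt.ai, Lt.ci, Lt.b, Lt.ci, Lt.b, Lt.c] (pat hy (rf_7 hy) 1 rfl) h
  · rcases brec_true h with h | h
    · rcases brec_true h with h | h
      · exact mRel_good (T := T) hM0 [Lt.ai, Lt.ci, Lt.b, Lt.ci, Lt.b, Lt.c, Lt.a, Lt.b, Lt.a, Lt.a, Lt.a] [Lt.b, Lt.ai, Lt.b, Lt.ai] (pat hy (rf_8 hy) 7 rfl) h
      · exact mRel_good (T := T) hM0 [Lt.c, Lt.c, Lt.c, Lt.c, Lt.c, Lt.c] [Lt.ci, Lt.ci, Lt.ci, Lt.ci, Lt.ci, Lt.ci, Lt.ci, Lt.ci, Lt.ci, Lt.ci, Lt.ci] (pat hy (rf_16 hy) 0 rfl) h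
    · rcases brec_true h with h | h
      · exact mRel_good (T := T) hM0 [Lt.ai, Lt.b, Lt.a, Lt.a, Lt.b, Lt.a, Lt.b, Lt.ai, Lt.b, Lt.ci, Lt.ci, Lt.b, Lt.c, Lt.c, Lt.b] [] (pat hy (rf_9 hy) 13 rfl) h
      · exact mRel_good (T := T) hM0 [Lt.b, Lt.a, Lt.b, Lt.ci] [Lt.a, Lt.a, Lt.b, Lt.a, Lt.b, Lt.ai, Lt.b, Lt.ci, Lt.ci, Lt.b, Lt.c] (pat hy (rb_9 hy) 0 rfl) h
theorem dM_252_s (hy : Hy g H) (j z1 z2 u : ℕ) (h : dM_252 j z1 z2 u = true) : GdM g H u := by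
  unfold dM_252 at h
  rcases brec_true h with h | h
  · exact dM_250_s hy j z1 z2 u h
  · exact dM_251_s hy j z1 z2 u h
theorem dM_253_s (hy : Hy g H) (j z1 z2 u : ℕ) (h : dM_253 j z1 z2 u = true) : GdM g H u := by
  unfold dM_253 at h
  rcases brec_true h with h | h
  · rcases brec_true h with h | h
    · exact mRel_good (T := T) hM0 [Lt.b, Lt.ai, Lt.b, Lt.ai, Lt.ai, Lt.b, Lt.a, Lt.a, Lt.b, Lt.ai, Lt.b, Lt.ai, Lt.ai, Lt.b] [Lt.ai, Lt.ai] (pat hy (rb_14 hy) 3 rfl) h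
    · rcases brec_true h with h | h
      · exact mRel_good (T := T) hM0 [Lt.ai, Lt.b, Lt.a, Lt.a, Lt.b, Lt.a] [Lt.b, Lt.ci, Lt.ci, Lt.b, Lt.c, Lt.c, Lt.b, Lt.a, Lt.b] (pat hy (rf_9 hy) 13 rfl) h
      · exact mRel_good (T := T) hM0 [Lt.a, Lt.b, Lt.ai, Lt.b, Lt.ci, Lt.ci, Lt.b, Lt.c, Lt.c, Lt.b, Lt.ai, Lt.b, Lt.a] [Lt.b, Lt.ai] (pat hy (rf_9 hy) 3 rfl) h
  · rcases brec_true h with h | h
    · rcases brec_true h with h | h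
      · exact mRel_good (T := T) hM0 [Lt.b, Lt.ai, Lt.b, Lt.ai, Lt.ai, Lt.b, Lt.a, Lt.b, Lt.ci, Lt.ci, Lt.b, Lt.c] [Lt.ai, Lt.b, Lt.ci] (pat hy (rb_9 hy) 10 rfl) h
      · exact mRel_good (T := T) hM0 [Lt.b, Lt.ai, Lt.b, Lt.ci, Lt.ci, Lt.b, Lt.c, Lt.c, Lt.b, Lt.ai] [Lt.ai, Lt.b, Lt.ai, Lt.ai, Lt.b] (pat hy (rf_9 hy) 4 rfl) h
    · rcases brec_true h with h | h
      · exact mRel_good (T := T) hM0 [Lt.b, Lt.c, Lt.c, Lt.b, Lt.ai, Lt.b, Lt.a] [Lt.c, Lt.c, Lt.b, Lt.a, Lt.b, Lt.ai, Lt.b, Lt.ai] (pat hy (rf_9 hy) 9 rfl) h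
      · exact mRel_good (T := T) hM0 [Lt.b] [Lt.c, Lt.b, Lt.ai, Lt.b, Lt.a, Lt.b, Lt.a, Lt.b, Lt.ai, Lt.ai, Lt.ci, Lt.b, Lt.ci] (pat hy (rf_7 hy) 10 rfl) h
theorem dM_254_s (hy : Hy g H) (j z1 z2 u : ℕ) (h : dM_254 j z1 z2 u = true) : GdM g H u := by
  unfold dM_254 at h
  rcases brec_true h with h | h
  · rcases brec_true h with h | h
    · exact mRel_good (T := T) hM0 [Lt.c, Lt.b, Lt.ai, Lt.b, Lt.a, Lt.b, Lt.a, Lt.b, Lt.ai, Lt.ai, Lt.ci, Lt.b, Lt.ci] [Lt.b] (pat hy (rb_7 hy) 4 rfl) h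
    · rcases brec_true h with h | h
      · exact mRel_good (T := T) hM0 [Lt.c, Lt.ai, Lt.ai, Lt.b] [Lt.ai, Lt.b, Lt.ai, Lt.b, Lt.ai, Lt.ai, Lt.c, Lt.ai, Lt.ai, Lt.b, Lt.ci] (pat hy (rf_10 hy) 6 rfl) h
      · exact mRel_good (T := T) hM0 [Lt.a, Lt.a, Lt.b, Lt.ai, Lt.c, Lt.a, Lt.ci, Lt.d, Lt.a, Lt.a, Lt.d, Lt.b, Lt.d, Lt.ai, Lt.ai, Lt.d] [Lt.ci] (pat hy (rf_15 hy) 10 rfl) h
  · rcases brec_true h with h | h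
    · rcases brec_true h with h | h
      · exact mRel_good (T := T) hM0 [Lt.ai, Lt.b, Lt.c, Lt.ai, Lt.ai, Lt.ai, Lt.b, Lt.a, Lt.a, Lt.a] [Lt.ci, Lt.b, Lt.c, Lt.ai, Lt.b, Lt.c] (pat hy (rf_13 hy) 9 rfl) h
      · exact mRel_good (T := T) hM0 [Lt.b, Lt.ci, Lt.b, Lt.c, Lt.a, Lt.b, Lt.a] [Lt.c, Lt.a, Lt.b, Lt.ai, Lt.b, Lt.ai, Lt.ai, Lt.ai] (pat hy (rf_8 hy) 9 rfl) h
    · rcases brec_true h with h | h
      · exact mRel_good (T := T) hM0 [Lt.b, Lt.a, Lt.b, Lt.c, Lt.c, Lt.a] [Lt.a, Lt.b, Lt.a, Lt.a, Lt.b, Lt.ai, Lt.c, Lt.c, Lt.a, Lt.ci] (pat hy (rb_12 hy) 2 rfl) h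
      · exact mRel_good (T := T) hM0 [Lt.a, Lt.a, Lt.a, Lt.b, Lt.a, Lt.b] [Lt.ai, Lt.b, Lt.ai, Lt.ci, Lt.b, Lt.c, Lt.b, Lt.c, Lt.a] (pat hy (rf_8 hy) 1 rfl) h
theorem dM_255_s (hy : Hy g H) (j z1 z2 u : ℕ) (h : dM_255 j z1 z2 u = true) : GdM g H u := by
  unfold dM_255 at h
  rcases brec_true h with h | h
  · exact dM_253_s hy j z1 z2 u h
  · exact dM_254_s hy j z1 z2 u h
theorem dM_256_s (hy : Hy g H) (j z1 z2 u : ℕ) (h : dM_256 j z1 z2 u = true) : GdM g H u := by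
  unfold dM_256 at h
  rcases brec_true h with h | h
  · exact dM_252_s hy j z1 z2 u h
  · exact dM_255_s hy j z1 z2 u h
theorem dM_257_s (hy : Hy g H) (j z1 z2 u : ℕ) (h : dM_257 j z1 z2 u = true) : GdM g H u := by
  unfold dM_257 at h
  rcases brec_true h with h | h
  · exact dM_249_s hy j z1 z2 u h
  · exact dM_256_s hy j z1 z2 u h
theorem dM_258_s (hy : Hy g H) (j z1 z2 u : ℕ) (h : dM_258 j z1 z2 u = true) : GdM g H u := by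
  unfold dM_258 at h
  rcases brec_true h with h | h
  · exact dM_242_s hy j z1 z2 u h
  · exact dM_257_s hy j z1 z2 u h
theorem dM_259_s (hy : Hy g H) (j z1 z2 u : ℕ) (h : dM_259 j z1 z2 u = true) : GdM g H u := by
  unfold dM_259 at h
  rcases brec_true h with h | h
  · exact dM_227_s hy j z1 z2 u h
  · exact dM_258_s hy j z1 z2 u h
theorem dM_260_s (hy : Hy g H) (j z1 z2 u : ℕ) (h : dM_260 j z1 z2 u = true) : GdM g H u := by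
  unfold dM_260 at h
  rcases brec_true h with h | h
  · rcases brec_true h with h | h
    · exact mRel_good (T := T) hM0 [Lt.a, Lt.c, Lt.ai, Lt.ai, Lt.b, Lt.c, Lt.b, Lt.a, Lt.a] [Lt.b, Lt.ai, Lt.b, Lt.ai, Lt.ai, Lt.c] (pat hy (rf_10 hy) 5 rfl) h
    · rcases brec_true h with h | h
      · exact mRel_good (T := T) hM0 [Lt.ci, Lt.b, Lt.c] [Lt.b, Lt.c, Lt.a, Lt.a, Lt.b, Lt.ai, Lt.b, Lt.ai, Lt.b, Lt.a, Lt.b] (pat hy (rb_7 hy) 2 rfl) h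
      · exact mRel_good (T := T) hM0 [Lt.b, Lt.ai, Lt.ai, Lt.ai, Lt.ai, Lt.b, Lt.ai] [Lt.a, Lt.b, Lt.ai, Lt.ci, Lt.b, Lt.ci, Lt.b, Lt.c] (pat hy (rb_8 hy) 10 rfl) h
  · rcases brec_true h with h | h
    · exact mRel_good (T := T) hM0 [Lt.ai, Lt.ci, Lt.b, Lt.ci, Lt.b, Lt.c, Lt.a, Lt.b, Lt.a, Lt.a] [Lt.b, Lt.ai, Lt.b, Lt.ai, Lt.ai] (pat hy (rf_8 hy) 7 rfl) h
    · rcases brec_true h with h | h
      · exact mRel_good (T := T) hM0 [Lt.a, Lt.b, Lt.a, Lt.b, Lt.a, Lt.c, Lt.ai, Lt.ai] [Lt.ai, Lt.c, Lt.ai, Lt.ai, Lt.b, Lt.ci, Lt.b] (pat hy (rf_10 hy) 1 rfl) h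
      · exact mRel_good (T := T) hM0 [Lt.ai, Lt.b, Lt.a, Lt.a, Lt.a, Lt.a, Lt.a, Lt.a, Lt.a, Lt.a, Lt.ci, Lt.b, Lt.ci] [Lt.a, Lt.ci, Lt.b, Lt.c] (pat hy (rf_18 hy) 15 rfl) h
theorem dM_261_s (hy : Hy g H) (j z1 z2 u : ℕ) (h : dM_261 j z1 z2 u = true) : GdM g H u := by
  unfold dM_261 at h
  rcases brec_true h with h | h
  · rcases brec_true h with h | h
    · exact mRel_good (T := T) hM0 [Lt.d, Lt.a, Lt.ci, Lt.b, Lt.c, Lt.ai, Lt.d, Lt.ci, Lt.a] [Lt.c, Lt.a, Lt.ci, Lt.b, Lt.c] (pat hy (rb_6 hy) 7 rfl) h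
    · rcases brec_true h with h | h
      · exact mRel_good (T := T) hM0 [Lt.b, Lt.a, Lt.b, Lt.ai, Lt.b, Lt.ci, Lt.ci, Lt.b, Lt.c, Lt.c, Lt.b] [Lt.ai, Lt.ai, Lt.b, Lt.a] (pat hy (rf_9 hy) 2 rfl) h
      · exact mRel_good (T := T) hM0 [Lt.ai, Lt.ai, Lt.ai, Lt.b, Lt.ai, Lt.ci, Lt.b, Lt.c] [Lt.a, Lt.b, Lt.a, Lt.b, Lt.ai, Lt.ci, Lt.b] (pat hy (rb_8 hy) 12 rfl) h
  · rcases brec_true h with h | h
    · rcases brec_true h with h | h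
      · exact mRel_good (T := T) hM0 [Lt.a, Lt.ci, Lt.a, Lt.a, Lt.b, Lt.a, Lt.b, Lt.a, Lt.c] [Lt.ai, Lt.b, Lt.ci, Lt.b, Lt.a, Lt.a] (pat hy (rf_10 hy) 13 rfl) h
      · exact mRel_good (T := T) hM0 [Lt.ai, Lt.ai, Lt.b] [Lt.b, Lt.a, Lt.b, Lt.ai, Lt.b, Lt.ci, Lt.ci, Lt.b, Lt.c, Lt.c, Lt.b, Lt.ai] (pat hy (rb_9 hy) 13 rfl) h
    · rcases brec_true h with h | h
      · exact mRel_good (T := T) hM0 [Lt.ai, Lt.ai, Lt.b, Lt.c, Lt.b, Lt.a] [Lt.ci, Lt.ai, Lt.b, Lt.ai, Lt.b, Lt.ai, Lt.ai, Lt.c, Lt.ai] (pat hy (rf_10 hy) 7 rfl) h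
      · exact mRel_good (T := T) hM0 [Lt.ci, Lt.b, Lt.c, Lt.b, Lt.c, Lt.ai] [Lt.ai, Lt.ai, Lt.b, Lt.a, Lt.b, Lt.ai, Lt.b, Lt.ai, Lt.b, Lt.a, Lt.a] (pat hy (rb_17 hy) 9 rfl) h
theorem dM_262_s (hy : Hy g H) (j z1 z2 u : ℕ) (h : dM_262 j z1 z2 u = true) : GdM g H u := by
  unfold dM_262 at h
  rcases brec_true h with h | h
  · exact dM_260_s hy j z1 z2 u h
  · exact dM_261_s hy j z1 z2 u h
theorem dM_263_s (hy : Hy g H) (j z1 z2 u : ℕ) (h : dM_263 j z1 z2 u = true) : GdM g H u := by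
  unfold dM_263 at h
  rcases brec_true h with h | h
  · rcases brec_true h with h | h
    · exact mRel_good (T := T) hM0 [Lt.a, Lt.ci, Lt.b, Lt.c, Lt.ai, Lt.ci, Lt.d, Lt.a, Lt.ci, Lt.b, Lt.c] [Lt.c, Lt.d, Lt.a] (pat hy (rb_6 hy) 1 rfl) h
    · rcases brec_true h with h | h
      · exact mRel_good (T := T) hM0 [Lt.a, Lt.a, Lt.ci] [Lt.ai, Lt.b, Lt.a, Lt.b, Lt.a, Lt.b, Lt.ai, Lt.b, Lt.a, Lt.a, Lt.ci, Lt.b, Lt.c, Lt.b] (pat hy (rf_17 hy) 1 rfl) h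
      · exact mRel_good (T := T) hM0 [Lt.ci, Lt.ci, Lt.b, Lt.c, Lt.c] [Lt.b, Lt.a, Lt.b, Lt.ai, Lt.b, Lt.ai, Lt.ai, Lt.b, Lt.a, Lt.b] (pat hy (rf_9 hy) 7 rfl) h
  · rcases brec_true h with h | h
    · exact mRel_good (T := T) hM0 [Lt.ai, Lt.ci, Lt.b] [Lt.b, Lt.ai, Lt.b, Lt.ai, Lt.ai, Lt.ai, Lt.ai, Lt.b, Lt.ai, Lt.ci, Lt.b, Lt.c] (pat hy (rf_8 hy) 7 rfl) h
    · rcases brec_true h with h | h
      · exact mRel_good (T := T) hM0 [Lt.b, Lt.c, Lt.a, Lt.b, Lt.a, Lt.a, Lt.a, Lt.a, Lt.b, Lt.a, Lt.b, Lt.ai, Lt.ci, Lt.b, Lt.ci] [] (pat hy (rf_8 hy) 11 rfl) h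
      · exact mRel_good (T := T) hM0 [Lt.b, Lt.a, Lt.a, Lt.b, Lt.ai, Lt.c, Lt.c, Lt.a, Lt.ci] [Lt.ai, Lt.b, Lt.a, Lt.b, Lt.c, Lt.c, Lt.a] (pat hy (rf_12 hy) 15 rfl) h
theorem dM_264_s (hy : Hy g H) (j z1 z2 u : ℕ) (h : dM_264 j z1 z2 u = true) : GdM g H u := by
  unfold dM_264 at h
  rcases brec_true h with h | h
  · rcases brec_true h with h | h
    · exact mRel_good (T := T) hM0 [Lt.a, Lt.ci, Lt.b, Lt.c, Lt.ai, Lt.b] [Lt.b, Lt.c, Lt.ai, Lt.ai, Lt.ai, Lt.b, Lt.a, Lt.a, Lt.a, Lt.ci] (pat hy (rf_13 hy) 5 rfl) h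
    · rcases brec_true h with h | h
      · exact mRel_good (T := T) hM0 [Lt.ai, Lt.ai, Lt.ai, Lt.ai, Lt.b, Lt.a, Lt.a, Lt.ci, Lt.b, Lt.c, Lt.c, Lt.b, Lt.c] [Lt.a, Lt.a, Lt.a, Lt.a] (pat hy (rb_18 hy) 13 rfl) h
      · exact mRel_good (T := T) hM0 [Lt.b, Lt.c, Lt.a, Lt.b, Lt.ai, Lt.b, Lt.ai, Lt.ai, Lt.ai, Lt.ai, Lt.b, Lt.ai, Lt.ci, Lt.b, Lt.c] [] (pat hy (rb_8 hy) 5 rfl) h
  · rcases brec_true h with h | h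
    · rcases brec_true h with h | h
      · exact mRel_good (T := T) hM0 [Lt.a, Lt.c, Lt.a, Lt.ci, Lt.b, Lt.c, Lt.ai, Lt.ci, Lt.ai, Lt.d, Lt.ci] [Lt.d, Lt.ci, Lt.ci, Lt.b, Lt.c] (pat hy (rf_11 hy) 7 rfl) h
      · exact mRel_good (T := T) hM0 [Lt.ai, Lt.ai, Lt.b, Lt.c, Lt.b, Lt.a, Lt.a] [Lt.ci, Lt.ai, Lt.b, Lt.ai, Lt.b, Lt.ai, Lt.ai, Lt.c] (pat hy (rf_10 hy) 7 rfl) h
    · rcases brec_true h with h | h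
      · exact mRel_good (T := T) hM0 [Lt.a, Lt.a, Lt.a, Lt.a, Lt.a, Lt.a, Lt.ci, Lt.b, Lt.ci] [Lt.ai, Lt.ai, Lt.b, Lt.a, Lt.a, Lt.ci, Lt.b, Lt.c] (pat hy (rf_18 hy) 2 rfl) h
      · exact mRel_good (T := T) hM0 [Lt.d, Lt.ci, Lt.a, Lt.ci, Lt.b, Lt.c, Lt.ai, Lt.ci] [Lt.a, Lt.ci, Lt.b, Lt.c, Lt.ai, Lt.d] (pat hy (rb_6 hy) 13 rfl) h
theorem dM_265_s (hy : Hy g H) (j z1 z2 u : ℕ) (h : dM_265 j z1 z2 u = true) : GdM g H u := by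
  unfold dM_265 at h
  rcases brec_true h with h | h
  · exact dM_263_s hy j z1 z2 u h
  · exact dM_264_s hy j z1 z2 u h
theorem dM_266_s (hy : Hy g H) (j z1 z2 u : ℕ) (h : dM_266 j z1 z2 u = true) : GdM g H u := by
  unfold dM_266 at h
  rcases brec_true h with h | h
  · exact dM_262_s hy j z1 z2 u h
  · exact dM_265_s hy j z1 z2 u h
theorem dM_267_s (hy : Hy g H) (j z1 z2 u : ℕ) (h : dM_267 j z1 z2 u = true) : GdM g H u := by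
  unfold dM_267 at h
  rcases brec_true h with h | h
  · rcases brec_true h with h | h
    · exact mRel_good (T := T) hM0 [Lt.c, Lt.ai, Lt.c, Lt.c, Lt.d, Lt.ci, Lt.ci, Lt.a] [Lt.b, Lt.d, Lt.b, Lt.c] (pat hy (rf_4 hy) 1 rfl) h
    · rcases brec_true h with h | h
      · exact mRel_good (T := T) hM0 [Lt.a, Lt.b, Lt.ai, Lt.b, Lt.ai, Lt.ai, Lt.b, Lt.a, Lt.a, Lt.b, Lt.ai, Lt.b] [Lt.ai, Lt.b, Lt.a, Lt.a] (pat hy (rb_14 hy) 2 rfl) h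
      · exact mRel_good (T := T) hM0 [Lt.b, Lt.a, Lt.b] [Lt.a, Lt.a, Lt.ci, Lt.b, Lt.c, Lt.b, Lt.c, Lt.ai, Lt.ai, Lt.ai, Lt.b, Lt.a, Lt.b, Lt.a] (pat hy (rf_17 hy) 10 rfl) h
  · rcases brec_true h with h | h
    · exact mRel_good (T := T) hM0 [Lt.ci, Lt.b, Lt.c] [Lt.c, Lt.b, Lt.a, Lt.b, Lt.ai, Lt.b, Lt.ai, Lt.ai, Lt.b, Lt.a, Lt.b, Lt.ci] (pat hy (rf_9 hy) 8 rfl) h
    · rcases brec_true h with h | h
      · exact mRel_good (T := T) hM0 [Lt.ai, Lt.d, Lt.ci, Lt.a, Lt.ci, Lt.b, Lt.c, Lt.ai, Lt.ci, Lt.d, Lt.a] [Lt.ci, Lt.b, Lt.c] (pat hy (rb_6 hy) 12 rfl) h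
      · exact mRel_good (T := T) hM0 [Lt.b, Lt.c, Lt.ai, Lt.ai, Lt.ai, Lt.ai, Lt.ai, Lt.ai, Lt.ai] [Lt.ci, Lt.ci, Lt.b, Lt.c, Lt.ai, Lt.ai, Lt.b, Lt.a] (pat hy (rb_18 hy) 7 rfl) h
theorem dM_268_s (hy : Hy g H) (j z1 z2 u : ℕ) (h : dM_268 j z1 z2 u = true) : GdM g H u := by
  unfold dM_268 at h
  rcases brec_true h with h | h
  · rcases brec_true h with h | h
    · exact mRel_good (T := T) hM0 [Lt.b, Lt.ai, Lt.b, Lt.ai, Lt.ai, Lt.c, Lt.ai, Lt.ai, Lt.b, Lt.ci, Lt.b, Lt.a, Lt.a] [Lt.a, Lt.c] (pat hy (rb_10 hy) 10 rfl) h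
    · rcases brec_true h with h | h
      · exact mRel_good (T := T) hM0 [Lt.ai, Lt.ai, Lt.ai, Lt.b, Lt.ai, Lt.ci, Lt.b, Lt.c, Lt.b, Lt.c, Lt.a] [Lt.a, Lt.b, Lt.a, Lt.b] (pat hy (rb_8 hy) 12 rfl) h
      · exact mRel_good (T := T) hM0 [Lt.c, Lt.b, Lt.a, Lt.b, Lt.ai, Lt.b, Lt.ai, Lt.ai, Lt.b, Lt.a, Lt.b, Lt.ci] [Lt.ci, Lt.b, Lt.c] (pat hy (rb_9 hy) 7 rfl) h
  · rcases brec_true h with h | h
    · rcases brec_true h with h | h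
      · exact mRel_good (T := T) hM0 [Lt.a, Lt.ci, Lt.ai, Lt.ci] [Lt.ci, Lt.ci, Lt.a, Lt.b, Lt.ai, Lt.ai, Lt.b, Lt.ai, Lt.b, Lt.a, Lt.b, Lt.c] (pat hy (rf_12 hy) 6 rfl) h
      · exact mRel_good (T := T) hM0 [Lt.b, Lt.ai, Lt.ai, Lt.ci, Lt.b, Lt.ci, Lt.b, Lt.c, Lt.b, Lt.ai] [Lt.ai, Lt.b, Lt.ai, Lt.b] (pat hy (rb_7 hy) 11 rfl) h
    · rcases brec_true h with h | h
      · exact mRel_good (T := T) hM0 [Lt.ai, Lt.d, Lt.ci, Lt.a, Lt.ci] [Lt.ci, Lt.b, Lt.c, Lt.ai, Lt.d, Lt.c, Lt.a, Lt.ci, Lt.b] (pat hy (rb_6 hy) 12 rfl) h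
      · exact mRel_good (T := T) hM0 [Lt.ci, Lt.d, Lt.a, Lt.ci, Lt.b, Lt.c, Lt.ai, Lt.d, Lt.ci, Lt.a, Lt.ci, Lt.b, Lt.c] [Lt.a] (pat hy (rb_6 hy) 6 rfl) h
theorem dM_269_s (hy : Hy g H) (j z1 z2 u : ℕ) (h : dM_269 j z1 z2 u = true) : GdM g H u := by
  unfold dM_269 at h
  rcases brec_true h with h | h
  · exact dM_267_s hy j z1 z2 u h
  · exact dM_268_s hy j z1 z2 u h
theorem dM_270_s (hy : Hy g H) (j z1 z2 u : ℕ) (h : dM_270 j z1 z2 u = true) : GdM g H u := by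
  unfold dM_270 at h
  rcases brec_true h with h | h
  · rcases brec_true h with h | h
    · exact mRel_good (T := T) hM0 [Lt.ai, Lt.c, Lt.a, Lt.ci, Lt.d, Lt.a, Lt.a] [Lt.b, Lt.ai, Lt.ai, Lt.ci, Lt.d, Lt.a, Lt.a, Lt.d, Lt.b, Lt.d] (pat hy (rf_15 hy) 13 rfl) h
    · rcases brec_true h with h | h
      · exact mRel_good (T := T) hM0 [Lt.ai, Lt.c, Lt.a, Lt.ci, Lt.d, Lt.a, Lt.a, Lt.d, Lt.b, Lt.d, Lt.ai, Lt.ai] [Lt.b, Lt.ai, Lt.ai, Lt.ci, Lt.d] (pat hy (rf_15 hy) 13 rfl) h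
      · exact mRel_good (T := T) hM0 [Lt.ci, Lt.b, Lt.d, Lt.b] [Lt.ai, Lt.c, Lt.c, Lt.d, Lt.ci, Lt.ci, Lt.a, Lt.ci] (pat hy (rf_4 hy) 9 rfl) h
  · rcases brec_true h with h | h
    · exact mRel_good (T := T) hM0 [Lt.a, Lt.b, Lt.ai, Lt.b, Lt.ai, Lt.ai, Lt.b, Lt.a, Lt.a, Lt.b, Lt.ai, Lt.b, Lt.ai, Lt.ai] [Lt.ai, Lt.b] (pat hy (rb_14 hy) 2 rfl) h
    · rcases brec_true h with h | h
      · exact mRel_good (T := T) hM0 [Lt.b, Lt.c, Lt.c, Lt.b, Lt.c, Lt.ai, Lt.ai, Lt.ai, Lt.ai, Lt.ai, Lt.ai, Lt.ai, Lt.ai, Lt.b, Lt.a] [Lt.c, Lt.ai] (pat hy (rb_18 hy) 4 rfl) h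
      · exact mRel_good (T := T) hM0 [Lt.ai, Lt.b, Lt.ci, Lt.b, Lt.a, Lt.a, Lt.ci, Lt.ai, Lt.b, Lt.ai, Lt.b, Lt.ai, Lt.ai, Lt.c] [Lt.a] (pat hy (rb_10 hy) 2 rfl) h
theorem dM_271_s (hy : Hy g H) (j z1 z2 u : ℕ) (h : dM_271 j z1 z2 u = true) : GdM g H u := by
  unfold dM_271 at h
  rcases brec_true h with h | h
  · rcases brec_true h with h | h
    · exact mRel_good (T := T) hM0 [Lt.a, Lt.a] [Lt.b, Lt.ci, Lt.b, Lt.a, Lt.a, Lt.ci, Lt.ai, Lt.b, Lt.ai, Lt.b, Lt.ai, Lt.ai, Lt.c] (pat hy (rf_10 hy) 12 rfl) h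
    · rcases brec_true h with h | h
      · exact mRel_good (T := T) hM0 [Lt.ai, Lt.b, Lt.ai, Lt.ci, Lt.b, Lt.c] [Lt.a, Lt.a, Lt.a, Lt.b, Lt.a, Lt.b, Lt.ai, Lt.ci, Lt.b] (pat hy (rb_8 hy) 14 rfl) h
      · exact mRel_good (T := T) hM0 [Lt.a, Lt.a, Lt.a] [Lt.ai, Lt.b, Lt.a, Lt.b, Lt.ai, Lt.b, Lt.a, Lt.a, Lt.a, Lt.a, Lt.b, Lt.ai, Lt.b, Lt.a, Lt.b] (pat hy (rf_21 hy) 1 rfl) h
  · rcases brec_true h with h | h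
    · rcases brec_true h with h | h
      · exact mRel_good (T := T) hM0 [Lt.ai, Lt.ai, Lt.ci, Lt.b, Lt.ci, Lt.b, Lt.c, Lt.b, Lt.ai, Lt.b, Lt.a] [Lt.b, Lt.ai, Lt.b] (pat hy (rb_7 hy) 12 rfl) h
      · exact mRel_good (T := T) hM0 [Lt.ci, Lt.b, Lt.c, Lt.b, Lt.ai, Lt.b, Lt.a, Lt.b] [Lt.b, Lt.c, Lt.a, Lt.a, Lt.b, Lt.ai] (pat hy (rb_7 hy) 2 rfl) h
    · rcases brec_true h with h | h
      · exact mRel_good (T := T) hM0 [Lt.a, Lt.a, Lt.a, Lt.ci, Lt.b] [Lt.ai, Lt.ai, Lt.ai, Lt.ai, Lt.ai, Lt.b, Lt.a, Lt.a, Lt.ci, Lt.b, Lt.c, Lt.c] (pat hy (rf_18 hy) 5 rfl) h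
      · exact mRel_good (T := T) hM0 [Lt.c, Lt.c, Lt.b, Lt.ai, Lt.b, Lt.a, Lt.a, Lt.b, Lt.a, Lt.b, Lt.ai, Lt.b] [Lt.b, Lt.c, Lt.c] (pat hy (rf_9 hy) 10 rfl) h
theorem dM_272_s (hy : Hy g H) (j z1 z2 u : ℕ) (h : dM_272 j z1 z2 u = true) : GdM g H u := by
  unfold dM_272 at h
  rcases brec_true h with h | h
  · exact dM_270_s hy j z1 z2 u h
  · exact dM_271_s hy j z1 z2 u h
theorem dM_273_s (hy : Hy g H) (j z1 z2 u : ℕ) (h : dM_273 j z1 z2 u = true) : GdM g H u := by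
  unfold dM_273 at h
  rcases brec_true h with h | h
  · exact dM_269_s hy j z1 z2 u h
  · exact dM_272_s hy j z1 z2 u h
theorem dM_274_s (hy : Hy g H) (j z1 z2 u : ℕ) (h : dM_274 j z1 z2 u = true) : GdM g H u := by
  unfold dM_274 at h
  rcases brec_true h with h | h
  · exact dM_266_s hy j z1 z2 u h
  · exact dM_273_s hy j z1 z2 u h
theorem dM_275_s (hy : Hy g H) (j z1 z2 u : ℕ) (h : dM_275 j z1 z2 u = true) : GdM g H u := by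
  unfold dM_275 at h
  rcases brec_true h with h | h
  · rcases brec_true h with h | h
    · exact mRel_good (T := T) hM0 [Lt.b, Lt.a, Lt.b, Lt.ai, Lt.ai, Lt.b, Lt.a, Lt.a, Lt.b, Lt.a, Lt.b] [Lt.ai, Lt.ai, Lt.b, Lt.a, Lt.a] (pat hy (rf_14 hy) 2 rfl) h
    · rcases brec_true h with h | h
      · exact mRel_good (T := T) hM0 [Lt.b, Lt.c, Lt.ai, Lt.ai, Lt.ai, Lt.b, Lt.a, Lt.b, Lt.a, Lt.b, Lt.ai, Lt.b, Lt.a] [Lt.ci, Lt.b, Lt.c, Lt.ai] (pat hy (rb_17 hy) 12 rfl) h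
      · exact mRel_good (T := T) hM0 [Lt.ai, Lt.ci, Lt.b, Lt.ci, Lt.b, Lt.c] [Lt.b, Lt.ai, Lt.b, Lt.ai, Lt.ai, Lt.ai, Lt.ai, Lt.b, Lt.ai] (pat hy (rf_8 hy) 7 rfl) h
  · rcases brec_true h with h | h
    · exact mRel_good (T := T) hM0 [Lt.a, Lt.a, Lt.b, Lt.ai, Lt.b, Lt.ai, Lt.ai, Lt.b, Lt.a, Lt.a, Lt.b, Lt.ai] [Lt.b, Lt.a, Lt.a, Lt.b] (pat hy (rb_14 hy) 1 rfl) h
    · rcases brec_true h with h | h
      · exact mRel_good (T := T) hM0 [Lt.c, Lt.a, Lt.b, Lt.ai, Lt.b, Lt.ai, Lt.ai, Lt.ai] [Lt.b, Lt.ci, Lt.b, Lt.c, Lt.a, Lt.b, Lt.a] (pat hy (rb_8 hy) 6 rfl) h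
      · exact mRel_good (T := T) hM0 [Lt.b, Lt.ai, Lt.b, Lt.ai, Lt.b, Lt.a, Lt.b, Lt.ci, Lt.b, Lt.c, Lt.b] [Lt.ai, Lt.ai, Lt.ci] (pat hy (rf_7 hy) 2 rfl) h
theorem dM_276_s (hy : Hy g H) (j z1 z2 u : ℕ) (h : dM_276 j z1 z2 u = true) : GdM g H u := by
  unfold dM_276 at h
  rcases brec_true h with h | h
  · rcases brec_true h with h | h
    · exact mRel_good (T := T) hM0 [Lt.ci, Lt.ci, Lt.b, Lt.c, Lt.c, Lt.b] [Lt.b, Lt.a, Lt.b, Lt.ai, Lt.b, Lt.ai, Lt.ai, Lt.b, Lt.a] (pat hy (rf_9 hy) 7 rfl) h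
    · rcases brec_true h with h | h
      · exact mRel_good (T := T) hM0 [Lt.ci, Lt.b, Lt.ci, Lt.b, Lt.c, Lt.ai, Lt.ai, Lt.b, Lt.a, Lt.b, Lt.ai, Lt.b, Lt.ai] [Lt.ai, Lt.ai, Lt.ai, Lt.b] (pat hy (rf_17 hy) 3 rfl) h
      · exact mRel_good (T := T) hM0 [Lt.a, Lt.ci, Lt.ai, Lt.b, Lt.ai, Lt.b, Lt.ai, Lt.ai, Lt.c, Lt.ai] [Lt.ai, Lt.b, Lt.c, Lt.b, Lt.a] (pat hy (rb_10 hy) 7 rfl) h
  · rcases brec_true h with h | h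
    · rcases brec_true h with h | h
      · exact mRel_good (T := T) hM0 [Lt.ci, Lt.b, Lt.c, Lt.c] [Lt.c, Lt.b, Lt.a, Lt.b, Lt.ai, Lt.b, Lt.ai, Lt.ai, Lt.b, Lt.a, Lt.b] (pat hy (rf_9 hy) 8 rfl) h
      · exact mRel_good (T := T) hM0 [Lt.b, Lt.ai, Lt.b, Lt.ai, Lt.ai, Lt.ai, Lt.ai, Lt.b, Lt.ai] [Lt.ai, Lt.ci, Lt.b, Lt.ci, Lt.b, Lt.c] (pat hy (rb_8 hy) 8 rfl) h
    · rcases brec_true h with h | h
      · exact mRel_good (T := T) hM0 [Lt.b, Lt.c, Lt.a, Lt.b, Lt.a, Lt.a, Lt.a, Lt.a] [Lt.c, Lt.b, Lt.c, Lt.a, Lt.b, Lt.ai, Lt.b] (pat hy (rf_8 hy) 11 rfl) h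
      · exact mRel_good (T := T) hM0 [Lt.a, Lt.a, Lt.ci, Lt.ai, Lt.b, Lt.ai, Lt.b, Lt.ai, Lt.ai, Lt.c, Lt.ai, Lt.ai, Lt.b, Lt.ci, Lt.b] [] (pat hy (rb_10 hy) 6 rfl) h
theorem dM_277_s (hy : Hy g H) (j z1 z2 u : ℕ) (h : dM_277 j z1 z2 u = true) : GdM g H u := by
  unfold dM_277 at h
  rcases brec_true h with h | h
  · exact dM_275_s hy j z1 z2 u h
  · exact dM_276_s hy j z1 z2 u h
theorem dM_278_s (hy : Hy g H) (j z1 z2 u : ℕ) (h : dM_278 j z1 z2 u = true) : GdM g H u := by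
  unfold dM_278 at h
  rcases brec_true h with h | h
  · rcases brec_true h with h | h
    · exact mRel_good (T := T) hM0 [Lt.b, Lt.d, Lt.b, Lt.d] [Lt.d, Lt.b, Lt.c, Lt.ai, Lt.ci, Lt.ai, Lt.ci, Lt.ci] (pat hy (rf_5 hy) 1 rfl) h
    · rcases brec_true h with h | h
      · exact mRel_good (T := T) hM0 [Lt.b, Lt.a, Lt.c, Lt.ai, Lt.ai] [Lt.ai, Lt.b, Lt.ai, Lt.ai, Lt.c, Lt.ai, Lt.ai, Lt.b, Lt.ci, Lt.b] (pat hy (rf_10 hy) 4 rfl) h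
      · exact mRel_good (T := T) hM0 [Lt.b, Lt.ai, Lt.b, Lt.ai, Lt.b, Lt.a, Lt.b, Lt.ci, Lt.b, Lt.c, Lt.b, Lt.c] [Lt.ai, Lt.ai] (pat hy (rf_7 hy) 2 rfl) h
  · rcases brec_true h with h | h
    · exact mRel_good (T := T) hM0 [Lt.c, Lt.a, Lt.ci, Lt.b, Lt.c, Lt.ai] [Lt.d, Lt.a, Lt.ci, Lt.b, Lt.c, Lt.ai, Lt.d, Lt.ci] (pat hy (rf_6 hy) 7 rfl) h
    · rcases brec_true h with h | h
      · exact mRel_good (T := T) hM0 [Lt.a, Lt.b, Lt.ai, Lt.ai, Lt.ci, Lt.d, Lt.a, Lt.a, Lt.d, Lt.b, Lt.d] [Lt.c, Lt.a, Lt.ci, Lt.d, Lt.a, Lt.a] (pat hy (rb_15 hy) 3 rfl) h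
      · exact mRel_good (T := T) hM0 [Lt.d, Lt.a, Lt.a, Lt.d, Lt.b, Lt.d] [Lt.c, Lt.ai, Lt.ci, Lt.a, Lt.b, Lt.ai, Lt.ai, Lt.ci, Lt.d, Lt.a, Lt.a] (pat hy (rf_15 hy) 0 rfl) h
theorem dM_279_s (hy : Hy g H) (j z1 z2 u : ℕ) (h : dM_279 j z1 z2 u = true) : GdM g H u := by
  unfold dM_279 at h
  rcases brec_true h with h | h
  · rcases brec_true h with h | h
    · exact mRel_good (T := T) hM0 [Lt.b, Lt.a, Lt.a, Lt.ci, Lt.a, Lt.a, Lt.b, Lt.a, Lt.b] [Lt.ci, Lt.b, Lt.a, Lt.a, Lt.ci, Lt.ai] (pat hy (rf_10 hy) 11 rfl) h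
    · rcases brec_true h with h | h
      · exact mRel_good (T := T) hM0 [Lt.b, Lt.d, Lt.b, Lt.c] [Lt.d, Lt.b, Lt.d, Lt.c, Lt.c, Lt.a, Lt.c, Lt.a] (pat hy (rb_5 hy) 10 rfl) h
      · exact mRel_good (T := T) hM0 [Lt.a, Lt.b, Lt.a, Lt.b, Lt.a, Lt.c, Lt.ai, Lt.ai, Lt.b, Lt.c, Lt.b, Lt.a, Lt.a] [Lt.ai, Lt.c] (pat hy (rf_10 hy) 1 rfl) h
  · rcases brec_true h with h | h
    · rcases brec_true h with h | h
      · exact mRel_good (T := T) hM0 [Lt.a, Lt.a] [Lt.b, Lt.a, Lt.b, Lt.ci, Lt.ci, Lt.b, Lt.c, Lt.c, Lt.b, Lt.a, Lt.b, Lt.ai, Lt.b] (pat hy (rf_9 hy) 0 rfl) h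
      · exact mRel_good (T := T) hM0 [Lt.ai, Lt.ai, Lt.b, Lt.ci, Lt.b, Lt.a, Lt.a, Lt.ci, Lt.ai, Lt.b, Lt.ai, Lt.b, Lt.ai, Lt.ai, Lt.c] [] (pat hy (rb_10 hy) 1 rfl) h
    · rcases brec_true h with h | h
      · exact mRel_good (T := T) hM0 [Lt.b, Lt.ai, Lt.ai, Lt.c, Lt.ai] [Lt.a, Lt.b, Lt.a, Lt.c, Lt.ai, Lt.ai, Lt.b, Lt.c, Lt.b, Lt.a] (pat hy (rb_10 hy) 12 rfl) h
      · exact mRel_good (T := T) hM0 [Lt.ai, Lt.ai, Lt.b, Lt.a, Lt.b, Lt.ci, Lt.ci, Lt.b, Lt.c, Lt.c] [Lt.b, Lt.a, Lt.b, Lt.ai, Lt.b] (pat hy (rb_9 hy) 13 rfl) h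
theorem dM_280_s (hy : Hy g H) (j z1 z2 u : ℕ) (h : dM_280 j z1 z2 u = true) : GdM g H u := by
  unfold dM_280 at h
  rcases brec_true h with h | h
  · exact dM_278_s hy j z1 z2 u h
  · exact dM_279_s hy j z1 z2 u h
theorem dM_281_s (hy : Hy g H) (j z1 z2 u : ℕ) (h : dM_281 j z1 z2 u = true) : GdM g H u := by
  unfold dM_281 at h
  rcases brec_true h with h | h
  · exact dM_277_s hy j z1 z2 u h
  · exact dM_280_s hy j z1 z2 u h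
theorem dM_282_s (hy : Hy g H) (j z1 z2 u : ℕ) (h : dM_282 j z1 z2 u = true) : GdM g H u := by
  unfold dM_282 at h
  rcases brec_true h with h | h
  · rcases brec_true h with h | h
    · exact mRel_good (T := T) hM0 [Lt.c, Lt.ai] [Lt.b, Lt.c, Lt.ai, Lt.d, Lt.c, Lt.a, Lt.ci, Lt.b, Lt.c, Lt.ai, Lt.c, Lt.d] (pat hy (rb_6 hy) 11 rfl) h
    · rcases brec_true h with h | h
      · exact mRel_good (T := T) hM0 [Lt.d, Lt.c, Lt.c, Lt.a, Lt.c, Lt.a, Lt.ci] [Lt.b, Lt.d, Lt.b, Lt.d, Lt.b] (pat hy (rf_5 hy) 4 rfl) h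
      · exact mRel_good (T := T) hM0 [Lt.ci, Lt.a, Lt.b, Lt.ai, Lt.ai, Lt.ci, Lt.d, Lt.a] [Lt.a, Lt.ci, Lt.d, Lt.a, Lt.a, Lt.d, Lt.b, Lt.d, Lt.ai] (pat hy (rb_15 hy) 2 rfl) h
  · rcases brec_true h with h | h
    · exact mRel_good (T := T) hM0 [Lt.c, Lt.ai, Lt.ci, Lt.d, Lt.a, Lt.ci] [Lt.b, Lt.c, Lt.ai, Lt.c, Lt.d, Lt.a, Lt.ci, Lt.b] (pat hy (rb_6 hy) 4 rfl) h
    · rcases brec_true h with h | h
      · exact mRel_good (T := T) hM0 [Lt.b, Lt.c, Lt.ai, Lt.c, Lt.c, Lt.d, Lt.ci, Lt.ci, Lt.a, Lt.ci] [Lt.d, Lt.b] (pat hy (rf_4 hy) 0 rfl) h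
      · exact mRel_good (T := T) hM0 [Lt.a, Lt.b, Lt.ai, Lt.b, Lt.ai, Lt.ai, Lt.b, Lt.a, Lt.b, Lt.ci, Lt.ci, Lt.b, Lt.c] [Lt.b, Lt.ci] (pat hy (rb_9 hy) 9 rfl) h
theorem dM_283_s (hy : Hy g H) (j z1 z2 u : ℕ) (h : dM_283 j z1 z2 u = true) : GdM g H u := by
  unfold dM_283 at h
  rcases brec_true h with h | h
  · rcases brec_true h with h | h
    · exact mRel_good (T := T) hM0 [Lt.ai, Lt.b, Lt.ai] [Lt.b, Lt.ai, Lt.ai, Lt.ci, Lt.b, Lt.ci, Lt.b, Lt.c, Lt.b, Lt.ai, Lt.b] (pat hy (rf_7 hy) 3 rfl) h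
    · rcases brec_true h with h | h
      · exact mRel_good (T := T) hM0 [Lt.d, Lt.c, Lt.c, Lt.a, Lt.c, Lt.a, Lt.ci, Lt.b, Lt.d, Lt.b, Lt.d] [Lt.b] (pat hy (rf_5 hy) 4 rfl) h
      · exact mRel_good (T := T) hM0 [Lt.b, Lt.c, Lt.ai, Lt.d, Lt.ci] [Lt.c, Lt.ai, Lt.d, Lt.c, Lt.a, Lt.ci, Lt.b, Lt.c, Lt.ai] (pat hy (rb_6 hy) 10 rfl) h
  · rcases brec_true h with h | h
    · rcases brec_true h with h | h
      · exact mRel_good (T := T) hM0 [Lt.b, Lt.ci, Lt.b, Lt.c, Lt.b, Lt.ai, Lt.b, Lt.a, Lt.b] [Lt.c, Lt.a, Lt.a, Lt.b, Lt.ai] (pat hy (rb_7 hy) 1 rfl) h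
      · exact mRel_good (T := T) hM0 [Lt.d] [Lt.c, Lt.a, Lt.ci, Lt.b, Lt.c, Lt.ai, Lt.c, Lt.d, Lt.a, Lt.ci, Lt.b, Lt.c, Lt.ai] (pat hy (rb_6 hy) 7 rfl) h
    · rcases brec_true h with h | h
      · exact mRel_good (T := T) hM0 [Lt.a, Lt.ci, Lt.b, Lt.c, Lt.ai, Lt.d, Lt.c] [Lt.d, Lt.ci, Lt.a, Lt.ci, Lt.b, Lt.c, Lt.ai] (pat hy (rf_6 hy) 1 rfl) h
      · exact mRel_good (T := T) hM0 [Lt.a, Lt.b, Lt.ai, Lt.ai, Lt.ci, Lt.b] [Lt.b, Lt.ai, Lt.b, Lt.a, Lt.b, Lt.ci, Lt.b, Lt.c] (pat hy (rb_7 hy) 10 rfl) h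
theorem dM_284_s (hy : Hy g H) (j z1 z2 u : ℕ) (h : dM_284 j z1 z2 u = true) : GdM g H u := by
  unfold dM_284 at h
  rcases brec_true h with h | h
  · exact dM_282_s hy j z1 z2 u h
  · exact dM_283_s hy j z1 z2 u h
theorem dM_285_s (hy : Hy g H) (j z1 z2 u : ℕ) (h : dM_285 j z1 z2 u = true) : GdM g H u := by
  unfold dM_285 at h
  rcases brec_true h with h | h
  · rcases brec_true h with h | h
    · exact mRel_good (T := T) hM0 [Lt.ai, Lt.ai, Lt.b, Lt.ci, Lt.b, Lt.a, Lt.a, Lt.ci, Lt.ai, Lt.b, Lt.ai, Lt.b, Lt.ai] [Lt.ci, Lt.a] (pat hy (rb_10 hy) 1 rfl) h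
    · rcases brec_true h with h | h
      · exact mRel_good (T := T) hM0 [Lt.ai, Lt.ai, Lt.b, Lt.a, Lt.b, Lt.ci, Lt.ci] [Lt.b, Lt.a, Lt.b, Lt.ai, Lt.b, Lt.ci, Lt.ci, Lt.b] (pat hy (rb_9 hy) 13 rfl) h
      · exact mRel_good (T := T) hM0 [Lt.d, Lt.a, Lt.a] [Lt.c, Lt.ai, Lt.ci, Lt.a, Lt.b, Lt.ai, Lt.ai, Lt.ci, Lt.d, Lt.a, Lt.a, Lt.d, Lt.b, Lt.d] (pat hy (rf_15 hy) 0 rfl) h
  · rcases brec_true h with h | h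
    · rcases brec_true h with h | h
      · exact mRel_good (T := T) hM0 [Lt.ai, Lt.ai, Lt.ci, Lt.d, Lt.a, Lt.a, Lt.d, Lt.b, Lt.d] [Lt.b, Lt.ai, Lt.c, Lt.a, Lt.ci, Lt.d, Lt.a, Lt.a] (pat hy (rb_15 hy) 5 rfl) h
      · exact mRel_good (T := T) hM0 [Lt.ci, Lt.d, Lt.a, Lt.a, Lt.d, Lt.b, Lt.d, Lt.ai, Lt.ai] [Lt.ai, Lt.ci, Lt.a, Lt.b, Lt.ai, Lt.ai, Lt.ci, Lt.d] (pat hy (rf_15 hy) 16 rfl) h
    · rcases brec_true h with h | h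
      · exact mRel_good (T := T) hM0 [Lt.b, Lt.a, Lt.b, Lt.ci, Lt.b, Lt.c, Lt.b] [Lt.a, Lt.b, Lt.a, Lt.b, Lt.ai, Lt.ai, Lt.ci] (pat hy (rf_7 hy) 6 rfl) h
      · exact mRel_good (T := T) hM0 [Lt.b, Lt.a, Lt.a, Lt.ci, Lt.a, Lt.a, Lt.b, Lt.a, Lt.b, Lt.a, Lt.c, Lt.ai, Lt.ai] [Lt.ci, Lt.b] (pat hy (rf_10 hy) 11 rfl) h
theorem dM_286_s (hy : Hy g H) (j z1 z2 u : ℕ) (h : dM_286 j z1 z2 u = true) : GdM g H u := by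
  unfold dM_286 at h
  rcases brec_true h with h | h
  · rcases brec_true h with h | h
    · exact mRel_good (T := T) hM0 [Lt.ci, Lt.b, Lt.c, Lt.ai, Lt.d, Lt.ci, Lt.a, Lt.ci, Lt.b, Lt.c] [Lt.ai, Lt.d, Lt.c, Lt.a] (pat hy (rb_6 hy) 9 rfl) h
    · rcases brec_true h with h | h
      · exact mRel_good (T := T) hM0 [Lt.ai, Lt.ci, Lt.a, Lt.b, Lt.ai, Lt.ai, Lt.ci, Lt.d, Lt.a, Lt.a] [Lt.ci, Lt.d, Lt.a, Lt.a, Lt.d, Lt.b, Lt.d] (pat hy (rb_15 hy) 1 rfl) h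
      · exact mRel_good (T := T) hM0 [Lt.b, Lt.ai, Lt.b, Lt.ai, Lt.ai, Lt.c, Lt.ai, Lt.ai, Lt.b] [Lt.a, Lt.c, Lt.ai, Lt.ai, Lt.b, Lt.c] (pat hy (rb_10 hy) 10 rfl) h
  · rcases brec_true h with h | h
    · rcases brec_true h with h | h
      · exact mRel_good (T := T) hM0 [Lt.a, Lt.a, Lt.b, Lt.ai, Lt.c, Lt.c] [Lt.b, Lt.ai, Lt.b, Lt.a, Lt.b, Lt.c, Lt.c, Lt.a, Lt.c, Lt.ai] (pat hy (rf_12 hy) 0 rfl) h
      · exact mRel_good (T := T) hM0 [Lt.b, Lt.ci, Lt.ci, Lt.b] [Lt.a, Lt.b, Lt.ai, Lt.b, Lt.ai, Lt.ai, Lt.b, Lt.a, Lt.b, Lt.ci, Lt.ci] (pat hy (rf_9 hy) 6 rfl) h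
    · rcases brec_true h with h | h
      · exact mRel_good (T := T) hM0 [Lt.ci, Lt.b, Lt.c, Lt.c, Lt.b, Lt.ai, Lt.b, Lt.a, Lt.a] [Lt.c, Lt.b, Lt.a, Lt.b, Lt.ai, Lt.b] (pat hy (rf_9 hy) 8 rfl) h
      · exact mRel_good (T := T) hM0 [Lt.ai, Lt.b] [Lt.b, Lt.ci, Lt.b, Lt.c, Lt.b, Lt.c, Lt.a, Lt.a, Lt.b, Lt.ai, Lt.b, Lt.ai] (pat hy (rb_7 hy) 6 rfl) h
theorem dM_287_s (hy : Hy g H) (j z1 z2 u : ℕ) (h : dM_287 j z1 z2 u = true) : GdM g H u := by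
  unfold dM_287 at h
  rcases brec_true h with h | h
  · exact dM_285_s hy j z1 z2 u h
  · exact dM_286_s hy j z1 z2 u h
theorem dM_288_s (hy : Hy g H) (j z1 z2 u : ℕ) (h : dM_288 j z1 z2 u = true) : GdM g H u := by
  unfold dM_288 at h
  rcases brec_true h with h | h
  · exact dM_284_s hy j z1 z2 u h
  · exact dM_287_s hy j z1 z2 u h
theorem dM_289_s (hy : Hy g H) (j z1 z2 u : ℕ) (h : dM_289 j z1 z2 u = true) : GdM g H u := by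
  unfold dM_289 at h
  rcases brec_true h with h | h
  · exact dM_281_s hy j z1 z2 u h
  · exact dM_288_s hy j z1 z2 u h
theorem dM_290_s (hy : Hy g H) (j z1 z2 u : ℕ) (h : dM_290 j z1 z2 u = true) : GdM g H u := by
  unfold dM_290 at h
  rcases brec_true h with h | h
  · exact dM_274_s hy j z1 z2 u h
  · exact dM_289_s hy j z1 z2 u h
theorem dM_291_s (hy : Hy g H) (j z1 z2 u : ℕ) (h : dM_291 j z1 z2 u = true) : GdM g H u := by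
  unfold dM_291 at h
  rcases brec_true h with h | h
  · rcases brec_true h with h | h
    · exact mRel_good (T := T) hM0 [Lt.b, Lt.d, Lt.b, Lt.c] [Lt.c, Lt.ai, Lt.c, Lt.c, Lt.d, Lt.ci, Lt.ci, Lt.a] (pat hy (rf_4 hy) 10 rfl) h
    · rcases brec_true h with h | h
      · exact mRel_good (T := T) hM0 [Lt.b, Lt.ai, Lt.ai, Lt.ci, Lt.b, Lt.ci, Lt.b, Lt.c, Lt.b, Lt.ai, Lt.b, Lt.a] [Lt.ai, Lt.b] (pat hy (rb_7 hy) 11 rfl) h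
      · exact mRel_good (T := T) hM0 [Lt.c, Lt.a, Lt.ci, Lt.d] [Lt.a, Lt.b, Lt.ai, Lt.ai, Lt.ci, Lt.d, Lt.a, Lt.a, Lt.d, Lt.b, Lt.d, Lt.ai, Lt.ai] (pat hy (rf_15 hy) 14 rfl) h
  · rcases brec_true h with h | h
    · exact mRel_good (T := T) hM0 [Lt.a] [Lt.b, Lt.ai, Lt.ai, Lt.ai, Lt.ai, Lt.b, Lt.ai, Lt.ci, Lt.b, Lt.c, Lt.b, Lt.c, Lt.a, Lt.b] (pat hy (rf_8 hy) 5 rfl) h
    · rcases brec_true h with h | h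
      · exact mRel_good (T := T) hM0 [Lt.c, Lt.c] [Lt.b, Lt.c, Lt.c, Lt.b, Lt.ai, Lt.b, Lt.a, Lt.a, Lt.b, Lt.a, Lt.b, Lt.ai, Lt.b] (pat hy (rb_9 hy) 6 rfl) h
      · exact mRel_good (T := T) hM0 [Lt.b, Lt.ai, Lt.ai, Lt.c, Lt.ai, Lt.ai, Lt.b, Lt.ci, Lt.b, Lt.a, Lt.a, Lt.ci] [Lt.a, Lt.b, Lt.a] (pat hy (rb_10 hy) 12 rfl) h
theorem dM_292_s (hy : Hy g H) (j z1 z2 u : ℕ) (h : dM_292 j z1 z2 u = true) : GdM g H u := by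
  unfold dM_292 at h
  rcases brec_true h with h | h
  · rcases brec_true h with h | h
    · exact mRel_good (T := T) hM0 [Lt.a, Lt.c, Lt.a, Lt.ci, Lt.b, Lt.d, Lt.b, Lt.d, Lt.b, Lt.d, Lt.c] [Lt.ci] (pat hy (rf_5 hy) 7 rfl) h
    · rcases brec_true h with h | h
      · exact mRel_good (T := T) hM0 [Lt.b, Lt.ci, Lt.ci, Lt.b, Lt.c, Lt.c, Lt.b, Lt.ai, Lt.b, Lt.a, Lt.a, Lt.b, Lt.a] [Lt.a, Lt.b] (pat hy (rf_9 hy) 6 rfl) h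
      · exact mRel_good (T := T) hM0 [Lt.ai, Lt.ci, Lt.ci, Lt.b, Lt.ai, Lt.b, Lt.a, Lt.b, Lt.a, Lt.a, Lt.b, Lt.ai] [Lt.c, Lt.ai, Lt.ci, Lt.ci] (pat hy (rf_12 hy) 8 rfl) h
  · rcases brec_true h with h | h
    · rcases brec_true h with h | h
      · exact mRel_good (T := T) hM0 [Lt.ci, Lt.ai, Lt.ci] [Lt.a, Lt.ci, Lt.b, Lt.d, Lt.b, Lt.d, Lt.b, Lt.d, Lt.c] (pat hy (rb_5 hy) 3 rfl) h
      · exact mRel_good (T := T) hM0 [Lt.d, Lt.a] [Lt.a, Lt.c, Lt.d, Lt.ci, Lt.ai, Lt.d, Lt.a, Lt.c, Lt.d, Lt.ci] (pat hy (rf_3 hy) 5 rfl) h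
    · rcases brec_true h with h | h
      · exact mRel_good (T := T) hM0 [Lt.c, Lt.a, Lt.ci, Lt.b, Lt.c, Lt.ai, Lt.c, Lt.d, Lt.a, Lt.ci] [Lt.d, Lt.a, Lt.ci, Lt.b] (pat hy (rf_6 hy) 7 rfl) h
      · exact mRel_good (T := T) hM0 [Lt.a, Lt.a, Lt.d, Lt.b, Lt.d, Lt.ai, Lt.ai] [Lt.d, Lt.c, Lt.ai, Lt.ci, Lt.a, Lt.b, Lt.ai, Lt.ai, Lt.ci, Lt.d] (pat hy (rf_15 hy) 1 rfl) h
theorem dM_293_s (hy : Hy g H) (j z1 z2 u : ℕ) (h : dM_293 j z1 z2 u = true) : GdM g H u := by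
  unfold dM_293 at h
  rcases brec_true h with h | h
  · exact dM_291_s hy j z1 z2 u h
  · exact dM_292_s hy j z1 z2 u h
theorem dM_294_s (hy : Hy g H) (j z1 z2 u : ℕ) (h : dM_294 j z1 z2 u = true) : GdM g H u := by
  unfold dM_294 at h
  rcases brec_true h with h | h
  · rcases brec_true h with h | h
    · exact mRel_good (T := T) hM0 [Lt.a, Lt.ci, Lt.b, Lt.c, Lt.ai, Lt.ci, Lt.ai, Lt.d, Lt.ci, Lt.ci, Lt.b, Lt.c] [Lt.ci, Lt.ai, Lt.d, Lt.ci] (pat hy (rf_11 hy) 9 rfl) h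
    · rcases brec_true h with h | h
      · exact mRel_good (T := T) hM0 [Lt.ci, Lt.ci, Lt.b, Lt.c, Lt.c, Lt.b, Lt.a] [Lt.b, Lt.ai, Lt.b, Lt.a, Lt.a, Lt.b, Lt.a, Lt.b] (pat hy (rb_9 hy) 3 rfl) h
      · exact mRel_good (T := T) hM0 [Lt.a, Lt.a, Lt.b, Lt.ai, Lt.b] [Lt.ci, Lt.b, Lt.ci, Lt.b, Lt.c, Lt.b, Lt.ai, Lt.b, Lt.a] (pat hy (rf_7 hy) 0 rfl) h
  · rcases brec_true h with h | h
    · exact mRel_good (T := T) hM0 [Lt.a, Lt.b, Lt.a] [Lt.ai, Lt.b, Lt.a, Lt.b, Lt.ci, Lt.ci, Lt.b, Lt.c, Lt.c, Lt.b, Lt.a, Lt.b] (pat hy (rf_9 hy) 1 rfl) h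
    · rcases brec_true h with h | h
      · exact mRel_good (T := T) hM0 [Lt.b, Lt.a, Lt.a] [Lt.ai, Lt.b, Lt.a, Lt.b, Lt.c, Lt.c, Lt.a, Lt.c, Lt.ai, Lt.ci, Lt.ci, Lt.a, Lt.b] (pat hy (rf_12 hy) 15 rfl) h
      · exact mRel_good (T := T) hM0 [Lt.b, Lt.ai, Lt.ci, Lt.b, Lt.c, Lt.b, Lt.c, Lt.a, Lt.b, Lt.ai, Lt.b, Lt.ai, Lt.ai] [Lt.a, Lt.a] (pat hy (rb_8 hy) 0 rfl) h
theorem dM_295_s (hy : Hy g H) (j z1 z2 u : ℕ) (h : dM_295 j z1 z2 u = true) : GdM g H u := by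
  unfold dM_295 at h
  rcases brec_true h with h | h
  · rcases brec_true h with h | h
    · exact mRel_good (T := T) hM0 [Lt.b, Lt.ai, Lt.b, Lt.ai, Lt.ai, Lt.b, Lt.a, Lt.b, Lt.ci, Lt.ci, Lt.b] [Lt.ai, Lt.b, Lt.ci, Lt.ci] (pat hy (rb_9 hy) 10 rfl) h
    · rcases brec_true h with h | h
      · exact mRel_good (T := T) hM0 [Lt.b, Lt.ai, Lt.b, Lt.a, Lt.b, Lt.a] [Lt.ci, Lt.b, Lt.c, Lt.b, Lt.c, Lt.a, Lt.a, Lt.b] (pat hy (rb_7 hy) 5 rfl) h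
      · exact mRel_good (T := T) hM0 [Lt.b, Lt.a, Lt.b, Lt.a, Lt.a, Lt.b, Lt.ai, Lt.c, Lt.c, Lt.a, Lt.ci] [Lt.a, Lt.b, Lt.c, Lt.c, Lt.a] (pat hy (rf_12 hy) 13 rfl) h
  · rcases brec_true h with h | h
    · rcases brec_true h with h | h
      · exact mRel_good (T := T) hM0 [Lt.a, Lt.a, Lt.a, Lt.ci] [Lt.b, Lt.a, Lt.b, Lt.a, Lt.b, Lt.ai, Lt.b, Lt.a, Lt.a, Lt.ci, Lt.b, Lt.c, Lt.b] (pat hy (rf_17 hy) 0 rfl) h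
      · exact mRel_good (T := T) hM0 [Lt.b, Lt.ai, Lt.b, Lt.ai, Lt.b, Lt.a, Lt.a, Lt.b, Lt.ai, Lt.b, Lt.ci, Lt.b, Lt.c, Lt.b] [Lt.ai, Lt.ai, Lt.b, Lt.ci] (pat hy (rf_20 hy) 2 rfl) h
    · rcases brec_true h with h | h
      · exact mRel_good (T := T) hM0 [Lt.a, Lt.c, Lt.a, Lt.ci, Lt.b, Lt.c, Lt.ai, Lt.ci, Lt.ai, Lt.d, Lt.ci, Lt.ci] [Lt.d, Lt.ci, Lt.ci, Lt.b] (pat hy (rf_11 hy) 7 rfl) h
      · exact mRel_good (T := T) hM0 [Lt.b, Lt.c, Lt.a, Lt.b, Lt.ai, Lt.b, Lt.ai, Lt.ai, Lt.ai, Lt.ai] [Lt.ci, Lt.b, Lt.c, Lt.a, Lt.b] (pat hy (rb_8 hy) 5 rfl) h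
theorem dM_296_s (hy : Hy g H) (j z1 z2 u : ℕ) (h : dM_296 j z1 z2 u = true) : GdM g H u := by
  unfold dM_296 at h
  rcases brec_true h with h | h
  · exact dM_294_s hy j z1 z2 u h
  · exact dM_295_s hy j z1 z2 u h
theorem dM_297_s (hy : Hy g H) (j z1 z2 u : ℕ) (h : dM_297 j z1 z2 u = true) : GdM g H u := by
  unfold dM_297 at h
  rcases brec_true h with h | h
  · exact dM_293_s hy j z1 z2 u h
  · exact dM_296_s hy j z1 z2 u h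
theorem dM_298_s (hy : Hy g H) (j z1 z2 u : ℕ) (h : dM_298 j z1 z2 u = true) : GdM g H u := by
  unfold dM_298 at h
  rcases brec_true h with h | h
  · rcases brec_true h with h | h
    · exact mRel_good (T := T) hM0 [Lt.b, Lt.a, Lt.b, Lt.ai, Lt.b, Lt.ai, Lt.ai, Lt.b, Lt.a, Lt.b, Lt.ci, Lt.ci, Lt.b, Lt.c, Lt.c] [] (pat hy (rb_9 hy) 8 rfl) h
    · rcases brec_true h with h | h
      · exact mRel_good (T := T) hM0 [Lt.b, Lt.ai, Lt.b, Lt.a, Lt.a, Lt.a, Lt.ci, Lt.b, Lt.ci, Lt.b] [Lt.a, Lt.b, Lt.ai, Lt.b, Lt.a, Lt.a, Lt.ci] (pat hy (rf_17 hy) 14 rfl) h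
      · exact mRel_good (T := T) hM0 [Lt.ci, Lt.b, Lt.ai, Lt.b, Lt.a, Lt.b, Lt.a, Lt.a, Lt.b, Lt.ai, Lt.c, Lt.c, Lt.a, Lt.ci] [Lt.c, Lt.a] (pat hy (rf_12 hy) 10 rfl) h
  · rcases brec_true h with h | h
    · exact mRel_good (T := T) hM0 [Lt.b, Lt.a, Lt.b, Lt.ai, Lt.ai, Lt.ci, Lt.b, Lt.ci] [Lt.ai, Lt.b, Lt.a, Lt.b, Lt.ci, Lt.b] (pat hy (rb_7 hy) 9 rfl) h
    · rcases brec_true h with h | h
      · exact mRel_good (T := T) hM0 [Lt.b, Lt.a, Lt.ci, Lt.b] [Lt.c, Lt.ai, Lt.ai, Lt.ai, Lt.b, Lt.a, Lt.a, Lt.a, Lt.ci, Lt.b, Lt.a, Lt.ci] (pat hy (rf_13 hy) 4 rfl) h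
      · exact mRel_good (T := T) hM0 [Lt.b, Lt.a, Lt.a, Lt.b, Lt.ai, Lt.b, Lt.ai] [Lt.ci, Lt.b, Lt.ci, Lt.b, Lt.c, Lt.b, Lt.a, Lt.b, Lt.ai, Lt.ai, Lt.b] (pat hy (rf_20 hy) 17 rfl) h
theorem dM_299_s (hy : Hy g H) (j z1 z2 u : ℕ) (h : dM_299 j z1 z2 u = true) : GdM g H u := by
  unfold dM_299 at h
  rcases brec_true h with h | h
  · rcases brec_true h with h | h
    · exact mRel_good (T := T) hM0 [Lt.a, Lt.a, Lt.b, Lt.ai, Lt.b, Lt.a, Lt.b] [Lt.ai, Lt.ai, Lt.b, Lt.a, Lt.b, Lt.ai, Lt.b, Lt.a, Lt.a, Lt.a, Lt.a] (pat hy (rf_21 hy) 2 rfl) h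
    · rcases brec_true h with h | h
      · exact mRel_good (T := T) hM0 [Lt.ai, Lt.b, Lt.a, Lt.a, Lt.ci, Lt.b] [Lt.b, Lt.ai, Lt.b, Lt.ai, Lt.b, Lt.a, Lt.a, Lt.a, Lt.ci, Lt.b, Lt.ci] (pat hy (rb_17 hy) 5 rfl) h
      · exact mRel_good (T := T) hM0 [Lt.ci, Lt.b, Lt.c, Lt.ai, Lt.b, Lt.c, Lt.ai, Lt.ai] [Lt.ai, Lt.b, Lt.c, Lt.ai, Lt.ai, Lt.ai, Lt.b, Lt.a] (pat hy (rf_13 hy) 6 rfl) h
  · rcases brec_true h with h | h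
    · rcases brec_true h with h | h
      · exact mRel_good (T := T) hM0 [Lt.c, Lt.ai, Lt.ai, Lt.b, Lt.ci, Lt.b] [Lt.a, Lt.a, Lt.b, Lt.a, Lt.b, Lt.a, Lt.c, Lt.ai, Lt.ai] (pat hy (rb_10 hy) 0 rfl) h
      · exact mRel_good (T := T) hM0 [Lt.ai, Lt.b, Lt.ci, Lt.ci] [Lt.b, Lt.ai, Lt.b, Lt.ai, Lt.ai, Lt.b, Lt.a, Lt.b, Lt.ci, Lt.ci, Lt.b] (pat hy (rf_9 hy) 5 rfl) h
    · rcases brec_true h with h | h
      · exact mRel_good (T := T) hM0 [Lt.a, Lt.ci] [Lt.ai, Lt.b, Lt.c, Lt.b, Lt.a, Lt.a, Lt.ci, Lt.a, Lt.a, Lt.b, Lt.a, Lt.b, Lt.a] (pat hy (rb_10 hy) 7 rfl) h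
      · exact mRel_good (T := T) hM0 [Lt.a, Lt.b, Lt.ci, Lt.b] [Lt.b, Lt.a, Lt.b, Lt.a, Lt.b, Lt.ai, Lt.ai, Lt.ci, Lt.b, Lt.ci] (pat hy (rf_7 hy) 7 rfl) h
theorem dM_300_s (hy : Hy g H) (j z1 z2 u : ℕ) (h : dM_300 j z1 z2 u = true) : GdM g H u := by
  unfold dM_300 at h
  rcases brec_true h with h | h
  · exact dM_298_s hy j z1 z2 u h
  · exact dM_299_s hy j z1 z2 u h
theorem dM_301_s (hy : Hy g H) (j z1 z2 u : ℕ) (h : dM_301 j z1 z2 u = true) : GdM g H u := by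
  unfold dM_301 at h
  rcases brec_true h with h | h
  · rcases brec_true h with h | h
    · exact mRel_good (T := T) hM0 [Lt.b, Lt.ai, Lt.b, Lt.a] [Lt.ci, Lt.ci, Lt.b, Lt.c, Lt.c, Lt.b, Lt.a, Lt.b, Lt.ai, Lt.b, Lt.ai] (pat hy (rf_9 hy) 12 rfl) h
    · rcases brec_true h with h | h
      · exact mRel_good (T := T) hM0 [Lt.ai, Lt.b, Lt.ai, Lt.b, Lt.ai, Lt.ai, Lt.c, Lt.ai, Lt.ai, Lt.b, Lt.ci, Lt.b, Lt.a, Lt.a, Lt.ci] [] (pat hy (rb_10 hy) 9 rfl) h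
      · exact mRel_good (T := T) hM0 [Lt.d, Lt.a, Lt.ci, Lt.b, Lt.c, Lt.ai, Lt.d, Lt.c, Lt.a, Lt.ci, Lt.b, Lt.c, Lt.ai] [Lt.ci] (pat hy (rf_6 hy) 0 rfl) h
  · rcases brec_true h with h | h
    · rcases brec_true h with h | h
      · exact mRel_good (T := T) hM0 [Lt.c, Lt.a] [Lt.b, Lt.ci, Lt.b, Lt.c, Lt.b, Lt.ai, Lt.b, Lt.a, Lt.b, Lt.a, Lt.b, Lt.ai] (pat hy (rf_7 hy) 13 rfl) h
      · exact mRel_good (T := T) hM0 [Lt.b, Lt.ai, Lt.ai, Lt.c, Lt.ai, Lt.ai, Lt.b, Lt.ci, Lt.b, Lt.a, Lt.a, Lt.ci, Lt.ai] [Lt.a, Lt.b] (pat hy (rb_10 hy) 12 rfl) h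
    · rcases brec_true h with h | h
      · exact mRel_good (T := T) hM0 [Lt.c, Lt.a, Lt.ci, Lt.d, Lt.a, Lt.a] [Lt.a, Lt.b, Lt.ai, Lt.ai, Lt.ci, Lt.d, Lt.a, Lt.a, Lt.d, Lt.b, Lt.d] (pat hy (rf_15 hy) 14 rfl) h
      · exact mRel_good (T := T) hM0 [Lt.c, Lt.ai, Lt.d, Lt.c, Lt.a, Lt.ci, Lt.b, Lt.c, Lt.ai, Lt.c, Lt.d, Lt.a] [Lt.b, Lt.c] (pat hy (rf_6 hy) 4 rfl) h
theorem dM_302_s (hy : Hy g H) (j z1 z2 u : ℕ) (h : dM_302 j z1 z2 u = true) : GdM g H u := by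
  unfold dM_302 at h
  rcases brec_true h with h | h
  · rcases brec_true h with h | h
    · exact mRel_good (T := T) hM0 [Lt.a, Lt.a, Lt.b, Lt.ai, Lt.b, Lt.ai, Lt.b, Lt.a, Lt.b, Lt.ci] [Lt.ci, Lt.b, Lt.ci, Lt.b] (pat hy (rf_7 hy) 0 rfl) h
    · rcases brec_true h with h | h
      · exact mRel_good (T := T) hM0 [Lt.ai, Lt.b] [Lt.b, Lt.ai, Lt.b, Lt.ci, Lt.ci, Lt.b, Lt.c, Lt.c, Lt.b, Lt.ai, Lt.b, Lt.a, Lt.a] (pat hy (rb_9 hy) 11 rfl) h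
      · exact mRel_good (T := T) hM0 [Lt.b, Lt.ai, Lt.ai, Lt.b, Lt.a, Lt.b, Lt.ci, Lt.ci, Lt.b, Lt.c, Lt.c, Lt.b, Lt.a, Lt.b, Lt.ai] [] (pat hy (rb_9 hy) 12 rfl) h
  · rcases brec_true h with h | h
    · rcases brec_true h with h | h
      · exact mRel_good (T := T) hM0 [Lt.ai, Lt.b, Lt.a, Lt.b, Lt.a, Lt.b, Lt.ai, Lt.ai, Lt.b, Lt.ci, Lt.b, Lt.ci] [Lt.a, Lt.b, Lt.ai, Lt.b, Lt.ci, Lt.b] (pat hy (rb_20 hy) 10 rfl) h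
      · exact mRel_good (T := T) hM0 [Lt.ai, Lt.b, Lt.a] [Lt.b, Lt.ci, Lt.b, Lt.c, Lt.b, Lt.c, Lt.a, Lt.a, Lt.b, Lt.ai, Lt.b] (pat hy (rb_7 hy) 6 rfl) h
    · rcases brec_true h with h | h
      · exact mRel_good (T := T) hM0 [Lt.b, Lt.ai, Lt.b, Lt.ai, Lt.ai] [Lt.a, Lt.c, Lt.ai, Lt.ai, Lt.b, Lt.c, Lt.b, Lt.a, Lt.a, Lt.ci] (pat hy (rb_10 hy) 10 rfl) h
      · exact mRel_good (T := T) hM0 [Lt.a, Lt.b, Lt.ai] [Lt.b, Lt.ai, Lt.ai, Lt.ai, Lt.ai, Lt.b, Lt.ai, Lt.ci, Lt.b, Lt.c, Lt.b, Lt.c] (pat hy (rf_8 hy) 5 rfl) h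
theorem dM_303_s (hy : Hy g H) (j z1 z2 u : ℕ) (h : dM_303 j z1 z2 u = true) : GdM g H u := by
  unfold dM_303 at h
  rcases brec_true h with h | h
  · exact dM_301_s hy j z1 z2 u h
  · exact dM_302_s hy j z1 z2 u h
theorem dM_304_s (hy : Hy g H) (j z1 z2 u : ℕ) (h : dM_304 j z1 z2 u = true) : GdM g H u := by
  unfold dM_304 at h
  rcases brec_true h with h | h
  · exact dM_300_s hy j z1 z2 u h
  · exact dM_303_s hy j z1 z2 u h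
theorem dM_305_s (hy : Hy g H) (j z1 z2 u : ℕ) (h : dM_305 j z1 z2 u = true) : GdM g H u := by
  unfold dM_305 at h
  rcases brec_true h with h | h
  · exact dM_297_s hy j z1 z2 u h
  · exact dM_304_s hy j z1 z2 u h
theorem dM_306_s (hy : Hy g H) (j z1 z2 u : ℕ) (h : dM_306 j z1 z2 u = true) : GdM g H u := by
  unfold dM_306 at h
  rcases brec_true h with h | h
  · rcases brec_true h with h | h
    · exact mRel_good (T := T) hM0 [Lt.b, Lt.ai, Lt.b, Lt.ci, Lt.ci, Lt.b, Lt.c, Lt.c, Lt.b, Lt.ai, Lt.b, Lt.a, Lt.a, Lt.b, Lt.a] [] (pat hy (rf_9 hy) 4 rfl) h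
    · rcases brec_true h with h | h
      · exact mRel_good (T := T) hM0 [Lt.a, Lt.b, Lt.ai, Lt.ai, Lt.ci, Lt.b, Lt.ci, Lt.b, Lt.c, Lt.b] [Lt.b, Lt.ai, Lt.b, Lt.a] (pat hy (rb_7 hy) 10 rfl) h
      · exact mRel_good (T := T) hM0 [Lt.ai, Lt.ci, Lt.b, Lt.c, Lt.b, Lt.c, Lt.a, Lt.b, Lt.ai, Lt.b] [Lt.b, Lt.a, Lt.a, Lt.a, Lt.a] (pat hy (rb_8 hy) 1 rfl) h
  · rcases brec_true h with h | h
    · exact mRel_good (T := T) hM0 [Lt.ci, Lt.a, Lt.a, Lt.b, Lt.a, Lt.b, Lt.a, Lt.c, Lt.ai] [Lt.ai, Lt.ai, Lt.b, Lt.ci, Lt.b, Lt.a] (pat hy (rf_10 hy) 14 rfl) h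
    · rcases brec_true h with h | h
      · exact mRel_good (T := T) hM0 [Lt.a, Lt.b] [Lt.b, Lt.a, Lt.b, Lt.a, Lt.b, Lt.ai, Lt.ai, Lt.ci, Lt.b, Lt.ci, Lt.b, Lt.c] (pat hy (rf_7 hy) 7 rfl) h
      · exact mRel_good (T := T) hM0 [Lt.b, Lt.ai, Lt.b, Lt.a, Lt.b] [Lt.a, Lt.b, Lt.ai, Lt.ai, Lt.ci, Lt.b, Lt.ci, Lt.b, Lt.c] (pat hy (rf_7 hy) 4 rfl) h
theorem dM_307_s (hy : Hy g H) (j z1 z2 u : ℕ) (h : dM_307 j z1 z2 u = true) : GdM g H u := by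
  unfold dM_307 at h
  rcases brec_true h with h | h
  · rcases brec_true h with h | h
    · exact mRel_good (T := T) hM0 [Lt.b, Lt.c, Lt.b, Lt.a, Lt.a, Lt.ci, Lt.a, Lt.a, Lt.b, Lt.a, Lt.b, Lt.a, Lt.c, Lt.ai, Lt.ai] [] (pat hy (rf_10 hy) 9 rfl) h
    · rcases brec_true h with h | h
      · exact mRel_good (T := T) hM0 [Lt.ai, Lt.ai, Lt.ai, Lt.ai] [Lt.b, Lt.a, Lt.b, Lt.ai, Lt.ci, Lt.b, Lt.ci, Lt.b, Lt.c, Lt.a, Lt.b] (pat hy (rb_8 hy) 11 rfl) h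
      · exact mRel_good (T := T) hM0 [Lt.ai, Lt.b, Lt.a, Lt.b] [Lt.a, Lt.b, Lt.a, Lt.b, Lt.ai, Lt.b, Lt.ci, Lt.ci, Lt.b, Lt.c, Lt.c] (pat hy (rb_9 hy) 14 rfl) h
  · rcases brec_true h with h | h
    · rcases brec_true h with h | h
      · exact mRel_good (T := T) hM0 [Lt.b, Lt.c, Lt.c, Lt.b, Lt.a] [Lt.c, Lt.c, Lt.b, Lt.ai, Lt.b, Lt.a, Lt.a, Lt.b, Lt.a, Lt.b] (pat hy (rb_9 hy) 5 rfl) h
      · exact mRel_good (T := T) hM0 [Lt.a, Lt.b, Lt.ai] [Lt.ai, Lt.b, Lt.a, Lt.b, Lt.a, Lt.b, Lt.ai, Lt.ai, Lt.b, Lt.ci, Lt.b, Lt.ci, Lt.b, Lt.c, Lt.b] (pat hy (rf_20 hy) 8 rfl) h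
    · rcases brec_true h with h | h
      · exact mRel_good (T := T) hM0 [Lt.a, Lt.ci, Lt.a, Lt.a, Lt.b, Lt.a, Lt.b, Lt.a, Lt.c, Lt.ai, Lt.ai] [Lt.ai, Lt.b, Lt.ci, Lt.b] (pat hy (rf_10 hy) 13 rfl) h
      · exact mRel_good (T := T) hM0 [Lt.ai, Lt.ai, Lt.b] [Lt.a, Lt.a, Lt.b, Lt.a, Lt.b, Lt.ai, Lt.ci, Lt.b, Lt.ci, Lt.b, Lt.c, Lt.a] (pat hy (rb_8 hy) 13 rfl) h
theorem dM_308_s (hy : Hy g H) (j z1 z2 u : ℕ) (h : dM_308 j z1 z2 u = true) : GdM g H u := by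
  unfold dM_308 at h
  rcases brec_true h with h | h
  · exact dM_306_s hy j z1 z2 u h
  · exact dM_307_s hy j z1 z2 u h
theorem dM_309_s (hy : Hy g H) (j z1 z2 u : ℕ) (h : dM_309 j z1 z2 u = true) : GdM g H u := by
  unfold dM_309 at h
  rcases brec_true h with h | h
  · rcases brec_true h with h | h
    · exact mRel_good (T := T) hM0 [Lt.ai, Lt.ci, Lt.b, Lt.c, Lt.b] [Lt.b, Lt.a, Lt.a, Lt.a, Lt.a, Lt.b, Lt.a, Lt.b, Lt.ai, Lt.ci] (pat hy (rb_8 hy) 1 rfl) h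
    · rcases brec_true h with h | h
      · exact mRel_good (T := T) hM0 [Lt.a, Lt.a, Lt.a, Lt.b, Lt.a, Lt.b, Lt.ai, Lt.ci, Lt.b, Lt.ci, Lt.b, Lt.c, Lt.a, Lt.b, Lt.a] [] (pat hy (rf_8 hy) 1 rfl) h
      · exact mRel_good (T := T) hM0 [Lt.b, Lt.a, Lt.c, Lt.ai, Lt.ai, Lt.b, Lt.c, Lt.b] [Lt.ai, Lt.b, Lt.ai, Lt.ai, Lt.c, Lt.ai, Lt.ai] (pat hy (rf_10 hy) 4 rfl) h
  · rcases brec_true h with h | h
    · exact mRel_good (T := T) hM0 [Lt.ci, Lt.ci, Lt.b, Lt.c, Lt.c, Lt.b, Lt.ai, Lt.b] [Lt.b, Lt.a, Lt.b, Lt.ai, Lt.b, Lt.ai, Lt.ai] (pat hy (rf_9 hy) 7 rfl) h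
    · rcases brec_true h with h | h
      · exact mRel_good (T := T) hM0 [Lt.ai, Lt.b, Lt.ai, Lt.b, Lt.a, Lt.b] [Lt.b, Lt.ai, Lt.ai, Lt.ci, Lt.b, Lt.ci, Lt.b, Lt.c] (pat hy (rf_7 hy) 3 rfl) h
      · exact mRel_good (T := T) hM0 [Lt.c, Lt.a, Lt.c, Lt.a, Lt.ci] [Lt.ci, Lt.d, Lt.b, Lt.d, Lt.b, Lt.d, Lt.b] (pat hy (rf_5 hy) 6 rfl) h
theorem dM_310_s (hy : Hy g H) (j z1 z2 u : ℕ) (h : dM_310 j z1 z2 u = true) : GdM g H u := by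
  unfold dM_310 at h
  rcases brec_true h with h | h
  · rcases brec_true h with h | h
    · exact mRel_good (T := T) hM0 [Lt.ai, Lt.b, Lt.ai, Lt.ai, Lt.ai] [Lt.b, Lt.ai, Lt.ci, Lt.b, Lt.ci, Lt.b, Lt.c, Lt.a, Lt.b, Lt.a] (pat hy (rb_8 hy) 9 rfl) h
    · rcases brec_true h with h | h
      · exact mRel_good (T := T) hM0 [Lt.a, Lt.b, Lt.a, Lt.b, Lt.ai, Lt.b, Lt.ci, Lt.ci, Lt.b, Lt.c, Lt.c, Lt.b, Lt.ai, Lt.b] [Lt.ai] (pat hy (rf_9 hy) 1 rfl) h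
      · exact mRel_good (T := T) hM0 [Lt.b, Lt.c, Lt.c] [Lt.c, Lt.c, Lt.b, Lt.a, Lt.b, Lt.ai, Lt.b, Lt.ai, Lt.ai, Lt.b, Lt.a, Lt.b] (pat hy (rf_9 hy) 9 rfl) h
  · rcases brec_true h with h | h
    · rcases brec_true h with h | h
      · exact mRel_good (T := T) hM0 [Lt.c, Lt.a, Lt.b, Lt.a, Lt.a, Lt.a, Lt.a, Lt.b, Lt.a, Lt.b] [Lt.b, Lt.c, Lt.b, Lt.c, Lt.a] (pat hy (rf_8 hy) 12 rfl) h
      · exact mRel_good (T := T) hM0 [Lt.b, Lt.ai, Lt.ci, Lt.b] [Lt.ai, Lt.b, Lt.ai, Lt.ai, Lt.ai, Lt.ai, Lt.b, Lt.ai, Lt.ci, Lt.b, Lt.c] (pat hy (rf_8 hy) 6 rfl) h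
    · rcases brec_true h with h | h
      · exact mRel_good (T := T) hM0 [Lt.a, Lt.a, Lt.ci, Lt.ai, Lt.b, Lt.ai, Lt.b, Lt.ai, Lt.ai, Lt.c, Lt.ai, Lt.ai] [Lt.b, Lt.c, Lt.b] (pat hy (rb_10 hy) 6 rfl) h
      · exact mRel_good (T := T) hM0 [Lt.c, Lt.b] [Lt.ci, Lt.b, Lt.c, Lt.c, Lt.b, Lt.ai, Lt.b, Lt.a, Lt.a, Lt.b, Lt.a, Lt.b, Lt.ai] (pat hy (rb_9 hy) 7 rfl) h
theorem dM_311_s (hy : Hy g H) (j z1 z2 u : ℕ) (h : dM_311 j z1 z2 u = true) : GdM g H u := by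
  unfold dM_311 at h
  rcases brec_true h with h | h
  · exact dM_309_s hy j z1 z2 u h
  · exact dM_310_s hy j z1 z2 u h
theorem dM_312_s (hy : Hy g H) (j z1 z2 u : ℕ) (h : dM_312 j z1 z2 u = true) : GdM g H u := by
  unfold dM_312 at h
  rcases brec_true h with h | h
  · exact dM_308_s hy j z1 z2 u h
  · exact dM_311_s hy j z1 z2 u h
theorem dM_313_s (hy : Hy g H) (j z1 z2 u : ℕ) (h : dM_313 j z1 z2 u = true) : GdM g H u := by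
  unfold dM_313 at h
  rcases brec_true h with h | h
  · rcases brec_true h with h | h
    · exact mRel_good (T := T) hM0 [Lt.ai, Lt.b, Lt.ai, Lt.b, Lt.ai, Lt.ai, Lt.c, Lt.ai, Lt.ai] [Lt.c, Lt.ai, Lt.ai, Lt.b, Lt.c, Lt.b] (pat hy (rb_10 hy) 9 rfl) h
    · rcases brec_true h with h | h
      · exact mRel_good (T := T) hM0 [Lt.a, Lt.b, Lt.a, Lt.b, Lt.ai, Lt.ci, Lt.b, Lt.ci, Lt.b, Lt.c, Lt.a, Lt.b, Lt.a, Lt.a] [Lt.ai] (pat hy (rf_8 hy) 3 rfl) h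
      · exact mRel_good (T := T) hM0 [Lt.b, Lt.a, Lt.a, Lt.ci, Lt.a, Lt.a, Lt.b, Lt.a, Lt.b, Lt.a, Lt.c, Lt.ai, Lt.ai, Lt.b, Lt.c] [] (pat hy (rf_10 hy) 11 rfl) h
  · rcases brec_true h with h | h
    · exact mRel_good (T := T) hM0 [Lt.b, Lt.a, Lt.b, Lt.ai, Lt.ai, Lt.ci, Lt.b, Lt.ci, Lt.b, Lt.c] [Lt.ai, Lt.b, Lt.a, Lt.b] (pat hy (rb_7 hy) 9 rfl) h
    · rcases brec_true h with h | h
      · exact mRel_good (T := T) hM0 [Lt.c, Lt.ai, Lt.ai, Lt.b, Lt.c, Lt.b, Lt.a, Lt.a, Lt.ci, Lt.a, Lt.a] [Lt.ai, Lt.b, Lt.ai, Lt.b] (pat hy (rf_10 hy) 6 rfl) h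
      · exact mRel_good (T := T) hM0 [Lt.a, Lt.a, Lt.ci] [Lt.b, Lt.c, Lt.b, Lt.a, Lt.a, Lt.ci, Lt.a, Lt.a, Lt.b, Lt.a, Lt.b, Lt.a] (pat hy (rb_10 hy) 6 rfl) h
theorem dM_314_s (hy : Hy g H) (j z1 z2 u : ℕ) (h : dM_314 j z1 z2 u = true) : GdM g H u := by
  unfold dM_314 at h
  rcases brec_true h with h | h
  · rcases brec_true h with h | h
    · exact mRel_good (T := T) hM0 [Lt.b, Lt.d, Lt.b, Lt.d, Lt.c] [Lt.d, Lt.b, Lt.c, Lt.ai, Lt.ci, Lt.ai, Lt.ci] (pat hy (rf_5 hy) 1 rfl) h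
    · rcases brec_true h with h | h
      · exact mRel_good (T := T) hM0 [Lt.ai, Lt.ci, Lt.b, Lt.ci, Lt.b, Lt.c, Lt.a] [Lt.b, Lt.ai, Lt.b, Lt.ai, Lt.ai, Lt.ai, Lt.ai, Lt.b] (pat hy (rf_8 hy) 7 rfl) h
      · exact mRel_good (T := T) hM0 [Lt.ai, Lt.ai, Lt.b, Lt.a] [Lt.b, Lt.a, Lt.b, Lt.ai, Lt.b, Lt.ci, Lt.ci, Lt.b, Lt.c, Lt.c, Lt.b] (pat hy (rb_9 hy) 13 rfl) h
  · rcases brec_true h with h | h
    · rcases brec_true h with h | h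
      · exact mRel_good (T := T) hM0 [Lt.ai, Lt.b, Lt.c, Lt.b, Lt.a, Lt.a, Lt.ci, Lt.a] [Lt.a, Lt.ci, Lt.ai, Lt.b, Lt.ai, Lt.b, Lt.ai] (pat hy (rf_10 hy) 8 rfl) h
      · exact mRel_good (T := T) hM0 [Lt.a, Lt.b, Lt.ai, Lt.ai, Lt.ci, Lt.d, Lt.a] [Lt.c, Lt.a, Lt.ci, Lt.d, Lt.a, Lt.a, Lt.d, Lt.b, Lt.d, Lt.ai] (pat hy (rb_15 hy) 3 rfl) h
    · rcases brec_true h with h | h
      · exact mRel_good (T := T) hM0 [Lt.ci, Lt.a, Lt.ci, Lt.b, Lt.d] [Lt.c, Lt.d, Lt.ci, Lt.ci, Lt.a, Lt.ci, Lt.b] (pat hy (rf_4 hy) 7 rfl) h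
      · exact mRel_good (T := T) hM0 [Lt.ci, Lt.d, Lt.a, Lt.a, Lt.d, Lt.b, Lt.d, Lt.ai, Lt.ai, Lt.d] [Lt.ai, Lt.ci, Lt.a, Lt.b, Lt.ai, Lt.ai, Lt.ci] (pat hy (rf_15 hy) 16 rfl) h
theorem dM_315_s (hy : Hy g H) (j z1 z2 u : ℕ) (h : dM_315 j z1 z2 u = true) : GdM g H u := by
  unfold dM_315 at h
  rcases brec_true h with h | h
  · exact dM_313_s hy j z1 z2 u h
  · exact dM_314_s hy j z1 z2 u h
theorem dM_316_s (hy : Hy g H) (j z1 z2 u : ℕ) (h : dM_316 j z1 z2 u = true) : GdM g H u := by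
  unfold dM_316 at h
  rcases brec_true h with h | h
  · rcases brec_true h with h | h
    · exact mRel_good (T := T) hM0 [Lt.d, Lt.b, Lt.d, Lt.b] [Lt.b, Lt.d, Lt.c, Lt.c, Lt.a, Lt.c, Lt.a, Lt.ci] (pat hy (rb_5 hy) 9 rfl) h
    · rcases brec_true h with h | h
      · exact mRel_good (T := T) hM0 [Lt.c, Lt.ai, Lt.c, Lt.c, Lt.d, Lt.ci, Lt.ci, Lt.a, Lt.ci, Lt.b, Lt.d] [Lt.b] (pat hy (rf_4 hy) 1 rfl) h
      · exact mRel_good (T := T) hM0 [Lt.c, Lt.b, Lt.ai, Lt.b, Lt.a, Lt.b] [Lt.b, Lt.c, Lt.b, Lt.c, Lt.a, Lt.a, Lt.b, Lt.ai] (pat hy (rb_7 hy) 4 rfl) h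
  · rcases brec_true h with h | h
    · rcases brec_true h with h | h
      · exact mRel_good (T := T) hM0 [Lt.b, Lt.c, Lt.ai, Lt.c, Lt.d, Lt.a, Lt.ci, Lt.b, Lt.c] [Lt.c, Lt.ai, Lt.ci, Lt.d, Lt.a] (pat hy (rf_6 hy) 10 rfl) h
      · exact mRel_good (T := T) hM0 [Lt.d, Lt.b, Lt.d, Lt.b, Lt.d, Lt.c, Lt.c, Lt.a, Lt.c, Lt.a, Lt.ci] [Lt.b] (pat hy (rf_5 hy) 0 rfl) h
    · rcases brec_true h with h | h
      · exact mRel_good (T := T) hM0 [Lt.ai, Lt.d, Lt.a, Lt.c, Lt.d, Lt.ci, Lt.ai, Lt.d, Lt.a, Lt.c, Lt.d] [Lt.c] (pat hy (rf_3 hy) 4 rfl) h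
      · exact mRel_good (T := T) hM0 [Lt.a, Lt.ci, Lt.b, Lt.d, Lt.b, Lt.d, Lt.b, Lt.d, Lt.c, Lt.c, Lt.a] [Lt.ci] (pat hy (rf_5 hy) 9 rfl) h
theorem dM_317_s (hy : Hy g H) (j z1 z2 u : ℕ) (h : dM_317 j z1 z2 u = true) : GdM g H u := by
  unfold dM_317 at h
  rcases brec_true h with h | h
  · rcases brec_true h with h | h
    · exact mRel_good (T := T) hM0 [Lt.c, Lt.d, Lt.a, Lt.ci, Lt.b, Lt.c] [Lt.a, Lt.ci, Lt.b, Lt.c, Lt.ai, Lt.ci, Lt.d, Lt.a] (pat hy (rf_6 hy) 13 rfl) h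
    · rcases brec_true h with h | h
      · exact mRel_good (T := T) hM0 [Lt.c, Lt.d, Lt.ci, Lt.ci, Lt.a, Lt.ci, Lt.b, Lt.d, Lt.b, Lt.c, Lt.ai] [Lt.ci] (pat hy (rf_4 hy) 4 rfl) h
      · exact mRel_good (T := T) hM0 [Lt.b, Lt.ai, Lt.b, Lt.a, Lt.a, Lt.b, Lt.a, Lt.b, Lt.ai, Lt.b, Lt.ci, Lt.ci, Lt.b, Lt.c, Lt.c] [] (pat hy (rf_9 hy) 12 rfl) h
  · rcases brec_true h with h | h
    · rcases brec_true h with h | h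
      · exact mRel_good (T := T) hM0 [Lt.c, Lt.b, Lt.a, Lt.b, Lt.ai, Lt.b, Lt.ai, Lt.ai] [Lt.ci, Lt.b, Lt.c, Lt.c, Lt.b, Lt.ai, Lt.b] (pat hy (rb_9 hy) 7 rfl) h
      · exact mRel_good (T := T) hM0 [Lt.c, Lt.b, Lt.a, Lt.a, Lt.ci, Lt.a, Lt.a, Lt.b, Lt.a, Lt.b, Lt.a, Lt.c, Lt.ai] [Lt.b, Lt.a] (pat hy (rf_10 hy) 10 rfl) h
    · rcases brec_true h with h | h
      · exact mRel_good (T := T) hM0 [Lt.c, Lt.c, Lt.b, Lt.ai, Lt.b, Lt.a] [Lt.b, Lt.c, Lt.c, Lt.b, Lt.a, Lt.b, Lt.ai, Lt.b, Lt.ai] (pat hy (rf_9 hy) 10 rfl) h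
      · exact mRel_good (T := T) hM0 [Lt.b, Lt.ci, Lt.b, Lt.a, Lt.a, Lt.ci, Lt.ai, Lt.b, Lt.ai, Lt.b] [Lt.a, Lt.a, Lt.ci, Lt.a, Lt.a] (pat hy (rb_10 hy) 3 rfl) h
theorem dM_318_s (hy : Hy g H) (j z1 z2 u : ℕ) (h : dM_318 j z1 z2 u = true) : GdM g H u := by
  unfold dM_318 at h
  rcases brec_true h with h | h
  · exact dM_316_s hy j z1 z2 u h
  · exact dM_317_s hy j z1 z2 u h
theorem dM_319_s (hy : Hy g H) (j z1 z2 u : ℕ) (h : dM_319 j z1 z2 u = true) : GdM g H u := by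
  unfold dM_319 at h
  rcases brec_true h with h | h
  · exact dM_315_s hy j z1 z2 u h
  · exact dM_318_s hy j z1 z2 u h
theorem dM_320_s (hy : Hy g H) (j z1 z2 u : ℕ) (h : dM_320 j z1 z2 u = true) : GdM g H u := by
  unfold dM_320 at h
  rcases brec_true h with h | h
  · exact dM_312_s hy j z1 z2 u h
  · exact dM_319_s hy j z1 z2 u h
theorem dM_321_s (hy : Hy g H) (j z1 z2 u : ℕ) (h : dM_321 j z1 z2 u = true) : GdM g H u := by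
  unfold dM_321 at h
  rcases brec_true h with h | h
  · exact dM_305_s hy j z1 z2 u h
  · exact dM_320_s hy j z1 z2 u h
theorem dM_322_s (hy : Hy g H) (j z1 z2 u : ℕ) (h : dM_322 j z1 z2 u = true) : GdM g H u := by
  unfold dM_322 at h
  rcases brec_true h with h | h
  · exact dM_290_s hy j z1 z2 u h
  · exact dM_321_s hy j z1 z2 u h
theorem dM_323_s (hy : Hy g H) (j z1 z2 u : ℕ) (h : dM_323 j z1 z2 u = true) : GdM g H u := by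
  unfold dM_323 at h
  rcases brec_true h with h | h
  · exact dM_259_s hy j z1 z2 u h
  · exact dM_322_s hy j z1 z2 u h
theorem dM_324_s (hy : Hy g H) (j z1 z2 u : ℕ) (h : dM_324 j z1 z2 u = true) : GdM g H u := by
  unfold dM_324 at h
  rcases brec_true h with h | h
  · rcases brec_true h with h | h
    · exact mRel_good (T := T) hM0 [Lt.d, Lt.b, Lt.d, Lt.c, Lt.c, Lt.a, Lt.c, Lt.a, Lt.ci, Lt.b, Lt.d] [Lt.b] (pat hy (rf_5 hy) 2 rfl) h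
    · rcases brec_true h with h | h
      · exact mRel_good (T := T) hM0 [Lt.b, Lt.a, Lt.a, Lt.a, Lt.ci, Lt.b, Lt.a, Lt.ci, Lt.b, Lt.c, Lt.ai, Lt.b, Lt.c, Lt.ai] [Lt.a, Lt.a] (pat hy (rf_13 hy) 15 rfl) h
      · exact mRel_good (T := T) hM0 [Lt.ci, Lt.b, Lt.c, Lt.ai, Lt.ci, Lt.d, Lt.a, Lt.ci, Lt.b, Lt.c, Lt.ai] [Lt.ai, Lt.c, Lt.d] (pat hy (rb_6 hy) 2 rfl) h
  · rcases brec_true h with h | h
    · exact mRel_good (T := T) hM0 [Lt.ci, Lt.b, Lt.d, Lt.b, Lt.d, Lt.b, Lt.d] [Lt.ai, Lt.ci, Lt.ai, Lt.ci, Lt.ci] (pat hy (rf_5 hy) 10 rfl) h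
    · rcases brec_true h with h | h
      · exact mRel_good (T := T) hM0 [Lt.b, Lt.ai, Lt.ai, Lt.ci, Lt.d, Lt.a] [Lt.ai, Lt.c, Lt.a, Lt.ci, Lt.d, Lt.a, Lt.a, Lt.d, Lt.b, Lt.d, Lt.ai] (pat hy (rb_15 hy) 4 rfl) h
      · exact mRel_good (T := T) hM0 [Lt.ci, Lt.ci, Lt.a, Lt.ci, Lt.b, Lt.d, Lt.b, Lt.c, Lt.ai, Lt.c] [Lt.d, Lt.ci] (pat hy (rf_4 hy) 6 rfl) h
theorem dM_325_s (hy : Hy g H) (j z1 z2 u : ℕ) (h : dM_325 j z1 z2 u = true) : GdM g H u := by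
  unfold dM_325 at h
  rcases brec_true h with h | h
  · rcases brec_true h with h | h
    · exact mRel_good (T := T) hM0 [Lt.a, Lt.b, Lt.ai, Lt.c, Lt.a, Lt.ci, Lt.d, Lt.a, Lt.a, Lt.d] [Lt.ai, Lt.ci, Lt.d, Lt.a, Lt.a, Lt.d, Lt.b] (pat hy (rf_15 hy) 11 rfl) h
    · rcases brec_true h with h | h
      · exact mRel_good (T := T) hM0 [Lt.b, Lt.a, Lt.a, Lt.ci, Lt.a] [Lt.ci, Lt.b, Lt.a, Lt.a, Lt.ci, Lt.ai, Lt.b, Lt.ai, Lt.b, Lt.ai] (pat hy (rf_10 hy) 11 rfl) h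
      · exact mRel_good (T := T) hM0 [Lt.ci, Lt.d, Lt.b, Lt.d, Lt.b, Lt.d, Lt.b, Lt.c, Lt.ai, Lt.ci, Lt.ai] [Lt.c] (pat hy (rb_5 hy) 6 rfl) h
  · rcases brec_true h with h | h
    · rcases brec_true h with h | h
      · exact mRel_good (T := T) hM0 [Lt.a, Lt.b, Lt.ai, Lt.ai, Lt.ci, Lt.b, Lt.ci, Lt.b, Lt.c, Lt.b, Lt.ai, Lt.b, Lt.a, Lt.b] [] (pat hy (rb_7 hy) 10 rfl) h
      · exact mRel_good (T := T) hM0 [Lt.ci, Lt.d, Lt.a, Lt.a] [Lt.ai, Lt.ci, Lt.a, Lt.b, Lt.ai, Lt.ai, Lt.ci, Lt.d, Lt.a, Lt.a, Lt.d, Lt.b, Lt.d] (pat hy (rf_15 hy) 16 rfl) h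
    · rcases brec_true h with h | h
      · exact mRel_good (T := T) hM0 [Lt.b, Lt.c, Lt.b, Lt.c, Lt.a, Lt.b, Lt.ai, Lt.b, Lt.ai, Lt.ai, Lt.ai] [Lt.c, Lt.a, Lt.b, Lt.a] (pat hy (rb_8 hy) 3 rfl) h
      · exact mRel_good (T := T) hM0 [Lt.a, Lt.a, Lt.ci, Lt.ai, Lt.b, Lt.ai, Lt.b, Lt.ai, Lt.ai] [Lt.b, Lt.c, Lt.b, Lt.a, Lt.a, Lt.ci] (pat hy (rb_10 hy) 6 rfl) h
theorem dM_326_s (hy : Hy g H) (j z1 z2 u : ℕ) (h : dM_326 j z1 z2 u = true) : GdM g H u := by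
  unfold dM_326 at h
  rcases brec_true h with h | h
  · exact dM_324_s hy j z1 z2 u h
  · exact dM_325_s hy j z1 z2 u h
theorem dM_327_s (hy : Hy g H) (j z1 z2 u : ℕ) (h : dM_327 j z1 z2 u = true) : GdM g H u := by
  unfold dM_327 at h
  rcases brec_true h with h | h
  · rcases brec_true h with h | h
    · exact mRel_good (T := T) hM0 [Lt.c, Lt.d, Lt.a, Lt.ci, Lt.b, Lt.c, Lt.ai, Lt.d] [Lt.a, Lt.ci, Lt.b, Lt.c, Lt.ai, Lt.ci] (pat hy (rf_6 hy) 13 rfl) h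
    · rcases brec_true h with h | h
      · exact mRel_good (T := T) hM0 [Lt.b, Lt.ai, Lt.ci, Lt.b, Lt.ci, Lt.b, Lt.c, Lt.a, Lt.b, Lt.a, Lt.a, Lt.a, Lt.a] [Lt.ai, Lt.b] (pat hy (rf_8 hy) 6 rfl) h
      · exact mRel_good (T := T) hM0 [Lt.a, Lt.b] [Lt.b, Lt.ai, Lt.ai, Lt.b, Lt.a, Lt.b, Lt.ci, Lt.ci, Lt.b, Lt.c, Lt.c, Lt.b, Lt.a] (pat hy (rf_9 hy) 3 rfl) h
  · rcases brec_true h with h | h
    · exact mRel_good (T := T) hM0 [Lt.b, Lt.ai] [Lt.ai, Lt.b, Lt.ai, Lt.ai, Lt.b, Lt.a, Lt.b, Lt.ci, Lt.ci, Lt.b, Lt.c, Lt.c, Lt.b] (pat hy (rf_9 hy) 4 rfl) h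
    · rcases brec_true h with h | h
      · exact mRel_good (T := T) hM0 [Lt.b, Lt.c, Lt.b] [Lt.c, Lt.b, Lt.c, Lt.a, Lt.a, Lt.b, Lt.ai, Lt.b, Lt.ai, Lt.b, Lt.a] (pat hy (rb_7 hy) 3 rfl) h
      · exact mRel_good (T := T) hM0 [Lt.b, Lt.c, Lt.a, Lt.b, Lt.ai] [Lt.ci, Lt.b, Lt.c, Lt.a, Lt.b, Lt.a, Lt.a, Lt.a, Lt.a, Lt.b] (pat hy (rb_8 hy) 5 rfl) h
theorem dM_328_s (hy : Hy g H) (j z1 z2 u : ℕ) (h : dM_328 j z1 z2 u = true) : GdM g H u := by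
  unfold dM_328 at h
  rcases brec_true h with h | h
  · rcases brec_true h with h | h
    · exact mRel_good (T := T) hM0 [Lt.b, Lt.c, Lt.a, Lt.a, Lt.b, Lt.ai, Lt.b, Lt.ai, Lt.b, Lt.a] [Lt.ci, Lt.b, Lt.c, Lt.b] (pat hy (rf_7 hy) 12 rfl) h
    · rcases brec_true h with h | h
      · exact mRel_good (T := T) hM0 [Lt.ai, Lt.b, Lt.a, Lt.a, Lt.b, Lt.a, Lt.b, Lt.ai] [Lt.b, Lt.ci, Lt.ci, Lt.b, Lt.c, Lt.c, Lt.b] (pat hy (rf_9 hy) 13 rfl) h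
      · exact mRel_good (T := T) hM0 [Lt.d, Lt.a, Lt.ci, Lt.b, Lt.c, Lt.ai, Lt.d, Lt.c, Lt.a, Lt.c] [Lt.c, Lt.a, Lt.a, Lt.b, Lt.a, Lt.a, Lt.a, Lt.ci] (pat hy (rb_19 hy) 11 rfl) h
  · rcases brec_true h with h | h
    · rcases brec_true h with h | h
      · exact mRel_good (T := T) hM0 [Lt.ci, Lt.b, Lt.c, Lt.ai, Lt.c, Lt.d, Lt.a, Lt.ci, Lt.b] [Lt.ai, Lt.ci, Lt.d, Lt.a, Lt.ci] (pat hy (rf_6 hy) 9 rfl) h
      · exact mRel_good (T := T) hM0 [Lt.ci, Lt.ai, Lt.ci, Lt.ci, Lt.d, Lt.b, Lt.d, Lt.b, Lt.d, Lt.b, Lt.c, Lt.ai] [] (pat hy (rb_5 hy) 3 rfl) h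
    · rcases brec_true h with h | h
      · exact mRel_good (T := T) hM0 [Lt.a, Lt.b, Lt.ai, Lt.b, Lt.ai, Lt.b] [Lt.ai, Lt.ci, Lt.b, Lt.ci, Lt.b, Lt.c, Lt.b, Lt.ai] (pat hy (rf_7 hy) 1 rfl) h
      · exact mRel_good (T := T) hM0 [Lt.ci, Lt.b, Lt.c, Lt.ai, Lt.ci, Lt.d, Lt.a, Lt.ci, Lt.b] [Lt.ai, Lt.c, Lt.d, Lt.a, Lt.ci] (pat hy (rb_6 hy) 2 rfl) h
theorem dM_329_s (hy : Hy g H) (j z1 z2 u : ℕ) (h : dM_329 j z1 z2 u = true) : GdM g H u := by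
  unfold dM_329 at h
  rcases brec_true h with h | h
  · exact dM_327_s hy j z1 z2 u h
  · exact dM_328_s hy j z1 z2 u h
theorem dM_330_s (hy : Hy g H) (j z1 z2 u : ℕ) (h : dM_330 j z1 z2 u = true) : GdM g H u := by
  unfold dM_330 at h
  rcases brec_true h with h | h
  · exact dM_326_s hy j z1 z2 u h
  · exact dM_329_s hy j z1 z2 u h
theorem dM_331_s (hy : Hy g H) (j z1 z2 u : ℕ) (h : dM_331 j z1 z2 u = true) : GdM g H u := by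
  unfold dM_331 at h
  rcases brec_true h with h | h
  · rcases brec_true h with h | h
    · exact mRel_good (T := T) hM0 [Lt.b, Lt.c, Lt.ai, Lt.c, Lt.c, Lt.d, Lt.ci, Lt.ci, Lt.a, Lt.ci, Lt.b] [Lt.d] (pat hy (rf_4 hy) 0 rfl) h
    · rcases brec_true h with h | h
      · exact mRel_good (T := T) hM0 [Lt.c, Lt.ai, Lt.c, Lt.c, Lt.d, Lt.ci, Lt.ci] [Lt.b, Lt.d, Lt.b, Lt.c, Lt.ai] (pat hy (rf_4 hy) 1 rfl) h
      · exact mRel_good (T := T) hM0 [Lt.b, Lt.ai, Lt.b, Lt.ai, Lt.ai, Lt.ai] [Lt.ai, Lt.ci, Lt.b, Lt.ci, Lt.b, Lt.c, Lt.a, Lt.b, Lt.a] (pat hy (rb_8 hy) 8 rfl) h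
  · rcases brec_true h with h | h
    · exact mRel_good (T := T) hM0 [Lt.c, Lt.a, Lt.c] [Lt.ci, Lt.d, Lt.b, Lt.d, Lt.b, Lt.d, Lt.b, Lt.c, Lt.ai] (pat hy (rf_5 hy) 6 rfl) h
    · rcases brec_true h with h | h
      · exact mRel_good (T := T) hM0 [Lt.ci, Lt.b, Lt.c, Lt.b, Lt.ai, Lt.b, Lt.a, Lt.b, Lt.a, Lt.b, Lt.ai, Lt.ai, Lt.ci] [Lt.b] (pat hy (rb_7 hy) 2 rfl) h
      · exact mRel_good (T := T) hM0 [Lt.ai, Lt.ci, Lt.b, Lt.ci, Lt.b] [Lt.b, Lt.ai, Lt.b, Lt.ai, Lt.ai, Lt.ai, Lt.ai, Lt.b, Lt.ai, Lt.ci] (pat hy (rf_8 hy) 7 rfl) h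
theorem dM_332_s (hy : Hy g H) (j z1 z2 u : ℕ) (h : dM_332 j z1 z2 u = true) : GdM g H u := by
  unfold dM_332 at h
  rcases brec_true h with h | h
  · rcases brec_true h with h | h
    · exact mRel_good (T := T) hM0 [Lt.ci, Lt.ci, Lt.d, Lt.b, Lt.d, Lt.b, Lt.d, Lt.b, Lt.c] [Lt.a, Lt.c, Lt.a] (pat hy (rb_5 hy) 5 rfl) h
    · rcases brec_true h with h | h
      · exact mRel_good (T := T) hM0 [Lt.a, Lt.a, Lt.a, Lt.a, Lt.ci, Lt.b, Lt.ci, Lt.ci, Lt.b, Lt.c] [Lt.ai, Lt.ai, Lt.ai, Lt.ai, Lt.b, Lt.a, Lt.a] (pat hy (rf_18 hy) 4 rfl) h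
      · exact mRel_good (T := T) hM0 [Lt.ai, Lt.c, Lt.ai, Lt.ai, Lt.b, Lt.ci, Lt.b, Lt.a, Lt.a, Lt.ci, Lt.ai] [Lt.a, Lt.b, Lt.a, Lt.b] (pat hy (rb_10 hy) 14 rfl) h
  · rcases brec_true h with h | h
    · rcases brec_true h with h | h
      · exact mRel_good (T := T) hM0 [Lt.b, Lt.ai, Lt.b, Lt.a, Lt.a, Lt.ci, Lt.b, Lt.c, Lt.b, Lt.c, Lt.ai, Lt.ai, Lt.ai, Lt.b, Lt.a, Lt.b, Lt.a] [] (pat hy (rb_17 hy) 4 rfl) h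
      · exact mRel_good (T := T) hM0 [Lt.ci, Lt.b, Lt.ai, Lt.b, Lt.a, Lt.b, Lt.a, Lt.a, Lt.b, Lt.ai, Lt.c, Lt.c] [Lt.c, Lt.a, Lt.c, Lt.ai] (pat hy (rf_12 hy) 10 rfl) h
    · rcases brec_true h with h | h
      · exact mRel_good (T := T) hM0 [Lt.ci, Lt.ai, Lt.ci, Lt.ci, Lt.b, Lt.ai, Lt.b, Lt.a, Lt.b, Lt.a, Lt.a, Lt.b, Lt.ai, Lt.c] [Lt.ai, Lt.ci] (pat hy (rf_12 hy) 7 rfl) h
      · exact mRel_good (T := T) hM0 [Lt.a] [Lt.ai, Lt.b, Lt.c, Lt.b, Lt.a, Lt.a, Lt.ci, Lt.a, Lt.a, Lt.b, Lt.a, Lt.b, Lt.a, Lt.c] (pat hy (rb_10 hy) 7 rfl) h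
theorem dM_333_s (hy : Hy g H) (j z1 z2 u : ℕ) (h : dM_333 j z1 z2 u = true) : GdM g H u := by
  unfold dM_333 at h
  rcases brec_true h with h | h
  · exact dM_331_s hy j z1 z2 u h
  · exact dM_332_s hy j z1 z2 u h
theorem dM_334_s (hy : Hy g H) (j z1 z2 u : ℕ) (h : dM_334 j z1 z2 u = true) : GdM g H u := by
  unfold dM_334 at h
  rcases brec_true h with h | h
  · rcases brec_true h with h | h
    · exact mRel_good (T := T) hM0 [Lt.b, Lt.ci, Lt.ci, Lt.b, Lt.c, Lt.c, Lt.b, Lt.a, Lt.b, Lt.ai] [Lt.ai, Lt.b, Lt.a, Lt.a, Lt.b] (pat hy (rb_9 hy) 2 rfl) h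
    · rcases brec_true h with h | h
      · exact mRel_good (T := T) hM0 [Lt.ai, Lt.b] [Lt.b, Lt.ai, Lt.ai, Lt.ci, Lt.b, Lt.ci, Lt.b, Lt.c, Lt.b, Lt.ai, Lt.b, Lt.a] (pat hy (rf_7 hy) 3 rfl) h
      · exact mRel_good (T := T) hM0 [Lt.c, Lt.b, Lt.c, Lt.a, Lt.a, Lt.b, Lt.ai, Lt.b] [Lt.b, Lt.c, Lt.b, Lt.ai, Lt.b, Lt.a] (pat hy (rf_7 hy) 11 rfl) h
  · rcases brec_true h with h | h
    · exact mRel_good (T := T) hM0 [Lt.d, Lt.ci, Lt.a] [Lt.a, Lt.ci, Lt.b, Lt.c, Lt.ai, Lt.d, Lt.c, Lt.a, Lt.ci, Lt.b, Lt.c] (pat hy (rb_6 hy) 13 rfl) h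
    · rcases brec_true h with h | h
      · exact mRel_good (T := T) hM0 [Lt.ai, Lt.b, Lt.ai, Lt.b, Lt.a, Lt.b, Lt.ci, Lt.b] [Lt.b, Lt.ai, Lt.ai, Lt.ci, Lt.b, Lt.ci] (pat hy (rf_7 hy) 3 rfl) h
      · exact mRel_good (T := T) hM0 [Lt.c, Lt.b, Lt.a, Lt.a, Lt.ci, Lt.a, Lt.a, Lt.b, Lt.a, Lt.b, Lt.a, Lt.c] [Lt.b, Lt.a, Lt.a] (pat hy (rf_10 hy) 10 rfl) h
theorem dM_335_s (hy : Hy g H) (j z1 z2 u : ℕ) (h : dM_335 j z1 z2 u = true) : GdM g H u := by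
  unfold dM_335 at h
  rcases brec_true h with h | h
  · rcases brec_true h with h | h
    · exact mRel_good (T := T) hM0 [Lt.a, Lt.b, Lt.ai, Lt.b, Lt.ai, Lt.ai] [Lt.b, Lt.ci, Lt.ci, Lt.b, Lt.c, Lt.c, Lt.b, Lt.ai, Lt.b] (pat hy (rb_9 hy) 9 rfl) h
    · rcases brec_true h with h | h
      · exact mRel_good (T := T) hM0 [Lt.b, Lt.ai, Lt.ai, Lt.c] [Lt.a, Lt.b, Lt.a, Lt.c, Lt.ai, Lt.ai, Lt.b, Lt.c, Lt.b, Lt.a, Lt.a] (pat hy (rb_10 hy) 12 rfl) h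
      · exact mRel_good (T := T) hM0 [Lt.ai, Lt.ai, Lt.ai, Lt.b, Lt.ai] [Lt.a, Lt.b, Lt.a, Lt.b, Lt.ai, Lt.ci, Lt.b, Lt.ci, Lt.b, Lt.c] (pat hy (rb_8 hy) 12 rfl) h
  · rcases brec_true h with h | h
    · rcases brec_true h with h | h
      · exact mRel_good (T := T) hM0 [Lt.a, Lt.a, Lt.a, Lt.ci, Lt.b] [Lt.b, Lt.a, Lt.a, Lt.a, Lt.ci, Lt.b, Lt.a, Lt.ci, Lt.b, Lt.c, Lt.ai] (pat hy (rf_13 hy) 0 rfl) h
      · exact mRel_good (T := T) hM0 [Lt.b, Lt.c, Lt.a, Lt.a, Lt.b, Lt.ai, Lt.b] [Lt.ci, Lt.b, Lt.c, Lt.b, Lt.ai, Lt.b, Lt.a] (pat hy (rf_7 hy) 12 rfl) h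
    · rcases brec_true h with h | h
      · exact mRel_good (T := T) hM0 [Lt.b, Lt.a, Lt.b, Lt.ai, Lt.b, Lt.ai, Lt.ai, Lt.b, Lt.a, Lt.b, Lt.ci, Lt.ci, Lt.b] [Lt.ci, Lt.ci] (pat hy (rb_9 hy) 8 rfl) h
      · exact mRel_good (T := T) hM0 [Lt.a, Lt.b, Lt.a, Lt.c, Lt.ai, Lt.ai, Lt.b, Lt.c, Lt.b, Lt.a, Lt.a, Lt.ci, Lt.a] [Lt.b, Lt.ai] (pat hy (rf_10 hy) 3 rfl) h
theorem dM_336_s (hy : Hy g H) (j z1 z2 u : ℕ) (h : dM_336 j z1 z2 u = true) : GdM g H u := by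
  unfold dM_336 at h
  rcases brec_true h with h | h
  · exact dM_334_s hy j z1 z2 u h
  · exact dM_335_s hy j z1 z2 u h
theorem dM_337_s (hy : Hy g H) (j z1 z2 u : ℕ) (h : dM_337 j z1 z2 u = true) : GdM g H u := by
  unfold dM_337 at h
  rcases brec_true h with h | h
  · exact dM_333_s hy j z1 z2 u h
  · exact dM_336_s hy j z1 z2 u h
theorem dM_338_s (hy : Hy g H) (j z1 z2 u : ℕ) (h : dM_338 j z1 z2 u = true) : GdM g H u := by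
  unfold dM_338 at h
  rcases brec_true h with h | h
  · exact dM_330_s hy j z1 z2 u h
  · exact dM_337_s hy j z1 z2 u h
theorem dM_339_s (hy : Hy g H) (j z1 z2 u : ℕ) (h : dM_339 j z1 z2 u = true) : GdM g H u := by
  unfold dM_339 at h
  rcases brec_true h with h | h
  · rcases brec_true h with h | h
    · exact mRel_good (T := T) hM0 [Lt.a, Lt.a, Lt.b, Lt.a] [Lt.b, Lt.a, Lt.b, Lt.ci, Lt.ci, Lt.b, Lt.c, Lt.c, Lt.b, Lt.a, Lt.b] (pat hy (rf_9 hy) 0 rfl) h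
    · rcases brec_true h with h | h
      · exact mRel_good (T := T) hM0 [Lt.ai, Lt.ai, Lt.c, Lt.ai, Lt.ai, Lt.b, Lt.ci, Lt.b, Lt.a, Lt.a, Lt.ci, Lt.ai, Lt.b] [Lt.b, Lt.a] (pat hy (rb_10 hy) 13 rfl) h
      · exact mRel_good (T := T) hM0 [Lt.b, Lt.a, Lt.a, Lt.b, Lt.a] [Lt.a, Lt.a, Lt.b, Lt.ai, Lt.b, Lt.ai, Lt.ai, Lt.b, Lt.a, Lt.a, Lt.b] (pat hy (rf_14 hy) 7 rfl) h
  · rcases brec_true h with h | h
    · exact mRel_good (T := T) hM0 [Lt.b, Lt.ai, Lt.ai, Lt.b, Lt.a, Lt.b, Lt.ci, Lt.ci] [Lt.a, Lt.b, Lt.ai, Lt.b, Lt.ci, Lt.ci, Lt.b] (pat hy (rb_9 hy) 12 rfl) h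
    · rcases brec_true h with h | h
      · exact mRel_good (T := T) hM0 [Lt.b, Lt.ci, Lt.b, Lt.a, Lt.a, Lt.ci, Lt.ai, Lt.b, Lt.ai, Lt.b, Lt.ai] [Lt.a, Lt.a, Lt.ci, Lt.a] (pat hy (rb_10 hy) 3 rfl) h
      · exact mRel_good (T := T) hM0 [Lt.ai, Lt.b, Lt.c, Lt.b, Lt.a, Lt.a] [Lt.a, Lt.ci, Lt.ai, Lt.b, Lt.ai, Lt.b, Lt.ai, Lt.ai, Lt.c] (pat hy (rf_10 hy) 8 rfl) h
theorem dM_340_s (hy : Hy g H) (j z1 z2 u : ℕ) (h : dM_340 j z1 z2 u = true) : GdM g H u := by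
  unfold dM_340 at h
  rcases brec_true h with h | h
  · rcases brec_true h with h | h
    · exact mRel_good (T := T) hM0 [Lt.ci, Lt.ci, Lt.a, Lt.b, Lt.ai, Lt.ai, Lt.b, Lt.ai, Lt.b, Lt.a, Lt.b] [Lt.a, Lt.ci, Lt.ai, Lt.ci, Lt.ci] (pat hy (rb_12 hy) 10 rfl) h
    · rcases brec_true h with h | h
      · exact mRel_good (T := T) hM0 [Lt.ci, Lt.ci, Lt.b] [Lt.b, Lt.ai, Lt.b, Lt.a, Lt.a, Lt.b, Lt.a, Lt.b, Lt.ai, Lt.b, Lt.ci, Lt.ci] (pat hy (rb_9 hy) 3 rfl) h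
      · exact mRel_good (T := T) hM0 [Lt.ai, Lt.b, Lt.a, Lt.b, Lt.c, Lt.c, Lt.a, Lt.c] [Lt.b, Lt.a, Lt.a, Lt.b, Lt.ai, Lt.c, Lt.c, Lt.a] (pat hy (rb_12 hy) 1 rfl) h
  · rcases brec_true h with h | h
    · rcases brec_true h with h | h
      · exact mRel_good (T := T) hM0 [Lt.a, Lt.b, Lt.a, Lt.c, Lt.ai] [Lt.b, Lt.ai, Lt.ai, Lt.c, Lt.ai, Lt.ai, Lt.b, Lt.ci, Lt.b, Lt.a] (pat hy (rf_10 hy) 3 rfl) h
      · exact mRel_good (T := T) hM0 [Lt.b, Lt.a, Lt.a, Lt.ci, Lt.a, Lt.a, Lt.b] [Lt.ci, Lt.b, Lt.a, Lt.a, Lt.ci, Lt.ai, Lt.b, Lt.ai] (pat hy (rf_10 hy) 11 rfl) h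
    · rcases brec_true h with h | h
      · exact mRel_good (T := T) hM0 [Lt.ai, Lt.b, Lt.ai] [Lt.a, Lt.a, Lt.a, Lt.b, Lt.a, Lt.b, Lt.ai, Lt.ci, Lt.b, Lt.ci, Lt.b, Lt.c] (pat hy (rb_8 hy) 14 rfl) h
      · exact mRel_good (T := T) hM0 [Lt.ci, Lt.a, Lt.a, Lt.b, Lt.a, Lt.b, Lt.a, Lt.c, Lt.ai, Lt.ai, Lt.b, Lt.c, Lt.b, Lt.a, Lt.a] [] (pat hy (rf_10 hy) 14 rfl) h
theorem dM_341_s (hy : Hy g H) (j z1 z2 u : ℕ) (h : dM_341 j z1 z2 u = true) : GdM g H u := by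
  unfold dM_341 at h
  rcases brec_true h with h | h
  · exact dM_339_s hy j z1 z2 u h
  · exact dM_340_s hy j z1 z2 u h
theorem dM_342_s (hy : Hy g H) (j z1 z2 u : ℕ) (h : dM_342 j z1 z2 u = true) : GdM g H u := by
  unfold dM_342 at h
  rcases brec_true h with h | h
  · rcases brec_true h with h | h
    · exact mRel_good (T := T) hM0 [Lt.ai, Lt.b, Lt.ai, Lt.ai, Lt.b, Lt.a] [Lt.b, Lt.ai, Lt.b, Lt.ci, Lt.ci, Lt.b, Lt.c, Lt.c, Lt.b] (pat hy (rb_9 hy) 11 rfl) h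
    · rcases brec_true h with h | h
      · exact mRel_good (T := T) hM0 [Lt.ci, Lt.b, Lt.d, Lt.b, Lt.c, Lt.ai, Lt.c, Lt.c, Lt.d, Lt.ci, Lt.ci] [Lt.ai] (pat hy (rf_4 hy) 9 rfl) h
      · exact mRel_good (T := T) hM0 [Lt.a, Lt.b, Lt.ai, Lt.b, Lt.ci, Lt.ci, Lt.b, Lt.c, Lt.c] [Lt.b, Lt.ai, Lt.ai, Lt.b, Lt.a, Lt.b] (pat hy (rf_9 hy) 3 rfl) h
  · rcases brec_true h with h | h
    · exact mRel_good (T := T) hM0 [Lt.b, Lt.c, Lt.c, Lt.b] [Lt.c, Lt.c, Lt.b, Lt.a, Lt.b, Lt.ai, Lt.b, Lt.ai, Lt.ai, Lt.b, Lt.a] (pat hy (rf_9 hy) 9 rfl) h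
    · rcases brec_true h with h | h
      · exact mRel_good (T := T) hM0 [Lt.ai, Lt.ai, Lt.ai, Lt.b, Lt.ai, Lt.ci, Lt.b, Lt.c, Lt.b, Lt.c, Lt.a, Lt.b, Lt.ai, Lt.b] [Lt.a] (pat hy (rb_8 hy) 12 rfl) h
      · exact mRel_good (T := T) hM0 [Lt.ai] [Lt.b, Lt.a, Lt.a, Lt.a, Lt.a, Lt.b, Lt.a, Lt.b, Lt.ai, Lt.ci, Lt.b, Lt.ci, Lt.b, Lt.c] (pat hy (rb_8 hy) 1 rfl) h
theorem dM_343_s (hy : Hy g H) (j z1 z2 u : ℕ) (h : dM_343 j z1 z2 u = true) : GdM g H u := by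
  unfold dM_343 at h
  rcases brec_true h with h | h
  · rcases brec_true h with h | h
    · exact mRel_good (T := T) hM0 [Lt.ci, Lt.b] [Lt.c, Lt.b, Lt.a, Lt.b, Lt.ai, Lt.b, Lt.ai, Lt.ai, Lt.b, Lt.a, Lt.b, Lt.ci, Lt.ci] (pat hy (rf_9 hy) 8 rfl) h
    · rcases brec_true h with h | h
      · exact mRel_good (T := T) hM0 [Lt.ai, Lt.d, Lt.c, Lt.a, Lt.a, Lt.b, Lt.ai, Lt.c, Lt.a, Lt.ci, Lt.d, Lt.a, Lt.a, Lt.d, Lt.b] [Lt.a, Lt.d] (pat hy (rf_15 hy) 7 rfl) h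
      · exact mRel_good (T := T) hM0 [Lt.a, Lt.a, Lt.a, Lt.a, Lt.b, Lt.a, Lt.b] [Lt.b, Lt.ai, Lt.ci, Lt.b, Lt.c, Lt.b, Lt.c, Lt.a] (pat hy (rf_8 hy) 0 rfl) h
  · rcases brec_true h with h | h
    · rcases brec_true h with h | h
      · exact mRel_good (T := T) hM0 [Lt.a, Lt.ci, Lt.d, Lt.a, Lt.a, Lt.d, Lt.b, Lt.d, Lt.ai] [Lt.ci, Lt.a, Lt.b, Lt.ai, Lt.ai, Lt.ci, Lt.d, Lt.a] (pat hy (rf_15 hy) 15 rfl) h
      · exact mRel_good (T := T) hM0 [Lt.c, Lt.a, Lt.a, Lt.b, Lt.ai, Lt.c, Lt.a, Lt.ci, Lt.d] [Lt.d, Lt.a, Lt.a, Lt.d, Lt.b, Lt.d, Lt.ai, Lt.ai] (pat hy (rf_15 hy) 9 rfl) h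
    · rcases brec_true h with h | h
      · exact mRel_good (T := T) hM0 [Lt.ai, Lt.d, Lt.c, Lt.a, Lt.a, Lt.b, Lt.ai, Lt.c, Lt.a, Lt.ci, Lt.d, Lt.a, Lt.a, Lt.d] [Lt.a, Lt.d, Lt.b] (pat hy (rf_15 hy) 7 rfl) h
      · exact mRel_good (T := T) hM0 [Lt.ai, Lt.ci, Lt.ai, Lt.d, Lt.ci, Lt.ci, Lt.b, Lt.c] [Lt.ci, Lt.b, Lt.c, Lt.ai, Lt.ci, Lt.ai, Lt.d, Lt.ci] (pat hy (rf_11 hy) 13 rfl) h
theorem dM_344_s (hy : Hy g H) (j z1 z2 u : ℕ) (h : dM_344 j z1 z2 u = true) : GdM g H u := by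
  unfold dM_344 at h
  rcases brec_true h with h | h
  · exact dM_342_s hy j z1 z2 u h
  · exact dM_343_s hy j z1 z2 u h
theorem dM_345_s (hy : Hy g H) (j z1 z2 u : ℕ) (h : dM_345 j z1 z2 u = true) : GdM g H u := by
  unfold dM_345 at h
  rcases brec_true h with h | h
  · exact dM_341_s hy j z1 z2 u h
  · exact dM_344_s hy j z1 z2 u h
theorem dM_346_s (hy : Hy g H) (j z1 z2 u : ℕ) (h : dM_346 j z1 z2 u = true) : GdM g H u := by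
  unfold dM_346 at h
  rcases brec_true h with h | h
  · rcases brec_true h with h | h
    · exact mRel_good (T := T) hM0 [Lt.c, Lt.d, Lt.ci, Lt.ci, Lt.a, Lt.ci, Lt.b, Lt.d, Lt.b, Lt.c, Lt.ai, Lt.c] [] (pat hy (rf_4 hy) 4 rfl) h
    · rcases brec_true h with h | h
      · exact mRel_good (T := T) hM0 [Lt.b, Lt.a] [Lt.ai, Lt.ai, Lt.c, Lt.ai, Lt.ai, Lt.b, Lt.ci, Lt.b, Lt.a, Lt.a, Lt.ci, Lt.ai, Lt.b] (pat hy (rf_10 hy) 2 rfl) h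
      · exact mRel_good (T := T) hM0 [Lt.ai, Lt.b, Lt.ci, Lt.ci, Lt.b, Lt.c, Lt.c, Lt.b, Lt.ai, Lt.b] [Lt.b, Lt.ai, Lt.b, Lt.ai, Lt.ai] (pat hy (rf_9 hy) 5 rfl) h
  · rcases brec_true h with h | h
    · exact mRel_good (T := T) hM0 [Lt.ai, Lt.b, Lt.ci, Lt.b, Lt.a, Lt.a, Lt.ci] [Lt.a, Lt.ci, Lt.a, Lt.a, Lt.b, Lt.a, Lt.b, Lt.a] (pat hy (rb_10 hy) 2 rfl) h
    · rcases brec_true h with h | h
      · exact mRel_good (T := T) hM0 [Lt.a, Lt.b, Lt.a, Lt.b, Lt.ai, Lt.ci, Lt.b, Lt.ci, Lt.b] [Lt.ai, Lt.ai, Lt.ai, Lt.b, Lt.ai, Lt.ci] (pat hy (rf_8 hy) 3 rfl) h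
      · exact mRel_good (T := T) hM0 [Lt.ai, Lt.b] [Lt.b, Lt.ai, Lt.ci, Lt.b, Lt.ci, Lt.b, Lt.c, Lt.a, Lt.b, Lt.a, Lt.a, Lt.a, Lt.a] (pat hy (rb_8 hy) 9 rfl) h
theorem dM_347_s (hy : Hy g H) (j z1 z2 u : ℕ) (h : dM_347 j z1 z2 u = true) : GdM g H u := by
  unfold dM_347 at h
  rcases brec_true h with h | h
  · rcases brec_true h with h | h
    · exact mRel_good (T := T) hM0 [Lt.b, Lt.d, Lt.b, Lt.d, Lt.b] [Lt.d, Lt.c, Lt.c, Lt.a, Lt.c, Lt.a, Lt.ci] (pat hy (rb_5 hy) 8 rfl) h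
    · rcases brec_true h with h | h
      · exact mRel_good (T := T) hM0 [Lt.a, Lt.a] [Lt.b, Lt.a, Lt.b, Lt.a, Lt.b, Lt.ai, Lt.b, Lt.a, Lt.a, Lt.ci, Lt.b, Lt.c, Lt.b, Lt.c, Lt.ai] (pat hy (rf_17 hy) 0 rfl) h
      · exact mRel_good (T := T) hM0 [Lt.b, Lt.c, Lt.ai, Lt.d, Lt.ci, Lt.a, Lt.ci] [Lt.c, Lt.ai, Lt.d, Lt.c, Lt.a, Lt.ci, Lt.b] (pat hy (rb_6 hy) 10 rfl) h
  · rcases brec_true h with h | h
    · rcases brec_true h with h | h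
      · exact mRel_good (T := T) hM0 [Lt.ci] [Lt.a, Lt.ci, Lt.d, Lt.c, Lt.ai, Lt.ci, Lt.ci, Lt.d, Lt.c] (pat hy (rf_2 hy) 3 rfl) h
      · exact mRel_good (T := T) hM0 [Lt.c, Lt.a, Lt.ci, Lt.d, Lt.a, Lt.a, Lt.d, Lt.b, Lt.d] [Lt.a, Lt.b, Lt.ai, Lt.ai, Lt.ci, Lt.d, Lt.a, Lt.a] (pat hy (rf_15 hy) 14 rfl) h
    · rcases brec_true h with h | h
      · exact mRel_good (T := T) hM0 [Lt.ci, Lt.a] [Lt.d, Lt.a, Lt.ci, Lt.b, Lt.c, Lt.ai, Lt.d, Lt.c, Lt.a, Lt.ci, Lt.b, Lt.c] (pat hy (rb_6 hy) 0 rfl) h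
      · exact mRel_good (T := T) hM0 [Lt.ci] [Lt.a, Lt.c, Lt.a, Lt.ci, Lt.b, Lt.d, Lt.b, Lt.d, Lt.b, Lt.d, Lt.c] (pat hy (rb_5 hy) 5 rfl) h
theorem dM_348_s (hy : Hy g H) (j z1 z2 u : ℕ) (h : dM_348 j z1 z2 u = true) : GdM g H u := by
  unfold dM_348 at h
  rcases brec_true h with h | h
  · exact dM_346_s hy j z1 z2 u h
  · exact dM_347_s hy j z1 z2 u h
theorem dM_349_s (hy : Hy g H) (j z1 z2 u : ℕ) (h : dM_349 j z1 z2 u = true) : GdM g H u := by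
  unfold dM_349 at h
  rcases brec_true h with h | h
  · rcases brec_true h with h | h
    · exact mRel_good (T := T) hM0 [Lt.b, Lt.a, Lt.a, Lt.a, Lt.a, Lt.b, Lt.a, Lt.b, Lt.ai, Lt.ci] [Lt.ai, Lt.ci, Lt.b, Lt.c, Lt.b] (pat hy (rf_8 hy) 14 rfl) h
    · rcases brec_true h with h | h
      · exact mRel_good (T := T) hM0 [Lt.a, Lt.b, Lt.ci, Lt.b, Lt.c, Lt.b, Lt.c, Lt.a, Lt.a, Lt.b, Lt.ai, Lt.b] [Lt.b, Lt.a] (pat hy (rf_7 hy) 7 rfl) h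
      · exact mRel_good (T := T) hM0 [Lt.b, Lt.d] [Lt.d, Lt.b, Lt.d, Lt.c, Lt.c, Lt.a, Lt.c, Lt.a, Lt.ci, Lt.b] (pat hy (rb_5 hy) 10 rfl) h
  · rcases brec_true h with h | h
    · rcases brec_true h with h | h
      · exact mRel_good (T := T) hM0 [Lt.b, Lt.d, Lt.b] [Lt.d, Lt.b, Lt.d, Lt.c, Lt.c, Lt.a, Lt.c, Lt.a, Lt.ci] (pat hy (rb_5 hy) 10 rfl) h
      · exact mRel_good (T := T) hM0 [Lt.a, Lt.ci, Lt.b, Lt.d, Lt.b, Lt.c, Lt.ai, Lt.c, Lt.c, Lt.d, Lt.ci] [Lt.c] (pat hy (rf_4 hy) 8 rfl) h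
    · rcases brec_true h with h | h
      · exact mRel_good (T := T) hM0 [Lt.b, Lt.c, Lt.ai, Lt.ci, Lt.d, Lt.a, Lt.ci, Lt.b, Lt.c, Lt.ai, Lt.d] [Lt.c, Lt.ai, Lt.c] (pat hy (rb_6 hy) 3 rfl) h
      · exact mRel_good (T := T) hM0 [Lt.a, Lt.b, Lt.a, Lt.c, Lt.ai, Lt.ai] [Lt.b, Lt.ai, Lt.ai, Lt.c, Lt.ai, Lt.ai, Lt.b, Lt.ci, Lt.b] (pat hy (rf_10 hy) 3 rfl) h
theorem dM_350_s (hy : Hy g H) (j z1 z2 u : ℕ) (h : dM_350 j z1 z2 u = true) : GdM g H u := by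
  unfold dM_350 at h
  rcases brec_true h with h | h
  · rcases brec_true h with h | h
    · exact mRel_good (T := T) hM0 [Lt.c, Lt.d, Lt.ci, Lt.ci, Lt.a, Lt.ci] [Lt.ci, Lt.a, Lt.ci, Lt.b, Lt.d, Lt.b] (pat hy (rf_4 hy) 4 rfl) h
    · rcases brec_true h with h | h
      · exact mRel_good (T := T) hM0 [Lt.ci, Lt.b, Lt.a, Lt.a, Lt.ci, Lt.ai, Lt.b, Lt.ai, Lt.b, Lt.ai, Lt.ai, Lt.c] [Lt.b, Lt.a, Lt.a] (pat hy (rb_10 hy) 4 rfl) h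
      · exact mRel_good (T := T) hM0 [Lt.b] [Lt.d, Lt.b, Lt.c, Lt.ai, Lt.c, Lt.c, Lt.d, Lt.ci, Lt.ci, Lt.a, Lt.ci] (pat hy (rf_4 hy) 0 rfl) h
  · rcases brec_true h with h | h
    · rcases brec_true h with h | h
      · exact mRel_good (T := T) hM0 [Lt.ci, Lt.b, Lt.d] [Lt.ai, Lt.ci, Lt.ai, Lt.ci, Lt.ci, Lt.d, Lt.b, Lt.d, Lt.b] (pat hy (rf_5 hy) 10 rfl) h
      · exact mRel_good (T := T) hM0 [Lt.c, Lt.b, Lt.ai, Lt.b, Lt.a] [Lt.b, Lt.c, Lt.b, Lt.c, Lt.a, Lt.a, Lt.b, Lt.ai, Lt.b] (pat hy (rb_7 hy) 4 rfl) h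
    · rcases brec_true h with h | h
      · exact mRel_good (T := T) hM0 [Lt.a, Lt.a, Lt.b, Lt.a, Lt.b] [Lt.ai, Lt.ai, Lt.b, Lt.ai, Lt.ci, Lt.b, Lt.c, Lt.b, Lt.c, Lt.a] (pat hy (rf_8 hy) 2 rfl) h
      · exact mRel_good (T := T) hM0 [Lt.ai, Lt.d, Lt.c, Lt.a, Lt.a, Lt.b, Lt.ai, Lt.c, Lt.a, Lt.ci, Lt.d] [Lt.a, Lt.d, Lt.b, Lt.d, Lt.ai, Lt.ai] (pat hy (rf_15 hy) 7 rfl) h
theorem dM_351_s (hy : Hy g H) (j z1 z2 u : ℕ) (h : dM_351 j z1 z2 u = true) : GdM g H u := by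
  unfold dM_351 at h
  rcases brec_true h with h | h
  · exact dM_349_s hy j z1 z2 u h
  · exact dM_350_s hy j z1 z2 u h
theorem dM_352_s (hy : Hy g H) (j z1 z2 u : ℕ) (h : dM_352 j z1 z2 u = true) : GdM g H u := by
  unfold dM_352 at h
  rcases brec_true h with h | h
  · exact dM_348_s hy j z1 z2 u h
  · exact dM_351_s hy j z1 z2 u h
theorem dM_353_s (hy : Hy g H) (j z1 z2 u : ℕ) (h : dM_353 j z1 z2 u = true) : GdM g H u := by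
  unfold dM_353 at h
  rcases brec_true h with h | h
  · exact dM_345_s hy j z1 z2 u h
  · exact dM_352_s hy j z1 z2 u h
theorem dM_354_s (hy : Hy g H) (j z1 z2 u : ℕ) (h : dM_354 j z1 z2 u = true) : GdM g H u := by
  unfold dM_354 at h
  rcases brec_true h with h | h
  · exact dM_338_s hy j z1 z2 u h
  · exact dM_353_s hy j z1 z2 u h
theorem dM_355_s (hy : Hy g H) (j z1 z2 u : ℕ) (h : dM_355 j z1 z2 u = true) : GdM g H u := by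
  unfold dM_355 at h
  rcases brec_true h with h | h
  · rcases brec_true h with h | h
    · exact mRel_good (T := T) hM0 [Lt.c, Lt.c, Lt.a, Lt.ci, Lt.d, Lt.c, Lt.ai, Lt.ci] [Lt.d, Lt.c] (pat hy (rf_2 hy) 6 rfl) h
    · rcases brec_true h with h | h
      · exact mRel_good (T := T) hM0 [Lt.a, Lt.a, Lt.ci, Lt.a, Lt.a, Lt.b, Lt.a, Lt.b, Lt.a, Lt.c, Lt.ai, Lt.ai, Lt.b, Lt.c] [Lt.b] (pat hy (rf_10 hy) 12 rfl) h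
      · exact mRel_good (T := T) hM0 [Lt.c, Lt.a, Lt.ci, Lt.d, Lt.a] [Lt.a, Lt.b, Lt.ai, Lt.ai, Lt.ci, Lt.d, Lt.a, Lt.a, Lt.d, Lt.b, Lt.d, Lt.ai] (pat hy (rf_15 hy) 14 rfl) h
  · rcases brec_true h with h | h
    · exact mRel_good (T := T) hM0 [Lt.b, Lt.d, Lt.ai, Lt.ai, Lt.d, Lt.c, Lt.a, Lt.a, Lt.b, Lt.ai, Lt.c, Lt.a, Lt.ci, Lt.d] [Lt.d, Lt.ai, Lt.ai] (pat hy (rf_15 hy) 4 rfl) h
    · rcases brec_true h with h | h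
      · exact mRel_good (T := T) hM0 [Lt.ai, Lt.b, Lt.ai, Lt.ai, Lt.b] [Lt.b, Lt.ai, Lt.ai, Lt.b, Lt.a, Lt.a, Lt.b, Lt.a, Lt.b, Lt.ai, Lt.ai] (pat hy (rb_14 hy) 4 rfl) h
      · exact mRel_good (T := T) hM0 [Lt.ai, Lt.ai, Lt.b, Lt.a, Lt.b, Lt.ci, Lt.ci, Lt.b, Lt.c, Lt.c, Lt.b, Lt.a, Lt.b] [Lt.b, Lt.a] (pat hy (rb_9 hy) 13 rfl) h
theorem dM_356_s (hy : Hy g H) (j z1 z2 u : ℕ) (h : dM_356 j z1 z2 u = true) : GdM g H u := by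
  unfold dM_356 at h
  rcases brec_true h with h | h
  · rcases brec_true h with h | h
    · exact mRel_good (T := T) hM0 [Lt.ai, Lt.b, Lt.ai, Lt.ai] [Lt.b, Lt.ai, Lt.b, Lt.ci, Lt.ci, Lt.b, Lt.c, Lt.c, Lt.b, Lt.ai, Lt.b] (pat hy (rb_9 hy) 11 rfl) h
    · rcases brec_true h with h | h
      · exact mRel_good (T := T) hM0 [Lt.b, Lt.ai, Lt.b, Lt.ai, Lt.ai, Lt.c] [Lt.a, Lt.c, Lt.ai, Lt.ai, Lt.b, Lt.c, Lt.b, Lt.a, Lt.a] (pat hy (rb_10 hy) 10 rfl) h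
      · exact mRel_good (T := T) hM0 [Lt.b, Lt.ai, Lt.b, Lt.a, Lt.a, Lt.b, Lt.a, Lt.b] [Lt.ci, Lt.ci, Lt.b, Lt.c, Lt.c, Lt.b, Lt.a] (pat hy (rf_9 hy) 12 rfl) h
  · rcases brec_true h with h | h
    · rcases brec_true h with h | h
      · exact mRel_good (T := T) hM0 [Lt.b, Lt.a, Lt.b, Lt.ai, Lt.b, Lt.ci, Lt.ci, Lt.b, Lt.c, Lt.c, Lt.b, Lt.ai, Lt.b, Lt.a] [Lt.ai] (pat hy (rf_9 hy) 2 rfl) h
      · exact mRel_good (T := T) hM0 [Lt.b, Lt.ai, Lt.b, Lt.a] [Lt.a, Lt.b, Lt.ai, Lt.ai, Lt.ci, Lt.b, Lt.ci, Lt.b, Lt.c, Lt.b] (pat hy (rf_7 hy) 4 rfl) h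
    · rcases brec_true h with h | h
      · exact mRel_good (T := T) hM0 [Lt.c, Lt.b, Lt.a] [Lt.ci, Lt.b, Lt.c, Lt.c, Lt.b, Lt.ai, Lt.b, Lt.a, Lt.a, Lt.b, Lt.a, Lt.b] (pat hy (rb_9 hy) 7 rfl) h
      · exact mRel_good (T := T) hM0 [Lt.c, Lt.b, Lt.c, Lt.a, Lt.a, Lt.b, Lt.ai, Lt.b, Lt.ai, Lt.b, Lt.a, Lt.b, Lt.ci] [Lt.b] (pat hy (rf_7 hy) 11 rfl) h
theorem dM_357_s (hy : Hy g H) (j z1 z2 u : ℕ) (h : dM_357 j z1 z2 u = true) : GdM g H u := by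
  unfold dM_357 at h
  rcases brec_true h with h | h
  · exact dM_355_s hy j z1 z2 u h
  · exact dM_356_s hy j z1 z2 u h
theorem dM_358_s (hy : Hy g H) (j z1 z2 u : ℕ) (h : dM_358 j z1 z2 u = true) : GdM g H u := by
  unfold dM_358 at h
  rcases brec_true h with h | h
  · rcases brec_true h with h | h
    · exact mRel_good (T := T) hM0 [Lt.a, Lt.b, Lt.a, Lt.a, Lt.b, Lt.ai, Lt.c, Lt.c, Lt.a, Lt.ci, Lt.ai, Lt.ci, Lt.ci, Lt.b] [Lt.b, Lt.a] (pat hy (rf_12 hy) 14 rfl) h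
    · rcases brec_true h with h | h
      · exact mRel_good (T := T) hM0 [Lt.ai, Lt.ai, Lt.b, Lt.a] [Lt.b, Lt.ai, Lt.b, Lt.ai, Lt.ai, Lt.b, Lt.a, Lt.a, Lt.b, Lt.ai, Lt.b, Lt.ai] (pat hy (rf_14 hy) 5 rfl) h
      · exact mRel_good (T := T) hM0 [Lt.ai, Lt.ai] [Lt.a, Lt.b, Lt.a, Lt.b, Lt.ai, Lt.ci, Lt.b, Lt.ci, Lt.b, Lt.c, Lt.a, Lt.b, Lt.a] (pat hy (rb_8 hy) 12 rfl) h
  · rcases brec_true h with h | h
    · exact mRel_good (T := T) hM0 [Lt.a, Lt.b, Lt.ai, Lt.b, Lt.ai, Lt.b, Lt.a, Lt.b, Lt.ci, Lt.b, Lt.c] [Lt.ai, Lt.ci, Lt.b] (pat hy (rf_7 hy) 1 rfl) h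
    · rcases brec_true h with h | h
      · exact mRel_good (T := T) hM0 [Lt.c, Lt.a, Lt.b, Lt.ai, Lt.b] [Lt.b, Lt.ci, Lt.b, Lt.c, Lt.a, Lt.b, Lt.a, Lt.a, Lt.a, Lt.a] (pat hy (rb_8 hy) 6 rfl) h
      · exact mRel_good (T := T) hM0 [Lt.a, Lt.a, Lt.ci, Lt.a, Lt.a, Lt.b, Lt.a] [Lt.b, Lt.ci, Lt.b, Lt.a, Lt.a, Lt.ci, Lt.ai, Lt.b] (pat hy (rf_10 hy) 12 rfl) h
theorem dM_359_s (hy : Hy g H) (j z1 z2 u : ℕ) (h : dM_359 j z1 z2 u = true) : GdM g H u := by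
  unfold dM_359 at h
  rcases brec_true h with h | h
  · rcases brec_true h with h | h
    · exact mRel_good (T := T) hM0 [Lt.b, Lt.a, Lt.a, Lt.a, Lt.a, Lt.b, Lt.a, Lt.b, Lt.ai, Lt.ci, Lt.b, Lt.ci, Lt.b, Lt.c] [Lt.ai] (pat hy (rf_8 hy) 14 rfl) h
    · rcases brec_true h with h | h
      · exact mRel_good (T := T) hM0 [Lt.ci, Lt.ci, Lt.d, Lt.b, Lt.d, Lt.b, Lt.d] [Lt.a, Lt.c, Lt.a, Lt.ci, Lt.b] (pat hy (rb_5 hy) 5 rfl) h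
      · exact mRel_good (T := T) hM0 [Lt.c, Lt.c, Lt.d, Lt.a, Lt.c, Lt.a, Lt.ci, Lt.b, Lt.c, Lt.ai, Lt.ci, Lt.ai, Lt.d] [Lt.b, Lt.c, Lt.c] (pat hy (rf_11 hy) 4 rfl) h
  · rcases brec_true h with h | h
    · rcases brec_true h with h | h
      · exact mRel_good (T := T) hM0 [Lt.d, Lt.c, Lt.a, Lt.a, Lt.b, Lt.ai, Lt.c, Lt.a, Lt.ci, Lt.d, Lt.a, Lt.a, Lt.d, Lt.b, Lt.d] [Lt.a, Lt.a] (pat hy (rf_15 hy) 8 rfl) h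
      · exact mRel_good (T := T) hM0 [Lt.ai, Lt.ci, Lt.b, Lt.ci, Lt.b, Lt.c] [Lt.a, Lt.b, Lt.ai, Lt.b, Lt.ai, Lt.b, Lt.a, Lt.b] (pat hy (rb_7 hy) 13 rfl) h
    · rcases brec_true h with h | h
      · exact mRel_good (T := T) hM0 [Lt.b, Lt.d, Lt.b, Lt.d, Lt.b, Lt.d, Lt.c, Lt.c, Lt.a, Lt.c, Lt.a] [Lt.c] (pat hy (rf_5 hy) 11 rfl) h
      · exact mRel_good (T := T) hM0 [Lt.b, Lt.ai, Lt.c, Lt.a, Lt.ci, Lt.d, Lt.a, Lt.a, Lt.d, Lt.b, Lt.d, Lt.ai, Lt.ai, Lt.d] [Lt.ai, Lt.ai, Lt.ci] (pat hy (rf_15 hy) 12 rfl) h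
theorem dM_360_s (hy : Hy g H) (j z1 z2 u : ℕ) (h : dM_360 j z1 z2 u = true) : GdM g H u := by
  unfold dM_360 at h
  rcases brec_true h with h | h
  · exact dM_358_s hy j z1 z2 u h
  · exact dM_359_s hy j z1 z2 u h
theorem dM_361_s (hy : Hy g H) (j z1 z2 u : ℕ) (h : dM_361 j z1 z2 u = true) : GdM g H u := by
  unfold dM_361 at h
  rcases brec_true h with h | h
  · exact dM_357_s hy j z1 z2 u h
  · exact dM_360_s hy j z1 z2 u h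
theorem dM_362_s (hy : Hy g H) (j z1 z2 u : ℕ) (h : dM_362 j z1 z2 u = true) : GdM g H u := by
  unfold dM_362 at h
  rcases brec_true h with h | h
  · rcases brec_true h with h | h
    · exact mRel_good (T := T) hM0 [Lt.ci, Lt.ci, Lt.d, Lt.b, Lt.d, Lt.b, Lt.d, Lt.b, Lt.c, Lt.ai, Lt.ci, Lt.ai] [] (pat hy (rb_5 hy) 5 rfl) h
    · rcases brec_true h with h | h
      · exact mRel_good (T := T) hM0 [Lt.d, Lt.a, Lt.ci, Lt.b] [Lt.ci, Lt.a, Lt.ci, Lt.b, Lt.c, Lt.ai, Lt.ci, Lt.d, Lt.a, Lt.ci] (pat hy (rf_6 hy) 0 rfl) h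
      · exact mRel_good (T := T) hM0 [Lt.ci, Lt.a, Lt.b, Lt.ai, Lt.ai, Lt.ci, Lt.d, Lt.a, Lt.a] [Lt.a, Lt.ci, Lt.d, Lt.a, Lt.a, Lt.d, Lt.b, Lt.d] (pat hy (rb_15 hy) 2 rfl) h
  · rcases brec_true h with h | h
    · exact mRel_good (T := T) hM0 [Lt.d, Lt.ci, Lt.ci, Lt.b] [Lt.a, Lt.c, Lt.a, Lt.ci, Lt.b, Lt.c, Lt.ai, Lt.ci, Lt.ai, Lt.d, Lt.ci, Lt.ci] (pat hy (rf_11 hy) 0 rfl) h
    · rcases brec_true h with h | h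
      · exact mRel_good (T := T) hM0 [Lt.b, Lt.c] [Lt.c, Lt.ai, Lt.d, Lt.ci, Lt.a, Lt.ci, Lt.b, Lt.c, Lt.ai, Lt.ci, Lt.d, Lt.a] (pat hy (rf_6 hy) 3 rfl) h
      · exact mRel_good (T := T) hM0 [Lt.ai, Lt.b] [Lt.a, Lt.a, Lt.ci, Lt.b, Lt.a, Lt.ci, Lt.b, Lt.c, Lt.ai, Lt.b, Lt.c, Lt.ai, Lt.ai, Lt.ai] (pat hy (rf_13 hy) 14 rfl) h
theorem dM_363_s (hy : Hy g H) (j z1 z2 u : ℕ) (h : dM_363 j z1 z2 u = true) : GdM g H u := by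
  unfold dM_363 at h
  rcases brec_true h with h | h
  · rcases brec_true h with h | h
    · exact mRel_good (T := T) hM0 [Lt.b, Lt.a, Lt.ci, Lt.b, Lt.c, Lt.ai, Lt.b, Lt.c, Lt.ai, Lt.ai, Lt.ai, Lt.b] [Lt.c, Lt.ai, Lt.ai, Lt.ai] (pat hy (rf_13 hy) 4 rfl) h
    · rcases brec_true h with h | h
      · exact mRel_good (T := T) hM0 [Lt.b, Lt.d, Lt.b, Lt.d, Lt.b, Lt.c, Lt.ai, Lt.ci, Lt.ai, Lt.ci, Lt.ci] [Lt.d] (pat hy (rb_5 hy) 8 rfl) h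
      · exact mRel_good (T := T) hM0 [Lt.d, Lt.b, Lt.d, Lt.b, Lt.d] [Lt.c, Lt.c, Lt.a, Lt.c, Lt.a, Lt.ci, Lt.b] (pat hy (rb_5 hy) 7 rfl) h
  · rcases brec_true h with h | h
    · rcases brec_true h with h | h
      · exact mRel_good (T := T) hM0 [Lt.ai, Lt.b, Lt.a] [Lt.a, Lt.a, Lt.ci, Lt.b, Lt.a, Lt.ci, Lt.b, Lt.c, Lt.ai, Lt.b, Lt.c, Lt.ai, Lt.ai] (pat hy (rf_13 hy) 14 rfl) h
      · exact mRel_good (T := T) hM0 [Lt.a, Lt.d, Lt.b, Lt.d, Lt.ai, Lt.ai] [Lt.ai, Lt.d, Lt.c, Lt.ai, Lt.ci, Lt.a, Lt.b, Lt.ai, Lt.ai, Lt.ci, Lt.d] (pat hy (rf_15 hy) 2 rfl) h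
    · rcases brec_true h with h | h
      · exact mRel_good (T := T) hM0 [Lt.ai, Lt.b, Lt.c, Lt.ai, Lt.ai, Lt.ai, Lt.b] [Lt.ci, Lt.b, Lt.c, Lt.ai, Lt.b, Lt.c, Lt.ai, Lt.ai, Lt.ai] (pat hy (rf_13 hy) 9 rfl) h
      · exact mRel_good (T := T) hM0 [Lt.a, Lt.b, Lt.ai, Lt.c, Lt.a, Lt.ci, Lt.d, Lt.a, Lt.a, Lt.d, Lt.b, Lt.d, Lt.ai, Lt.ai] [Lt.ai, Lt.ci, Lt.d] (pat hy (rf_15 hy) 11 rfl) h
theorem dM_364_s (hy : Hy g H) (j z1 z2 u : ℕ) (h : dM_364 j z1 z2 u = true) : GdM g H u := by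
  unfold dM_364 at h
  rcases brec_true h with h | h
  · exact dM_362_s hy j z1 z2 u h
  · exact dM_363_s hy j z1 z2 u h
theorem dM_365_s (hy : Hy g H) (j z1 z2 u : ℕ) (h : dM_365 j z1 z2 u = true) : GdM g H u := by
  unfold dM_365 at h
  rcases brec_true h with h | h
  · rcases brec_true h with h | h
    · exact mRel_good (T := T) hM0 [Lt.b, Lt.c, Lt.ai, Lt.ci, Lt.ai, Lt.ci, Lt.ci, Lt.d, Lt.b, Lt.d, Lt.b] [Lt.d] (pat hy (rb_5 hy) 0 rfl) h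
    · rcases brec_true h with h | h
      · exact mRel_good (T := T) hM0 [Lt.a, Lt.ci, Lt.b] [Lt.c, Lt.d, Lt.a, Lt.ci, Lt.b, Lt.c, Lt.ai, Lt.d, Lt.c, Lt.a, Lt.ci] (pat hy (rb_6 hy) 1 rfl) h
      · exact mRel_good (T := T) hM0 [Lt.d, Lt.a, Lt.a, Lt.d] [Lt.c, Lt.ai, Lt.ci, Lt.a, Lt.b, Lt.ai, Lt.ai, Lt.ci, Lt.d, Lt.a, Lt.a, Lt.d, Lt.b] (pat hy (rf_15 hy) 0 rfl) h
  · rcases brec_true h with h | h
    · rcases brec_true h with h | h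
      · exact mRel_good (T := T) hM0 [Lt.ai, Lt.d] [Lt.c, Lt.a, Lt.ci, Lt.b, Lt.c, Lt.ai, Lt.ci, Lt.ai, Lt.d, Lt.ci, Lt.ci, Lt.b, Lt.c, Lt.c] (pat hy (rf_11 hy) 15 rfl) h
      · exact mRel_good (T := T) hM0 [Lt.b, Lt.a, Lt.a, Lt.b, Lt.ai, Lt.b, Lt.ai, Lt.b] [Lt.ci, Lt.b, Lt.ci, Lt.b, Lt.c, Lt.b, Lt.a, Lt.b, Lt.ai, Lt.ai] (pat hy (rf_20 hy) 17 rfl) h
    · rcases brec_true h with h | h
      · exact mRel_good (T := T) hM0 [Lt.b, Lt.a, Lt.b, Lt.ci, Lt.ci, Lt.b, Lt.c, Lt.c, Lt.b, Lt.a, Lt.b, Lt.ai, Lt.b, Lt.ai] [Lt.a] (pat hy (rb_9 hy) 0 rfl) h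
      · exact mRel_good (T := T) hM0 [Lt.ai, Lt.ai, Lt.b, Lt.a, Lt.a, Lt.b, Lt.a, Lt.b, Lt.ai, Lt.ai, Lt.b] [Lt.b, Lt.ai, Lt.b, Lt.ai, Lt.ai] (pat hy (rf_14 hy) 5 rfl) h
theorem dM_366_s (hy : Hy g H) (j z1 z2 u : ℕ) (h : dM_366 j z1 z2 u = true) : GdM g H u := by
  unfold dM_366 at h
  rcases brec_true h with h | h
  · rcases brec_true h with h | h
    · exact mRel_good (T := T) hM0 [Lt.c, Lt.ai, Lt.ai, Lt.ai, Lt.b, Lt.a, Lt.b, Lt.a, Lt.b, Lt.ai, Lt.b, Lt.a] [Lt.b, Lt.ci, Lt.b, Lt.c, Lt.ai] (pat hy (rb_17 hy) 13 rfl) h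
    · rcases brec_true h with h | h
      · exact mRel_good (T := T) hM0 [Lt.ci, Lt.ai] [Lt.ai, Lt.ci, Lt.ci, Lt.a, Lt.b, Lt.ai, Lt.ai, Lt.b, Lt.ai, Lt.b, Lt.a, Lt.b, Lt.c, Lt.c] (pat hy (rf_12 hy) 7 rfl) h
      · exact mRel_good (T := T) hM0 [Lt.b, Lt.a, Lt.b, Lt.ai, Lt.b, Lt.ci, Lt.ci] [Lt.ai, Lt.ai, Lt.b, Lt.a, Lt.b, Lt.ci, Lt.ci, Lt.b] (pat hy (rf_9 hy) 2 rfl) h
  · rcases brec_true h with h | h
    · rcases brec_true h with h | h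
      · exact mRel_good (T := T) hM0 [Lt.a, Lt.ci, Lt.b, Lt.c, Lt.ai, Lt.d] [Lt.d, Lt.ci, Lt.a, Lt.ci, Lt.b, Lt.c, Lt.ai, Lt.ci] (pat hy (rf_6 hy) 1 rfl) h
      · exact mRel_good (T := T) hM0 [Lt.b, Lt.c, Lt.ai] [Lt.c, Lt.ai, Lt.c, Lt.d, Lt.a, Lt.ci, Lt.b, Lt.c, Lt.ai, Lt.d, Lt.c] (pat hy (rb_6 hy) 3 rfl) h
    · rcases brec_true h with h | h
      · exact mRel_good (T := T) hM0 [Lt.ai, Lt.ci, Lt.b, Lt.c, Lt.b, Lt.c, Lt.a, Lt.b, Lt.ai, Lt.b, Lt.ai] [Lt.b, Lt.a, Lt.a, Lt.a] (pat hy (rb_8 hy) 1 rfl) h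
      · exact mRel_good (T := T) hM0 [Lt.b] [Lt.c, Lt.a, Lt.a, Lt.b, Lt.ai, Lt.b, Lt.ai, Lt.b, Lt.a, Lt.b, Lt.ci, Lt.b, Lt.c] (pat hy (rb_7 hy) 1 rfl) h
theorem dM_367_s (hy : Hy g H) (j z1 z2 u : ℕ) (h : dM_367 j z1 z2 u = true) : GdM g H u := by
  unfold dM_367 at h
  rcases brec_true h with h | h
  · exact dM_365_s hy j z1 z2 u h
  · exact dM_366_s hy j z1 z2 u h
theorem dM_368_s (hy : Hy g H) (j z1 z2 u : ℕ) (h : dM_368 j z1 z2 u = true) : GdM g H u := by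
  unfold dM_368 at h
  rcases brec_true h with h | h
  · exact dM_364_s hy j z1 z2 u h
  · exact dM_367_s hy j z1 z2 u h
theorem dM_369_s (hy : Hy g H) (j z1 z2 u : ℕ) (h : dM_369 j z1 z2 u = true) : GdM g H u := by
  unfold dM_369 at h
  rcases brec_true h with h | h
  · exact dM_361_s hy j z1 z2 u h
  · exact dM_368_s hy j z1 z2 u h
theorem dM_370_s (hy : Hy g H) (j z1 z2 u : ℕ) (h : dM_370 j z1 z2 u = true) : GdM g H u := by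
  unfold dM_370 at h
  rcases brec_true h with h | h
  · rcases brec_true h with h | h
    · exact mRel_good (T := T) hM0 [Lt.ci, Lt.ai, Lt.b, Lt.ai, Lt.b] [Lt.ai, Lt.ai, Lt.b, Lt.c, Lt.b, Lt.a, Lt.a, Lt.ci, Lt.a, Lt.a] (pat hy (rb_10 hy) 8 rfl) h
    · rcases brec_true h with h | h
      · exact mRel_good (T := T) hM0 [Lt.b, Lt.a, Lt.b, Lt.ai, Lt.ci, Lt.b, Lt.ci, Lt.b, Lt.c] [Lt.ai, Lt.ai, Lt.ai, Lt.ai, Lt.b, Lt.ai] (pat hy (rf_8 hy) 4 rfl) h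
      · exact mRel_good (T := T) hM0 [Lt.b, Lt.a, Lt.a, Lt.b, Lt.a, Lt.b, Lt.ai, Lt.ai, Lt.b, Lt.a] [Lt.a, Lt.a, Lt.b, Lt.ai, Lt.b, Lt.ai] (pat hy (rf_14 hy) 7 rfl) h
  · rcases brec_true h with h | h
    · exact mRel_good (T := T) hM0 [Lt.ci, Lt.b, Lt.c, Lt.b, Lt.c] [Lt.ai, Lt.ai, Lt.b, Lt.a, Lt.b, Lt.ai, Lt.b, Lt.ai, Lt.b, Lt.a, Lt.a, Lt.a] (pat hy (rb_17 hy) 9 rfl) h
    · rcases brec_true h with h | h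
      · exact mRel_good (T := T) hM0 [Lt.ci, Lt.d] [Lt.c, Lt.a, Lt.c, Lt.a, Lt.ci, Lt.b, Lt.d, Lt.b, Lt.d, Lt.b] (pat hy (rb_5 hy) 6 rfl) h
      · exact mRel_good (T := T) hM0 [Lt.b, Lt.ai, Lt.b, Lt.a, Lt.a, Lt.ci, Lt.b, Lt.c, Lt.b, Lt.c] [Lt.ai, Lt.b, Lt.ai, Lt.b, Lt.a, Lt.a, Lt.a] (pat hy (rb_17 hy) 4 rfl) h
theorem dM_371_s (hy : Hy g H) (j z1 z2 u : ℕ) (h : dM_371 j z1 z2 u = true) : GdM g H u := by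
  unfold dM_371 at h
  rcases brec_true h with h | h
  · rcases brec_true h with h | h
    · exact mRel_good (T := T) hM0 [Lt.c, Lt.c, Lt.a, Lt.ci, Lt.ai, Lt.ci, Lt.ci] [Lt.a, Lt.b, Lt.ai, Lt.ai, Lt.b, Lt.ai, Lt.b, Lt.a, Lt.b] (pat hy (rf_12 hy) 4 rfl) h
    · rcases brec_true h with h | h
      · exact mRel_good (T := T) hM0 [Lt.b, Lt.ai] [Lt.a, Lt.b, Lt.ai, Lt.ai, Lt.ci, Lt.b, Lt.ci, Lt.b, Lt.c, Lt.b, Lt.ai, Lt.b] (pat hy (rf_7 hy) 4 rfl) h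
      · exact mRel_good (T := T) hM0 [Lt.ci, Lt.b, Lt.c, Lt.c, Lt.b, Lt.ai, Lt.b, Lt.a, Lt.a, Lt.b, Lt.a, Lt.b, Lt.ai] [Lt.c, Lt.b] (pat hy (rf_9 hy) 8 rfl) h
  · rcases brec_true h with h | h
    · rcases brec_true h with h | h
      · exact mRel_good (T := T) hM0 [Lt.b, Lt.c] [Lt.c, Lt.a, Lt.b, Lt.a, Lt.a, Lt.a, Lt.a, Lt.b, Lt.a, Lt.b, Lt.ai, Lt.ci, Lt.b] (pat hy (rb_8 hy) 3 rfl) h
      · exact mRel_good (T := T) hM0 [Lt.ci, Lt.b, Lt.a, Lt.ci, Lt.b, Lt.c] [Lt.ai, Lt.ai, Lt.ai, Lt.b, Lt.a, Lt.a, Lt.a, Lt.ci, Lt.b, Lt.a] (pat hy (rf_13 hy) 3 rfl) h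
    · rcases brec_true h with h | h
      · exact mRel_good (T := T) hM0 [Lt.b, Lt.c, Lt.ai, Lt.ci, Lt.ai, Lt.d, Lt.ci, Lt.ci, Lt.b] [Lt.c, Lt.ai, Lt.ci, Lt.ai, Lt.d, Lt.ci, Lt.ci] (pat hy (rf_11 hy) 11 rfl) h
      · exact mRel_good (T := T) hM0 [Lt.a, Lt.b, Lt.ai, Lt.ci, Lt.b, Lt.ci, Lt.b, Lt.c, Lt.a, Lt.b, Lt.a, Lt.a, Lt.a] [Lt.b, Lt.ai] (pat hy (rf_8 hy) 5 rfl) h
theorem dM_372_s (hy : Hy g H) (j z1 z2 u : ℕ) (h : dM_372 j z1 z2 u = true) : GdM g H u := by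
  unfold dM_372 at h
  rcases brec_true h with h | h
  · exact dM_370_s hy j z1 z2 u h
  · exact dM_371_s hy j z1 z2 u h
theorem dM_373_s (hy : Hy g H) (j z1 z2 u : ℕ) (h : dM_373 j z1 z2 u = true) : GdM g H u := by
  unfold dM_373 at h
  rcases brec_true h with h | h
  · rcases brec_true h with h | h
    · exact mRel_good (T := T) hM0 [Lt.a, Lt.b, Lt.a, Lt.b, Lt.ai, Lt.b, Lt.ci, Lt.ci, Lt.b] [Lt.ai, Lt.b, Lt.a, Lt.b, Lt.ci, Lt.ci] (pat hy (rf_9 hy) 1 rfl) h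
    · rcases brec_true h with h | h
      · exact mRel_good (T := T) hM0 [Lt.d, Lt.b, Lt.d, Lt.b, Lt.d, Lt.c, Lt.c, Lt.a, Lt.c, Lt.a] [Lt.b, Lt.c] (pat hy (rf_5 hy) 0 rfl) h
      · exact mRel_good (T := T) hM0 [Lt.ci, Lt.b, Lt.c, Lt.a, Lt.b, Lt.a, Lt.a, Lt.a, Lt.a] [Lt.b, Lt.c, Lt.a, Lt.b, Lt.ai, Lt.b] (pat hy (rf_8 hy) 10 rfl) h
  · rcases brec_true h with h | h
    · exact mRel_good (T := T) hM0 [Lt.a, Lt.a, Lt.ci, Lt.b, Lt.c, Lt.c, Lt.b] [Lt.b, Lt.a, Lt.a, Lt.a, Lt.a, Lt.a, Lt.a, Lt.a, Lt.a, Lt.ci] (pat hy (rb_18 hy) 1 rfl) h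
    · rcases brec_true h with h | h
      · exact mRel_good (T := T) hM0 [Lt.ai, Lt.c] [Lt.a, Lt.b, Lt.a, Lt.b, Lt.a, Lt.c, Lt.ai, Lt.ai, Lt.b, Lt.c, Lt.b, Lt.a, Lt.a] (pat hy (rb_10 hy) 14 rfl) h
      · exact mRel_good (T := T) hM0 [Lt.ai, Lt.b, Lt.a, Lt.a, Lt.a, Lt.ci, Lt.b, Lt.a, Lt.ci] [Lt.a, Lt.a, Lt.ci, Lt.b, Lt.a, Lt.ci, Lt.b] (pat hy (rf_13 hy) 14 rfl) h
theorem dM_374_s (hy : Hy g H) (j z1 z2 u : ℕ) (h : dM_374 j z1 z2 u = true) : GdM g H u := by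
  unfold dM_374 at h
  rcases brec_true h with h | h
  · rcases brec_true h with h | h
    · exact mRel_good (T := T) hM0 [Lt.a, Lt.b, Lt.ai, Lt.b] [Lt.b, Lt.ai, Lt.ai, Lt.b, Lt.a, Lt.b, Lt.ci, Lt.ci, Lt.b, Lt.c, Lt.c] (pat hy (rf_9 hy) 3 rfl) h
    · rcases brec_true h with h | h
      · exact mRel_good (T := T) hM0 [Lt.a, Lt.b, Lt.c, Lt.c, Lt.a, Lt.c, Lt.ai, Lt.ci] [Lt.b, Lt.a, Lt.b, Lt.a, Lt.a, Lt.b, Lt.ai, Lt.c] (pat hy (rb_12 hy) 3 rfl) h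
      · exact mRel_good (T := T) hM0 [Lt.b, Lt.ai, Lt.b, Lt.a, Lt.b, Lt.a, Lt.a, Lt.b, Lt.ai, Lt.c, Lt.c] [Lt.c, Lt.c, Lt.a, Lt.c, Lt.ai] (pat hy (rf_12 hy) 11 rfl) h
  · rcases brec_true h with h | h
    · rcases brec_true h with h | h
      · exact mRel_good (T := T) hM0 [Lt.a, Lt.b, Lt.ai, Lt.ai, Lt.b, Lt.ai, Lt.b, Lt.a, Lt.b, Lt.c] [Lt.c, Lt.c, Lt.a, Lt.ci, Lt.ai, Lt.ci] (pat hy (rb_12 hy) 12 rfl) h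
      · exact mRel_good (T := T) hM0 [Lt.b, Lt.ai, Lt.ai, Lt.b, Lt.a, Lt.b, Lt.ci, Lt.ci, Lt.b, Lt.c] [Lt.a, Lt.b, Lt.ai, Lt.b, Lt.ci] (pat hy (rb_9 hy) 12 rfl) h
    · rcases brec_true h with h | h
      · exact mRel_good (T := T) hM0 [Lt.c, Lt.c, Lt.b] [Lt.b, Lt.c, Lt.c, Lt.b, Lt.a, Lt.b, Lt.ai, Lt.b, Lt.ai, Lt.ai, Lt.b, Lt.a] (pat hy (rf_9 hy) 10 rfl) h
      · exact mRel_good (T := T) hM0 [Lt.b, Lt.ai, Lt.ai, Lt.ci, Lt.d] [Lt.ai, Lt.c, Lt.a, Lt.ci, Lt.d, Lt.a, Lt.a, Lt.d, Lt.b, Lt.d, Lt.ai, Lt.ai] (pat hy (rb_15 hy) 4 rfl) h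
theorem dM_375_s (hy : Hy g H) (j z1 z2 u : ℕ) (h : dM_375 j z1 z2 u = true) : GdM g H u := by
  unfold dM_375 at h
  rcases brec_true h with h | h
  · exact dM_373_s hy j z1 z2 u h
  · exact dM_374_s hy j z1 z2 u h
theorem dM_376_s (hy : Hy g H) (j z1 z2 u : ℕ) (h : dM_376 j z1 z2 u = true) : GdM g H u := by
  unfold dM_376 at h
  rcases brec_true h with h | h
  · exact dM_372_s hy j z1 z2 u h
  · exact dM_375_s hy j z1 z2 u h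
theorem dM_377_s (hy : Hy g H) (j z1 z2 u : ℕ) (h : dM_377 j z1 z2 u = true) : GdM g H u := by
  unfold dM_377 at h
  rcases brec_true h with h | h
  · rcases brec_true h with h | h
    · exact mRel_good (T := T) hM0 [Lt.b, Lt.ci, Lt.b, Lt.c, Lt.a, Lt.b, Lt.a, Lt.a, Lt.a, Lt.a, Lt.b, Lt.a, Lt.b] [Lt.c, Lt.a] (pat hy (rf_8 hy) 9 rfl) h
    · rcases brec_true h with h | h
      · exact mRel_good (T := T) hM0 [Lt.a, Lt.a, Lt.a, Lt.a, Lt.a, Lt.a, Lt.a, Lt.ci, Lt.b, Lt.ci, Lt.ci] [Lt.ai, Lt.b, Lt.a, Lt.a, Lt.ci, Lt.b] (pat hy (rf_18 hy) 1 rfl) h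
      · exact mRel_good (T := T) hM0 [Lt.a, Lt.b, Lt.ai, Lt.ai, Lt.ci, Lt.b, Lt.ci, Lt.b, Lt.c, Lt.b, Lt.ai, Lt.b] [Lt.b, Lt.ai] (pat hy (rb_7 hy) 10 rfl) h
  · rcases brec_true h with h | h
    · exact mRel_good (T := T) hM0 [Lt.c, Lt.a, Lt.b, Lt.ai, Lt.b, Lt.ai, Lt.ai, Lt.ai, Lt.ai, Lt.b, Lt.ai, Lt.ci, Lt.b] [Lt.b, Lt.ci] (pat hy (rb_8 hy) 6 rfl) h
    · rcases brec_true h with h | h
      · exact mRel_good (T := T) hM0 [Lt.a, Lt.c] [Lt.b, Lt.ai, Lt.b, Lt.ai, Lt.ai, Lt.c, Lt.ai, Lt.ai, Lt.b, Lt.ci, Lt.b, Lt.a, Lt.a] (pat hy (rf_10 hy) 5 rfl) h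
      · exact mRel_good (T := T) hM0 [Lt.b, Lt.c, Lt.ai, Lt.c, Lt.d] [Lt.c, Lt.ai, Lt.ci, Lt.d, Lt.a, Lt.ci, Lt.b, Lt.c, Lt.ai] (pat hy (rf_6 hy) 10 rfl) h
theorem dM_378_s (hy : Hy g H) (j z1 z2 u : ℕ) (h : dM_378 j z1 z2 u = true) : GdM g H u := by
  unfold dM_378 at h
  rcases brec_true h with h | h
  · rcases brec_true h with h | h
    · exact mRel_good (T := T) hM0 [Lt.ai, Lt.b] [Lt.b, Lt.a, Lt.b, Lt.ai, Lt.ai, Lt.ci, Lt.b, Lt.ci, Lt.b, Lt.c, Lt.b, Lt.ai] (pat hy (rf_7 hy) 5 rfl) h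
    · rcases brec_true h with h | h
      · exact mRel_good (T := T) hM0 [Lt.b, Lt.c, Lt.ai, Lt.d, Lt.c, Lt.a, Lt.ci, Lt.b, Lt.c] [Lt.c, Lt.ai, Lt.d, Lt.ci, Lt.a] (pat hy (rf_6 hy) 3 rfl) h
      · exact mRel_good (T := T) hM0 [Lt.ci, Lt.b, Lt.c, Lt.ai, Lt.b, Lt.c, Lt.ai, Lt.ai, Lt.ai, Lt.b, Lt.a, Lt.a, Lt.a, Lt.ci, Lt.b] [Lt.ai] (pat hy (rf_13 hy) 6 rfl) h
  · rcases brec_true h with h | h
    · rcases brec_true h with h | h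
      · exact mRel_good (T := T) hM0 [Lt.ci, Lt.ai, Lt.b, Lt.ai, Lt.b, Lt.ai, Lt.ai] [Lt.ai, Lt.ai, Lt.b, Lt.c, Lt.b, Lt.a, Lt.a, Lt.ci] (pat hy (rb_10 hy) 8 rfl) h
      · exact mRel_good (T := T) hM0 [Lt.b, Lt.a, Lt.a, Lt.ci, Lt.b, Lt.c, Lt.b, Lt.c, Lt.ai, Lt.ai, Lt.ai, Lt.b, Lt.a] [Lt.a, Lt.b, Lt.ai, Lt.b] (pat hy (rb_17 hy) 6 rfl) h
    · rcases brec_true h with h | h
      · exact mRel_good (T := T) hM0 [Lt.a, Lt.c, Lt.ai, Lt.ai, Lt.b, Lt.c, Lt.b] [Lt.b, Lt.ai, Lt.b, Lt.ai, Lt.ai, Lt.c, Lt.ai, Lt.ai] (pat hy (rf_10 hy) 5 rfl) h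
      · exact mRel_good (T := T) hM0 [Lt.b, Lt.a, Lt.b, Lt.ai, Lt.ai, Lt.b] [Lt.ai, Lt.ai, Lt.b, Lt.a, Lt.a, Lt.b, Lt.ai, Lt.b, Lt.ai, Lt.ai] (pat hy (rf_14 hy) 2 rfl) h
theorem dM_379_s (hy : Hy g H) (j z1 z2 u : ℕ) (h : dM_379 j z1 z2 u = true) : GdM g H u := by
  unfold dM_379 at h
  rcases brec_true h with h | h
  · exact dM_377_s hy j z1 z2 u h
  · exact dM_378_s hy j z1 z2 u h
theorem dM_380_s (hy : Hy g H) (j z1 z2 u : ℕ) (h : dM_380 j z1 z2 u = true) : GdM g H u := by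
  unfold dM_380 at h
  rcases brec_true h with h | h
  · rcases brec_true h with h | h
    · exact mRel_good (T := T) hM0 [Lt.ai, Lt.b, Lt.ai, Lt.ai, Lt.c, Lt.ai, Lt.ai, Lt.b, Lt.ci, Lt.b] [Lt.b, Lt.a, Lt.c, Lt.ai, Lt.ai] (pat hy (rb_10 hy) 11 rfl) h
    · rcases brec_true h with h | h
      · exact mRel_good (T := T) hM0 [Lt.a, Lt.b, Lt.c] [Lt.b, Lt.a, Lt.b, Lt.a, Lt.a, Lt.b, Lt.ai, Lt.c, Lt.c, Lt.a, Lt.ci, Lt.ai, Lt.ci] (pat hy (rb_12 hy) 3 rfl) h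
      · exact mRel_good (T := T) hM0 [Lt.b, Lt.ai, Lt.b, Lt.ci, Lt.ci, Lt.b] [Lt.ai, Lt.b, Lt.ai, Lt.ai, Lt.b, Lt.a, Lt.b, Lt.ci, Lt.ci] (pat hy (rf_9 hy) 4 rfl) h
  · rcases brec_true h with h | h
    · rcases brec_true h with h | h
      · exact mRel_good (T := T) hM0 [Lt.ci, Lt.ci, Lt.d, Lt.b] [Lt.a, Lt.c, Lt.a, Lt.ci, Lt.b, Lt.d, Lt.b, Lt.d] (pat hy (rb_5 hy) 5 rfl) h
      · exact mRel_good (T := T) hM0 [Lt.b, Lt.ci, Lt.b, Lt.c] [Lt.c, Lt.a, Lt.b, Lt.ai, Lt.b, Lt.ai, Lt.ai, Lt.ai, Lt.ai, Lt.b, Lt.ai] (pat hy (rf_8 hy) 9 rfl) h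
    · rcases brec_true h with h | h
      · exact mRel_good (T := T) hM0 [Lt.a, Lt.ci] [Lt.ai, Lt.ai, Lt.ai, Lt.ai, Lt.ai, Lt.ai, Lt.ai, Lt.b, Lt.a, Lt.a, Lt.ci, Lt.b, Lt.c, Lt.c, Lt.b] (pat hy (rf_18 hy) 7 rfl) h
      · exact mRel_good (T := T) hM0 [Lt.ai, Lt.b, Lt.a, Lt.b, Lt.ci, Lt.b, Lt.c, Lt.b] [Lt.b, Lt.a, Lt.b, Lt.ai, Lt.ai, Lt.ci] (pat hy (rf_7 hy) 5 rfl) h
theorem dM_381_s (hy : Hy g H) (j z1 z2 u : ℕ) (h : dM_381 j z1 z2 u = true) : GdM g H u := by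
  unfold dM_381 at h
  rcases brec_true h with h | h
  · rcases brec_true h with h | h
    · exact mRel_good (T := T) hM0 [Lt.ai, Lt.ai, Lt.b, Lt.ai, Lt.b, Lt.a, Lt.b, Lt.c, Lt.c, Lt.a, Lt.c, Lt.ai] [Lt.b, Lt.ai, Lt.c, Lt.c] (pat hy (rb_12 hy) 14 rfl) h
    · rcases brec_true h with h | h
      · exact mRel_good (T := T) hM0 [Lt.b, Lt.ai, Lt.b, Lt.ai, Lt.ai, Lt.ai, Lt.ai, Lt.b, Lt.ai, Lt.ci, Lt.b, Lt.c] [Lt.ai, Lt.ci, Lt.b] (pat hy (rb_8 hy) 8 rfl) h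
      · exact mRel_good (T := T) hM0 [Lt.ai, Lt.ai] [Lt.b, Lt.a, Lt.b, Lt.ai, Lt.b, Lt.ci, Lt.ci, Lt.b, Lt.c, Lt.c, Lt.b, Lt.ai, Lt.b] (pat hy (rb_9 hy) 13 rfl) h
  · rcases brec_true h with h | h
    · rcases brec_true h with h | h
      · exact mRel_good (T := T) hM0 [Lt.c, Lt.b, Lt.c, Lt.a, Lt.a, Lt.b, Lt.ai, Lt.b, Lt.ai] [Lt.b, Lt.c, Lt.b, Lt.ai, Lt.b] (pat hy (rf_7 hy) 11 rfl) h
      · exact mRel_good (T := T) hM0 [Lt.ai, Lt.ai, Lt.ai, Lt.b, Lt.ai, Lt.ci, Lt.b, Lt.c, Lt.b] [Lt.a, Lt.b, Lt.a, Lt.b, Lt.ai, Lt.ci] (pat hy (rb_8 hy) 12 rfl) h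
    · rcases brec_true h with h | h
      · exact mRel_good (T := T) hM0 [Lt.ci, Lt.b, Lt.ci, Lt.b, Lt.c] [Lt.a, Lt.a, Lt.b, Lt.ai, Lt.b, Lt.ai, Lt.b, Lt.a, Lt.b] (pat hy (rb_7 hy) 0 rfl) h
      · exact mRel_good (T := T) hM0 [Lt.b, Lt.ci, Lt.b, Lt.a, Lt.a, Lt.ci, Lt.ai] [Lt.a, Lt.a, Lt.ci, Lt.a, Lt.a, Lt.b, Lt.a, Lt.b] (pat hy (rb_10 hy) 3 rfl) h
theorem dM_382_s (hy : Hy g H) (j z1 z2 u : ℕ) (h : dM_382 j z1 z2 u = true) : GdM g H u := by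
  unfold dM_382 at h
  rcases brec_true h with h | h
  · exact dM_380_s hy j z1 z2 u h
  · exact dM_381_s hy j z1 z2 u h
theorem dM_383_s (hy : Hy g H) (j z1 z2 u : ℕ) (h : dM_383 j z1 z2 u = true) : GdM g H u := by
  unfold dM_383 at h
  rcases brec_true h with h | h
  · exact dM_379_s hy j z1 z2 u h
  · exact dM_382_s hy j z1 z2 u h
theorem dM_384_s (hy : Hy g H) (j z1 z2 u : ℕ) (h : dM_384 j z1 z2 u = true) : GdM g H u := by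
  unfold dM_384 at h
  rcases brec_true h with h | h
  · exact dM_376_s hy j z1 z2 u h
  · exact dM_383_s hy j z1 z2 u h
theorem dM_385_s (hy : Hy g H) (j z1 z2 u : ℕ) (h : dM_385 j z1 z2 u = true) : GdM g H u := by
  unfold dM_385 at h
  rcases brec_true h with h | h
  · exact dM_369_s hy j z1 z2 u h
  · exact dM_384_s hy j z1 z2 u h
theorem dM_386_s (hy : Hy g H) (j z1 z2 u : ℕ) (h : dM_386 j z1 z2 u = true) : GdM g H u := by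
  unfold dM_386 at h
  rcases brec_true h with h | h
  · exact dM_354_s hy j z1 z2 u h
  · exact dM_385_s hy j z1 z2 u h
theorem dM_387_s (hy : Hy g H) (j z1 z2 u : ℕ) (h : dM_387 j z1 z2 u = true) : GdM g H u := by
  unfold dM_387 at h
  rcases brec_true h with h | h
  · rcases brec_true h with h | h
    · exact mRel_good (T := T) hM0 [Lt.d, Lt.b, Lt.d] [Lt.b, Lt.d, Lt.b, Lt.c, Lt.ai, Lt.ci, Lt.ai, Lt.ci, Lt.ci] (pat hy (rf_5 hy) 2 rfl) h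
    · rcases brec_true h with h | h
      · exact mRel_good (T := T) hM0 [Lt.d, Lt.b, Lt.c, Lt.ai, Lt.ci, Lt.ai, Lt.ci, Lt.ci, Lt.d] [Lt.b, Lt.d, Lt.b] (pat hy (rb_5 hy) 11 rfl) h
      · exact mRel_good (T := T) hM0 [Lt.b, Lt.ci, Lt.ci, Lt.b, Lt.c, Lt.c, Lt.b] [Lt.ai, Lt.b, Lt.a, Lt.a, Lt.b, Lt.a, Lt.b, Lt.ai] (pat hy (rb_9 hy) 2 rfl) h
  · rcases brec_true h with h | h
    · exact mRel_good (T := T) hM0 [Lt.a, Lt.b, Lt.ci, Lt.ci, Lt.b, Lt.c, Lt.c, Lt.b, Lt.a, Lt.b, Lt.ai, Lt.b, Lt.ai, Lt.ai] [Lt.b] (pat hy (rb_9 hy) 1 rfl) h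
    · rcases brec_true h with h | h
      · exact mRel_good (T := T) hM0 [Lt.a, Lt.ci, Lt.b, Lt.d] [Lt.c, Lt.c, Lt.d, Lt.ci, Lt.ci, Lt.a, Lt.ci, Lt.b] (pat hy (rf_4 hy) 8 rfl) h
      · exact mRel_good (T := T) hM0 [Lt.d, Lt.b, Lt.d, Lt.c] [Lt.b, Lt.d, Lt.b, Lt.c, Lt.ai, Lt.ci, Lt.ai, Lt.ci] (pat hy (rf_5 hy) 2 rfl) h
theorem dM_388_s (hy : Hy g H) (j z1 z2 u : ℕ) (h : dM_388 j z1 z2 u = true) : GdM g H u := by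
  unfold dM_388 at h
  rcases brec_true h with h | h
  · rcases brec_true h with h | h
    · exact mRel_good (T := T) hM0 [Lt.b, Lt.ai, Lt.ai, Lt.ci, Lt.b] [Lt.ai, Lt.b, Lt.ai, Lt.b, Lt.a, Lt.b, Lt.ci, Lt.b, Lt.c] (pat hy (rb_7 hy) 11 rfl) h
    · rcases brec_true h with h | h
      · exact mRel_good (T := T) hM0 [Lt.b, Lt.c, Lt.ai, Lt.d, Lt.c, Lt.a, Lt.ci, Lt.b, Lt.c, Lt.ai, Lt.c, Lt.d, Lt.a] [Lt.c] (pat hy (rf_6 hy) 3 rfl) h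
      · exact mRel_good (T := T) hM0 [Lt.b, Lt.a, Lt.b, Lt.ci, Lt.ci, Lt.b, Lt.c, Lt.c, Lt.b, Lt.a, Lt.b] [Lt.a, Lt.a, Lt.b, Lt.a] (pat hy (rb_9 hy) 0 rfl) h
  · rcases brec_true h with h | h
    · rcases brec_true h with h | h
      · exact mRel_good (T := T) hM0 [Lt.a, Lt.a, Lt.b] [Lt.ci, Lt.b, Lt.ci, Lt.b, Lt.c, Lt.b, Lt.ai, Lt.b, Lt.a, Lt.b, Lt.a] (pat hy (rf_7 hy) 0 rfl) h
      · exact mRel_good (T := T) hM0 [Lt.b, Lt.ai, Lt.ai, Lt.b, Lt.a, Lt.b, Lt.a] [Lt.ai, Lt.b, Lt.ci, Lt.b, Lt.c, Lt.b, Lt.c, Lt.b, Lt.a, Lt.a, Lt.b] (pat hy (rb_20 hy) 8 rfl) h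
    · rcases brec_true h with h | h
      · exact mRel_good (T := T) hM0 [Lt.d, Lt.c, Lt.a, Lt.a, Lt.b, Lt.ai, Lt.c, Lt.a, Lt.ci, Lt.d, Lt.a, Lt.a, Lt.d, Lt.b, Lt.d, Lt.ai, Lt.ai] [] (pat hy (rf_15 hy) 8 rfl) h
      · exact mRel_good (T := T) hM0 [Lt.ci, Lt.b, Lt.d, Lt.b, Lt.c] [Lt.ai, Lt.c, Lt.c, Lt.d, Lt.ci, Lt.ci, Lt.a] (pat hy (rf_4 hy) 9 rfl) h
theorem dM_389_s (hy : Hy g H) (j z1 z2 u : ℕ) (h : dM_389 j z1 z2 u = true) : GdM g H u := by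
  unfold dM_389 at h
  rcases brec_true h with h | h
  · exact dM_387_s hy j z1 z2 u h
  · exact dM_388_s hy j z1 z2 u h
theorem dM_390_s (hy : Hy g H) (j z1 z2 u : ℕ) (h : dM_390 j z1 z2 u = true) : GdM g H u := by
  unfold dM_390 at h
  rcases brec_true h with h | h
  · rcases brec_true h with h | h
    · exact mRel_good (T := T) hM0 [Lt.ai, Lt.b, Lt.ai, Lt.ai] [Lt.b, Lt.ai, Lt.ci, Lt.b, Lt.ci, Lt.b, Lt.c, Lt.a, Lt.b, Lt.a, Lt.a] (pat hy (rb_8 hy) 9 rfl) h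
    · rcases brec_true h with h | h
      · exact mRel_good (T := T) hM0 [Lt.ai, Lt.b, Lt.a, Lt.b, Lt.a, Lt.a, Lt.b, Lt.ai, Lt.c] [Lt.b, Lt.c, Lt.c, Lt.a, Lt.c, Lt.ai, Lt.ci] (pat hy (rf_12 hy) 12 rfl) h
      · exact mRel_good (T := T) hM0 [Lt.b, Lt.ci, Lt.b, Lt.c, Lt.a, Lt.b, Lt.a, Lt.a, Lt.a, Lt.a] [Lt.c, Lt.a, Lt.b, Lt.ai, Lt.b] (pat hy (rf_8 hy) 9 rfl) h
  · rcases brec_true h with h | h
    · exact mRel_good (T := T) hM0 [Lt.b, Lt.ci, Lt.b, Lt.a, Lt.a, Lt.ci, Lt.ai, Lt.b, Lt.ai, Lt.b, Lt.ai, Lt.ai, Lt.c] [Lt.a, Lt.a] (pat hy (rb_10 hy) 3 rfl) h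
    · rcases brec_true h with h | h
      · exact mRel_good (T := T) hM0 [Lt.b, Lt.ai, Lt.b, Lt.a, Lt.b, Lt.ci, Lt.b, Lt.c, Lt.b] [Lt.a, Lt.b, Lt.ai, Lt.ai, Lt.ci] (pat hy (rf_7 hy) 4 rfl) h
      · exact mRel_good (T := T) hM0 [Lt.ci, Lt.b, Lt.c, Lt.b, Lt.c, Lt.a, Lt.a, Lt.b] [Lt.b, Lt.ai, Lt.b, Lt.a, Lt.b, Lt.a] (pat hy (rf_7 hy) 9 rfl) h
theorem dM_391_s (hy : Hy g H) (j z1 z2 u : ℕ) (h : dM_391 j z1 z2 u = true) : GdM g H u := by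
  unfold dM_391 at h
  rcases brec_true h with h | h
  · rcases brec_true h with h | h
    · exact mRel_good (T := T) hM0 [Lt.ci, Lt.d, Lt.c, Lt.c, Lt.a] [Lt.c, Lt.a, Lt.ci, Lt.d, Lt.c] (pat hy (rf_2 hy) 4 rfl) h
    · rcases brec_true h with h | h
      · exact mRel_good (T := T) hM0 [Lt.b, Lt.c, Lt.ai] [Lt.c, Lt.ai, Lt.ci, Lt.d, Lt.a, Lt.ci, Lt.b, Lt.c, Lt.ai, Lt.d, Lt.ci] (pat hy (rf_6 hy) 10 rfl) h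
      · exact mRel_good (T := T) hM0 [Lt.d, Lt.ci, Lt.ci, Lt.b, Lt.c, Lt.c, Lt.d, Lt.a, Lt.c, Lt.a, Lt.ci, Lt.b, Lt.c, Lt.ai, Lt.ci] [Lt.a] (pat hy (rf_11 hy) 0 rfl) h
  · rcases brec_true h with h | h
    · rcases brec_true h with h | h
      · exact mRel_good (T := T) hM0 [Lt.c, Lt.a, Lt.ci, Lt.d, Lt.a, Lt.a, Lt.d, Lt.b, Lt.d, Lt.ai, Lt.ai, Lt.d, Lt.c] [Lt.a, Lt.b, Lt.ai, Lt.ai] (pat hy (rf_15 hy) 14 rfl) h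
      · exact mRel_good (T := T) hM0 [Lt.c, Lt.d, Lt.ci, Lt.ai, Lt.d, Lt.a, Lt.c, Lt.d, Lt.ci, Lt.ai, Lt.d] [Lt.ai] (pat hy (rf_3 hy) 1 rfl) h
    · rcases brec_true h with h | h
      · exact mRel_good (T := T) hM0 [Lt.a, Lt.a, Lt.b, Lt.a, Lt.b, Lt.ai, Lt.b, Lt.ci, Lt.ci, Lt.b, Lt.c, Lt.c, Lt.b] [Lt.b, Lt.a] (pat hy (rf_9 hy) 0 rfl) h
      · exact mRel_good (T := T) hM0 [Lt.a, Lt.a, Lt.b, Lt.a, Lt.b, Lt.ai, Lt.ci, Lt.b, Lt.ci] [Lt.ai, Lt.ai, Lt.b, Lt.ai, Lt.ci, Lt.b] (pat hy (rf_8 hy) 2 rfl) h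
theorem dM_392_s (hy : Hy g H) (j z1 z2 u : ℕ) (h : dM_392 j z1 z2 u = true) : GdM g H u := by
  unfold dM_392 at h
  rcases brec_true h with h | h
  · exact dM_390_s hy j z1 z2 u h
  · exact dM_391_s hy j z1 z2 u h
theorem dM_393_s (hy : Hy g H) (j z1 z2 u : ℕ) (h : dM_393 j z1 z2 u = true) : GdM g H u := by
  unfold dM_393 at h
  rcases brec_true h with h | h
  · exact dM_389_s hy j z1 z2 u h
  · exact dM_392_s hy j z1 z2 u h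
theorem dM_394_s (hy : Hy g H) (j z1 z2 u : ℕ) (h : dM_394 j z1 z2 u = true) : GdM g H u := by
  unfold dM_394 at h
  rcases brec_true h with h | h
  · rcases brec_true h with h | h
    · exact mRel_good (T := T) hM0 [Lt.b, Lt.c, Lt.ai, Lt.d, Lt.c, Lt.a, Lt.ci, Lt.b, Lt.c, Lt.ai] [Lt.c, Lt.ai, Lt.d, Lt.ci] (pat hy (rf_6 hy) 3 rfl) h
    · rcases brec_true h with h | h
      · exact mRel_good (T := T) hM0 [Lt.a, Lt.b, Lt.ai, Lt.b] [Lt.ai, Lt.ci, Lt.b, Lt.ci, Lt.b, Lt.c, Lt.b, Lt.ai, Lt.b, Lt.a] (pat hy (rf_7 hy) 1 rfl) h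
      · exact mRel_good (T := T) hM0 [Lt.b, Lt.ci] [Lt.a, Lt.a, Lt.ci, Lt.a, Lt.a, Lt.b, Lt.a, Lt.b, Lt.a, Lt.c, Lt.ai, Lt.ai, Lt.b] (pat hy (rb_10 hy) 3 rfl) h
  · rcases brec_true h with h | h
    · exact mRel_good (T := T) hM0 [Lt.ci, Lt.b, Lt.a, Lt.a, Lt.ci, Lt.ai, Lt.b, Lt.ai, Lt.b, Lt.ai, Lt.ai, Lt.c, Lt.ai, Lt.ai, Lt.b] [] (pat hy (rb_10 hy) 4 rfl) h
    · rcases brec_true h with h | h
      · exact mRel_good (T := T) hM0 [Lt.ci, Lt.a, Lt.ci, Lt.b, Lt.c, Lt.ai, Lt.ci] [Lt.d, Lt.a, Lt.ci, Lt.b, Lt.c, Lt.ai, Lt.d] (pat hy (rb_6 hy) 0 rfl) h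
      · exact mRel_good (T := T) hM0 [Lt.b, Lt.ci] [Lt.a, Lt.b, Lt.ai, Lt.b, Lt.ai, Lt.ai, Lt.b, Lt.a, Lt.b, Lt.ci, Lt.ci, Lt.b, Lt.c] (pat hy (rf_9 hy) 6 rfl) h
theorem dM_395_s (hy : Hy g H) (j z1 z2 u : ℕ) (h : dM_395 j z1 z2 u = true) : GdM g H u := by
  unfold dM_395 at h
  rcases brec_true h with h | h
  · rcases brec_true h with h | h
    · exact mRel_good (T := T) hM0 [Lt.ci, Lt.b, Lt.d, Lt.b, Lt.d, Lt.b, Lt.d, Lt.c, Lt.c] [Lt.ai, Lt.ci, Lt.ai] (pat hy (rf_5 hy) 10 rfl) h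
    · rcases brec_true h with h | h
      · exact mRel_good (T := T) hM0 [Lt.ai, Lt.ai, Lt.b, Lt.ai, Lt.ci, Lt.b, Lt.c, Lt.b, Lt.c, Lt.a, Lt.b, Lt.ai, Lt.b] [Lt.a, Lt.a] (pat hy (rb_8 hy) 13 rfl) h
      · exact mRel_good (T := T) hM0 [Lt.ci, Lt.ai, Lt.b, Lt.ai, Lt.b, Lt.ai] [Lt.ai, Lt.ai, Lt.b, Lt.c, Lt.b, Lt.a, Lt.a, Lt.ci, Lt.a] (pat hy (rb_10 hy) 8 rfl) h
  · rcases brec_true h with h | h
    · rcases brec_true h with h | h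
      · exact mRel_good (T := T) hM0 [Lt.a, Lt.b, Lt.ai, Lt.b, Lt.ai, Lt.ai, Lt.ai, Lt.ai] [Lt.ci, Lt.b, Lt.ci, Lt.b, Lt.c, Lt.a, Lt.b] (pat hy (rb_8 hy) 7 rfl) h
      · exact mRel_good (T := T) hM0 [Lt.b, Lt.c, Lt.b] [Lt.a, Lt.a, Lt.ci, Lt.ai, Lt.b, Lt.ai, Lt.b, Lt.ai, Lt.ai, Lt.c, Lt.ai, Lt.ai] (pat hy (rf_10 hy) 9 rfl) h
    · rcases brec_true h with h | h
      · exact mRel_good (T := T) hM0 [Lt.a, Lt.b, Lt.ai, Lt.b, Lt.ai, Lt.b, Lt.a, Lt.b, Lt.ci, Lt.b, Lt.c, Lt.b, Lt.c] [Lt.ai] (pat hy (rf_7 hy) 1 rfl) h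
      · exact mRel_good (T := T) hM0 [Lt.a, Lt.a, Lt.a, Lt.ci, Lt.b, Lt.a] [Lt.b, Lt.a, Lt.a, Lt.a, Lt.ci, Lt.b, Lt.a, Lt.ci, Lt.b, Lt.c] (pat hy (rf_13 hy) 0 rfl) h
theorem dM_396_s (hy : Hy g H) (j z1 z2 u : ℕ) (h : dM_396 j z1 z2 u = true) : GdM g H u := by
  unfold dM_396 at h
  rcases brec_true h with h | h
  · exact dM_394_s hy j z1 z2 u h
  · exact dM_395_s hy j z1 z2 u h
theorem dM_397_s (hy : Hy g H) (j z1 z2 u : ℕ) (h : dM_397 j z1 z2 u = true) : GdM g H u := by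
  unfold dM_397 at h
  rcases brec_true h with h | h
  · rcases brec_true h with h | h
    · exact mRel_good (T := T) hM0 [Lt.b, Lt.ai, Lt.b, Lt.a, Lt.b, Lt.a, Lt.b, Lt.ai, Lt.ai, Lt.ci, Lt.b, Lt.ci, Lt.b, Lt.c] [] (pat hy (rb_7 hy) 5 rfl) h
    · rcases brec_true h with h | h
      · exact mRel_good (T := T) hM0 [Lt.c, Lt.ai, Lt.ai, Lt.b, Lt.c, Lt.b, Lt.a, Lt.a, Lt.ci, Lt.a] [Lt.ai, Lt.b, Lt.ai, Lt.b, Lt.ai] (pat hy (rf_10 hy) 6 rfl) h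
      · exact mRel_good (T := T) hM0 [Lt.ci, Lt.a, Lt.b, Lt.ai, Lt.ai, Lt.b, Lt.ai, Lt.b, Lt.a, Lt.b, Lt.c, Lt.c] [Lt.c, Lt.a, Lt.ci, Lt.ai] (pat hy (rb_12 hy) 11 rfl) h
  · rcases brec_true h with h | h
    · exact mRel_good (T := T) hM0 [Lt.c, Lt.a, Lt.c] [Lt.ci, Lt.b, Lt.ai, Lt.b, Lt.a, Lt.b, Lt.a, Lt.a, Lt.b, Lt.ai, Lt.c, Lt.c, Lt.a] (pat hy (rb_12 hy) 6 rfl) h
    · rcases brec_true h with h | h
      · exact mRel_good (T := T) hM0 [Lt.b, Lt.c, Lt.b, Lt.a, Lt.a, Lt.ci] [Lt.a, Lt.a, Lt.ci, Lt.ai, Lt.b, Lt.ai, Lt.b, Lt.ai, Lt.ai] (pat hy (rf_10 hy) 9 rfl) h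
      · exact mRel_good (T := T) hM0 [Lt.ci, Lt.b, Lt.c, Lt.c, Lt.b, Lt.ai, Lt.b, Lt.a] [Lt.c, Lt.b, Lt.a, Lt.b, Lt.ai, Lt.b, Lt.ai] (pat hy (rf_9 hy) 8 rfl) h
theorem dM_398_s (hy : Hy g H) (j z1 z2 u : ℕ) (h : dM_398 j z1 z2 u = true) : GdM g H u := by
  unfold dM_398 at h
  rcases brec_true h with h | h
  · rcases brec_true h with h | h
    · exact mRel_good (T := T) hM0 [Lt.b, Lt.c, Lt.ai, Lt.ci, Lt.d, Lt.a] [Lt.c, Lt.ai, Lt.c, Lt.d, Lt.a, Lt.ci, Lt.b, Lt.c] (pat hy (rb_6 hy) 3 rfl) h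
    · rcases brec_true h with h | h
      · exact mRel_good (T := T) hM0 [Lt.b, Lt.a, Lt.a, Lt.a, Lt.ci, Lt.b, Lt.a] [Lt.a, Lt.a, Lt.a, Lt.ci, Lt.b, Lt.a, Lt.ci, Lt.b, Lt.c] (pat hy (rf_13 hy) 15 rfl) h
      · exact mRel_good (T := T) hM0 [Lt.c, Lt.b, Lt.a, Lt.a, Lt.ci, Lt.a, Lt.a, Lt.b, Lt.a, Lt.b, Lt.a, Lt.c, Lt.ai, Lt.ai] [Lt.b] (pat hy (rf_10 hy) 10 rfl) h
  · rcases brec_true h with h | h
    · rcases brec_true h with h | h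
      · exact mRel_good (T := T) hM0 [Lt.b, Lt.ai, Lt.b, Lt.a, Lt.a, Lt.b, Lt.a, Lt.b, Lt.ai, Lt.b, Lt.ci, Lt.ci, Lt.b] [Lt.ci, Lt.ci] (pat hy (rf_9 hy) 12 rfl) h
      · exact mRel_good (T := T) hM0 [Lt.b, Lt.ai, Lt.ai, Lt.ai, Lt.ai, Lt.b, Lt.ai, Lt.ci, Lt.b, Lt.c, Lt.b, Lt.c] [Lt.a, Lt.b, Lt.ai] (pat hy (rb_8 hy) 10 rfl) h
    · rcases brec_true h with h | h
      · exact mRel_good (T := T) hM0 [Lt.b, Lt.a, Lt.a, Lt.a, Lt.a, Lt.b, Lt.a, Lt.b, Lt.ai, Lt.ci, Lt.b, Lt.ci, Lt.b] [Lt.ai, Lt.ci] (pat hy (rf_8 hy) 14 rfl) h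
      · exact mRel_good (T := T) hM0 [Lt.b, Lt.ai] [Lt.a, Lt.b, Lt.ai, Lt.b, Lt.ci, Lt.ci, Lt.b, Lt.c, Lt.c, Lt.b, Lt.ai, Lt.b, Lt.a] (pat hy (rb_9 hy) 12 rfl) h
theorem dM_399_s (hy : Hy g H) (j z1 z2 u : ℕ) (h : dM_399 j z1 z2 u = true) : GdM g H u := by
  unfold dM_399 at h
  rcases brec_true h with h | h
  · exact dM_397_s hy j z1 z2 u h
  · exact dM_398_s hy j z1 z2 u h
theorem dM_400_s (hy : Hy g H) (j z1 z2 u : ℕ) (h : dM_400 j z1 z2 u = true) : GdM g H u := by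
  unfold dM_400 at h
  rcases brec_true h with h | h
  · exact dM_396_s hy j z1 z2 u h
  · exact dM_399_s hy j z1 z2 u h
theorem dM_401_s (hy : Hy g H) (j z1 z2 u : ℕ) (h : dM_401 j z1 z2 u = true) : GdM g H u := by
  unfold dM_401 at h
  rcases brec_true h with h | h
  · exact dM_393_s hy j z1 z2 u h
  · exact dM_400_s hy j z1 z2 u h
theorem dM_402_s (hy : Hy g H) (j z1 z2 u : ℕ) (h : dM_402 j z1 z2 u = true) : GdM g H u := by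
  unfold dM_402 at h
  rcases brec_true h with h | h
  · rcases brec_true h with h | h
    · exact mRel_good (T := T) hM0 [Lt.b, Lt.d, Lt.b, Lt.c, Lt.ai, Lt.c] [Lt.c, Lt.ai, Lt.c, Lt.c, Lt.d, Lt.ci] (pat hy (rf_4 hy) 10 rfl) h
    · rcases brec_true h with h | h
      · exact mRel_good (T := T) hM0 [Lt.ai, Lt.ai, Lt.ai] [Lt.ci, Lt.b, Lt.a, Lt.ci, Lt.b, Lt.c, Lt.ai, Lt.b, Lt.c, Lt.ai, Lt.ai, Lt.ai, Lt.b] (pat hy (rf_13 hy) 12 rfl) h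
      · exact mRel_good (T := T) hM0 [Lt.c, Lt.a, Lt.c, Lt.ai, Lt.ci, Lt.ci] [Lt.ci, Lt.b, Lt.ai, Lt.b, Lt.a, Lt.b, Lt.a, Lt.a, Lt.b, Lt.ai] (pat hy (rb_12 hy) 6 rfl) h
  · rcases brec_true h with h | h
    · exact mRel_good (T := T) hM0 [Lt.b, Lt.c, Lt.c, Lt.b, Lt.a, Lt.b, Lt.ai, Lt.b, Lt.ai, Lt.ai, Lt.b, Lt.a, Lt.b] [Lt.c, Lt.c] (pat hy (rb_9 hy) 5 rfl) h
    · rcases brec_true h with h | h
      · exact mRel_good (T := T) hM0 [Lt.b, Lt.c, Lt.b, Lt.ai, Lt.b] [Lt.c, Lt.b, Lt.c, Lt.a, Lt.a, Lt.b, Lt.ai, Lt.b, Lt.ai] (pat hy (rb_7 hy) 3 rfl) h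
      · exact mRel_good (T := T) hM0 [Lt.ci, Lt.ci, Lt.a, Lt.b, Lt.ai, Lt.ai, Lt.b, Lt.ai, Lt.b, Lt.a, Lt.b, Lt.c, Lt.c, Lt.a] [Lt.a, Lt.ci] (pat hy (rb_12 hy) 10 rfl) h
theorem dM_403_s (hy : Hy g H) (j z1 z2 u : ℕ) (h : dM_403 j z1 z2 u = true) : GdM g H u := by
  unfold dM_403 at h
  rcases brec_true h with h | h
  · rcases brec_true h with h | h
    · exact mRel_good (T := T) hM0 [Lt.ci, Lt.ci, Lt.b, Lt.c, Lt.c, Lt.b, Lt.a, Lt.b, Lt.ai] [Lt.b, Lt.ai, Lt.b, Lt.a, Lt.a, Lt.b] (pat hy (rb_9 hy) 3 rfl) h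
    · rcases brec_true h with h | h
      · exact mRel_good (T := T) hM0 [Lt.ci, Lt.ci, Lt.a, Lt.b, Lt.ai, Lt.ai, Lt.b, Lt.ai, Lt.b, Lt.a, Lt.b, Lt.c, Lt.c, Lt.a, Lt.c, Lt.ai] [] (pat hy (rb_12 hy) 10 rfl) h
      · exact mRel_good (T := T) hM0 [Lt.c, Lt.b] [Lt.b, Lt.a, Lt.a, Lt.ci, Lt.ai, Lt.b, Lt.ai, Lt.b, Lt.ai, Lt.ai, Lt.c, Lt.ai, Lt.ai] (pat hy (rf_10 hy) 10 rfl) h
  · rcases brec_true h with h | h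
    · rcases brec_true h with h | h
      · exact mRel_good (T := T) hM0 [Lt.ai, Lt.ci, Lt.d, Lt.a, Lt.ci, Lt.b, Lt.c, Lt.ai, Lt.d, Lt.ci, Lt.a, Lt.ci, Lt.b, Lt.c] [] (pat hy (rb_6 hy) 5 rfl) h
      · exact mRel_good (T := T) hM0 [Lt.b, Lt.c, Lt.ai, Lt.ci, Lt.d, Lt.a, Lt.ci, Lt.b] [Lt.c, Lt.ai, Lt.c, Lt.d, Lt.a, Lt.ci] (pat hy (rb_6 hy) 3 rfl) h
    · rcases brec_true h with h | h
      · exact mRel_good (T := T) hM0 [Lt.b, Lt.d, Lt.b, Lt.d, Lt.c, Lt.c, Lt.a, Lt.c, Lt.a, Lt.ci, Lt.b] [Lt.d] (pat hy (rf_5 hy) 1 rfl) h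
      · exact mRel_good (T := T) hM0 [Lt.ci, Lt.d, Lt.c] [Lt.c, Lt.a, Lt.ci, Lt.d, Lt.c, Lt.ai, Lt.ci] (pat hy (rf_2 hy) 4 rfl) h
theorem dM_404_s (hy : Hy g H) (j z1 z2 u : ℕ) (h : dM_404 j z1 z2 u = true) : GdM g H u := by
  unfold dM_404 at h
  rcases brec_true h with h | h
  · exact dM_402_s hy j z1 z2 u h
  · exact dM_403_s hy j z1 z2 u h
theorem dM_405_s (hy : Hy g H) (j z1 z2 u : ℕ) (h : dM_405 j z1 z2 u = true) : GdM g H u := by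
  unfold dM_405 at h
  rcases brec_true h with h | h
  · rcases brec_true h with h | h
    · exact mRel_good (T := T) hM0 [Lt.ci] [Lt.ai, Lt.ci, Lt.ai, Lt.ci, Lt.ci, Lt.d, Lt.b, Lt.d, Lt.b, Lt.d, Lt.b] (pat hy (rf_5 hy) 10 rfl) h
    · rcases brec_true h with h | h
      · exact mRel_good (T := T) hM0 [Lt.ai, Lt.b, Lt.ai, Lt.b, Lt.a, Lt.b, Lt.ci, Lt.b, Lt.c, Lt.b, Lt.c, Lt.a, Lt.a] [Lt.b] (pat hy (rf_7 hy) 3 rfl) h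
      · exact mRel_good (T := T) hM0 [Lt.c, Lt.c, Lt.a, Lt.ci, Lt.d, Lt.c, Lt.ai, Lt.ci, Lt.ci] [Lt.d] (pat hy (rf_2 hy) 6 rfl) h
  · rcases brec_true h with h | h
    · exact mRel_good (T := T) hM0 [Lt.ai, Lt.ci, Lt.ci, Lt.d, Lt.b, Lt.d, Lt.b, Lt.d, Lt.b, Lt.c] [Lt.c, Lt.a] (pat hy (rb_5 hy) 4 rfl) h
    · rcases brec_true h with h | h
      · exact mRel_good (T := T) hM0 [Lt.ai, Lt.b] [Lt.a, Lt.a, Lt.a, Lt.b, Lt.a, Lt.b, Lt.ai, Lt.ci, Lt.b, Lt.ci, Lt.b, Lt.c, Lt.a] (pat hy (rb_8 hy) 14 rfl) h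
      · exact mRel_good (T := T) hM0 [Lt.b, Lt.ai, Lt.ci, Lt.b] [Lt.a, Lt.a, Lt.a, Lt.a, Lt.b, Lt.a, Lt.b, Lt.ai, Lt.ci, Lt.b, Lt.ci] (pat hy (rb_8 hy) 0 rfl) h
theorem dM_406_s (hy : Hy g H) (j z1 z2 u : ℕ) (h : dM_406 j z1 z2 u = true) : GdM g H u := by
  unfold dM_406 at h
  rcases brec_true h with h | h
  · rcases brec_true h with h | h
    · exact mRel_good (T := T) hM0 [Lt.c, Lt.ai, Lt.ai, Lt.ai, Lt.b, Lt.a, Lt.a, Lt.a, Lt.ci, Lt.b, Lt.a, Lt.ci, Lt.b] [Lt.b, Lt.a, Lt.ci] (pat hy (rf_13 hy) 11 rfl) h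
    · rcases brec_true h with h | h
      · exact mRel_good (T := T) hM0 [Lt.a, Lt.b, Lt.ai, Lt.ci, Lt.b, Lt.ci, Lt.b, Lt.c, Lt.a, Lt.b, Lt.a, Lt.a] [Lt.b, Lt.ai, Lt.ai] (pat hy (rf_8 hy) 5 rfl) h
      · exact mRel_good (T := T) hM0 [Lt.ai, Lt.ai, Lt.ai, Lt.b] [Lt.a, Lt.b, Lt.a, Lt.b, Lt.ai, Lt.ci, Lt.b, Lt.ci, Lt.b, Lt.c, Lt.a] (pat hy (rb_8 hy) 12 rfl) h
  · rcases brec_true h with h | h
    · rcases brec_true h with h | h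
      · exact mRel_good (T := T) hM0 [Lt.a, Lt.b, Lt.ai, Lt.b, Lt.ai, Lt.ai, Lt.ai, Lt.ai, Lt.b, Lt.ai, Lt.ci, Lt.b] [Lt.ci, Lt.b, Lt.ci] (pat hy (rb_8 hy) 7 rfl) h
      · exact mRel_good (T := T) hM0 [Lt.a, Lt.a] [Lt.ai, Lt.ai, Lt.ai, Lt.ai, Lt.ai, Lt.ai, Lt.b, Lt.a, Lt.a, Lt.ci, Lt.b, Lt.c, Lt.c, Lt.b, Lt.c] (pat hy (rf_18 hy) 6 rfl) h
    · rcases brec_true h with h | h
      · exact mRel_good (T := T) hM0 [Lt.b, Lt.c, Lt.b, Lt.a, Lt.a, Lt.ci, Lt.a, Lt.a, Lt.b, Lt.a, Lt.b, Lt.a, Lt.c] [Lt.a, Lt.a] (pat hy (rf_10 hy) 9 rfl) h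
      · exact mRel_good (T := T) hM0 [Lt.ai, Lt.ai, Lt.ai, Lt.b, Lt.a, Lt.a, Lt.a, Lt.ci, Lt.b, Lt.a, Lt.ci] [Lt.ci, Lt.b, Lt.a, Lt.ci, Lt.b] (pat hy (rf_13 hy) 12 rfl) h
theorem dM_407_s (hy : Hy g H) (j z1 z2 u : ℕ) (h : dM_407 j z1 z2 u = true) : GdM g H u := by
  unfold dM_407 at h
  rcases brec_true h with h | h
  · exact dM_405_s hy j z1 z2 u h
  · exact dM_406_s hy j z1 z2 u h
theorem dM_408_s (hy : Hy g H) (j z1 z2 u : ℕ) (h : dM_408 j z1 z2 u = true) : GdM g H u := by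
  unfold dM_408 at h
  rcases brec_true h with h | h
  · exact dM_404_s hy j z1 z2 u h
  · exact dM_407_s hy j z1 z2 u h
theorem dM_409_s (hy : Hy g H) (j z1 z2 u : ℕ) (h : dM_409 j z1 z2 u = true) : GdM g H u := by
  unfold dM_409 at h
  rcases brec_true h with h | h
  · rcases brec_true h with h | h
    · exact mRel_good (T := T) hM0 [Lt.a, Lt.c, Lt.ai, Lt.ai, Lt.b, Lt.c, Lt.b, Lt.a, Lt.a, Lt.ci, Lt.a] [Lt.b, Lt.ai, Lt.b, Lt.ai] (pat hy (rf_10 hy) 5 rfl) h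
    · rcases brec_true h with h | h
      · exact mRel_good (T := T) hM0 [Lt.ai, Lt.ai, Lt.c, Lt.ai, Lt.ai, Lt.b, Lt.ci, Lt.b, Lt.a, Lt.a] [Lt.b, Lt.a, Lt.b, Lt.a, Lt.c] (pat hy (rb_10 hy) 13 rfl) h
      · exact mRel_good (T := T) hM0 [Lt.b, Lt.a, Lt.a, Lt.b, Lt.a, Lt.b, Lt.ai, Lt.b, Lt.ci, Lt.ci, Lt.b, Lt.c, Lt.c] [Lt.a, Lt.b] (pat hy (rf_9 hy) 14 rfl) h
  · rcases brec_true h with h | h
    · exact mRel_good (T := T) hM0 [Lt.b, Lt.ai, Lt.b, Lt.ci] [Lt.ai, Lt.b, Lt.ai, Lt.ai, Lt.b, Lt.a, Lt.b, Lt.ci, Lt.ci, Lt.b, Lt.c] (pat hy (rf_9 hy) 4 rfl) h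
    · rcases brec_true h with h | h
      · exact mRel_good (T := T) hM0 [Lt.c, Lt.ai, Lt.ai, Lt.ai, Lt.b, Lt.a, Lt.a, Lt.a, Lt.ci, Lt.b, Lt.a, Lt.ci, Lt.b, Lt.c, Lt.ai] [Lt.b] (pat hy (rf_13 hy) 11 rfl) h
      · exact mRel_good (T := T) hM0 [Lt.ci, Lt.b, Lt.c, Lt.ai, Lt.ci, Lt.ai, Lt.d, Lt.ci] [Lt.ai, Lt.ci, Lt.ai, Lt.d, Lt.ci, Lt.ci, Lt.b, Lt.c] (pat hy (rf_11 hy) 10 rfl) h
theorem dM_410_s (hy : Hy g H) (j z1 z2 u : ℕ) (h : dM_410 j z1 z2 u = true) : GdM g H u := by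
  unfold dM_410 at h
  rcases brec_true h with h | h
  · rcases brec_true h with h | h
    · exact mRel_good (T := T) hM0 [Lt.a, Lt.ci, Lt.b, Lt.c, Lt.ai, Lt.d, Lt.c, Lt.a, Lt.ci, Lt.b, Lt.c] [Lt.d, Lt.ci, Lt.a] (pat hy (rf_6 hy) 1 rfl) h
    · rcases brec_true h with h | h
      · exact mRel_good (T := T) hM0 [Lt.ci, Lt.a, Lt.ci] [Lt.c, Lt.d, Lt.ci, Lt.ci, Lt.a, Lt.ci, Lt.b, Lt.d, Lt.b] (pat hy (rf_4 hy) 7 rfl) h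
      · exact mRel_good (T := T) hM0 [Lt.b, Lt.ci, Lt.b, Lt.c, Lt.b, Lt.c, Lt.a, Lt.a, Lt.b, Lt.ai, Lt.b, Lt.ai, Lt.b] [Lt.ai] (pat hy (rf_7 hy) 8 rfl) h
  · rcases brec_true h with h | h
    · rcases brec_true h with h | h
      · exact mRel_good (T := T) hM0 [Lt.b, Lt.c, Lt.b, Lt.ai, Lt.b, Lt.a, Lt.b, Lt.a, Lt.b, Lt.ai, Lt.ai, Lt.ci, Lt.b] [Lt.c] (pat hy (rb_7 hy) 3 rfl) h
      · exact mRel_good (T := T) hM0 [Lt.a, Lt.a, Lt.b, Lt.a, Lt.b, Lt.ai, Lt.b, Lt.ci, Lt.ci, Lt.b, Lt.c, Lt.c] [Lt.b, Lt.a, Lt.b] (pat hy (rf_9 hy) 0 rfl) h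
    · rcases brec_true h with h | h
      · exact mRel_good (T := T) hM0 [Lt.c, Lt.c, Lt.a, Lt.c, Lt.ai, Lt.ci, Lt.ci, Lt.a] [Lt.b, Lt.ai, Lt.b, Lt.a, Lt.b, Lt.a, Lt.a, Lt.b] (pat hy (rb_12 hy) 5 rfl) h
      · exact mRel_good (T := T) hM0 [Lt.d, Lt.c, Lt.c, Lt.a, Lt.c, Lt.a] [Lt.b, Lt.d, Lt.b, Lt.d, Lt.b, Lt.c] (pat hy (rf_5 hy) 4 rfl) h
theorem dM_411_s (hy : Hy g H) (j z1 z2 u : ℕ) (h : dM_411 j z1 z2 u = true) : GdM g H u := by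
  unfold dM_411 at h
  rcases brec_true h with h | h
  · exact dM_409_s hy j z1 z2 u h
  · exact dM_410_s hy j z1 z2 u h
theorem dM_412_s (hy : Hy g H) (j z1 z2 u : ℕ) (h : dM_412 j z1 z2 u = true) : GdM g H u := by
  unfold dM_412 at h
  rcases brec_true h with h | h
  · rcases brec_true h with h | h
    · exact mRel_good (T := T) hM0 [Lt.d, Lt.a, Lt.ci, Lt.b, Lt.c, Lt.ai, Lt.d, Lt.ci, Lt.a, Lt.ci, Lt.b, Lt.c] [Lt.c, Lt.a] (pat hy (rb_6 hy) 7 rfl) h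
    · rcases brec_true h with h | h
      · exact mRel_good (T := T) hM0 [Lt.ci, Lt.b, Lt.c, Lt.b, Lt.c, Lt.a, Lt.a, Lt.b, Lt.ai, Lt.b] [Lt.b, Lt.ai, Lt.b, Lt.a] (pat hy (rf_7 hy) 9 rfl) h
      · exact mRel_good (T := T) hM0 [Lt.c, Lt.c, Lt.a, Lt.c, Lt.ai, Lt.ci, Lt.ci] [Lt.b, Lt.ai, Lt.b, Lt.a, Lt.b, Lt.a, Lt.a, Lt.b, Lt.ai] (pat hy (rb_12 hy) 5 rfl) h
  · rcases brec_true h with h | h
    · rcases brec_true h with h | h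
      · exact mRel_good (T := T) hM0 [Lt.b, Lt.a, Lt.b, Lt.ai, Lt.ai, Lt.ci] [Lt.ai, Lt.b, Lt.a, Lt.b, Lt.ci, Lt.b, Lt.c, Lt.b] (pat hy (rb_7 hy) 9 rfl) h
      · exact mRel_good (T := T) hM0 [Lt.d, Lt.c, Lt.a, Lt.ci, Lt.b, Lt.c, Lt.ai, Lt.c, Lt.d] [Lt.a, Lt.ci, Lt.b, Lt.c, Lt.ai] (pat hy (rf_6 hy) 6 rfl) h
    · rcases brec_true h with h | h
      · exact mRel_good (T := T) hM0 [Lt.c, Lt.a] [Lt.ci, Lt.d, Lt.b, Lt.d, Lt.b, Lt.d, Lt.b, Lt.c, Lt.ai, Lt.ci] (pat hy (rf_5 hy) 6 rfl) h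
      · exact mRel_good (T := T) hM0 [Lt.b, Lt.c, Lt.ai, Lt.d, Lt.ci, Lt.a, Lt.ci, Lt.b, Lt.c, Lt.ai] [Lt.c, Lt.ai, Lt.d, Lt.c] (pat hy (rb_6 hy) 10 rfl) h
theorem dM_413_s (hy : Hy g H) (j z1 z2 u : ℕ) (h : dM_413 j z1 z2 u = true) : GdM g H u := by
  unfold dM_413 at h
  rcases brec_true h with h | h
  · rcases brec_true h with h | h
    · exact mRel_good (T := T) hM0 [Lt.c, Lt.d, Lt.ci, Lt.ci, Lt.a, Lt.ci, Lt.b] [Lt.ci, Lt.a, Lt.ci, Lt.b, Lt.d] (pat hy (rf_4 hy) 4 rfl) h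
    · rcases brec_true h with h | h
      · exact mRel_good (T := T) hM0 [Lt.a, Lt.ci, Lt.b, Lt.c, Lt.ai, Lt.ci, Lt.d] [Lt.c, Lt.d, Lt.a, Lt.ci, Lt.b, Lt.c, Lt.ai] (pat hy (rb_6 hy) 1 rfl) h
      · exact mRel_good (T := T) hM0 [Lt.c, Lt.c, Lt.d, Lt.ci, Lt.ci, Lt.a, Lt.ci] [Lt.a, Lt.ci, Lt.b, Lt.d, Lt.b] (pat hy (rf_4 hy) 3 rfl) h
  · rcases brec_true h with h | h
    · rcases brec_true h with h | h
      · exact mRel_good (T := T) hM0 [Lt.ai, Lt.b, Lt.ai, Lt.b, Lt.a, Lt.b, Lt.ci, Lt.b, Lt.c, Lt.b, Lt.c, Lt.a] [Lt.b, Lt.ai] (pat hy (rf_7 hy) 3 rfl) h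
      · exact mRel_good (T := T) hM0 [Lt.b, Lt.a] [Lt.ai, Lt.b, Lt.ai, Lt.ai, Lt.c, Lt.ai, Lt.ai, Lt.b, Lt.ci, Lt.b, Lt.a, Lt.a, Lt.ci] (pat hy (rf_10 hy) 4 rfl) h
    · rcases brec_true h with h | h
      · exact mRel_good (T := T) hM0 [Lt.a, Lt.b, Lt.ci, Lt.ci] [Lt.b, Lt.a, Lt.a, Lt.b, Lt.a, Lt.b, Lt.ai, Lt.b, Lt.ci, Lt.ci, Lt.b] (pat hy (rb_9 hy) 1 rfl) h
      · exact mRel_good (T := T) hM0 [Lt.d, Lt.b, Lt.d] [Lt.b, Lt.d, Lt.c, Lt.c, Lt.a, Lt.c, Lt.a, Lt.ci, Lt.b] (pat hy (rb_5 hy) 9 rfl) h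
theorem dM_414_s (hy : Hy g H) (j z1 z2 u : ℕ) (h : dM_414 j z1 z2 u = true) : GdM g H u := by
  unfold dM_414 at h
  rcases brec_true h with h | h
  · exact dM_412_s hy j z1 z2 u h
  · exact dM_413_s hy j z1 z2 u h
theorem dM_415_s (hy : Hy g H) (j z1 z2 u : ℕ) (h : dM_415 j z1 z2 u = true) : GdM g H u := by
  unfold dM_415 at h
  rcases brec_true h with h | h
  · exact dM_411_s hy j z1 z2 u h
  · exact dM_414_s hy j z1 z2 u h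
theorem dM_416_s (hy : Hy g H) (j z1 z2 u : ℕ) (h : dM_416 j z1 z2 u = true) : GdM g H u := by
  unfold dM_416 at h
  rcases brec_true h with h | h
  · exact dM_408_s hy j z1 z2 u h
  · exact dM_415_s hy j z1 z2 u h
theorem dM_417_s (hy : Hy g H) (j z1 z2 u : ℕ) (h : dM_417 j z1 z2 u = true) : GdM g H u := by
  unfold dM_417 at h
  rcases brec_true h with h | h
  · exact dM_401_s hy j z1 z2 u h
  · exact dM_416_s hy j z1 z2 u h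
theorem dM_418_s (hy : Hy g H) (j z1 z2 u : ℕ) (h : dM_418 j z1 z2 u = true) : GdM g H u := by
  unfold dM_418 at h
  rcases brec_true h with h | h
  · rcases brec_true h with h | h
    · exact mRel_good (T := T) hM0 [Lt.a, Lt.ci, Lt.b, Lt.a, Lt.ci] [Lt.ai, Lt.ai, Lt.b, Lt.a, Lt.a, Lt.a, Lt.ci, Lt.b, Lt.a, Lt.ci, Lt.b] (pat hy (rf_13 hy) 2 rfl) h
    · rcases brec_true h with h | h
      · exact mRel_good (T := T) hM0 [Lt.c, Lt.b, Lt.a, Lt.a, Lt.ci] [Lt.b, Lt.a, Lt.a, Lt.ci, Lt.ai, Lt.b, Lt.ai, Lt.b, Lt.ai, Lt.ai] (pat hy (rf_10 hy) 10 rfl) h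
      · exact mRel_good (T := T) hM0 [Lt.ci, Lt.b, Lt.ci] [Lt.ai, Lt.ai, Lt.ai, Lt.ai, Lt.ai, Lt.ai, Lt.ai, Lt.ai, Lt.b, Lt.a, Lt.a, Lt.ci, Lt.b, Lt.c] (pat hy (rf_18 hy) 8 rfl) h
  · rcases brec_true h with h | h
    · exact mRel_good (T := T) hM0 [Lt.b, Lt.ai, Lt.b, Lt.ai, Lt.ai, Lt.ai, Lt.ai] [Lt.ai, Lt.ci, Lt.b, Lt.ci, Lt.b, Lt.c, Lt.a, Lt.b] (pat hy (rb_8 hy) 8 rfl) h
    · rcases brec_true h with h | h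
      · exact mRel_good (T := T) hM0 [Lt.a, Lt.b, Lt.ai, Lt.b, Lt.ai, Lt.ai, Lt.b, Lt.a, Lt.b, Lt.ci, Lt.ci, Lt.b, Lt.c, Lt.c, Lt.b] [] (pat hy (rb_9 hy) 9 rfl) h
      · exact mRel_good (T := T) hM0 [Lt.b, Lt.a, Lt.c, Lt.ai, Lt.ai, Lt.b, Lt.c, Lt.b, Lt.a, Lt.a, Lt.ci] [Lt.ai, Lt.b, Lt.ai, Lt.ai] (pat hy (rf_10 hy) 4 rfl) h
theorem dM_419_s (hy : Hy g H) (j z1 z2 u : ℕ) (h : dM_419 j z1 z2 u = true) : GdM g H u := by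
  unfold dM_419 at h
  rcases brec_true h with h | h
  · rcases brec_true h with h | h
    · exact mRel_good (T := T) hM0 [Lt.ai, Lt.ci, Lt.a, Lt.b, Lt.ai, Lt.ai, Lt.ci, Lt.d, Lt.a, Lt.a, Lt.d, Lt.b, Lt.d] [Lt.ci, Lt.d, Lt.a, Lt.a] (pat hy (rb_15 hy) 1 rfl) h
    · rcases brec_true h with h | h
      · exact mRel_good (T := T) hM0 [Lt.ai, Lt.ci, Lt.ci, Lt.d, Lt.b, Lt.d, Lt.b, Lt.d, Lt.b] [Lt.c, Lt.a, Lt.ci] (pat hy (rb_5 hy) 4 rfl) h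
      · exact mRel_good (T := T) hM0 [Lt.b, Lt.a, Lt.b] [Lt.ci, Lt.ci, Lt.b, Lt.c, Lt.c, Lt.b, Lt.ai, Lt.b, Lt.a, Lt.a, Lt.b, Lt.a] (pat hy (rb_9 hy) 8 rfl) h
  · rcases brec_true h with h | h
    · rcases brec_true h with h | h
      · exact mRel_good (T := T) hM0 [Lt.a, Lt.b, Lt.ai, Lt.b, Lt.ai, Lt.b, Lt.a, Lt.b, Lt.ci, Lt.b, Lt.c, Lt.b, Lt.c, Lt.a] [] (pat hy (rf_7 hy) 1 rfl) h
      · exact mRel_good (T := T) hM0 [Lt.ci, Lt.ai, Lt.ci, Lt.ci, Lt.d, Lt.b, Lt.d, Lt.b, Lt.d] [Lt.a, Lt.ci, Lt.b] (pat hy (rb_5 hy) 3 rfl) h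
    · rcases brec_true h with h | h
      · exact mRel_good (T := T) hM0 [Lt.b, Lt.ai, Lt.ai, Lt.ci, Lt.d, Lt.a, Lt.a, Lt.d, Lt.b] [Lt.ai, Lt.c, Lt.a, Lt.ci, Lt.d, Lt.a, Lt.a, Lt.d] (pat hy (rb_15 hy) 4 rfl) h
      · exact mRel_good (T := T) hM0 [Lt.d, Lt.ci, Lt.ci, Lt.a, Lt.ci] [Lt.ci, Lt.ci, Lt.a, Lt.ci, Lt.b, Lt.d, Lt.b] (pat hy (rf_4 hy) 5 rfl) h
theorem dM_420_s (hy : Hy g H) (j z1 z2 u : ℕ) (h : dM_420 j z1 z2 u = true) : GdM g H u := by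
  unfold dM_420 at h
  rcases brec_true h with h | h
  · exact dM_418_s hy j z1 z2 u h
  · exact dM_419_s hy j z1 z2 u h
theorem dM_421_s (hy : Hy g H) (j z1 z2 u : ℕ) (h : dM_421 j z1 z2 u = true) : GdM g H u := by
  unfold dM_421 at h
  rcases brec_true h with h | h
  · rcases brec_true h with h | h
    · exact mRel_good (T := T) hM0 [Lt.c, Lt.a, Lt.a, Lt.b, Lt.ai, Lt.c, Lt.a, Lt.ci, Lt.d, Lt.a, Lt.a, Lt.d, Lt.b, Lt.d, Lt.ai, Lt.ai] [Lt.d] (pat hy (rf_15 hy) 9 rfl) h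
    · rcases brec_true h with h | h
      · exact mRel_good (T := T) hM0 [Lt.a, Lt.a, Lt.d, Lt.b, Lt.d, Lt.ai, Lt.ai, Lt.d, Lt.c, Lt.a, Lt.a, Lt.b] [Lt.d, Lt.c, Lt.ai, Lt.ci, Lt.a] (pat hy (rf_15 hy) 1 rfl) h
      · exact mRel_good (T := T) hM0 [Lt.ai, Lt.d, Lt.c, Lt.a, Lt.ci, Lt.b, Lt.c, Lt.ai, Lt.c, Lt.d, Lt.a, Lt.ci, Lt.b] [Lt.ci] (pat hy (rf_6 hy) 5 rfl) h
  · rcases brec_true h with h | h
    · exact mRel_good (T := T) hM0 [Lt.ci, Lt.b, Lt.d] [Lt.ai, Lt.c, Lt.c, Lt.d, Lt.ci, Lt.ci, Lt.a, Lt.ci, Lt.b] (pat hy (rf_4 hy) 9 rfl) h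
    · rcases brec_true h with h | h
      · exact mRel_good (T := T) hM0 [Lt.c, Lt.ai, Lt.ci, Lt.ai, Lt.d, Lt.ci, Lt.ci] [Lt.b, Lt.c, Lt.ai, Lt.ci, Lt.ai, Lt.d, Lt.ci, Lt.ci, Lt.b] (pat hy (rf_11 hy) 12 rfl) h
      · exact mRel_good (T := T) hM0 [Lt.ci, Lt.b, Lt.c, Lt.ai, Lt.d, Lt.ci, Lt.a, Lt.ci, Lt.b] [Lt.ai, Lt.d, Lt.c, Lt.a, Lt.ci] (pat hy (rb_6 hy) 9 rfl) h
theorem dM_422_s (hy : Hy g H) (j z1 z2 u : ℕ) (h : dM_422 j z1 z2 u = true) : GdM g H u := by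
  unfold dM_422 at h
  rcases brec_true h with h | h
  · rcases brec_true h with h | h
    · exact mRel_good (T := T) hM0 [Lt.a, Lt.ci, Lt.b, Lt.c, Lt.ai, Lt.ci, Lt.ai, Lt.d, Lt.ci] [Lt.ci, Lt.ai, Lt.d, Lt.ci, Lt.ci, Lt.b, Lt.c] (pat hy (rf_11 hy) 9 rfl) h
    · rcases brec_true h with h | h
      · exact mRel_good (T := T) hM0 [Lt.ai, Lt.ai, Lt.b, Lt.c, Lt.b, Lt.a, Lt.a, Lt.ci, Lt.a, Lt.a] [Lt.ci, Lt.ai, Lt.b, Lt.ai, Lt.b] (pat hy (rf_10 hy) 7 rfl) h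
      · exact mRel_good (T := T) hM0 [Lt.a, Lt.a, Lt.ci] [Lt.b, Lt.ci, Lt.b, Lt.a, Lt.a, Lt.ci, Lt.ai, Lt.b, Lt.ai, Lt.b, Lt.ai, Lt.ai] (pat hy (rf_10 hy) 12 rfl) h
  · rcases brec_true h with h | h
    · rcases brec_true h with h | h
      · exact mRel_good (T := T) hM0 [Lt.a, Lt.c, Lt.a, Lt.ci, Lt.b, Lt.d, Lt.b, Lt.d, Lt.b, Lt.d] [Lt.ci, Lt.ci] (pat hy (rf_5 hy) 7 rfl) h
      · exact mRel_good (T := T) hM0 [Lt.a, Lt.b, Lt.ai, Lt.ai, Lt.ci, Lt.b, Lt.ci, Lt.b, Lt.c] [Lt.b, Lt.ai, Lt.b, Lt.a, Lt.b] (pat hy (rb_7 hy) 10 rfl) h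
    · rcases brec_true h with h | h
      · exact mRel_good (T := T) hM0 [Lt.d, Lt.b, Lt.c, Lt.ai, Lt.ci, Lt.ai, Lt.ci, Lt.ci, Lt.d, Lt.b] [Lt.b, Lt.d] (pat hy (rb_5 hy) 11 rfl) h
      · exact mRel_good (T := T) hM0 [Lt.a, Lt.b, Lt.a, Lt.b, Lt.ai, Lt.ai, Lt.ci, Lt.b] [Lt.b, Lt.a, Lt.b, Lt.ci, Lt.b, Lt.c] (pat hy (rb_7 hy) 8 rfl) h
theorem dM_423_s (hy : Hy g H) (j z1 z2 u : ℕ) (h : dM_423 j z1 z2 u = true) : GdM g H u := by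
  unfold dM_423 at h
  rcases brec_true h with h | h
  · exact dM_421_s hy j z1 z2 u h
  · exact dM_422_s hy j z1 z2 u h
theorem dM_424_s (hy : Hy g H) (j z1 z2 u : ℕ) (h : dM_424 j z1 z2 u = true) : GdM g H u := by
  unfold dM_424 at h
  rcases brec_true h with h | h
  · exact dM_420_s hy j z1 z2 u h
  · exact dM_423_s hy j z1 z2 u h
theorem dM_425_s (hy : Hy g H) (j z1 z2 u : ℕ) (h : dM_425 j z1 z2 u = true) : GdM g H u := by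
  unfold dM_425 at h
  rcases brec_true h with h | h
  · rcases brec_true h with h | h
    · exact mRel_good (T := T) hM0 [Lt.c, Lt.ai, Lt.ai, Lt.b] [Lt.a, Lt.a, Lt.b, Lt.a, Lt.b, Lt.a, Lt.c, Lt.ai, Lt.ai, Lt.b, Lt.c] (pat hy (rb_10 hy) 0 rfl) h
    · rcases brec_true h with h | h
      · exact mRel_good (T := T) hM0 [Lt.b, Lt.ai] [Lt.ci, Lt.b, Lt.c, Lt.b, Lt.c, Lt.a, Lt.a, Lt.b, Lt.ai, Lt.b, Lt.ai, Lt.b] (pat hy (rb_7 hy) 5 rfl) h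
      · exact mRel_good (T := T) hM0 [Lt.ai, Lt.b, Lt.a, Lt.b, Lt.ci, Lt.ci, Lt.b, Lt.c] [Lt.a, Lt.b, Lt.a, Lt.b, Lt.ai, Lt.b, Lt.ci] (pat hy (rb_9 hy) 14 rfl) h
  · rcases brec_true h with h | h
    · exact mRel_good (T := T) hM0 [Lt.b] [Lt.ai, Lt.b, Lt.a, Lt.b, Lt.a, Lt.b, Lt.ai, Lt.ai, Lt.ci, Lt.b, Lt.ci, Lt.b, Lt.c] (pat hy (rf_7 hy) 8 rfl) h
    · rcases brec_true h with h | h
      · exact mRel_good (T := T) hM0 [Lt.c, Lt.ai, Lt.ci, Lt.ai] [Lt.b, Lt.d, Lt.b, Lt.d, Lt.b, Lt.d, Lt.c, Lt.c] (pat hy (rb_5 hy) 1 rfl) h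
      · exact mRel_good (T := T) hM0 [Lt.ci, Lt.b, Lt.c, Lt.c, Lt.b, Lt.a, Lt.b, Lt.ai, Lt.b, Lt.ai, Lt.ai, Lt.b, Lt.a, Lt.b] [Lt.c] (pat hy (rb_9 hy) 4 rfl) h
theorem dM_426_s (hy : Hy g H) (j z1 z2 u : ℕ) (h : dM_426 j z1 z2 u = true) : GdM g H u := by
  unfold dM_426 at h
  rcases brec_true h with h | h
  · rcases brec_true h with h | h
    · exact mRel_good (T := T) hM0 [Lt.ci, Lt.a, Lt.a, Lt.b] [Lt.ai, Lt.ai, Lt.b, Lt.ci, Lt.b, Lt.a, Lt.a, Lt.ci, Lt.ai, Lt.b, Lt.ai] (pat hy (rf_10 hy) 14 rfl) h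
    · rcases brec_true h with h | h
      · exact mRel_good (T := T) hM0 [Lt.ai, Lt.ai, Lt.c, Lt.ai, Lt.ai, Lt.b, Lt.ci, Lt.b, Lt.a] [Lt.b, Lt.a, Lt.b, Lt.a, Lt.c, Lt.ai] (pat hy (rb_10 hy) 13 rfl) h
      · exact mRel_good (T := T) hM0 [Lt.b, Lt.d] [Lt.c, Lt.ai, Lt.ci, Lt.ai, Lt.ci, Lt.ci, Lt.d, Lt.b, Lt.d, Lt.b] (pat hy (rf_5 hy) 11 rfl) h
  · rcases brec_true h with h | h
    · rcases brec_true h with h | h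
      · exact mRel_good (T := T) hM0 [Lt.b] [Lt.ai, Lt.b, Lt.a, Lt.b, Lt.ci, Lt.b, Lt.c, Lt.b, Lt.c, Lt.a, Lt.a, Lt.b, Lt.ai] (pat hy (rb_7 hy) 9 rfl) h
      · exact mRel_good (T := T) hM0 [Lt.b, Lt.a, Lt.c, Lt.ai] [Lt.ai, Lt.b, Lt.ai, Lt.ai, Lt.c, Lt.ai, Lt.ai, Lt.b, Lt.ci, Lt.b, Lt.a] (pat hy (rf_10 hy) 4 rfl) h
    · rcases brec_true h with h | h
      · exact mRel_good (T := T) hM0 [Lt.ai, Lt.ai, Lt.ai, Lt.b, Lt.ai, Lt.ci, Lt.b, Lt.c, Lt.b, Lt.c, Lt.a, Lt.b, Lt.ai] [Lt.a, Lt.b] (pat hy (rb_8 hy) 12 rfl) h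
      · exact mRel_good (T := T) hM0 [Lt.b, Lt.c] [Lt.d, Lt.b, Lt.c, Lt.ai, Lt.c, Lt.c, Lt.d, Lt.ci, Lt.ci, Lt.a] (pat hy (rf_4 hy) 0 rfl) h
theorem dM_427_s (hy : Hy g H) (j z1 z2 u : ℕ) (h : dM_427 j z1 z2 u = true) : GdM g H u := by
  unfold dM_427 at h
  rcases brec_true h with h | h
  · exact dM_425_s hy j z1 z2 u h
  · exact dM_426_s hy j z1 z2 u h
theorem dM_428_s (hy : Hy g H) (j z1 z2 u : ℕ) (h : dM_428 j z1 z2 u = true) : GdM g H u := by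
  unfold dM_428 at h
  rcases brec_true h with h | h
  · rcases brec_true h with h | h
    · exact mRel_good (T := T) hM0 [Lt.ai, Lt.ai, Lt.b, Lt.c, Lt.b, Lt.a, Lt.a, Lt.ci, Lt.a, Lt.a, Lt.b] [Lt.ci, Lt.ai, Lt.b, Lt.ai] (pat hy (rf_10 hy) 7 rfl) h
    · rcases brec_true h with h | h
      · exact mRel_good (T := T) hM0 [Lt.c, Lt.a, Lt.ci, Lt.b, Lt.c, Lt.ai, Lt.c, Lt.d] [Lt.d, Lt.a, Lt.ci, Lt.b, Lt.c, Lt.ai] (pat hy (rf_6 hy) 7 rfl) h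
      · exact mRel_good (T := T) hM0 [Lt.ai, Lt.b, Lt.ai, Lt.ai, Lt.ai, Lt.ai, Lt.b, Lt.ai, Lt.ci, Lt.b, Lt.c] [Lt.b, Lt.ai, Lt.ci, Lt.b] (pat hy (rb_8 hy) 9 rfl) h
  · rcases brec_true h with h | h
    · rcases brec_true h with h | h
      · exact mRel_good (T := T) hM0 [Lt.b, Lt.c] [Lt.d, Lt.b, Lt.d, Lt.b, Lt.d, Lt.c, Lt.c, Lt.a, Lt.c, Lt.a] (pat hy (rb_5 hy) 0 rfl) h
      · exact mRel_good (T := T) hM0 [Lt.ai] [Lt.b, Lt.ai, Lt.ai, Lt.ci, Lt.b, Lt.ci, Lt.b, Lt.c, Lt.b, Lt.ai, Lt.b, Lt.a, Lt.b] (pat hy (rf_7 hy) 3 rfl) h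
    · rcases brec_true h with h | h
      · exact mRel_good (T := T) hM0 [Lt.ci, Lt.b, Lt.c, Lt.b, Lt.ai, Lt.b, Lt.a] [Lt.b, Lt.c, Lt.a, Lt.a, Lt.b, Lt.ai, Lt.b] (pat hy (rb_7 hy) 2 rfl) h
      · exact mRel_good (T := T) hM0 [Lt.ai, Lt.b, Lt.a, Lt.b] [Lt.b, Lt.a, Lt.b, Lt.ai, Lt.ai, Lt.ci, Lt.b, Lt.ci, Lt.b, Lt.c] (pat hy (rf_7 hy) 5 rfl) h
theorem dM_429_s (hy : Hy g H) (j z1 z2 u : ℕ) (h : dM_429 j z1 z2 u = true) : GdM g H u := by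
  unfold dM_429 at h
  rcases brec_true h with h | h
  · rcases brec_true h with h | h
    · exact mRel_good (T := T) hM0 [Lt.b, Lt.ai, Lt.b] [Lt.a, Lt.b, Lt.ai, Lt.ai, Lt.ci, Lt.b, Lt.ci, Lt.b, Lt.c, Lt.b, Lt.ai] (pat hy (rf_7 hy) 4 rfl) h
    · rcases brec_true h with h | h
      · exact mRel_good (T := T) hM0 [Lt.a, Lt.a, Lt.b, Lt.ai, Lt.c, Lt.c, Lt.a, Lt.ci, Lt.ai, Lt.ci] [Lt.b, Lt.ai, Lt.b, Lt.a, Lt.b, Lt.c] (pat hy (rf_12 hy) 0 rfl) h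
      · exact mRel_good (T := T) hM0 [Lt.a, Lt.b, Lt.a, Lt.b] [Lt.ai, Lt.b, Lt.a, Lt.b, Lt.ci, Lt.ci, Lt.b, Lt.c, Lt.c, Lt.b, Lt.a] (pat hy (rf_9 hy) 1 rfl) h
  · rcases brec_true h with h | h
    · rcases brec_true h with h | h
      · exact mRel_good (T := T) hM0 [Lt.ai, Lt.c, Lt.a, Lt.ci, Lt.d, Lt.a, Lt.a, Lt.d] [Lt.b, Lt.ai, Lt.ai, Lt.ci, Lt.d, Lt.a, Lt.a, Lt.d, Lt.b] (pat hy (rf_15 hy) 13 rfl) h
      · exact mRel_good (T := T) hM0 [Lt.ai, Lt.ci, Lt.d, Lt.a, Lt.a, Lt.d, Lt.b, Lt.d, Lt.ai, Lt.ai] [Lt.a, Lt.b, Lt.ai, Lt.c, Lt.a, Lt.ci, Lt.d] (pat hy (rb_15 hy) 6 rfl) h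
    · rcases brec_true h with h | h
      · exact mRel_good (T := T) hM0 [Lt.ai, Lt.ai, Lt.ai, Lt.b] [Lt.a, Lt.a, Lt.a, Lt.a, Lt.a, Lt.ci, Lt.b, Lt.ci, Lt.ci, Lt.b, Lt.c, Lt.ai, Lt.ai] (pat hy (rb_18 hy) 14 rfl) h
      · exact mRel_good (T := T) hM0 [Lt.ci, Lt.ci, Lt.d, Lt.b, Lt.d] [Lt.a, Lt.c, Lt.a, Lt.ci, Lt.b, Lt.d, Lt.b] (pat hy (rb_5 hy) 5 rfl) h
theorem dM_430_s (hy : Hy g H) (j z1 z2 u : ℕ) (h : dM_430 j z1 z2 u = true) : GdM g H u := by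
  unfold dM_430 at h
  rcases brec_true h with h | h
  · exact dM_428_s hy j z1 z2 u h
  · exact dM_429_s hy j z1 z2 u h
theorem dM_431_s (hy : Hy g H) (j z1 z2 u : ℕ) (h : dM_431 j z1 z2 u = true) : GdM g H u := by
  unfold dM_431 at h
  rcases brec_true h with h | h
  · exact dM_427_s hy j z1 z2 u h
  · exact dM_430_s hy j z1 z2 u h
theorem dM_432_s (hy : Hy g H) (j z1 z2 u : ℕ) (h : dM_432 j z1 z2 u = true) : GdM g H u := by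
  unfold dM_432 at h
  rcases brec_true h with h | h
  · exact dM_424_s hy j z1 z2 u h
  · exact dM_431_s hy j z1 z2 u h
theorem dM_433_s (hy : Hy g H) (j z1 z2 u : ℕ) (h : dM_433 j z1 z2 u = true) : GdM g H u := by
  unfold dM_433 at h
  rcases brec_true h with h | h
  · rcases brec_true h with h | h
    · exact mRel_good (T := T) hM0 [Lt.b, Lt.d, Lt.ai, Lt.ai, Lt.d, Lt.c, Lt.a, Lt.a, Lt.b, Lt.ai, Lt.c, Lt.a, Lt.ci, Lt.d, Lt.a, Lt.a, Lt.d] [] (pat hy (rf_15 hy) 4 rfl) h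
    · rcases brec_true h with h | h
      · exact mRel_good (T := T) hM0 [Lt.ai, Lt.ci, Lt.d, Lt.a, Lt.ci] [Lt.ci, Lt.b, Lt.c, Lt.ai, Lt.c, Lt.d, Lt.a, Lt.ci, Lt.b] (pat hy (rb_6 hy) 5 rfl) h
      · exact mRel_good (T := T) hM0 [Lt.ai, Lt.b, Lt.ci, Lt.b, Lt.a, Lt.a, Lt.ci, Lt.ai, Lt.b, Lt.ai, Lt.b] [Lt.a, Lt.ci, Lt.a, Lt.a] (pat hy (rb_10 hy) 2 rfl) h
  · rcases brec_true h with h | h
    · exact mRel_good (T := T) hM0 [Lt.ai, Lt.ai, Lt.b, Lt.a, Lt.b] [Lt.b, Lt.a, Lt.b, Lt.ai, Lt.b, Lt.ci, Lt.ci, Lt.b, Lt.c, Lt.c] (pat hy (rb_9 hy) 13 rfl) h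
    · rcases brec_true h with h | h
      · exact mRel_good (T := T) hM0 [Lt.c, Lt.b, Lt.c, Lt.a, Lt.b] [Lt.b, Lt.c, Lt.a, Lt.b, Lt.a, Lt.a, Lt.a, Lt.a, Lt.b, Lt.a] (pat hy (rb_8 hy) 4 rfl) h
      · exact mRel_good (T := T) hM0 [Lt.a] [Lt.ai, Lt.b, Lt.a, Lt.b, Lt.ci, Lt.ci, Lt.b, Lt.c, Lt.c, Lt.b, Lt.a, Lt.b, Lt.ai, Lt.b] (pat hy (rf_9 hy) 1 rfl) h
theorem dM_434_s (hy : Hy g H) (j z1 z2 u : ℕ) (h : dM_434 j z1 z2 u = true) : GdM g H u := by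
  unfold dM_434 at h
  rcases brec_true h with h | h
  · rcases brec_true h with h | h
    · exact mRel_good (T := T) hM0 [Lt.b, Lt.ai, Lt.b, Lt.a, Lt.b, Lt.ci, Lt.b, Lt.c, Lt.b, Lt.c, Lt.a] [Lt.a, Lt.b, Lt.ai] (pat hy (rf_7 hy) 4 rfl) h
    · rcases brec_true h with h | h
      · exact mRel_good (T := T) hM0 [Lt.a, Lt.ci, Lt.ai, Lt.b, Lt.ai, Lt.b, Lt.ai, Lt.ai, Lt.c, Lt.ai, Lt.ai] [Lt.ai, Lt.b, Lt.c, Lt.b] (pat hy (rb_10 hy) 7 rfl) h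
      · exact mRel_good (T := T) hM0 [Lt.a, Lt.ci, Lt.a, Lt.a, Lt.b, Lt.a, Lt.b, Lt.a, Lt.c, Lt.ai, Lt.ai, Lt.b, Lt.c] [Lt.ai, Lt.b] (pat hy (rf_10 hy) 13 rfl) h
  · rcases brec_true h with h | h
    · rcases brec_true h with h | h
      · exact mRel_good (T := T) hM0 [Lt.a, Lt.a, Lt.b, Lt.ai, Lt.b, Lt.ai, Lt.b, Lt.a, Lt.b, Lt.ci, Lt.b, Lt.c, Lt.b] [Lt.ci] (pat hy (rf_7 hy) 0 rfl) h
      · exact mRel_good (T := T) hM0 [Lt.a, Lt.a, Lt.b, Lt.a, Lt.b, Lt.ai, Lt.b, Lt.ci, Lt.ci] [Lt.b, Lt.a, Lt.b, Lt.ci, Lt.ci, Lt.b] (pat hy (rf_9 hy) 0 rfl) h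
    · rcases brec_true h with h | h
      · exact mRel_good (T := T) hM0 [Lt.b, Lt.a, Lt.b, Lt.a, Lt.c] [Lt.ai, Lt.ai, Lt.c, Lt.ai, Lt.ai, Lt.b, Lt.ci, Lt.b, Lt.a, Lt.a] (pat hy (rf_10 hy) 2 rfl) h
      · exact mRel_good (T := T) hM0 [Lt.b, Lt.c, Lt.c, Lt.b, Lt.ai, Lt.b, Lt.a, Lt.a, Lt.b] [Lt.c, Lt.c, Lt.b, Lt.a, Lt.b, Lt.ai] (pat hy (rf_9 hy) 9 rfl) h
theorem dM_435_s (hy : Hy g H) (j z1 z2 u : ℕ) (h : dM_435 j z1 z2 u = true) : GdM g H u := by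
  unfold dM_435 at h
  rcases brec_true h with h | h
  · exact dM_433_s hy j z1 z2 u h
  · exact dM_434_s hy j z1 z2 u h
theorem dM_436_s (hy : Hy g H) (j z1 z2 u : ℕ) (h : dM_436 j z1 z2 u = true) : GdM g H u := by
  unfold dM_436 at h
  rcases brec_true h with h | h
  · rcases brec_true h with h | h
    · exact mRel_good (T := T) hM0 [Lt.b, Lt.a, Lt.a, Lt.ci, Lt.ai, Lt.b, Lt.ai, Lt.b, Lt.ai, Lt.ai, Lt.c] [Lt.c, Lt.b, Lt.a, Lt.a] (pat hy (rb_10 hy) 5 rfl) h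
    · rcases brec_true h with h | h
      · exact mRel_good (T := T) hM0 [Lt.c, Lt.b, Lt.c, Lt.a, Lt.b, Lt.ai] [Lt.b, Lt.c, Lt.a, Lt.b, Lt.a, Lt.a, Lt.a, Lt.a, Lt.b] (pat hy (rb_8 hy) 4 rfl) h
      · exact mRel_good (T := T) hM0 [Lt.a, Lt.a, Lt.b, Lt.a, Lt.b, Lt.ai, Lt.ci] [Lt.ai, Lt.ai, Lt.b, Lt.ai, Lt.ci, Lt.b, Lt.c, Lt.b] (pat hy (rf_8 hy) 2 rfl) h
  · rcases brec_true h with h | h
    · exact mRel_good (T := T) hM0 [Lt.c, Lt.a, Lt.a, Lt.b, Lt.ai, Lt.b, Lt.ai, Lt.b] [Lt.b, Lt.ci, Lt.b, Lt.c, Lt.b, Lt.ai] (pat hy (rf_7 hy) 13 rfl) h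
    · rcases brec_true h with h | h
      · exact mRel_good (T := T) hM0 [Lt.b, Lt.a, Lt.a, Lt.ci, Lt.ai, Lt.b, Lt.ai, Lt.b, Lt.ai, Lt.ai, Lt.c, Lt.ai, Lt.ai, Lt.b, Lt.ci] [] (pat hy (rb_10 hy) 5 rfl) h
      · exact mRel_good (T := T) hM0 [Lt.b, Lt.ai, Lt.ai, Lt.ci, Lt.d, Lt.a, Lt.a] [Lt.ai, Lt.c, Lt.a, Lt.ci, Lt.d, Lt.a, Lt.a, Lt.d, Lt.b, Lt.d] (pat hy (rb_15 hy) 4 rfl) h
theorem dM_437_s (hy : Hy g H) (j z1 z2 u : ℕ) (h : dM_437 j z1 z2 u = true) : GdM g H u := by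
  unfold dM_437 at h
  rcases brec_true h with h | h
  · rcases brec_true h with h | h
    · exact mRel_good (T := T) hM0 [Lt.a, Lt.a, Lt.b, Lt.ai, Lt.c, Lt.a, Lt.ci, Lt.d] [Lt.ci, Lt.d, Lt.a, Lt.a, Lt.d, Lt.b, Lt.d, Lt.ai, Lt.ai] (pat hy (rf_15 hy) 10 rfl) h
    · rcases brec_true h with h | h
      · exact mRel_good (T := T) hM0 [Lt.a, Lt.a, Lt.b] [Lt.ai, Lt.ai, Lt.b, Lt.ai, Lt.ci, Lt.b, Lt.c, Lt.b, Lt.c, Lt.a, Lt.b, Lt.ai] (pat hy (rf_8 hy) 2 rfl) h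
      · exact mRel_good (T := T) hM0 [Lt.b, Lt.a, Lt.a, Lt.b, Lt.a, Lt.b, Lt.ai, Lt.b, Lt.ci, Lt.ci, Lt.b, Lt.c, Lt.c, Lt.b] [Lt.a] (pat hy (rf_9 hy) 14 rfl) h
  · rcases brec_true h with h | h
    · rcases brec_true h with h | h
      · exact mRel_good (T := T) hM0 [Lt.b, Lt.a, Lt.b, Lt.ai, Lt.b, Lt.ci, Lt.ci, Lt.b, Lt.c, Lt.c, Lt.b, Lt.ai, Lt.b, Lt.a, Lt.a] [] (pat hy (rf_9 hy) 2 rfl) h
      · exact mRel_good (T := T) hM0 [Lt.b, Lt.ai, Lt.b, Lt.ci, Lt.ci, Lt.b, Lt.c, Lt.c, Lt.b, Lt.ai, Lt.b, Lt.a, Lt.a] [Lt.ai, Lt.b] (pat hy (rf_9 hy) 4 rfl) h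
    · rcases brec_true h with h | h
      · exact mRel_good (T := T) hM0 [Lt.c, Lt.b, Lt.a, Lt.b, Lt.ai, Lt.b, Lt.ai, Lt.ai, Lt.b, Lt.a, Lt.b] [Lt.ci, Lt.b, Lt.c, Lt.c] (pat hy (rb_9 hy) 7 rfl) h
      · exact mRel_good (T := T) hM0 [Lt.ai, Lt.ai, Lt.b, Lt.ci, Lt.b, Lt.a, Lt.a, Lt.ci] [Lt.ci, Lt.a, Lt.a, Lt.b, Lt.a, Lt.b, Lt.a] (pat hy (rb_10 hy) 1 rfl) h
theorem dM_438_s (hy : Hy g H) (j z1 z2 u : ℕ) (h : dM_438 j z1 z2 u = true) : GdM g H u := by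
  unfold dM_438 at h
  rcases brec_true h with h | h
  · exact dM_436_s hy j z1 z2 u h
  · exact dM_437_s hy j z1 z2 u h
theorem dM_439_s (hy : Hy g H) (j z1 z2 u : ℕ) (h : dM_439 j z1 z2 u = true) : GdM g H u := by
  unfold dM_439 at h
  rcases brec_true h with h | h
  · exact dM_435_s hy j z1 z2 u h
  · exact dM_438_s hy j z1 z2 u h
theorem dM_440_s (hy : Hy g H) (j z1 z2 u : ℕ) (h : dM_440 j z1 z2 u = true) : GdM g H u := by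
  unfold dM_440 at h
  rcases brec_true h with h | h
  · rcases brec_true h with h | h
    · exact mRel_good (T := T) hM0 [Lt.b, Lt.c] [Lt.c, Lt.c, Lt.b, Lt.a, Lt.b, Lt.ai, Lt.b, Lt.ai, Lt.ai, Lt.b, Lt.a, Lt.b, Lt.ci] (pat hy (rf_9 hy) 9 rfl) h
    · rcases brec_true h with h | h
      · exact mRel_good (T := T) hM0 [Lt.ai, Lt.ci, Lt.d] [Lt.a, Lt.b, Lt.ai, Lt.c, Lt.a, Lt.ci, Lt.d, Lt.a, Lt.a, Lt.d, Lt.b, Lt.d, Lt.ai, Lt.ai] (pat hy (rb_15 hy) 6 rfl) h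
      · exact mRel_good (T := T) hM0 [Lt.c, Lt.a, Lt.ci, Lt.d, Lt.a, Lt.a, Lt.d, Lt.b, Lt.d, Lt.ai] [Lt.a, Lt.b, Lt.ai, Lt.ai, Lt.ci, Lt.d, Lt.a] (pat hy (rf_15 hy) 14 rfl) h
  · rcases brec_true h with h | h
    · exact mRel_good (T := T) hM0 [Lt.ai, Lt.b, Lt.ai, Lt.ai, Lt.b, Lt.a, Lt.b, Lt.ci] [Lt.b, Lt.ai, Lt.b, Lt.ci, Lt.ci, Lt.b, Lt.c] (pat hy (rb_9 hy) 11 rfl) h
    · rcases brec_true h with h | h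
      · exact mRel_good (T := T) hM0 [Lt.a, Lt.a, Lt.b] [Lt.b, Lt.a, Lt.b, Lt.ci, Lt.ci, Lt.b, Lt.c, Lt.c, Lt.b, Lt.a, Lt.b, Lt.ai] (pat hy (rf_9 hy) 0 rfl) h
      · exact mRel_good (T := T) hM0 [Lt.ci, Lt.ai, Lt.b, Lt.ai, Lt.b, Lt.ai, Lt.ai, Lt.c, Lt.ai] [Lt.ai, Lt.ai, Lt.b, Lt.c, Lt.b, Lt.a] (pat hy (rb_10 hy) 8 rfl) h
theorem dM_441_s (hy : Hy g H) (j z1 z2 u : ℕ) (h : dM_441 j z1 z2 u = true) : GdM g H u := by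
  unfold dM_441 at h
  rcases brec_true h with h | h
  · rcases brec_true h with h | h
    · exact mRel_good (T := T) hM0 [Lt.b, Lt.c, Lt.a, Lt.a, Lt.b, Lt.ai, Lt.b, Lt.ai] [Lt.ci, Lt.b, Lt.c, Lt.b, Lt.ai, Lt.b] (pat hy (rf_7 hy) 12 rfl) h
    · rcases brec_true h with h | h
      · exact mRel_good (T := T) hM0 [Lt.b, Lt.a, Lt.b, Lt.ai, Lt.b, Lt.ai] [Lt.ci, Lt.ci, Lt.b, Lt.c, Lt.c, Lt.b, Lt.ai, Lt.b, Lt.a] (pat hy (rb_9 hy) 8 rfl) h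
      · exact mRel_good (T := T) hM0 [Lt.b, Lt.c, Lt.b, Lt.c] [Lt.c, Lt.a, Lt.b, Lt.a, Lt.a, Lt.a, Lt.a, Lt.b, Lt.a, Lt.b, Lt.ai] (pat hy (rb_8 hy) 3 rfl) h
  · rcases brec_true h with h | h
    · rcases brec_true h with h | h
      · exact mRel_good (T := T) hM0 [Lt.c, Lt.d, Lt.a, Lt.ci, Lt.b, Lt.c, Lt.ai, Lt.d, Lt.c, Lt.a, Lt.ci, Lt.b, Lt.c, Lt.ai] [] (pat hy (rf_6 hy) 13 rfl) h
      · exact mRel_good (T := T) hM0 [Lt.ci, Lt.b, Lt.c, Lt.b, Lt.c, Lt.a] [Lt.a, Lt.b, Lt.a, Lt.a, Lt.a, Lt.a, Lt.b, Lt.a, Lt.b] (pat hy (rb_8 hy) 2 rfl) h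
    · rcases brec_true h with h | h
      · exact mRel_good (T := T) hM0 [Lt.c, Lt.a, Lt.ci, Lt.b, Lt.c] [Lt.d, Lt.a, Lt.ci, Lt.b, Lt.c, Lt.ai, Lt.d, Lt.ci, Lt.a] (pat hy (rf_6 hy) 7 rfl) h
      · exact mRel_good (T := T) hM0 [Lt.ai, Lt.ai, Lt.b, Lt.a, Lt.a, Lt.a, Lt.ci, Lt.b, Lt.a] [Lt.a, Lt.ci, Lt.b, Lt.a, Lt.ci, Lt.b, Lt.c] (pat hy (rf_13 hy) 13 rfl) h
theorem dM_442_s (hy : Hy g H) (j z1 z2 u : ℕ) (h : dM_442 j z1 z2 u = true) : GdM g H u := by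
  unfold dM_442 at h
  rcases brec_true h with h | h
  · exact dM_440_s hy j z1 z2 u h
  · exact dM_441_s hy j z1 z2 u h
theorem dM_443_s (hy : Hy g H) (j z1 z2 u : ℕ) (h : dM_443 j z1 z2 u = true) : GdM g H u := by
  unfold dM_443 at h
  rcases brec_true h with h | h
  · rcases brec_true h with h | h
    · exact mRel_good (T := T) hM0 [Lt.d, Lt.ci, Lt.a, Lt.ci, Lt.b, Lt.c] [Lt.a, Lt.ci, Lt.b, Lt.c, Lt.ai, Lt.d, Lt.c, Lt.a] (pat hy (rb_6 hy) 13 rfl) h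
    · rcases brec_true h with h | h
      · exact mRel_good (T := T) hM0 [Lt.c] [Lt.b, Lt.d, Lt.b, Lt.c, Lt.ai, Lt.c, Lt.c, Lt.d, Lt.ci, Lt.ci, Lt.a] (pat hy (rf_4 hy) 1 rfl) h
      · exact mRel_good (T := T) hM0 [Lt.ai, Lt.ai, Lt.b, Lt.ai, Lt.ci, Lt.b, Lt.c, Lt.b, Lt.c, Lt.a] [Lt.a, Lt.a, Lt.b, Lt.a, Lt.b] (pat hy (rb_8 hy) 13 rfl) h
  · rcases brec_true h with h | h
    · rcases brec_true h with h | h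
      · exact mRel_good (T := T) hM0 [Lt.ci, Lt.b, Lt.d, Lt.b, Lt.d, Lt.b] [Lt.ai, Lt.ci, Lt.ai, Lt.ci, Lt.ci, Lt.d] (pat hy (rf_5 hy) 10 rfl) h
      · exact mRel_good (T := T) hM0 [Lt.ai, Lt.d, Lt.c, Lt.a, Lt.a, Lt.b, Lt.ai, Lt.c, Lt.a, Lt.ci, Lt.d, Lt.a, Lt.a] [Lt.a, Lt.d, Lt.b, Lt.d] (pat hy (rf_15 hy) 7 rfl) h
    · rcases brec_true h with h | h
      · exact mRel_good (T := T) hM0 [Lt.a, Lt.b, Lt.ai, Lt.c, Lt.a, Lt.ci, Lt.d, Lt.a, Lt.a, Lt.d, Lt.b] [Lt.ai, Lt.ci, Lt.d, Lt.a, Lt.a, Lt.d] (pat hy (rf_15 hy) 11 rfl) h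
      · exact mRel_good (T := T) hM0 [Lt.d, Lt.b, Lt.d] [Lt.ai, Lt.ai, Lt.d, Lt.c, Lt.ai, Lt.ci, Lt.a, Lt.b, Lt.ai, Lt.ai, Lt.ci, Lt.d, Lt.a, Lt.a] (pat hy (rf_15 hy) 3 rfl) h
theorem dM_444_s (hy : Hy g H) (j z1 z2 u : ℕ) (h : dM_444 j z1 z2 u = true) : GdM g H u := by
  unfold dM_444 at h
  rcases brec_true h with h | h
  · rcases brec_true h with h | h
    · exact mRel_good (T := T) hM0 [Lt.ai, Lt.c, Lt.c, Lt.d, Lt.ci, Lt.ci, Lt.a, Lt.ci, Lt.b] [Lt.ci, Lt.b, Lt.d] (pat hy (rf_4 hy) 2 rfl) h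
    · rcases brec_true h with h | h
      · exact mRel_good (T := T) hM0 [Lt.c, Lt.d, Lt.a, Lt.ci, Lt.b, Lt.c, Lt.ai, Lt.d, Lt.c, Lt.a, Lt.ci, Lt.b] [Lt.a, Lt.ci] (pat hy (rf_6 hy) 13 rfl) h
      · exact mRel_good (T := T) hM0 [Lt.ci, Lt.b, Lt.d, Lt.b, Lt.c, Lt.ai, Lt.c, Lt.c, Lt.d, Lt.ci, Lt.ci, Lt.a] [] (pat hy (rf_4 hy) 9 rfl) h
  · rcases brec_true h with h | h
    · rcases brec_true h with h | h
      · exact mRel_good (T := T) hM0 [Lt.b, Lt.c, Lt.b, Lt.c, Lt.a, Lt.a, Lt.b, Lt.ai, Lt.b, Lt.ai, Lt.b] [Lt.c, Lt.b, Lt.ai] (pat hy (rf_7 hy) 10 rfl) h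
      · exact mRel_good (T := T) hM0 [Lt.b, Lt.a, Lt.b, Lt.ai, Lt.ai, Lt.ci, Lt.b, Lt.ci, Lt.b] [Lt.ai, Lt.b, Lt.a, Lt.b, Lt.ci] (pat hy (rb_7 hy) 9 rfl) h
    · rcases brec_true h with h | h
      · exact mRel_good (T := T) hM0 [Lt.a, Lt.ci, Lt.b, Lt.c, Lt.ai, Lt.ci, Lt.ai, Lt.d, Lt.ci, Lt.ci, Lt.b] [Lt.ci, Lt.ai, Lt.d, Lt.ci, Lt.ci] (pat hy (rf_11 hy) 9 rfl) h
      · exact mRel_good (T := T) hM0 [Lt.d, Lt.c, Lt.a, Lt.ci, Lt.b, Lt.c, Lt.ai, Lt.c, Lt.d, Lt.a, Lt.ci, Lt.b] [Lt.a, Lt.ci] (pat hy (rf_6 hy) 6 rfl) h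
theorem dM_445_s (hy : Hy g H) (j z1 z2 u : ℕ) (h : dM_445 j z1 z2 u = true) : GdM g H u := by
  unfold dM_445 at h
  rcases brec_true h with h | h
  · exact dM_443_s hy j z1 z2 u h
  · exact dM_444_s hy j z1 z2 u h
theorem dM_446_s (hy : Hy g H) (j z1 z2 u : ℕ) (h : dM_446 j z1 z2 u = true) : GdM g H u := by
  unfold dM_446 at h
  rcases brec_true h with h | h
  · exact dM_442_s hy j z1 z2 u h
  · exact dM_445_s hy j z1 z2 u h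
theorem dM_447_s (hy : Hy g H) (j z1 z2 u : ℕ) (h : dM_447 j z1 z2 u = true) : GdM g H u := by
  unfold dM_447 at h
  rcases brec_true h with h | h
  · exact dM_439_s hy j z1 z2 u h
  · exact dM_446_s hy j z1 z2 u h
theorem dM_448_s (hy : Hy g H) (j z1 z2 u : ℕ) (h : dM_448 j z1 z2 u = true) : GdM g H u := by
  unfold dM_448 at h
  rcases brec_true h with h | h
  · exact dM_432_s hy j z1 z2 u h
  · exact dM_447_s hy j z1 z2 u h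
theorem dM_449_s (hy : Hy g H) (j z1 z2 u : ℕ) (h : dM_449 j z1 z2 u = true) : GdM g H u := by
  unfold dM_449 at h
  rcases brec_true h with h | h
  · exact dM_417_s hy j z1 z2 u h
  · exact dM_448_s hy j z1 z2 u h
theorem dM_450_s (hy : Hy g H) (j z1 z2 u : ℕ) (h : dM_450 j z1 z2 u = true) : GdM g H u := by
  unfold dM_450 at h
  rcases brec_true h with h | h
  · exact dM_386_s hy j z1 z2 u h
  · exact dM_449_s hy j z1 z2 u h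
theorem dM_451_s (hy : Hy g H) (j z1 z2 u : ℕ) (h : dM_451 j z1 z2 u = true) : GdM g H u := by
  unfold dM_451 at h
  rcases brec_true h with h | h
  · exact dM_323_s hy j z1 z2 u h
  · exact dM_450_s hy j z1 z2 u h
theorem dM_452_s (hy : Hy g H) (j z1 z2 u : ℕ) (h : dM_452 j z1 z2 u = true) : GdM g H u := by
  unfold dM_452 at h
  rcases brec_true h with h | h
  · exact dM_204_s hy j z1 z2 u h
  · exact dM_451_s hy j z1 z2 u h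
theorem dM_453_s (hy : Hy g H) (j z1 z2 u : ℕ) (h : dM_453 j z1 z2 u = true) : GdM g H u := by
  unfold dM_453 at h
  rcases brec_true h with h | h
  · exact dM_99_s hy j z1 z2 u h
  · exact dM_452_s hy j z1 z2 u h
theorem dM_454_s (hy : Hy g H) (j z1 z2 u : ℕ) (h : dM_454 j z1 z2 u = true) : GdM g H u := by
  unfold dM_454 at h
  rcases brec_true h with h | h
  · exact dM_14_s hy j z1 z2 u h
  · exact dM_453_s hy j z1 z2 u h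
theorem dM_455_s (hy : Hy g H) (j z1 z2 u : ℕ) (h : dM_455 j z1 z2 u = true) : GdM g H u := by
  unfold dM_455 at h
  rcases brec_true h with h | h
  · exact dM_1_s hy j z1 z2 u h
  · exact dM_454_s hy j z1 z2 u h
theorem dM_456_s (hy : Hy g H) (j z1 z2 u : ℕ) (h : dM_456 j z1 z2 u = true) : GdM g H u := by
  unfold dM_456 at h
  rcases brec_true h with h | h
  · exact dM_0_s hy j z1 z2 u h
  · exact dM_455_s hy j z1 z2 u h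
theorem sndM (hy : Hy g H) (u : ℕ) (h : chkM u = true) :
    MG u < A → MG u % M < u ∧ GdM g H u := by
  intro hA
  unfold chkM at h
  cases hb : Nat.ble A (MG u) with
  | true => exact absurd (le_of_ble hb) (by omega)
  | false =>
    rw [hb] at h
    obtain ⟨h1, h2⟩ := band_eq_true.1 h
    exact ⟨le_of_ble h1, dM_456_s hy _ _ _ _ h2⟩
theorem sndN (hy : Hy g H)
    (u : ℕ) (hu : u < M) (h : chkP u = true) : (∀ x, (T x u < A ∧ Gd g H x u) ∨ (A ≤ T x u ∧ MG u < A)) ∧ (MG u < A → MG u % M < u ∧ GdM g H u) := by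
  unfold chkP at h
  cases hb : Nat.ble M u with
  | true => exact absurd (le_of_ble hb) (by omega)
  | false =>
    rw [hb] at h
    change chkN u = true at h
    unfold chkN at h
    obtain ⟨h0, h⟩ := band_eq_true.1 h
    obtain ⟨h1, h⟩ := band_eq_true.1 h
    obtain ⟨h2, h⟩ := band_eq_true.1 h
    obtain ⟨h3, h⟩ := band_eq_true.1 h
    obtain ⟨h4, h⟩ := band_eq_true.1 h
    obtain ⟨h5, h⟩ := band_eq_true.1 h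
    refine ⟨?_, sndM hy u h⟩
    intro x
    cases x
    · exact snc_a hy _ u hu h0
    · exact snc_ai hy _ u hu h1
    · exact snc_b hy _ u hu h2
    · exact snc_c hy _ u hu h3
    · exact snc_ci hy _ u hu h4
    · exact snc_d hy _ u hu h5
theorem final (hinv : ∀ x, g (inv x) = (g x)⁻¹) (hr : ∀ r ∈ rels, (r.map g).prod = 1) (hH : ∀ r ∈ subs, (r.map g).prod ∈ H)
    (hall : ∀ u, u < M → chkP u = true) (hc : cntB liveP 15 0 = 4116) :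
    H.relIndex (Subgroup.closure (Set.range g)) ≤ 4116 ∧ H.relIndex (Subgroup.closure (Set.range g)) ≠ 0 := by
  have hn := fun u hu => sndN ⟨hinv, hr, hH⟩ u hu (hall u hu)
  have h1 : ∀ x u, u < M → T x u < A → Good (fa g) T MG M (cP g H) x u := by
    intro x u hu hx
    rcases (hn u hu).1 x with h | h
    · exact h.2
    · exact absurd h.1 (by omega)
  have h2 : ∀ u, u < M → MG u < A → GoodM (fa g) T MG M (cP g H) u := fun u hu h => ((hn u hu).2 h).2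
  refine relIndex_le (M := M) (A := A) (T := T) (MG := MG) (c := cP g H) (by decide) cc_zero (sound_of_good h1 h2) ?_ ?_ ?_
  · intro u hu h
    exact ((hn u hu).2 h).1
  · intro x u hu h
    rcases (hn u hu).1 x with h' | h'
    · exact h'.1
    · exact absurd h'.2 (by omega)
  · rw [← hc, ← cntB_spec]
    apply Finset.card_le_card
    intro u
    simp only [Finset.mem_filter, Finset.mem_Ico]
    rintro ⟨⟨_, h3⟩, h4⟩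
    refine ⟨⟨Nat.zero_le _, lt_of_lt_of_le h3 (by decide)⟩, ?_⟩
    unfold liveP
    cases hb : Nat.ble M u with
    | true => exact absurd (le_of_ble hb) (by omega)
    | false => exact h4
end
end H35.TCMHeD
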